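import Mathlib
import Cfsg.Prelude.Def_Classical
import Cfsg.Prelude.Def_KGroupFacts
import Cfsg.Agent.Lib.H91.ExtModel
import Cfsg.Agent.Lib.H91.ExtraDual
import Cfsg.Agent.Lib.H3.ExtraspecialUnique
import Cfsg.Agent.Lib.H3.Extraspecial

/-! Outer automorphisms of extraspecial 2-groups. -/

set_option autoImplicit false

namespace H86.OutExtra

open Cfsg H91.MonsterForm H91.ExtModel Matrix

/-- functionals on groups of exponent two modulo `N` -/
theorem exists_functional {D : Type*} [Group D] (N : Subgroup D) [N.Normal] (hN : ∀ d : D, d * d ∈ N)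
    {t : D} (ht : t ∉ N) : ∃ f : D → ZMod 2, (∀ a b, f (a * b) = f a + f b) ∧ (∀ n ∈ N, f n = 0) ∧ f t = 1 := by
  have hexp : ∀ x : D ⧸ N, x * x = 1 := by
    intro x
    induction x using QuotientGroup.induction_on with | H d => ?_
    rw [← QuotientGroup.mk_mul, QuotientGroup.eq_one_iff]
    exact hN d
  have hinv : ∀ x : D ⧸ N, x⁻¹ = x := fun x => inv_eq_of_mul_eq_one_right (hexp x)
  have hcomm : ∀ x y : D ⧸ N, x * y = y * x := by
    intro x y
    calc x * y = (x * y)⁻¹ := (hinv _).symm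
      _ = y⁻¹ * x⁻¹ := mul_inv_rev _ _
      _ = y * x := by rw [hinv, hinv]
  letI : CommGroup (D ⧸ N) := { (inferInstance : Group (D ⧸ N)) with mul_comm := hcomm }
  letI : Module (ZMod 2) (Additive (D ⧸ N)) := AddCommGroup.zmodModule (fun v => by
    rw [two_nsmul]
    exact hexp v.toMul)
  have ht' : Additive.ofMul (QuotientGroup.mk t : D ⧸ N) ≠ 0 := by
    intro h
    exact ht ((QuotientGroup.eq_one_iff t).mp (congrArg Additive.toMul h))
  have hex : ∃ φ : Module.Dual (ZMod 2) (Additive (D ⧸ N)), φ (Additive.ofMul (QuotientGroup.mk t : D ⧸ N)) ≠ 0 := by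
    by_contra hcon
    push Not at hcon
    exact ht' ((Module.forall_dual_apply_eq_zero_iff (ZMod 2) _).mp hcon)
  obtain ⟨φ, hφ⟩ := hex
  refine ⟨fun d => φ (Additive.ofMul (QuotientGroup.mk d : D ⧸ N)), ?_, ?_, ?_⟩
  · intro a b
    show φ (Additive.ofMul (QuotientGroup.mk (a * b) : D ⧸ N)) = _
    rw [QuotientGroup.mk_mul, ofMul_mul, map_add]
  · intro n hn
    show φ (Additive.ofMul (QuotientGroup.mk n : D ⧸ N)) = 0
    rw [(QuotientGroup.eq_one_iff n).mpr hn, ofMul_one, map_zero]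
  · have : ∀ a : ZMod 2, a ≠ 0 → a = 1 := by decide
    exact this _ hφ

variable {E : Type*} [Group E] {ι : Type} [Fintype ι] [DecidableEq ι]

structure QD (π : E → ι → ZMod 2) (z : E) (Q : (ι → ZMod 2) → ZMod 2) : Prop where
  ext : IsExtraspecial 2 E
  xs : XS E z
  mul : ∀ x y, π (x * y) = π x + π y
  surj : Function.Surjective π
  ker : ∀ x, π x = 0 ↔ x = 1 ∨ x = z
  sq : ∀ x, x * x = 1 ↔ Q (π x) = 0

variable {π : E → ι → ZMod 2} {z : E} {Q : (ι → ZMod 2) → ZMod 2}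

theorem two_vec (v : ι → ZMod 2) : v + v = 0 := by
  funext i
  exact CharTwo.add_self_eq_zero _

theorem QD.one (h : QD π z Q) : π 1 = 0 := (h.ker 1).mpr (Or.inl rfl)
theorem QD.zz (h : QD π z Q) : π z = 0 := (h.ker z).mpr (Or.inr rfl)

theorem QD.inv (h : QD π z Q) (x : E) : π x⁻¹ = π x := by
  have h1 := h.mul x x⁻¹
  rw [mul_inv_cancel, h.one] at h1
  have h2 : π x + (π x + π x⁻¹) = π x := by rw [← h1, add_zero]
  rw [← add_assoc, two_vec, zero_add] at h2
  exact h2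

theorem QD.eq_iff (h : QD π z Q) (x y : E) : π x = π y ↔ x⁻¹ * y = 1 ∨ x⁻¹ * y = z := by
  rw [← h.ker, h.mul, h.inv]
  constructor
  · intro h1; rw [h1, two_vec]
  · intro h1
    calc π x = π x + (π y + π y) := by rw [two_vec, add_zero]
      _ = (π x + π y) + π y := (add_assoc _ _ _).symm
      _ = π y := by rw [h1, zero_add]

theorem QD.fix_z (h : QD π z Q) (g : MulAut E) : g z = z := by
  have hz : z ∈ Subgroup.center E := (h.xs.center z).mpr (Or.inr rfl)
  have h1 : g z ∈ Subgroup.center E := by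
    rw [Subgroup.mem_center_iff] at hz ⊢
    intro y
    obtain ⟨y, rfl⟩ := g.surjective y
    rw [← map_mul, ← map_mul, hz]
  rcases (h.xs.center _).mp h1 with h2 | h2
  · exfalso
    exact h.xs.ne (g.injective (h2.trans (map_one g).symm))
  · exact h2

theorem QD.wd (h : QD π z Q) (g : MulAut E) {x y : E} (hxy : π x = π y) : π (g x) = π (g y) := by
  rw [h.eq_iff] at hxy ⊢
  rw [← map_inv, ← map_mul]
  rcases hxy with h1 | h1
  · left; rw [h1, map_one]
  · right; rw [h1, h.fix_z]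

noncomputable def sec (h : QD π z Q) (v : ι → ZMod 2) : E := Function.surjInv h.surj v

theorem sec_spec (h : QD π z Q) (v : ι → ZMod 2) : π (sec h v) = v := Function.surjInv_eq h.surj v

/-- the action of an automorphism on `E/Z(E)` -/
noncomputable def act (h : QD π z Q) (g : MulAut E) : (ι → ZMod 2) →ₗ[ZMod 2] (ι → ZMod 2) :=
  AddMonoidHom.toZModLinearMap 2
    (AddMonoidHom.mk' (fun v => π (g (sec h v))) (by
      intro v w
      rw [← h.mul, ← map_mul]
      apply h.wd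
      rw [h.mul, sec_spec h, sec_spec h, sec_spec h]))

theorem act_spec (h : QD π z Q) (g : MulAut E) (x : E) : act h g (π x) = π (g x) := by
  show π (g (sec h (π x))) = π (g x)
  apply h.wd
  rw [sec_spec h]

noncomputable def Phi0 (h : QD π z Q) : MulAut E →* Matrix ι ι (ZMod 2) where
  toFun g := LinearMap.toMatrix' (act h g)
  map_one' := by
    have : act h 1 = LinearMap.id := by
      apply LinearMap.ext
      intro v
      obtain ⟨x, rfl⟩ := h.surj v
      rw [act_spec]; rfl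
    rw [this, LinearMap.toMatrix'_id]
  map_mul' g k := by
    have : act h (g * k) = act h g ∘ₗ act h k := by
      apply LinearMap.ext
      intro v
      obtain ⟨x, rfl⟩ := h.surj v
      rw [LinearMap.comp_apply, act_spec, act_spec, act_spec]; rfl
    rw [this, LinearMap.toMatrix'_comp]

noncomputable def Phi1 (h : QD π z Q) : MulAut E →* GL ι (ZMod 2) := (Phi0 h).toHomUnits

theorem Phi1_spec (h : QD π z Q) (g : MulAut E) (x : E) :
    ((Phi1 h g : GL ι (ZMod 2)) : Matrix ι ι (ZMod 2)) *ᵥ (π x) = π (g x) := by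
  show LinearMap.toMatrix' (act h g) *ᵥ (π x) = π (g x)
  rw [LinearMap.toMatrix'_mulVec, act_spec]

theorem Phi1_mem (h : QD π z Q) (g : MulAut E) : Phi1 h g ∈ isometryGroup (ZMod 2) Q := by
  have key : ∀ a b : ZMod 2, (a = 0 ↔ b = 0) → a = b := by decide
  intro u _
  obtain ⟨x, rfl⟩ := h.surj u
  show Q (((Phi1 h g : GL ι (ZMod 2)) : Matrix ι ι (ZMod 2)) *ᵥ (π x)) = Q (π x)
  rw [Phi1_spec]
  apply key
  rw [← h.sq, ← h.sq, ← map_mul]
  constructor
  · intro h1; exact g.injective (h1.trans (map_one g).symm)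
  · intro h1; rw [h1, map_one]

noncomputable def Phi (h : QD π z Q) : MulAut E →* isometryGroup (ZMod 2) Q :=
  (Phi1 h).codRestrict _ (Phi1_mem h)

theorem ker_Phi [Finite E] (h : QD π z Q) : (Phi h).ker = Cfsg.Inn E := by
  ext g
  rw [MonoidHom.mem_ker]
  constructor
  · intro hg
    have hg1 : Phi1 h g = 1 := congrArg Subtype.val hg
    have h1 : ∀ x, π (g x) = π x := by
      intro x
      rw [← Phi1_spec h, hg1]
      simp
    obtain ⟨e, he⟩ := H91.ExtraDual.inner_of_trivial_mod_center h.ext g.toMonoidHom (by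
      intro x
      rw [h.xs.center, ← h.ker, h.mul, h.inv]
      show π (g x) + π x = 0
      rw [h1, two_vec])
    refine ⟨e, ?_⟩
    ext x
    exact (he x).symm
  · rintro ⟨e, rfl⟩
    apply Subtype.ext
    apply Units.ext
    show LinearMap.toMatrix' (act h (MulAut.conj e)) = 1
    have : act h (MulAut.conj e) = LinearMap.id := by
      apply LinearMap.ext
      intro v
      obtain ⟨x, rfl⟩ := h.surj v
      rw [act_spec, MulAut.conj_apply, h.mul, h.mul, h.inv, LinearMap.id_apply]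
      rw [add_comm (π e), add_assoc, two_vec, add_zero]
    rw [this, LinearMap.toMatrix'_id]

theorem surj_Phi (h : QD π z Q) : Function.Surjective (Phi h) := by
  rintro ⟨T, hT⟩
  have hTQ : ∀ v : ι → ZMod 2, Q ((T : Matrix ι ι (ZMod 2)) *ᵥ v) = Q v := fun v => hT v v
  have hTinj : ∀ v : ι → ZMod 2, (T : Matrix ι ι (ZMod 2)) *ᵥ v = 0 → v = 0 := by
    intro v hv
    have h1 : ((T⁻¹ : GL ι (ZMod 2)) : Matrix ι ι (ZMod 2)) *ᵥ ((T : Matrix ι ι (ZMod 2)) *ᵥ v) = v := by
      rw [Matrix.mulVec_mulVec, ← Units.val_mul, inv_mul_cancel, Units.val_one, Matrix.one_mulVec]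
    rw [hv, Matrix.mulVec_zero] at h1
    exact h1.symm
  let D : Subgroup (E × E) :=
    { carrier := {w | π w.2 = (T : Matrix ι ι (ZMod 2)) *ᵥ π w.1}
      one_mem' := by
        show π 1 = (T : Matrix ι ι (ZMod 2)) *ᵥ π 1
        rw [h.one, Matrix.mulVec_zero]
      mul_mem' := by
        intro a b ha hb
        show π (a.2 * b.2) = (T : Matrix ι ι (ZMod 2)) *ᵥ π (a.1 * b.1)
        rw [h.mul, h.mul, Matrix.mulVec_add]
        exact congrArg₂ (· + ·) ha hb
      inv_mem' := by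
        intro a ha
        show π (a.2)⁻¹ = (T : Matrix ι ι (ZMod 2)) *ᵥ π (a.1)⁻¹
        rw [h.inv, h.inv]
        exact ha }
  have hzz : ((z, z) : E × E) ∈ D := by
    show π z = (T : Matrix ι ι (ZMod 2)) *ᵥ π z
    rw [h.zz, Matrix.mulVec_zero]
  have h1z : ((1, z) : E × E) ∈ D := by
    show π z = (T : Matrix ι ι (ZMod 2)) *ᵥ π 1
    rw [h.zz, h.one, Matrix.mulVec_zero]
  let N : Subgroup D := Subgroup.zpowers ⟨(z, z), hzz⟩
  have hNmem : ∀ w : D, w ∈ N → w = 1 ∨ w = ⟨(z, z), hzz⟩ := by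
    intro w hw
    obtain ⟨k, rfl⟩ := hw
    have h2 : (⟨(z, z), hzz⟩ : D) * ⟨(z, z), hzz⟩ = 1 :=
      Subtype.ext (Prod.ext h.xs.sq_ζ h.xs.sq_ζ)
    rcases Int.even_or_odd' k with ⟨j, hj | hj⟩
    · left
      show (⟨(z, z), hzz⟩ : D) ^ k = 1
      rw [hj, _root_.zpow_mul, zpow_two, h2, _root_.one_zpow]
    · right
      show (⟨(z, z), hzz⟩ : D) ^ k = _
      rw [hj, _root_.zpow_add, _root_.zpow_mul, zpow_two, h2, _root_.one_zpow, one_mul, zpow_one]
  have hNn : N.Normal := by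
    refine ⟨fun w hw g => ?_⟩
    rcases hNmem w hw with rfl | rfl
    · rw [mul_one, mul_inv_cancel]; exact one_mem _
    · have : g * ⟨(z, z), hzz⟩ * g⁻¹ = (⟨(z, z), hzz⟩ : D) := by
        rw [mul_inv_eq_iff_eq_mul]
        exact Subtype.ext (Prod.ext (h.xs.comm _) (h.xs.comm _))
      rw [this]
      exact Subgroup.mem_zpowers _
  obtain ⟨f, hf, hfN, hf1⟩ := exists_functional N (by
    rintro ⟨⟨x, y⟩, hxy⟩
    have hxy' : π y = (T : Matrix ι ι (ZMod 2)) *ᵥ π x := hxy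
    by_cases hx : x * x = 1
    · have hy : y * y = 1 := by
        rw [h.sq, hxy', hTQ, ← h.sq]; exact hx
      have : (⟨(x, y), hxy⟩ : D) * ⟨(x, y), hxy⟩ = 1 := Subtype.ext (Prod.ext hx hy)
      rw [this]
      exact one_mem _
    · have hx' := (h.xs.sq x).resolve_left hx
      have hy : y * y ≠ 1 := by
        rw [Ne, h.sq, hxy', hTQ, ← h.sq]; exact hx
      have hy' := (h.xs.sq y).resolve_left hy
      have : (⟨(x, y), hxy⟩ : D) * ⟨(x, y), hxy⟩ = ⟨(z, z), hzz⟩ := Subtype.ext (Prod.ext hx' hy')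
      rw [this]
      exact Subgroup.mem_zpowers _) (t := ⟨(1, z), h1z⟩) (by
    intro hmem
    rcases hNmem _ hmem with h1 | h1
    · exact h.xs.ne (congrArg (fun w : D => (w : E × E).2) h1)
    · exact h.xs.ne (congrArg (fun w : D => (w : E × E).1) h1).symm)
  let R : E → E → Prop := fun x y => ∃ hxy : (x, y) ∈ D, f ⟨(x, y), hxy⟩ = 0
  have hRmul : ∀ {x y x' y'}, R x y → R x' y' → R (x * x') (y * y') := by
    rintro x y x' y' ⟨h1, h2⟩ ⟨h3, h4⟩
    refine ⟨D.mul_mem h1 h3, ?_⟩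
    have := hf ⟨(x, y), h1⟩ ⟨(x', y'), h3⟩
    rw [h2, h4, add_zero] at this
    exact this
  have hf0 : f 1 = 0 := hfN 1 (one_mem _)
  have hRinv : ∀ {x y}, R x y → R x⁻¹ y⁻¹ := by
    rintro x y ⟨h1, h2⟩
    refine ⟨D.inv_mem h1, ?_⟩
    have := hf ⟨(x, y), h1⟩ ⟨(x, y), h1⟩⁻¹
    rw [mul_inv_cancel, hf0, h2, zero_add] at this
    exact this.symm
  have hRex : ∀ x, ∃ y, R x y := by
    intro x
    obtain ⟨y, hy⟩ := h.surj ((T : Matrix ι ι (ZMod 2)) *ᵥ π x)
    by_cases hfy : f ⟨(x, y), hy⟩ = 0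
    · exact ⟨y, hy, hfy⟩
    · refine ⟨y * z, ?_, ?_⟩
      · show π (y * z) = _
        rw [h.mul, h.zz, add_zero, hy]
      · have h2 : ∀ a : ZMod 2, a ≠ 0 → a + 1 = 0 := by decide
        have h3 := hf ⟨(x, y), hy⟩ ⟨(1, z), h1z⟩
        rw [hf1, h2 _ hfy] at h3
        have e : (⟨(x, y * z), by show π (y * z) = _; rw [h.mul, h.zz, add_zero, hy]⟩ : D) =
            ⟨(x, y), hy⟩ * ⟨(1, z), h1z⟩ := Subtype.ext (Prod.ext (mul_one x).symm rfl)
        rw [e]
        exact h3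
  have hRuniq : ∀ {x y y'}, R x y → R x y' → y = y' := by
    intro x y y' h1 h2
    obtain ⟨h3, h4⟩ := hRmul (hRinv h1) h2
    have h5 : π (y⁻¹ * y') = 0 := by
      have : π (y⁻¹ * y') = (T : Matrix ι ι (ZMod 2)) *ᵥ π (x⁻¹ * x) := h3
      rw [this, inv_mul_cancel, h.one, Matrix.mulVec_zero]
    rcases (h.ker _).mp h5 with h6 | h6
    · exact inv_mul_eq_one.mp h6
    · exfalso
      have e : (⟨(x⁻¹ * x, y⁻¹ * y'), h3⟩ : D) = ⟨(1, z), h1z⟩ :=
        Subtype.ext (Prod.ext (inv_mul_cancel x) h6)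
      rw [e, hf1] at h4
      exact one_ne_zero h4
  choose g hg using hRex
  have hgmul : ∀ x y, g (x * y) = g x * g y := fun x y => hRuniq (hg _) (hRmul (hg x) (hg y))
  have hginj : Function.Injective (MonoidHom.mk' g hgmul) := by
    rw [injective_iff_map_eq_one]
    intro x hx
    have hx' : g x = 1 := hx
    have h1 := hg x
    rw [hx'] at h1
    obtain ⟨h2, h3⟩ := h1
    have h4 : (T : Matrix ι ι (ZMod 2)) *ᵥ π x = 0 := by
      have : π 1 = (T : Matrix ι ι (ZMod 2)) *ᵥ π x := h2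
      rw [← this, h.one]
    rcases (h.ker _).mp (hTinj _ h4) with h5 | h5
    · exact h5
    · exfalso
      subst h5
      have h6 := hf ⟨(x, 1), h2⟩ ⟨(1, x), h1z⟩
      rw [h3, hf1, zero_add] at h6
      have e : (⟨(x, 1), h2⟩ : D) * ⟨(1, x), h1z⟩ = ⟨(x, x), hzz⟩ :=
        Subtype.ext (Prod.ext (mul_one x) (one_mul x))
      rw [e, hfN _ (Subgroup.mem_zpowers _)] at h6
      exact zero_ne_one h6
  have hgsurj : Function.Surjective (MonoidHom.mk' g hgmul) := by
    intro y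
    -- choose x with `T π x = π y`
    obtain ⟨x, hx⟩ := h.surj (((T⁻¹ : GL ι (ZMod 2)) : Matrix ι ι (ZMod 2)) *ᵥ π y)
    have h1 : π (g x) = π y := by
      obtain ⟨h2, -⟩ := hg x
      have h3 : π (g x) = (T : Matrix ι ι (ZMod 2)) *ᵥ π x := h2
      rw [h3, hx, Matrix.mulVec_mulVec, ← Units.val_mul, mul_inv_cancel, Units.val_one, Matrix.one_mulVec]
    have hgz : g z = z := hRuniq (hg z) ⟨hzz, hfN _ (Subgroup.mem_zpowers _)⟩
    rcases (h.eq_iff _ _).mp h1 with h2 | h2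
    · exact ⟨x, inv_mul_eq_one.mp h2⟩
    · refine ⟨x * z, ?_⟩
      show g (x * z) = y
      rw [hgmul, hgz, ← h2, mul_inv_cancel_left]
  let φ : MulAut E := MulEquiv.ofBijective (MonoidHom.mk' g hgmul) ⟨hginj, hgsurj⟩
  refine ⟨φ, ?_⟩
  apply Subtype.ext
  apply Units.ext
  show ((Phi1 h φ : GL ι (ZMod 2)) : Matrix ι ι (ZMod 2)) = T
  apply Matrix.toLin'.injective
  apply LinearMap.ext
  intro v
  obtain ⟨x, rfl⟩ := h.surj v
  rw [Matrix.toLin'_apply, Matrix.toLin'_apply, Phi1_spec]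
  exact (hg x).1

/-- `Out(E) ≅ O(V,q)` -/
theorem out_equiv [Finite E] (h : QD π z Q) : Nonempty (Cfsg.Out E ≃* isometryGroup (ZMod 2) Q) := by
  have e1 := QuotientGroup.quotientKerEquivOfSurjective (Phi h) (surj_Phi h)
  have e2 : Cfsg.Out E ≃* (MulAut E ⧸ (Phi h).ker) :=
    QuotientGroup.quotientMulEquivOfEq (ker_Phi h).symm
  exact ⟨e2.trans e1⟩

end H86.OutExtra
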