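import Mathlib
import Cfsg.Agent.Lib.H86.OutExtra

/-! Outer automorphisms of extraspecial 2-groups: the two types. -/

set_option autoImplicit false

namespace H86.OutExtraB

open Cfsg H91.MonsterForm H91.ExtModel Matrix H86.OutExtra

variable {m : ℕ}

/-- coordinates, plus type -/
def piP (p : EM m 0) : Fin (m + 1) ⊕ Fin (m + 1) → ZMod 2 := Sum.elim p.x p.y

/-- coordinates, minus type -/
def piM (p : EM m 1) : (Fin m ⊕ Fin m) ⊕ Fin 2 → ZMod 2 :=
  Sum.elim (Sum.elim (fun i => p.x i.succ) (fun i => p.y i.succ)) ![p.x 0, p.y 0]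

theorem qdP : QD (piP (m := m)) (zet (m := m) (c := 0)) (quadFormPlus (m + 1) (ZMod 2)) where
  ext := extraspecial
  xs := xs
  mul p r := by
    funext i
    rcases i with i | i
    · rfl
    · rfl
  surj v := ⟨⟨fun i => v (Sum.inl i), fun i => v (Sum.inr i), 0⟩, by
    funext i
    rcases i with i | i
    · rfl
    · rfl⟩
  ker p := by
    constructor
    · intro h
      have hx : p.x = 0 := by
        funext i
        exact congrFun h (Sum.inl i)
      have hy : p.y = 0 := by
        funext i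
        exact congrFun h (Sum.inr i)
      have : ∀ a : ZMod 2, a = 0 ∨ a = 1 := by decide
      rcases this p.a with ha | ha
      · left; exact EM.ext hx hy ha
      · right; exact EM.ext hx hy ha
    · rintro (rfl | rfl)
      · funext i
        rcases i with i | i
        · rfl
        · rfl
      · funext i
        rcases i with i | i
        · rfl
        · rfl
  sq p := by
    rw [← pow_two, sq_eq_one_iff]
    have : qf p = quadFormPlus (m + 1) (ZMod 2) (piP p) := by
      show be 0 p.x p.y p.x p.y = ∑ i : Fin (m + 1), p.x i * p.y i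
      rw [be, zero_mul, add_zero]
    rw [this]

theorem qdM : QD (piM (m := m)) (zet (m := m) (c := 1)) (quadFormMinus m (ZMod 2) 1 1) where
  ext := extraspecial
  xs := xs
  mul p r := by
    funext i
    rcases i with (i | i) | i
    · rfl
    · rfl
    · fin_cases i <;> rfl
  surj v := ⟨⟨Fin.cons (v (Sum.inr 0)) (fun i => v (Sum.inl (Sum.inl i))),
      Fin.cons (v (Sum.inr 1)) (fun i => v (Sum.inl (Sum.inr i))), 0⟩, by
    funext i
    rcases i with (i | i) | i
    · rfl
    · rfl
    · fin_cases i <;> rfl⟩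
  ker p := by
    constructor
    · intro h
      have hx : p.x = 0 := by
        funext i
        refine Fin.cases ?_ ?_ i
        · exact congrFun h (Sum.inr 0)
        · intro j; exact congrFun h (Sum.inl (Sum.inl j))
      have hy : p.y = 0 := by
        funext i
        refine Fin.cases ?_ ?_ i
        · exact congrFun h (Sum.inr 1)
        · intro j; exact congrFun h (Sum.inl (Sum.inr j))
      have : ∀ a : ZMod 2, a = 0 ∨ a = 1 := by decide
      rcases this p.a with ha | ha
      · left; exact EM.ext hx hy ha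
      · right; exact EM.ext hx hy ha
    · rintro (rfl | rfl)
      · funext i
        rcases i with (i | i) | i
        · rfl
        · rfl
        · fin_cases i <;> rfl
      · funext i
        rcases i with (i | i) | i
        · rfl
        · rfl
        · fin_cases i <;> rfl
  sq p := by
    rw [← pow_two, sq_eq_one_iff]
    have : qf p = quadFormMinus m (ZMod 2) 1 1 (piM p) := by
      show be 1 p.x p.y p.x p.y = (∑ i : Fin m, p.x i.succ * p.y i.succ) +
        (p.x 0 ^ 2 + 1 * p.x 0 * p.y 0 + 1 * p.y 0 ^ 2)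
      rw [be, Fin.sum_univ_succ]
      ring
    rw [this]

theorem out_congr {G H : Type*} [Group G] [Group H] (e : G ≃* H) : Nonempty (Cfsg.Out G ≃* Cfsg.Out H) := by
  refine ⟨QuotientGroup.congr _ _ (MulAut.congr e) ?_⟩
  ext g
  constructor
  · rintro ⟨_, ⟨a, rfl⟩, rfl⟩
    refine ⟨e a, ?_⟩
    ext x
    show e a * x * (e a)⁻¹ = e (a * e.symm x * a⁻¹)
    rw [map_mul, map_mul, map_inv, e.apply_symm_apply]
  · rintro ⟨b, rfl⟩
    refine ⟨MulAut.conj (e.symm b), ⟨_, rfl⟩, ?_⟩
    ext x
    show e (e.symm b * e.symm x * (e.symm b)⁻¹) = b * x * b⁻¹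
    rw [map_mul, map_mul, map_inv, e.apply_symm_apply, e.apply_symm_apply]

theorem elab_map {G H : Type*} [Group G] [Group H] (e : G ≃* H) {A : Subgroup G}
    (hA : IsElementaryAbelian 2 A) : IsElementaryAbelian 2 (A.map (e : G →* H)) := by
  refine ⟨⟨⟨?_⟩⟩, ?_⟩
  · rintro ⟨_, a, ha, rfl⟩ ⟨_, b, hb, rfl⟩
    apply Subtype.ext
    show e a * e b = e b * e a
    rw [← map_mul, ← map_mul]
    congr 1
    exact congrArg Subtype.val (hA.1.1.1 ⟨a, ha⟩ ⟨b, hb⟩)
  · rintro _ ⟨a, ha, rfl⟩
    show (e a) ^ 2 = 1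
    rw [← map_pow, hA.2 a ha, map_one]

theorem card_map' {G H : Type*} [Group G] [Group H] (e : G ≃* H) (A : Subgroup G) :
    Nat.card (A.map (e : G →* H)) = Nat.card A :=
  Subgroup.card_map_of_injective (f := (e : G →* H)) e.injective

theorem not_iso : ¬ Nonempty (EM m 0 ≃* EM m 1) := by
  rintro ⟨e⟩
  have h := rank_le_one (elab_map e A0_elem) (k := m + 2) (by rw [card_map', card_A0_zero])
  omega

/-- S5432 -/
theorem main {E : Type*} [Group E] [Finite E] (hE : IsExtraspecial 2 E) (hcard : Nat.card E = 2 ^ (2 * (m + 1) + 1)) :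
    ((∃ A : Subgroup E, IsElementaryAbelian 2 A ∧ Nat.card A = 2 ^ (m + 1 + 1)) →
      Nonempty (Cfsg.Out E ≃* isometryGroup (ZMod 2) (quadFormPlus (m + 1) (ZMod 2)))) ∧
    ((¬ ∃ A : Subgroup E, IsElementaryAbelian 2 A ∧ Nat.card A = 2 ^ (m + 1 + 1)) →
      Nonempty (Cfsg.Out E ≃* isometryGroup (ZMod 2) (quadFormMinus m (ZMod 2) 1 1))) := by
  have hspec : ∀ {P : Type _} [Group P] [Finite P], IsExtraspecial 2 P →
      commutator P ≤ Subgroup.center P ∧ Nat.card (Subgroup.center P) = 2 :=
    fun h => ⟨H3.Extraspecial.commutator_le h.1, h.2⟩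
  obtain ⟨a1, a2⟩ := hspec hE
  have hM : IsExtraspecial 2 (EM m 1) := extraspecial
  have hP : IsExtraspecial 2 (EM m 0) := extraspecial
  have hP1 : commutator (EM m 0) ≤ Subgroup.center (EM m 0) := H3.Extraspecial.commutator_le hP.1
  have hM1 : commutator (EM m 1) ≤ Subgroup.center (EM m 1) := H3.Extraspecial.commutator_le hM.1
  have h3 := H3.ExtraspecialUnique.three_two_groups (Nat.card E) a1 a2 hP1 hP.2 hM1 hM.2
    (by rw [hcard, card_EM]) (by rw [card_EM, card_EM]) (le_refl _)
  constructor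
  · rintro ⟨A, hA, hA2⟩
    rcases h3 with ⟨⟨e⟩⟩ | h3 | ⟨⟨e⟩⟩
    · obtain ⟨e1⟩ := out_congr e
      obtain ⟨e2⟩ := out_equiv (qdP (m := m))
      exact ⟨e1.trans e2⟩
    · exact absurd h3 not_iso
    · exfalso
      have h := rank_le_one (elab_map e hA) (k := m + 2) (by rw [card_map', hA2])
      omega
  · intro hno
    rcases h3 with ⟨⟨e⟩⟩ | h3 | ⟨⟨e⟩⟩
    · exfalso
      apply hno
      refine ⟨(A0 m 0).map (e.symm : EM m 0 →* E), elab_map e.symm A0_elem, ?_⟩
      rw [card_map', card_A0_zero]
    · exact absurd h3 not_iso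
    · obtain ⟨e1⟩ := out_congr e
      obtain ⟨e2⟩ := out_equiv (qdM (m := m))
      exact ⟨e1.trans e2⟩

end H86.OutExtraB
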