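import Cfsg.Agent.Lib.H9.CoMat4
import Cfsg.Agent.Lib.H33.Leech14
import Cfsg.Agent.Lib.H33.Leech9

set_option autoImplicit false

/-! Joint stabilisers of vectors of the Leech lattice: orders and conjugation. -/

namespace H86.CoStab

set_option linter.unusedSectionVars false

open Cfsg H9.LeechGood H9.CoOrder MulAction

theorem card_inf {G Ω : Type*} [Group G] [Finite G] [MulAction G Ω] (H : Subgroup G) (x : Ω) :
    Nat.card ↥(H ⊓ stabilizer G x) * (orbit H x).ncard = Nat.card H := by
  have h1 := Subgroup.card_mul_index (stabilizer H x)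
  rw [index_stabilizer] at h1
  rw [← h1]
  congr 1
  have h2 : stabilizer H x = (stabilizer G x).subgroupOf H := by
    ext g
    rw [mem_stabilizer_iff, Subgroup.mem_subgroupOf, mem_stabilizer_iff]
    rfl
  rw [h2, inf_comm, ← Subgroup.subgroupOf_map_subtype]
  exact (Nat.card_congr (((stabilizer G x).subgroupOf H).equivMapOfInjective H.subtype H.subtype_injective).toEquiv).symm

theorem card_inf_le {G Ω : Type*} [Group G] [Finite G] [MulAction G Ω] (H : Subgroup G) (x : Ω) (T : Set Ω) {a b c : ℕ}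
    (hT : ∀ y ∈ T, ∃ g : G, g ∈ H ∧ g • x = y) (hc : T.ncard = c) (hH : Nat.card H = a) (hab : a = b * c) (h0 : 0 < c) :
    Nat.card ↥(H ⊓ stabilizer G x) ≤ b := by
  have h1 := card_inf H x
  have hsub : T ⊆ orbit H x := by
    intro y hy
    obtain ⟨g, hg, hgy⟩ := hT y hy
    exact ⟨⟨g, hg⟩, hgy⟩
  have hfin : (orbit H x).Finite := Set.finite_range _
  have h2 := Set.ncard_le_ncard hsub hfin
  rw [hc] at h2
  have h3 : Nat.card ↥(H ⊓ stabilizer G x) * c ≤ b * c := by
    calc _ ≤ Nat.card ↥(H ⊓ stabilizer G x) * (orbit H x).ncard := Nat.mul_le_mul_left _ h2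
      _ = b * c := by rw [h1, hH, hab]
  exact Nat.le_of_mul_le_mul_right h3 h0

/-- conjugate pairs have isomorphic stabilisers -/
noncomputable def equiv2 {G Ω : Type*} [Group G] [MulAction G Ω] {a b a' b' : Ω} {g : G} (ha : g • a = a') (hb : g • b = b') :
    ↥(stabilizer G a ⊓ stabilizer G b) ≃* ↥(stabilizer G a' ⊓ stabilizer G b') :=
  have e : ∀ a b : Ω, stabilizer G a ⊓ stabilizer G b = stabilizer G (a, b) := by
    intro a b
    ext g
    rw [Subgroup.mem_inf, mem_stabilizer_iff, mem_stabilizer_iff, mem_stabilizer_iff, Prod.smul_mk, Prod.mk.injEq]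
  (MulEquiv.subgroupCongr (e a b)).trans
    ((stabilizerEquivStabilizer (g := g) (a := (a, b)) (b := (a', b')) (by rw [Prod.smul_mk, ha, hb])).trans
    (MulEquiv.subgroupCongr (e a' b').symm))

/-- conjugate triples have isomorphic stabilisers -/
noncomputable def equiv3 {G Ω : Type*} [Group G] [MulAction G Ω] {a b c a' b' c' : Ω} {g : G} (ha : g • a = a') (hb : g • b = b')
    (hc : g • c = c') :
    ↥(stabilizer G a ⊓ stabilizer G b ⊓ stabilizer G c) ≃* ↥(stabilizer G a' ⊓ stabilizer G b' ⊓ stabilizer G c') :=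
  have e : ∀ a b c : Ω, stabilizer G a ⊓ stabilizer G b ⊓ stabilizer G c = stabilizer G ((a, b), c) := by
    intro a b c
    ext g
    simp only [Subgroup.mem_inf, mem_stabilizer_iff, Prod.smul_mk, Prod.mk.injEq]
  (MulEquiv.subgroupCongr (e a b c)).trans
    ((stabilizerEquivStabilizer (g := g) (a := ((a, b), c)) (b := ((a', b'), c')) (by rw [Prod.smul_mk, Prod.smul_mk, ha, hb, hc])).trans
    (MulEquiv.subgroupCongr (e a' b' c').symm))

theorem card_mcl {u v : leechLattice} (hu : sqNorm (u : GolayPt → ℤ) = 48)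
    (hv : sqNorm (v : GolayPt → ℤ) = 32 ∧ sqNorm ((u - v) : GolayPt → ℤ) = 32) :
    Nat.card ↥(stabilizer Co0 u ⊓ stabilizer Co0 v) = 898128000 := by
  have huu : form u u = 6 := (norm_iff u 6).1 hu
  have hvv : form v v = 4 := (norm_iff v 4).1 hv.1
  have hw : form (u - v) (u - v) = 4 := (norm_iff (u - v) 4).1 hv.2
  have hsym : form u v = form v u := by
    have h1 := eight_form u v
    have h2 := eight_form v u
    have h3 : dotInt (u : GolayPt → ℤ) (v : GolayPt → ℤ) = dotInt (v : GolayPt → ℤ) (u : GolayPt → ℤ) := by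
      unfold dotInt
      exact Finset.sum_congr rfl fun i _ => mul_comm _ _
    omega
  have k1 : ∀ x : leechLattice, form (u - v) x = form u x - form v x := by
    intro x
    rw [map_sub form]; rfl
  have huv : form v u = 3 := by
    rw [k1, map_sub, map_sub, huu, hvv, hsym] at hw
    omega
  have hvw : form v (u - v) = -1 := by
    rw [map_sub, huv, hvv]; norm_num
  have h := (H63.LeechMcL.isMcL hvv hw hvw).2
  rw [← h]
  refine Nat.card_congr (Equiv.subtypeEquivRight fun g => ?_)
  rw [Subgroup.mem_inf, Subgroup.mem_inf, mem_stabilizer_iff, mem_stabilizer_iff, mem_stabilizer_iff]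
  have h1 : g • (u - v) = g • u - g • v := map_sub (co0Equiv g) _ _
  rw [h1]
  constructor
  · rintro ⟨h2, h3⟩; exact ⟨h3, by rw [h2, h3]⟩
  · rintro ⟨h2, h3⟩
    rw [h2] at h3
    exact ⟨sub_left_injective h3, h2⟩

end H86.CoStab
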