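import Mathlib

/-! Anisotropic quadratic maps from an elementary abelian 2-group to a group of order at most 4. -/

set_option autoImplicit false

namespace H86.Aniso

open Module

/-- `q` is a quadratic map between elementary abelian 2-groups -/
def IsQ {V W : Type*} [Add V] [Add W] (q : V → W) : Prop :=
  ∀ u v w : V, (q (u + (v + w)) + (q u + q (v + w))) =
    (q (u + v) + (q u + q v)) + (q (u + w) + (q u + q w))

theorem zmod2 (x : ZMod 2) : x = 0 ∨ x = 1 := by
  revert x; decide

theorem zmod2_add (x : ZMod 2) : x + x = 0 := by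
  revert x; decide

/-- an anisotropic quadratic form over `F_2` lives in dimension at most 2 -/
theorem card_le_four {V : Type*} [AddCommGroup V] [Finite V] (hV : ∀ v : V, v + v = 0)
    (Q : V → ZMod 2) (hQ : IsQ Q) (h1 : ∀ v, v ≠ 0 → Q v = 1) : Nat.card V ≤ 4 := by
  classical
  by_contra hlt
  push Not at hlt
  have := Fintype.ofFinite V
  rw [Nat.card_eq_fintype_card] at hlt
  have key : ∀ s : Finset V, s.card ≤ 4 → ∃ x, x ∉ s := by
    intro s hs
    by_contra hall
    push Not at hall
    have : s = Finset.univ := Finset.eq_univ_iff_forall.mpr hall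
    rw [this, Finset.card_univ] at hs
    omega
  obtain ⟨u, hu⟩ := key {0} (by simp)
  obtain ⟨v, hv⟩ := key {0, u} (by
    refine (Finset.card_le_two).trans (by norm_num))
  obtain ⟨w, hw⟩ := key {0, u, v, u + v} Finset.card_le_four
  simp only [Finset.mem_insert, Finset.mem_singleton, not_or] at hu hv hw
  have hne : ∀ a b : V, a ≠ b → a + b ≠ 0 := by
    intro a b hab h
    apply hab
    have : a + b = b + b := by rw [h, hV]
    exact add_right_cancel this
  have h := hQ u v w
  have e1 : Q (u + (v + w)) = 1 := by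
    apply h1
    rw [← add_assoc]
    exact hne _ _ (fun h => hw.2.2.2 h.symm)
  have e2 : Q (v + w) = 1 := h1 _ (hne _ _ (fun h => hw.2.2.1 h.symm))
  have e3 : Q (u + v) = 1 := h1 _ (hne _ _ (fun h => hv.2 h.symm))
  have e4 : Q (u + w) = 1 := h1 _ (hne _ _ (fun h => hw.2.1 h.symm))
  rw [e1, e2, e3, e4, h1 u hu, h1 v hv.1, h1 w hw.1] at h
  revert h
  decide

theorem exists_poly {n : ℕ} (F : QuadraticMap (ZMod 2) (Fin n → ZMod 2) (ZMod 2)) :
    ∃ P : MvPolynomial (Fin n) (ZMod 2), P.totalDegree ≤ 2 ∧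
      ∀ x, MvPolynomial.eval x P = F x := by
  set bm : Basis (Fin n) (ZMod 2) (Fin n → ZMod 2) := Pi.basisFun (ZMod 2) (Fin n) with hbm
  set B := F.toBilin bm with hB
  refine ⟨∑ i, ∑ j, MvPolynomial.C (B (bm i) (bm j)) *
    (MvPolynomial.X i * MvPolynomial.X j), ?_, ?_⟩
  · refine MvPolynomial.totalDegree_finsetSum_le ?_
    intro i _
    refine MvPolynomial.totalDegree_finsetSum_le ?_
    intro j _
    refine (MvPolynomial.totalDegree_mul _ _).trans ?_
    rw [MvPolynomial.totalDegree_C, zero_add]
    refine (MvPolynomial.totalDegree_mul _ _).trans ?_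
    rw [MvPolynomial.totalDegree_X, MvPolynomial.totalDegree_X]
  · intro x
    have h := congrArg (fun G => G x) (QuadraticMap.toQuadraticMap_toBilin F bm)
    simp only [LinearMap.BilinMap.toQuadraticMap_apply] at h
    rw [← h]
    conv_rhs => rw [← bm.sum_repr x]
    simp only [map_sum, LinearMap.sum_apply, map_smul, LinearMap.smul_apply, smul_eq_mul,
      MvPolynomial.eval_C, MvPolynomial.eval_X, map_mul]
    rw [Finset.sum_comm]
    refine Finset.sum_congr rfl fun i _ => ?_
    rw [Finset.mul_sum]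
    refine Finset.sum_congr rfl fun j _ => ?_
    rw [hbm]
    simp only [Pi.basisFun_repr]
    rw [← hbm, ← hB]
    ring

theorem exists_quad {n : ℕ} (Q : (Fin n → ZMod 2) → ZMod 2) (hQ : IsQ Q) :
    ∃ F : QuadraticMap (ZMod 2) (Fin n → ZMod 2) (ZMod 2), ∀ x, F x = Q x := by
  have h0 : Q 0 = 0 := by
    have h := hQ 0 0 0
    simp only [add_zero] at h
    generalize Q 0 = a at h
    revert a
    decide
  have hpol : ∀ x y, QuadraticMap.polar Q x y = Q (x + y) + (Q x + Q y) := by
    intro x y
    unfold QuadraticMap.polar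
    generalize Q (x + y) = a
    generalize Q x = b
    generalize Q y = c
    revert a b c
    decide
  refine ⟨QuadraticMap.ofPolar Q ?_ ?_ ?_, fun x => rfl⟩
  · intro a x
    rcases zmod2 a with rfl | rfl
    · simp [h0]
    · simp
  · intro x x' y
    rw [hpol, hpol, hpol]
    have h := hQ y x x'
    rw [add_comm y (x + x'), add_comm y x, add_comm y x'] at h
    generalize Q (x + x' + y) = a at *
    generalize Q (x + x') = b at *
    generalize Q y = c at *
    generalize Q (x + y) = d at *
    generalize Q (x' + y) = e at *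
    generalize Q x = f at *
    generalize Q x' = g at *
    clear hpol h0
    revert a b c d e f g
    decide
  · intro a x y
    rcases zmod2 a with rfl | rfl
    · rw [zero_smul, zero_smul, hpol, h0, zero_add, zero_add, zmod2_add]
    · rw [one_smul, one_smul]

theorem IsQ.comp_left {V W U : Type*} [Add V] [Add W] [Add U] {q : V → W} (hq : IsQ q)
    (f : W → U) (hf : ∀ a b, f (a + b) = f a + f b) : IsQ (fun v => f (q v)) := by
  intro u v w
  have h := congrArg f (hq u v w)
  simp only [hf] at h
  exact h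

theorem IsQ.comp_right {V W U : Type*} [Add V] [Add W] [Add U] {q : V → W} (hq : IsQ q)
    (f : U → V) (hf : ∀ a b, f (a + b) = f a + f b) : IsQ (fun v => q (f v)) := by
  intro u v w
  simp only [hf]
  exact hq _ _ _

/-- Chevalley-Warning for two quadratic forms over `F_2` -/
theorem card_le_sixteen {V : Type*} [AddCommGroup V] [Finite V] (hV : ∀ v : V, v + v = 0)
    (Q₁ Q₂ : V → ZMod 2) (h₁ : IsQ Q₁) (h₂ : IsQ Q₂)
    (han : ∀ v, Q₁ v = 0 → Q₂ v = 0 → v = 0) : Nat.card V ≤ 16 := by
  classical
  by_contra hlt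
  push Not at hlt
  let _ : Module (ZMod 2) V := AddCommGroup.zmodModule (fun v => by rw [two_nsmul]; exact hV v)
  have : Fact (Nat.Prime 2) := ⟨Nat.prime_two⟩
  have hfin : Module.Finite (ZMod 2) V := Module.Finite.of_finite
  have hc : Nat.card V = 2 ^ Module.finrank (ZMod 2) V := by
    rw [Module.natCard_eq_pow_finrank (K := ZMod 2), Nat.card_zmod]
  have hn : 5 ≤ Module.finrank (ZMod 2) V := by
    by_contra h
    push Not at h
    have : Nat.card V ≤ 2 ^ 4 := by
      rw [hc]
      exact Nat.pow_le_pow_right (by norm_num) (by omega)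
    omega
  set b := Module.finBasis (ZMod 2) V with hb
  let f : (Fin 5 → ZMod 2) →ₗ[ZMod 2] V :=
    Fintype.linearCombination (ZMod 2) (fun i : Fin 5 => b (Fin.castLE hn i))
  have hf : Function.Injective f := by
    have hli : LinearIndependent (ZMod 2) (fun i : Fin 5 => b (Fin.castLE hn i)) :=
      b.linearIndependent.comp _ (Fin.castLE_injective hn)
    exact linearIndependent_iff_injective_fintypeLinearCombination.mp hli
  obtain ⟨F₁, hF₁⟩ := exists_quad _ (h₁.comp_right (fun x => f x) (fun a b => map_add f a b))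
  obtain ⟨F₂, hF₂⟩ := exists_quad _ (h₂.comp_right (fun x => f x) (fun a b => map_add f a b))
  obtain ⟨P₁, hd₁, hP₁⟩ := exists_poly F₁
  obtain ⟨P₂, hd₂, hP₂⟩ := exists_poly F₂
  have hcw := char_dvd_card_solutions_of_add_lt (K := ZMod 2) (p := 2) (σ := Fin 5)
    (f₁ := P₁) (f₂ := P₂) (by rw [Fintype.card_fin]; omega)
  have hF0 : ∀ x, F₁ x = 0 → F₂ x = 0 → x = 0 := by
    intro x hx hy
    rw [hF₁] at hx
    rw [hF₂] at hy
    apply hf
    rw [map_zero]
    exact han _ hx hy
  have hz : Fintype.card {x : Fin 5 → ZMod 2 // MvPolynomial.eval x P₁ = 0 ∧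
      MvPolynomial.eval x P₂ = 0} = 1 := by
    rw [Fintype.card_eq_one_iff]
    refine ⟨⟨0, ?_, ?_⟩, ?_⟩
    · rw [hP₁, map_zero]
    · rw [hP₂, map_zero]
    · rintro ⟨x, hx, hy⟩
      apply Subtype.ext
      rw [hP₁] at hx
      rw [hP₂] at hy
      exact hF0 x hx hy
  rw [hz] at hcw
  omega

/-- functional on a four-group killing `w₀` only -/
theorem exists_fun {W : Type*} [AddCommGroup W] [Finite W] (hW : ∀ w : W, w + w = 0)
    (hc : Nat.card W = 4) (w₀ : W) (h0 : w₀ ≠ 0) :
    ∃ l : W → ZMod 2, (∀ a b, l (a + b) = l a + l b) ∧ ∀ w, l w = 0 ↔ w = 0 ∨ w = w₀ := by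
  classical
  have := Fintype.ofFinite W
  rw [Nat.card_eq_fintype_card] at hc
  have hne : ∀ a b : W, a ≠ b → a + b ≠ 0 := by
    intro a b hab h
    apply hab
    have : a + b = b + b := by rw [h, hW]
    exact add_right_cancel this
  have key : ∀ a b : W, a ≠ 0 → a ≠ w₀ → b ≠ 0 → b ≠ w₀ → b = a ∨ b = a + w₀ := by
    intro a b ha ha' hb hb'
    by_contra hcon
    push Not at hcon
    have hcard : ({0, w₀, a, a + w₀, b} : Finset W).card = 5 := by
      rw [Finset.card_insert_of_notMem, Finset.card_insert_of_notMem,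
        Finset.card_insert_of_notMem, Finset.card_insert_of_notMem, Finset.card_singleton]
      · simp only [Finset.mem_singleton]
        exact fun h => hcon.2 h.symm
      · simp only [Finset.mem_insert, Finset.mem_singleton, not_or]
        exact ⟨fun h => h0 (by simpa using h), fun h => hcon.1 h.symm⟩
      · simp only [Finset.mem_insert, Finset.mem_singleton, not_or]
        refine ⟨fun h => ha' h.symm, fun h => ha (by simpa using h), fun h => hb' h.symm⟩
      · simp only [Finset.mem_insert, Finset.mem_singleton, not_or]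
        exact ⟨fun h => h0 h.symm, fun h => ha h.symm, fun h => hne _ _ ha' h.symm,
          fun h => hb h.symm⟩
    have := Finset.card_le_univ ({0, w₀, a, a + w₀, b} : Finset W)
    omega
  have hlin : ∀ a b : W, (a = 0 ∨ a = w₀) → ((a + b = 0 ∨ a + b = w₀) ↔ (b = 0 ∨ b = w₀)) := by
    intro a b ha
    rcases ha with rfl | rfl
    · rw [zero_add]
    · constructor
      · rintro (h | h)
        · right
          by_contra hne'
          exact hne _ _ (fun h => hne' h.symm) h
        · left; simpa using h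
      · rintro (rfl | rfl)
        · right; rw [add_zero]
        · left; exact hW _
  refine ⟨fun w => if w = 0 ∨ w = w₀ then 0 else 1, ?_, ?_⟩
  · intro a b
    show (if a + b = 0 ∨ a + b = w₀ then (0 : ZMod 2) else 1) =
      (if a = 0 ∨ a = w₀ then (0 : ZMod 2) else 1) + (if b = 0 ∨ b = w₀ then (0 : ZMod 2) else 1)
    by_cases ha : a = 0 ∨ a = w₀
    · rw [if_pos ha, zero_add]
      by_cases hb : b = 0 ∨ b = w₀
      · rw [if_pos ((hlin a b ha).mpr hb), if_pos hb]
      · rw [if_neg (fun h => hb ((hlin a b ha).mp h)), if_neg hb]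
    · by_cases hb : b = 0 ∨ b = w₀
      · have h2 : ¬ (a + b = 0 ∨ a + b = w₀) := by
          rw [add_comm]
          exact fun h => ha ((hlin b a hb).mp h)
        rw [if_neg h2, if_neg ha, if_pos hb, add_zero]
      · rw [if_neg ha, if_neg hb, if_pos]
        · decide
        · push Not at ha hb
          rcases key a b ha.1 ha.2 hb.1 hb.2 with rfl | rfl
          · left; exact hW _
          · right
            rw [← add_assoc, hW, zero_add]
  · intro w
    by_cases hw : w = 0 ∨ w = w₀
    · simp only [hw, if_true]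
    · simp only [hw, if_false, iff_false]
      decide

section main

variable {V W : Type*} [AddCommGroup V] [Finite V] [AddCommGroup W] [Finite W]

theorem val_attained (hV : ∀ v : V, v + v = 0) (hW : ∀ w : W, w + w = 0)
    (hc : Nat.card W = 4) {q : V → W} (hq : IsQ q) (han : ∀ v, q v = 0 → v = 0)
    (w₀ : W) (h0 : w₀ ≠ 0) (hna : ∀ v, q v ≠ w₀) : Nat.card V ≤ 4 := by
  obtain ⟨l, hl, hl0⟩ := exists_fun hW hc w₀ h0
  refine card_le_four hV (fun v => l (q v)) (hq.comp_left l hl) ?_
  intro v hv
  rcases zmod2 (l (q v)) with h | h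
  · exfalso
    rcases (hl0 _).mp h with h | h
    · exact hv (han v h)
    · exact hna v h
  · exact h

theorem card_V_le (hV : ∀ v : V, v + v = 0) (hW : ∀ w : W, w + w = 0)
    (hc : Nat.card W = 4) {q : V → W} (hq : IsQ q) (han : ∀ v, q v = 0 → v = 0) :
    Nat.card V ≤ 16 := by
  classical
  have := Fintype.ofFinite W
  have hc' : Fintype.card W = 4 := by rw [← hc, Nat.card_eq_fintype_card]
  obtain ⟨a, ha⟩ : ∃ a : W, a ∉ ({0} : Finset W) := by
    by_contra hall
    push Not at hall
    have : ({0} : Finset W) = Finset.univ := Finset.eq_univ_iff_forall.mpr hall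
    have h2 := congrArg Finset.card this
    rw [Finset.card_univ, Finset.card_singleton] at h2
    omega
  obtain ⟨b, hb⟩ : ∃ b : W, b ∉ ({0, a} : Finset W) := by
    by_contra hall
    push Not at hall
    have : ({0, a} : Finset W) = Finset.univ := Finset.eq_univ_iff_forall.mpr hall
    have h2 := congrArg Finset.card this
    rw [Finset.card_univ] at h2
    have := Finset.card_le_two (a := (0 : W)) (b := a)
    omega
  simp only [Finset.mem_insert, Finset.mem_singleton, not_or] at ha hb
  obtain ⟨l₁, hl₁, hl₁0⟩ := exists_fun hW hc a ha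
  obtain ⟨l₂, hl₂, hl₂0⟩ := exists_fun hW hc b hb.1
  refine card_le_sixteen hV (fun v => l₁ (q v)) (fun v => l₂ (q v)) (hq.comp_left _ hl₁)
    (hq.comp_left _ hl₂) ?_
  intro v h1 h2
  apply han
  rcases (hl₁0 _).mp h1 with h | h
  · exact h
  · rcases (hl₂0 _).mp h2 with h' | h'
    · exact h'
    · exact absurd (h'.symm.trans h) hb.2

omit [Finite V] in
theorem iter_add (g : V → V) (hg : ∀ a b, g (a + b) = g a + g b) (i : ℕ) (a b : V) :
    g^[i] (a + b) = g^[i] a + g^[i] b := by
  induction i generalizing a b with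
  | zero => rfl
  | succ i ih => rw [Function.iterate_succ_apply, hg, ih, ← Function.iterate_succ_apply,
      ← Function.iterate_succ_apply]

omit [Finite V] in
theorem iter_fix (g : V → V) {v : V} (hv : g v = v) (i : ℕ) : g^[i] v = v := by
  induction i with
  | zero => rfl
  | succ i ih => rw [Function.iterate_succ_apply, hv, ih]

/-- the norm map `1 + g + ... + g^(p-1)` -/
noncomputable def nrm (g : V → V) (p : ℕ) (v : V) : V := ∑ i ∈ Finset.range p, g^[i] v

omit [Finite V] in
theorem nrm_add (g : V → V) (hg : ∀ a b, g (a + b) = g a + g b) (p : ℕ) (u v : V) :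
    nrm g p (u + v) = nrm g p u + nrm g p v := by
  unfold nrm
  rw [← Finset.sum_add_distrib]
  exact Finset.sum_congr rfl fun i _ => iter_add g hg i u v

omit [Finite V] in
theorem nrm_apply (g : V → V) (p : ℕ) (hp : ∀ v, g^[p] v = v) (v : V) :
    nrm g p (g v) = nrm g p v := by
  unfold nrm
  simp only [← Function.iterate_succ_apply]
  have h2 := Finset.sum_range_succ (fun i => g^[i] v) p
  have h3 := Finset.sum_range_succ' (fun i => g^[i] v) p
  rw [h2, hp] at h3
  exact (add_right_cancel h3).symm

omit [Finite V] in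
theorem nsmul_odd (hV : ∀ v : V, v + v = 0) {p : ℕ} (hp : Odd p) (v : V) : p • v = v := by
  obtain ⟨k, rfl⟩ := hp
  rw [add_nsmul, one_nsmul, mul_comm, mul_nsmul']
  rw [two_nsmul, hV, nsmul_zero, zero_add]

omit [Finite V] in
theorem nrm_fixed (hV : ∀ v : V, v + v = 0) (g : V → V) {p : ℕ} (hp : Odd p) {v : V}
    (hv : g v = v) : nrm g p v = v := by
  unfold nrm
  simp only [iter_fix g hv, Finset.sum_const, Finset.card_range]
  exact nsmul_odd hV hp v

/-- fixed points of a map of prime order on an invariant set -/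
theorem fix_modEq {p : ℕ} [Fact p.Prime] (g : V → V) (hgp : ∀ v, g^[p] v = v)
    (S : V → Prop) (hS : ∀ v, S v → S (g v)) :
    Nat.card {v : V // S v} ≡ Nat.card {v : V // S v ∧ g v = v} [MOD p] := by
  classical
  have := Fintype.ofFinite V
  let f : Function.End {v : V // S v} := fun v => ⟨g v.1, hS _ v.2⟩
  have hf : ∀ (i : ℕ) (v : {v : V // S v}), ((f ^ i) v).1 = g^[i] v.1 := by
    intro i
    induction i with
    | zero => intro v; rfl
    | succ i ih =>
      intro v
      rw [pow_succ, Function.iterate_succ_apply]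
      exact ih (f v)
  have hfp : f ^ p ^ 1 = 1 := by
    funext v
    apply Subtype.ext
    rw [pow_one, hf, hgp]
    rfl
  have h := Equiv.Perm.card_fixedPoints_modEq (n := 1) hfp
  rw [← Nat.card_eq_fintype_card, ← Nat.card_eq_fintype_card] at h
  have e : Nat.card (Function.fixedPoints f) = Nat.card {v : V // S v ∧ g v = v} := by
    refine Nat.card_congr ⟨fun v => ⟨v.1.1, v.1.2, congrArg Subtype.val v.2⟩,
      fun v => ⟨⟨v.1, v.2.1⟩, Subtype.ext v.2.2⟩, fun v => rfl, fun v => rfl⟩
  rw [e] at h
  exact h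

theorem card_two_pow (hV : ∀ v : V, v + v = 0) : ∃ n, Nat.card V = 2 ^ n := by
  let _ : Module (ZMod 2) V := AddCommGroup.zmodModule (fun v => by rw [two_nsmul]; exact hV v)
  have : Fact (Nat.Prime 2) := ⟨Nat.prime_two⟩
  have hfin : Module.Finite (ZMod 2) V := Module.Finite.of_finite
  refine ⟨Module.finrank (ZMod 2) V, ?_⟩
  rw [Module.natCard_eq_pow_finrank (K := ZMod 2), Nat.card_zmod]

/-- the kernel of the norm map -/
noncomputable def kerN (g : V → V) (hg : ∀ a b, g (a + b) = g a + g b) (p : ℕ) :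
    AddSubgroup V where
  carrier := {v | nrm g p v = 0}
  zero_mem' := by
    have h := nrm_add g hg p 0 0
    rw [add_zero] at h
    exact left_eq_add.mp h
  add_mem' := by
    intro a b ha hb
    simp only [Set.mem_ofPred_eq] at *
    rw [nrm_add g hg, ha, hb, add_zero]
  neg_mem' := by
    intro a ha
    simp only [Set.mem_ofPred_eq] at *
    have h := nrm_add g hg p (-a) a
    have h0 : nrm g p 0 = 0 := by
      have h := nrm_add g hg p 0 0
      rw [add_zero] at h
      exact left_eq_add.mp h
    rw [neg_add_cancel, h0, ha, add_zero] at h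
    exact h.symm

/-- a map of prime order at least 5 preserving an anisotropic `q` has no nonzero fixed points -/
theorem no_fixed (hV : ∀ v : V, v + v = 0) (hW : ∀ w : W, w + w = 0)
    (hc : Nat.card W = 4) {q : V → W} (hq : IsQ q) (han : ∀ v, q v = 0 → v = 0)
    {p : ℕ} [hp : Fact p.Prime] (hp5 : 5 ≤ p) (g : V → V) (hg : ∀ a b, g (a + b) = g a + g b)
    (hgp : ∀ v, g^[p] v = v) (hgq : ∀ v, q (g v) = q v) (hg1 : ∃ v, g v ≠ v)
    (f : V) (hf : g f = f) : f = 0 := by
  classical
  by_contra hf0
  have hodd : Odd p := hp.out.odd_of_ne_two (by omega)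
  set U := kerN g hg p with hU
  have hUmem : ∀ v, v ∈ U ↔ nrm g p v = 0 := fun v => Iff.rfl
  have hq0 : q 0 = 0 := by
    have h := hq 0 0 0
    simp only [add_zero] at h
    have h2 := hW (q 0)
    rw [h2, add_zero] at h
    rw [h, h2]
  have hadd0 : ∀ a b : V, a + b = 0 → a = b := by
    intro a b h
    have : a + b = b + b := by rw [h, hV]
    exact add_right_cancel this
  -- polar form
  let B : V → V → W := fun a b => q (a + b) + (q a + q b)
  have hB : ∀ u v w, B u (v + w) = B u v + B u w := hq
  have hB0 : ∀ u, B u 0 = 0 := by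
    intro u
    show q (u + 0) + (q u + q 0) = 0
    rw [add_zero, hq0, add_zero, hW]
  have hBg : ∀ u v, B (g u) (g v) = B u v := by
    intro u v
    show q (g u + g v) + (q (g u) + q (g v)) = _
    rw [← hg, hgq, hgq, hgq]
  have hBi : ∀ i v, B f (g^[i] v) = B f v := by
    intro i
    induction i with
    | zero => intro v; rfl
    | succ i ih =>
      intro v
      rw [Function.iterate_succ_apply, ih, ← hBg f v, hf]
  have hBs : ∀ (s : Finset ℕ) (F : ℕ → V), B f (∑ i ∈ s, F i) = ∑ i ∈ s, B f (F i) := by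
    intro s F
    induction s using Finset.induction_on with
    | empty => simp [hB0]
    | insert a s ha ih => rw [Finset.sum_insert ha, Finset.sum_insert ha, hB, ih]
  have hBU : ∀ u ∈ U, B f u = 0 := by
    intro u hu
    have h1 : B f (nrm g p u) = p • B f u := by
      unfold nrm
      rw [hBs]
      simp only [hBi, Finset.sum_const, Finset.card_range]
    rw [(hUmem u).mp hu, hB0, nsmul_odd hW hodd] at h1
    exact h1.symm
  have hfU : f ∉ U := by
    intro h
    rw [hUmem, nrm_fixed hV g hodd hf] at h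
    exact hf0 h
  have hqU : ∀ u ∈ U, q u ≠ q f := by
    intro u hu h
    have h1 := hBU u hu
    have h2 : q (f + u) + (q f + q u) = 0 := h1
    rw [h, hW, add_zero] at h2
    have h3 := hadd0 _ _ (han _ h2)
    exact hfU (h3 ▸ hu)
  have hcU : Nat.card U ≤ 4 := by
    refine val_attained (V := U) (q := fun u => q u) ?_ hW hc (hq.comp_right _ fun a b => rfl) ?_
      (q f) (fun h => hf0 (han _ h)) (fun u => hqU u u.2)
    · intro u
      apply Subtype.ext
      exact hV u
    · intro v hv
      exact Subtype.ext (han _ hv)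
  have hmod : Nat.card {v : V // v ∈ U} ≡ Nat.card {v : V // v ∈ U ∧ g v = v} [MOD p] :=
    fix_modEq g hgp (fun v => v ∈ U) (fun v hv => by rw [hUmem, nrm_apply g p hgp]; exact hv)
  have h1 : Nat.card {v : V // v ∈ U ∧ g v = v} = 1 := by
    rw [Nat.card_eq_one_iff_unique]
    refine ⟨⟨?_⟩, ⟨0, U.zero_mem, ?_⟩⟩
    · have key : ∀ v : V, v ∈ U → g v = v → v = 0 := by
        intro v hv hgv
        rw [hUmem, nrm_fixed hV g hodd hgv] at hv
        exact hv
      rintro ⟨a, ha, ha'⟩ ⟨b, hb, hb'⟩
      apply Subtype.ext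
      exact (key a ha ha').trans (key b hb hb').symm
    · have h := hg 0 0
      rw [add_zero] at h
      exact left_eq_add.mp h
  rw [h1] at hmod
  have hcU' : Nat.card {v : V // v ∈ U} = Nat.card U := rfl
  have hpos : 0 < Nat.card U := Nat.card_pos
  have hU1 : Nat.card U = 1 := by
    have h2 : Nat.card U % p = 1 % p := hmod
    rw [Nat.mod_eq_of_lt (by omega), Nat.mod_eq_of_lt (by omega)] at h2
    exact h2
  obtain ⟨v, hv⟩ := hg1
  have h3 : g v + v ∈ U := by
    rw [hUmem, nrm_add g hg, nrm_apply g p hgp, hV]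
  have h4 : g v + v = 0 := by
    have := (Nat.card_eq_one_iff_unique.mp hU1).1
    exact congrArg Subtype.val (Subsingleton.elim (⟨_, h3⟩ : U) ⟨0, U.zero_mem⟩)
  exact hv (hadd0 _ _ h4)

/-- such a prime is 5, and then `|V| = 16` and every nonzero value is taken five times -/
theorem prime_five (hV : ∀ v : V, v + v = 0) (hW : ∀ w : W, w + w = 0)
    (hc : Nat.card W = 4) {q : V → W} (hq : IsQ q) (han : ∀ v, q v = 0 → v = 0)
    {p : ℕ} [hp : Fact p.Prime] (hp5 : 5 ≤ p) (g : V → V) (hg : ∀ a b, g (a + b) = g a + g b)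
    (hgp : ∀ v, g^[p] v = v) (hgq : ∀ v, q (g v) = q v) (hg1 : ∃ v, g v ≠ v) :
    p = 5 ∧ Nat.card V = 16 ∧ ∀ w, w ≠ 0 → Nat.card {v : V // q v = w} = 5 := by
  classical
  have hg0 : g 0 = 0 := by
    have h := hg 0 0
    rw [add_zero] at h
    exact left_eq_add.mp h
  have hnf := no_fixed hV hW hc hq han hp5 g hg hgp hgq hg1
  have hle := card_V_le hV hW hc hq han
  obtain ⟨n, hn⟩ := card_two_pow hV
  have hmod : Nat.card {v : V // True} ≡ Nat.card {v : V // True ∧ g v = v} [MOD p] :=
    fix_modEq g hgp (fun v => True) (fun v hv => hv)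
  have h1 : Nat.card {v : V // True ∧ g v = v} = 1 := by
    rw [Nat.card_eq_one_iff_unique]
    refine ⟨⟨?_⟩, ⟨0, trivial, hg0⟩⟩
    rintro ⟨a, ha, ha'⟩ ⟨b, hb, hb'⟩
    apply Subtype.ext
    exact (hnf a ha').trans (hnf b hb').symm
  have h2 : Nat.card {v : V // True} = Nat.card V :=
    Nat.card_congr (Equiv.subtypeUnivEquiv fun _ => trivial)
  rw [h1, h2, hn] at hmod
  have hn4 : n ≤ 4 := by
    by_contra h
    push Not at h
    have : 2 ^ 5 ≤ 2 ^ n := Nat.pow_le_pow_right (by norm_num) h
    omega
  have hV2 : ¬ Nat.card V ≤ 4 := by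
    intro h
    obtain ⟨v, hv⟩ := hg1
    have hn2 : n ≤ 2 := by
      by_contra h'
      push Not at h'
      have : 2 ^ 3 ≤ 2 ^ n := Nat.pow_le_pow_right (by norm_num) h'
      omega
    have h3 : 2 ^ n % p = 1 % p := hmod
    have h4 : 2 ^ n = 1 := by
      rw [Nat.mod_eq_of_lt (by
        have : 2 ^ n ≤ 2 ^ 2 := Nat.pow_le_pow_right (by norm_num) hn2
        omega), Nat.mod_eq_of_lt (by omega)] at h3
      exact h3
    rw [← hn] at h4
    have := (Nat.card_eq_one_iff_unique.mp h4).1
    exact hv (Subsingleton.elim _ _)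
  have hatt : ∀ w : W, w ≠ 0 → ∃ v, q v = w := by
    intro w hw
    by_contra hcon
    push Not at hcon
    exact hV2 (val_attained hV hW hc hq han w hw hcon)
  have hn3 : 3 ≤ n := by
    by_contra h
    push Not at h
    apply hV2
    rw [hn]
    have : 2 ^ n ≤ 2 ^ 2 := Nat.pow_le_pow_right (by norm_num) (by omega)
    omega
  -- each nonzero value is taken a multiple of p times
  have hval : ∀ w : W, w ≠ 0 → p ∣ Nat.card {v : V // q v = w} ∧ 0 < Nat.card {v : V // q v = w} := by
    intro w hw
    constructor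
    · have h3 : Nat.card {v : V // q v = w} ≡ Nat.card {v : V // q v = w ∧ g v = v} [MOD p] :=
        fix_modEq g hgp (fun v => q v = w) (fun v hv => by rw [hgq]; exact hv)
      have h4 : Nat.card {v : V // q v = w ∧ g v = v} = 0 := by
        rw [Nat.card_eq_zero]
        left
        refine ⟨?_⟩
        rintro ⟨v, hv, hv'⟩
        have h5 := hnf v hv'
        rw [h5] at hv
        have hq0 : q 0 = 0 := by
          have h := hq 0 0 0
          simp only [add_zero] at h
          have h2 := hW (q 0)
          rw [h2, add_zero] at h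
          rw [h, h2]
        exact hw (hv.symm.trans hq0)
      rw [h4] at h3
      exact (Nat.modEq_zero_iff_dvd.mp h3)
    · obtain ⟨v, hv⟩ := hatt w hw
      have : Nonempty {v : V // q v = w} := ⟨⟨v, hv⟩⟩
      exact Nat.card_pos
  have hpN : ∀ w : W, w ≠ 0 → p ≤ Nat.card {v : V // q v = w} := fun w hw =>
    Nat.le_of_dvd (hval w hw).2 (hval w hw).1
  have := Fintype.ofFinite V
  have := Fintype.ofFinite W
  have hsum : ∑ w : W, Nat.card {v : V // q v = w} = Nat.card V := by
    rw [← Nat.card_congr (Equiv.sigmaFiberEquiv q), Nat.card_sigma]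
  have hsum2 : Nat.card {v : V // q v = 0} + ∑ w ∈ Finset.univ.erase (0 : W),
      Nat.card {v : V // q v = w} = Nat.card V := by
    rw [← hsum]
    exact Finset.add_sum_erase _ (fun w => Nat.card {v : V // q v = w}) (Finset.mem_univ 0)
  have hq0 : q 0 = 0 := by
    have h := hq 0 0 0
    simp only [add_zero] at h
    have h2 := hW (q 0)
    rw [h2, add_zero] at h
    rw [h, h2]
  have h01 : Nat.card {v : V // q v = 0} = 1 := by
    rw [Nat.card_eq_one_iff_unique]
    refine ⟨⟨?_⟩, ⟨0, hq0⟩⟩
    rintro ⟨a, ha⟩ ⟨b, hb⟩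
    apply Subtype.ext
    exact (han a ha).trans (han b hb).symm
  have hcW : (Finset.univ.erase (0 : W)).card = 3 := by
    rw [Finset.card_erase_of_mem (Finset.mem_univ _), Finset.card_univ, ← Nat.card_eq_fintype_card,
      hc]
  have h3p : 3 * p ≤ ∑ w ∈ Finset.univ.erase (0 : W), Nat.card {v : V // q v = w} := by
    have := Finset.card_nsmul_le_sum (Finset.univ.erase (0 : W))
      (fun w => Nat.card {v : V // q v = w}) p (fun w hw => hpN w (Finset.ne_of_mem_erase hw))
    rw [hcW, smul_eq_mul] at this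
    exact this
  have hp5' : p = 5 := by omega
  have hV16 : Nat.card V = 16 := by omega
  refine ⟨hp5', hV16, ?_⟩
  intro w hw
  have hwm : w ∈ Finset.univ.erase (0 : W) := Finset.mem_erase.mpr ⟨hw, Finset.mem_univ _⟩
  have h5 := Finset.add_sum_erase (Finset.univ.erase (0 : W))
    (fun w => Nat.card {v : V // q v = w}) hwm
  have hc2 : ((Finset.univ.erase (0 : W)).erase w).card = 2 := by
    rw [Finset.card_erase_of_mem hwm, hcW]
  have h6 := Finset.card_nsmul_le_sum ((Finset.univ.erase (0 : W)).erase w)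
      (fun w => Nat.card {v : V // q v = w}) p
      (fun w hw => hpN w (Finset.ne_of_mem_erase (Finset.mem_of_mem_erase hw)))
  rw [hc2, smul_eq_mul] at h6
  have h7 := hpN w hw
  omega

/-- ... and there is no automorphism of order 3 -/
theorem no_three (hV : ∀ v : V, v + v = 0)
    (hc : Nat.card W = 4) {q : V → W} (hq0 : ∀ v, q v = 0 ↔ v = 0)
    (h16 : Nat.card V = 16) (h5 : ∀ w, w ≠ 0 → Nat.card {v : V // q v = w} = 5)
    (g : V → V) (hg : ∀ a b, g (a + b) = g a + g b)
    (hgp : ∀ v, g^[3] v = v) (hgq : ∀ v, q (g v) = q v) (v : V) : g v = v := by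
  classical
  have hg0 : g 0 = 0 := by
    have h := hg 0 0
    rw [add_zero] at h
    exact left_eq_add.mp h
  have : Fact (Nat.Prime 3) := ⟨Nat.prime_three⟩
  have := Fintype.ofFinite V
  have := Fintype.ofFinite W
  let F : AddSubgroup V :=
    { carrier := {v | g v = v}
      zero_mem' := hg0
      add_mem' := fun {a b} ha hb => by
        simp only [Set.mem_ofPred_eq] at *
        rw [hg, ha, hb]
      neg_mem' := fun {a} ha => by
        simp only [Set.mem_ofPred_eq] at *
        have h : -a = a := neg_eq_of_add_eq_zero_left (hV a)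
        rw [h, ha] }
  have hF : Nat.card F ∣ 16 := h16 ▸ F.card_addSubgroup_dvd_card
  have hfix : ∀ w, w ≠ 0 → Nat.card {v : V // q v = w ∧ g v = v} = 2 ∨
      Nat.card {v : V // q v = w ∧ g v = v} = 5 := by
    intro w hw
    have h1 : Nat.card {v : V // q v = w} ≡ Nat.card {v : V // q v = w ∧ g v = v} [MOD 3] :=
      fix_modEq g hgp (fun v => q v = w) (fun v hv => by rw [hgq]; exact hv)
    rw [h5 w hw] at h1
    have h2 : Nat.card {v : V // q v = w ∧ g v = v} ≤ 5 := by
      rw [← h5 w hw]
      exact Nat.card_le_card_of_injective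
        (fun x : {v : V // q v = w ∧ g v = v} => (⟨x.1, x.2.1⟩ : {v : V // q v = w}))
        (fun a b h => Subtype.ext (congrArg (fun y : {v : V // q v = w} => y.1) h))
    have h3 : 5 % 3 = Nat.card {v : V // q v = w ∧ g v = v} % 3 := h1
    omega
  have hsum : ∑ w : W, Nat.card {v : V // q v = w ∧ g v = v} = Nat.card F := by
    rw [← Nat.card_sigma]
    refine Nat.card_congr ⟨fun x => ⟨x.2.1, x.2.2.2⟩, fun x => ⟨q x.1, ⟨x.1, rfl, x.2⟩⟩, ?_, ?_⟩
    · rintro ⟨w, v, rfl, hv⟩
      rfl
    · intro x
      rfl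
  have hsum2 : Nat.card {v : V // q v = 0 ∧ g v = v} + ∑ w ∈ Finset.univ.erase (0 : W),
      Nat.card {v : V // q v = w ∧ g v = v} = Nat.card F := by
    rw [← hsum]
    exact Finset.add_sum_erase _ (fun w => Nat.card {v : V // q v = w ∧ g v = v})
      (Finset.mem_univ 0)
  have h01 : Nat.card {v : V // q v = 0 ∧ g v = v} = 1 := by
    rw [Nat.card_eq_one_iff_unique]
    refine ⟨⟨?_⟩, ⟨0, (hq0 0).mpr rfl, hg0⟩⟩
    rintro ⟨a, ha, _⟩ ⟨b, hb, _⟩
    apply Subtype.ext
    exact ((hq0 a).mp ha).trans ((hq0 b).mp hb).symm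
  have hcW : (Finset.univ.erase (0 : W)).card = 3 := by
    rw [Finset.card_erase_of_mem (Finset.mem_univ _), Finset.card_univ, ← Nat.card_eq_fintype_card,
      hc]
  obtain ⟨a, b, c, hab, hac, hbc, habc⟩ := Finset.card_eq_three.mp hcW
  have ha : a ≠ 0 := Finset.ne_of_mem_erase (habc ▸ (by simp) : a ∈ Finset.univ.erase (0 : W))
  have hb : b ≠ 0 := Finset.ne_of_mem_erase (habc ▸ (by simp) : b ∈ Finset.univ.erase (0 : W))
  have hc' : c ≠ 0 := Finset.ne_of_mem_erase (habc ▸ (by simp) : c ∈ Finset.univ.erase (0 : W))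
  rw [habc, Finset.sum_insert (by simp [hab, hac]), Finset.sum_insert (by simp [hbc]),
    Finset.sum_singleton, h01] at hsum2
  have hle : Nat.card F ≤ 16 := Nat.le_of_dvd (by norm_num) hF
  have h16F : Nat.card F = 16 := by
    obtain ⟨k, hk⟩ := hF
    rcases hfix a ha with h1 | h1 <;> rcases hfix b hb with h2 | h2 <;>
      rcases hfix c hc' with h3 | h3 <;> rw [h1, h2, h3] at hsum2 <;>
      first
      | omega
      | (exfalso
         rw [← hsum2] at hk
         omega)
  have hFtop : F = ⊤ := by
    apply AddSubgroup.eq_top_of_card_eq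
    rw [h16F, h16]
  have : v ∈ F := hFtop ▸ AddSubgroup.mem_top v
  exact this

end main

end H86.Aniso
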