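import Cfsg.Agent.Lib.H9.CoMat3

set_option autoImplicit false

/-! Sets of vectors of the Leech lattice given by tables, and the action of elements of `Co0` on them. -/

namespace H86.CoSets

set_option linter.unusedSectionVars false

open Cfsg H40.PermCode H40.MathieuBase H8.GolayCode H8.GolayCount H8.GolayBasic H9.CoMat MulAction
open scoped Pointwise

/-- bit mask of a list of numbers -/
noncomputable def msk (L : ℕ) (f : ℕ → ℕ) : ℕ :=
  Nat.rec (motive := fun _ => ℕ) 0 (fun a acc => acc ||| (1 <<< f a)) L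

theorem testBit_msk (L : ℕ) (f : ℕ → ℕ) (i : ℕ) : (msk L f).testBit i = true ↔ ∃ a < L, f a = i := by
  induction L with
  | zero => simp [msk]
  | succ L ih =>
    have h1 : msk (L + 1) f = msk L f ||| (1 <<< f L) := rfl
    rw [h1, Nat.testBit_or, Bool.or_eq_true, ih, Nat.one_shiftLeft, Nat.testBit_two_pow, decide_eq_true_eq]
    constructor
    · rintro (⟨a, ha, h⟩ | h)
      · exact ⟨a, by omega, h⟩
      · exact ⟨L, by omega, h⟩
    · rintro ⟨a, ha, h⟩
      rcases Nat.lt_succ_iff_lt_or_eq.mp ha with h2 | h2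
      · exact Or.inl ⟨a, h2, h⟩
      · subst h2; exact Or.inr h

/-- `a`-th element of the `k`-th list -/
noncomputable def tt (L tT k a : ℕ) : ℕ := tab 16 (tab (16 * L) tT k) a

/-- `k`-th set of vectors -/
def XS (L yT tT k : ℕ) : Set leechLattice := {x | ∃ a < L, (x : GolayPt → ℤ) = vec (tab 384 yT (tt L tT k a))}

/-- test of the vectors -/
noncomputable def chkY (NY yT : ℕ) : Bool :=
  allN (fun i => wfr (tab 384 yT i) && inLat (tab 384 yT i)) NY && allN (fun i => Nat.blt (tab 384 yT i) (tab 384 yT (i + 1))) (NY - 1)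

/-- test of the lists -/
noncomputable def chkT (NY N L tT : ℕ) : Bool :=
  allN (fun k => allN (fun a => Nat.blt (tt L tT k a) NY) L) N &&
    allN (fun k => Nat.blt (msk L (tt L tT k)) (msk L (tt L tT (k + 1)))) (N - 1)

/-- test of a permutation of the vectors -/
noncomputable def chkP (NY yT : ℕ) (B : List ℕ) (P : ℕ) : Bool :=
  allN (fun i => Nat.blt (tab 16 P i) NY && rowOK (tab 384 yT i) B (tab 384 yT (tab 16 P i))) NY

/-- test of a permutation of the lists -/
noncomputable def chkS (N L tT P piT : ℕ) : Bool :=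
  allN (fun k => Nat.beq (msk L fun a => tab 16 P (tt L tT k a)) (msk L (tt L tT (tab 16 piT k)))) N

theorem mono_of_step {f : ℕ → ℕ} {N : ℕ} (h : ∀ i < N - 1, f i < f (i + 1)) : ∀ i j, i < j → j < N → f i < f j := by
  intro i j hij hj
  induction j with
  | zero => omega
  | succ j ih =>
    have h1 := h j (by omega)
    rcases Nat.lt_succ_iff_lt_or_eq.mp hij with h2 | h2
    · exact (ih h2 (by omega)).trans h1
    · subst h2; exact h1

theorem inj_of_step {f : ℕ → ℕ} {N : ℕ} (h : ∀ i < N - 1, f i < f (i + 1)) : ∀ i < N, ∀ j < N, f i = f j → i = j := by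
  intro i hi j hj hij
  rcases lt_trichotomy i j with h1 | h1 | h1
  · have := mono_of_step h i j h1 hj; omega
  · exact h1
  · have := mono_of_step h j i h1 hi; omega

theorem vec_inj {e e' : ℕ} (he : wfr e = true) (he' : wfr e' = true) (h : vec e = vec e') : e = e' := by
  obtain ⟨h1, _⟩ := wfr_spec he
  obtain ⟨h2, _⟩ := wfr_spec he'
  rw [← pack_tab' h1, ← pack_tab' h2]
  apply pack_congr
  intro i hi
  have h3 := congrFun h (pt i)
  rw [vec_pt e hi, vec_pt e' hi] at h3
  have : (dg e i : ℤ) = dg e' i := by linarith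
  exact_mod_cast this

theorem chkY_spec {NY yT : ℕ} (h : chkY NY yT = true) :
    (∀ i < NY, wfr (tab 384 yT i) = true ∧ vec (tab 384 yT i) ∈ leechLattice) ∧
      ∀ i < NY, ∀ j < NY, vec (tab 384 yT i) = vec (tab 384 yT j) → i = j := by
  rw [chkY, Bool.and_eq_true, allN_iff, allN_iff] at h
  obtain ⟨h1, h2⟩ := h
  have h3 : ∀ i < NY, wfr (tab 384 yT i) = true ∧ vec (tab 384 yT i) ∈ leechLattice := by
    intro i hi
    have := h1 i hi
    rw [Bool.and_eq_true] at this
    exact ⟨this.1, inLat_spec this.2⟩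
  refine ⟨h3, fun i hi j hj hij => ?_⟩
  exact inj_of_step (f := fun i => tab 384 yT i) (fun i hi => by have := h2 i hi; rwa [Nat.blt_eq] at this) i hi j hj
    (vec_inj (h3 i hi).1 (h3 j hj).1 hij)

theorem XS_inj {NY yT N L tT : ℕ} (hY : chkY NY yT = true) (hT : chkT NY N L tT = true) :
    ∀ k < N, ∀ k' < N, XS L yT tT k = XS L yT tT k' → k = k' := by
  obtain ⟨hY1, hY2⟩ := chkY_spec hY
  rw [chkT, Bool.and_eq_true, allN_iff, allN_iff] at hT
  obtain ⟨h1, h2⟩ := hT
  have h3 : ∀ k < N, ∀ a < L, tt L tT k a < NY := by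
    intro k hk a ha
    have := h1 k hk
    rw [allN_iff] at this
    have := this a ha
    rwa [Nat.blt_eq] at this
  intro k hk k' hk' hkk
  refine inj_of_step (f := fun k => msk L (tt L tT k)) (fun i hi => by have := h2 i hi; rwa [Nat.blt_eq] at this) k hk k' hk' ?_
  have key : ∀ k < N, ∀ k' < N, XS L yT tT k = XS L yT tT k' → ∀ i, (∃ a < L, tt L tT k a = i) → ∃ a < L, tt L tT k' a = i := by
    rintro k hk k' hk' hkk i ⟨a, ha, rfl⟩
    have hx : (⟨_, (hY1 _ (h3 k hk a ha)).2⟩ : leechLattice) ∈ XS L yT tT k := ⟨a, ha, rfl⟩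
    rw [hkk] at hx
    obtain ⟨b, hb, hab⟩ := hx
    exact ⟨b, hb, hY2 _ (h3 k' hk' b hb) _ (h3 k hk a ha) hab.symm⟩
  apply Nat.eq_of_testBit_eq
  intro i
  rw [Bool.eq_iff_iff, testBit_msk, testBit_msk]
  exact ⟨key k hk k' hk' hkk i, key k' hk' k hk hkk.symm i⟩

theorem smul_vec {g : Co0} {B : List ℕ} (hg : RepC g B) (hB : wfM B = true) {e e' : ℕ} (he : wfr e = true)
    (he' : wfr e' = true) (h : rowOK e B e' = true) {x : leechLattice} (hx : (x : GolayPt → ℤ) = vec e) :
    ((g • x : leechLattice) : GolayPt → ℤ) = vec e' := by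
  funext p
  have h1 := hg.apply x p
  rw [hx] at h1
  rw [row_vec he he' hB h] at h1
  linarith

theorem smul_XS {NY yT N L tT P piT : ℕ} (hY : chkY NY yT = true) (hT : chkT NY N L tT = true)
    {g : Co0} {B : List ℕ} (hg : RepC g B) (hB : wfM B = true) (hP : chkP NY yT B P = true) (hS : chkS N L tT P piT = true)
    {k : ℕ} (hk : k < N) : g • XS L yT tT k = XS L yT tT (tab 16 piT k) := by
  obtain ⟨hY1, hY2⟩ := chkY_spec hY
  rw [chkT, Bool.and_eq_true, allN_iff, allN_iff] at hT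
  obtain ⟨h1, h2⟩ := hT
  have h3 : ∀ k < N, ∀ a < L, tt L tT k a < NY := by
    intro k hk a ha
    have := h1 k hk
    rw [allN_iff] at this
    have := this a ha
    rwa [Nat.blt_eq] at this
  rw [chkP, allN_iff] at hP
  rw [chkS, allN_iff] at hS
  have hS' := hS k hk
  rw [Nat.beq_eq] at hS'
  have hP' : ∀ i < NY, tab 16 P i < NY ∧ ∀ x : leechLattice, (x : GolayPt → ℤ) = vec (tab 384 yT i) →
      ((g • x : leechLattice) : GolayPt → ℤ) = vec (tab 384 yT (tab 16 P i)) := by
    intro i hi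
    have := hP i hi
    rw [Bool.and_eq_true, Nat.blt_eq] at this
    exact ⟨this.1, fun x hx => smul_vec hg hB (hY1 i hi).1 (hY1 _ this.1).1 this.2 hx⟩
  ext y
  constructor
  · rintro ⟨x, ⟨a, ha, hx⟩, rfl⟩
    have h4 : (msk L (tt L tT (tab 16 piT k))).testBit (tab 16 P (tt L tT k a)) = true := by
      rw [← hS', testBit_msk]
      exact ⟨a, ha, rfl⟩
    rw [testBit_msk] at h4
    obtain ⟨b, hb, hba⟩ := h4
    refine ⟨b, hb, ?_⟩
    show ((g • x : leechLattice) : GolayPt → ℤ) = _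
    rw [(hP' _ (h3 k hk a ha)).2 x hx, hba]
  · rintro ⟨b, hb, hy⟩
    have h4 : (msk L fun a => tab 16 P (tt L tT k a)).testBit (tt L tT (tab 16 piT k) b) = true := by
      rw [hS', testBit_msk]
      exact ⟨b, hb, rfl⟩
    rw [testBit_msk] at h4
    obtain ⟨a, ha, hab⟩ := h4
    refine ⟨⟨_, (hY1 _ (h3 k hk a ha)).2⟩, ⟨a, ha, rfl⟩, ?_⟩
    apply Subtype.ext
    have h5 := (hP' _ (h3 k hk a ha)).2 ⟨_, (hY1 _ (h3 k hk a ha)).2⟩ rfl
    show ((g • (⟨_, (hY1 _ (h3 k hk a ha)).2⟩ : leechLattice) : leechLattice) : GolayPt → ℤ) = _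
    rw [h5, hy, hab]

end H86.CoSets
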