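import Mathlib
import Cfsg.Prelude.Def_FischerSpaces
import Cfsg.Agent.Lib.H92.Cover3
import Cfsg.Agent.Lib.H92.Sym3

/-! The centralizer of three commuting members in a level 3 group: generation and centre. -/

set_option autoImplicit false
set_option linter.dupNamespace false
set_option linter.unusedSectionVars false
set_option linter.style.haveILetI false
set_option linter.unusedVariables false
open Cfsg

namespace H86.Fi24J
open H92.Tri H92.Pol H92.Lev H92.RelList H92.Setup H92.Geo H92.Inv2 H92.Inv3 H92.M24 H92.M23b H92.Uniq H92.Out24 H92.QS H92.Simple H92.Cover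

variable {G : Type*} [Group G] {D : Set G} {N : Subgroup G}

/-- three commuting members -/
structure T3 (D : Set G) (d1 d2 d3 : G) : Prop where
  m1 : d1 ∈ D
  m2 : d2 ∈ D
  m3 : d3 ∈ D
  n12 : d1 ≠ d2
  n13 : d1 ≠ d3
  n23 : d2 ≠ d3
  c12 : Commute d1 d2
  c13 : Commute d1 d3
  c23 : Commute d2 d3

/-- the common neighbours -/
def F3 (D : Set G) (d1 d2 d3 : G) : Set G := H92.Tri.C (H92.Tri.C (H92.Tri.C D d1) d2) d3

theorem mem_F3 {d1 d2 d3 x : G} : x ∈ F3 D d1 d2 d3 ↔ x ∈ D ∧ (x ≠ d1 ∧ x ≠ d2 ∧ x ≠ d3) ∧ Commute d1 x ∧ Commute d2 x ∧ Commute d3 x := by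
  constructor
  · rintro ⟨⟨⟨h0, h1, h2⟩, h3, h4⟩, h5, h6⟩
    exact ⟨h0, ⟨h1, h3, h5⟩, h2, h4, h6⟩
  · rintro ⟨h0, ⟨h1, h3, h5⟩, h2, h4, h6⟩
    exact ⟨⟨⟨h0, h1, h2⟩, h3, h4⟩, h5, h6⟩

theorem F3_sub {d1 d2 d3 : G} : F3 D d1 d2 d3 ⊆ D := fun _ h => (mem_F3.1 h).1

theorem F3_rot (d1 d2 d3 : G) : F3 D d2 d3 d1 = F3 D d1 d2 d3 := by
  ext x
  rw [mem_F3, mem_F3]
  tauto

theorem F3_swap (d1 d2 d3 : G) : F3 D d2 d1 d3 = F3 D d1 d2 d3 := by
  ext x
  rw [mem_F3, mem_F3]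
  tauto

variable {d1 d2 d3 : G}

theorem T3.rot (T : T3 D d1 d2 d3) : T3 D d2 d3 d1 :=
  ⟨T.m2, T.m3, T.m1, T.n23, T.n12.symm, T.n13.symm, T.c23, T.c12.symm, T.c13.symm⟩

theorem T3.h2 (T : T3 D d1 d2 d3) : d2 ∈ H92.Tri.C D d1 := ⟨T.m2, T.n12.symm, T.c12⟩

theorem T3.h3 (T : T3 D d1 d2 d3) : d3 ∈ H92.Tri.C (H92.Tri.C D d1) d2 := ⟨⟨T.m3, T.n13.symm, T.c13⟩, T.n23.symm, T.c23⟩

theorem lg (H : Hyp24 D N) (T : T3 D d1 d2 d3) : LG 0 (F3 D d1 d2 d3) := ((H.h.C T.m1).C T.h2).C T.h3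

/-- centralizer of the common neighbours -/
theorem cent8 (H : Hyp24 D N) (T : T3 D d1 d2 d3) {z : G} (hz : ∀ y ∈ F3 D d1 d2 d3, Commute z y) (c1 : Commute z d1) (c2 : Commute z d2)
    (c3 : Commute z d3) : ∃ w, (w = 1 ∨ w = d1 ∨ w = d2 ∨ w = d1 * d2) ∧ (z = w ∨ z = d3 * w) := by
  have hE := (H.h.C T.m1).C T.h2
  have ht := H.h.lev.tri
  have hnorm : ∀ x ∈ H92.Tri.C (H92.Tri.C D d1) d2, z * x * z⁻¹ ∈ H92.Tri.C (H92.Tri.C D d1) d2 := by
    apply norm_E1 H T.m1 T.h2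
    exact c1.mul_right c2
  rcases zeta hE.lev.tri hE.geo T.h3 hnorm c3 hz with h2 | h2
  · have := cent4 H.h H.hcl H.hZ T.m1 T.h2 h2 c1 c2
    exact ⟨z, this, Or.inl rfl⟩
  · have := cent4 H.h H.hcl H.hZ T.m1 T.h2 h2 (T.c13.symm.mul_left c1) (T.c23.symm.mul_left c2)
    refine ⟨d3 * z, this, Or.inr ?_⟩
    rw [← mul_assoc, ht.sq d3 T.m3, one_mul]

theorem no_short (H : Hyp24 D N) (l : List G) (h1 : l.Nodup) (h2 : ∀ a ∈ l, a ∈ D) (h3 : ∀ a ∈ l, ∀ b ∈ l, Commute a b)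
    (h4 : l.prod = 1) (h5 : l.length < 8) : l = [] := by
  rcases H.h.lev.rel_min l h1 h2 h3 (by intro e _; rw [h4]; exact Commute.one_left _) with h | h
  · exact h
  · omega

theorem prod_of_rel (H : Hyp24 D N) (T : T3 D d1 d2 d3) {l : List G} (hl : Rel (F3 D d1 d2 d3) l) :
    ∃ w, (w = 1 ∨ w = d1 ∨ w = d2 ∨ w = d1 * d2) ∧ (l.prod = w ∨ l.prod = d3 * w) := by
  apply cent8 H T hl.cent
  · exact (commute_prod (fun y hy => (mem_F3.1 (hl.mem y hy)).2.2.1)).symm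
  · exact (commute_prod (fun y hy => (mem_F3.1 (hl.mem y hy)).2.2.2.1)).symm
  · exact (commute_prod (fun y hy => (mem_F3.1 (hl.mem y hy)).2.2.2.2)).symm

theorem cons_false (H : Hyp24 D N) (T : T3 D d1 d2 d3) {l : List G} (hnd : l.Nodup) (hm : ∀ x ∈ l, x ∈ F3 D d1 d2 d3)
    (hc : ∀ x ∈ l, ∀ y ∈ l, Commute x y) (h5 : l.length < 7) (h : l.prod = d1) : False := by
  have h1 := no_short H (d1 :: l) (List.nodup_cons.2 ⟨fun h => (mem_F3.1 (hm _ h)).2.1.1 rfl, hnd⟩) (by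
    intro a ha
    rcases List.mem_cons.1 ha with rfl | ha
    · exact T.m1
    · exact F3_sub (hm a ha)) (by
    intro a ha b hb
    rw [List.mem_cons] at ha hb
    rcases ha with ha | ha <;> rcases hb with hb | hb
    · rw [ha, hb]
    · rw [ha]; exact (mem_F3.1 (hm b hb)).2.2.1
    · rw [hb]; exact (mem_F3.1 (hm a ha)).2.2.1.symm
    · exact hc a ha b hb) (by rw [List.prod_cons, h]; exact H.h.lev.tri.sq d1 T.m1) (by simp; omega)
  exact List.cons_ne_nil _ _ h1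

theorem mul3 (T : T3 D d1 d2 d3) : d3 * (d1 * d2) = d1 * d2 * d3 := (T.c13.symm.mul_right T.c23.symm).eq

theorem j_notMem (H : Hyp24 D N) (T : T3 D d1 d2 d3) : d1 * d2 * d3 ∉ N := by
  intro h
  exact H.hDN d3 T.m3 ((N.mul_mem_cancel_left (H.pair_mem T.m1 T.m2)).1 h)

/-- lines: five members with product `j` -/
theorem line (H : Hyp24 D N) (T : T3 D d1 d2 d3) : ∃ l : List G, (∀ x ∈ l, x ∈ F3 D d1 d2 d3) ∧ l.length = 5 ∧ l.prod = d1 * d2 * d3 := by
  have hE := (H.h.C T.m1).C T.h2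
  obtain ⟨l, hl, hll, hlC⟩ := block_through hE T.h3
  have hlF : ∀ x ∈ l, x ∈ F3 D d1 d2 d3 := hlC
  have hnd : l.Nodup := (List.nodup_cons.1 hl.nodup).2
  have hcc : ∀ x ∈ l, ∀ y ∈ l, Commute x y := fun x hx y hy => hl.comm x (by simp [hx]) y (by simp [hy])
  have hrel : Rel (F3 D d1 d2 d3) l := by
    refine ⟨hnd, hlF, hcc, fun e he => ?_⟩
    have h1 := hl.cent e he.1
    rw [List.prod_cons] at h1
    have h2 : Commute (d3 * (d3 * l.prod)) e := Commute.mul_left he.2.2 h1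
    rwa [← mul_assoc, H.h.lev.tri.sq d3 T.m3, one_mul] at h2
  have hN : l.prod ∉ N := by
    rw [H.list_mem l (fun y hy => F3_sub (hlF y hy)), hll]; decide
  obtain ⟨w, hw, hlw⟩ := prod_of_rel H T hrel
  refine ⟨l, hlF, hll, ?_⟩
  have T' := T.rot
  have T'' := T'.rot
  rcases hlw with hlw | hlw
  · exfalso
    rcases hw with e | e | e | e
    · rw [hlw, e] at hN; exact hN N.one_mem
    · exact cons_false H T hnd hlF hcc (by omega) (hlw.trans e)
    · exact cons_false H T' hnd (by rw [F3_rot]; exact hlF) hcc (by omega) (hlw.trans e)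
    · rw [hlw, e] at hN; exact hN (H.pair_mem T.m1 T.m2)
  · rcases hw with e | e | e | e
    · exfalso
      rw [e, mul_one] at hlw
      exact cons_false H T'' hnd (by rw [F3_rot, F3_rot]; exact hlF) hcc (by omega) hlw
    · exfalso; rw [hlw, e] at hN; exact hN (H.pair_mem T.m3 T.m1)
    · exfalso; rw [hlw, e] at hN; exact hN (H.pair_mem T.m3 T.m2)
    · rw [hlw, e]; exact mul3 T

theorem hexa (H : Hyp24 D N) (T : T3 D d1 d2 d3) : d3 * d1 ∈ Subgroup.closure (F3 D d1 d2 d3) ∨ d3 * d2 ∈ Subgroup.closure (F3 D d1 d2 d3) := by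
  have hE := (H.h.C T.m1).C T.h2
  obtain ⟨l, hl, hll⟩ := hept hE T.h3
  have hlF : ∀ x ∈ l, x ∈ F3 D d1 d2 d3 := mem_C_of_rel hl
  have hnd : l.Nodup := (List.nodup_cons.1 hl.nodup).2
  have hcc : ∀ x ∈ l, ∀ y ∈ l, Commute x y := fun x hx y hy => hl.comm x (by simp [hx]) y (by simp [hy])
  have hrel : Rel (F3 D d1 d2 d3) l := by
    refine ⟨hnd, hlF, hcc, fun e he => ?_⟩
    have h1 := hl.cent e he.1
    rw [List.prod_cons] at h1
    have h2 : Commute (d3 * (d3 * l.prod)) e := Commute.mul_left he.2.2 h1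
    rwa [← mul_assoc, H.h.lev.tri.sq d3 T.m3, one_mul] at h2
  have hN : l.prod ∈ N := by
    rw [H.list_mem l (fun y hy => F3_sub (hlF y hy)), hll]; decide
  have hm : l.prod ∈ Subgroup.closure (F3 D d1 d2 d3) :=
    Subgroup.list_prod_mem _ (fun y hy => Subgroup.subset_closure (hlF y hy))
  have hp : ∀ w, w ∈ D → w ∈ N → False := fun w hw => H.hDN w hw
  obtain ⟨w, hw, hlw⟩ := prod_of_rel H T hrel
  rcases hlw with hlw | hlw
  · rcases hw with e | e | e | e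
    · exfalso
      have := no_short H l hnd (fun a ha => F3_sub (hlF a ha)) hcc (hlw.trans e) (by omega)
      rw [this] at hll
      simp at hll
    · exfalso; rw [hlw, e] at hN; exact hp _ T.m1 hN
    · exfalso; rw [hlw, e] at hN; exact hp _ T.m2 hN
    · -- `d3` would be central in the level 1 set
      exfalso
      obtain ⟨y, hy, hxy⟩ := hE.lev.partner T.h3
      have h1 := hl.cent y hy
      rw [List.prod_cons, hlw, e] at h1
      have h2 : Commute (d1 * d2) y := (hy.1.2.2).mul_left hy.2.2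
      apply hxy
      have h3 : d3 = d3 * (d1 * d2) * (d1 * d2)⁻¹ := by group
      rw [h3]
      exact h1.mul_left h2.inv_left
  · rcases hw with e | e | e | e
    · exfalso; rw [hlw, e, mul_one] at hN; exact hp _ T.m3 hN
    · left
      have h1 : d3 * d1 = l.prod := by rw [hlw, e]
      rw [h1]; exact hm
    · right
      have h1 : d3 * d2 = l.prod := by rw [hlw, e]
      rw [h1]; exact hm
    · exfalso
      rw [hlw, e, mul3 T] at hN
      exact j_notMem H T hN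

theorem mem_F (H : Hyp24 D N) (T : T3 D d1 d2 d3) : d1 ∈ Subgroup.closure (F3 D d1 d2 d3) ∧ d2 ∈ Subgroup.closure (F3 D d1 d2 d3) ∧
    d3 ∈ Subgroup.closure (F3 D d1 d2 d3) := by
  have ht := H.h.lev.tri
  have i1 := H92.Tri.inv_eq ht T.m1
  have i2 := H92.Tri.inv_eq ht T.m2
  have i3 := H92.Tri.inv_eq ht T.m3
  have T' := T.rot
  have T'' := T'.rot
  have a3 := hexa H T
  have a1 := hexa H T'
  have a2 := hexa H T''
  rw [F3_rot] at a1
  rw [F3_rot, F3_rot] at a2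
  obtain ⟨l, hlF, -, hlp⟩ := line H T
  have hj : d1 * d2 * d3 ∈ Subgroup.closure (F3 D d1 d2 d3) := by
    rw [← hlp]
    exact Subgroup.list_prod_mem _ (fun y hy => Subgroup.subset_closure (hlF y hy))
  set P := Subgroup.closure (F3 D d1 d2 d3) with hP
  -- symmetric forms
  have s12 : d1 * d2 ∈ P ↔ d2 * d1 ∈ P := by rw [T.c12.eq]
  have s13 : d1 * d3 ∈ P ↔ d3 * d1 ∈ P := by rw [T.c13.eq]
  have s23 : d2 * d3 ∈ P ↔ d3 * d2 ∈ P := by rw [T.c23.eq]
  have q1 : d1 * d2 ∈ P → d1 * d3 ∈ P → d2 * d3 ∈ P := by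
    intro x y
    have := P.mul_mem (P.inv_mem x) y
    have e : (d1 * d2)⁻¹ * (d1 * d3) = d2 * d3 := by
      rw [_root_.mul_inv_rev, i2]; group
    rwa [e] at this
  have q2 : d2 * d1 ∈ P → d2 * d3 ∈ P → d1 * d3 ∈ P := by
    intro x y
    have := P.mul_mem (P.inv_mem x) y
    have e : (d2 * d1)⁻¹ * (d2 * d3) = d1 * d3 := by
      rw [_root_.mul_inv_rev, i1]; group
    rwa [e] at this
  have q3 : d3 * d1 ∈ P → d3 * d2 ∈ P → d1 * d2 ∈ P := by
    intro x y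
    have := P.mul_mem (P.inv_mem x) y
    have e : (d3 * d1)⁻¹ * (d3 * d2) = d1 * d2 := by
      rw [_root_.mul_inv_rev, i1]; group
    rwa [e] at this
  have r2 : d1 * d2 ∈ P → d2 * d3 ∈ P → d1 * d3 ∈ P := fun a c => q2 (s12.1 a) c
  have r3 : d1 * d3 ∈ P → d2 * d3 ∈ P → d1 * d2 ∈ P := fun b c => q3 (s13.1 b) (s23.1 c)
  rw [← s13, ← s23] at a3
  rw [← s12] at a2
  have all : d1 * d2 ∈ P ∧ d1 * d3 ∈ P ∧ d2 * d3 ∈ P := by
    rcases a1 with x | x <;> rcases a2 with y | y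
    · exact ⟨x, r2 x y, y⟩
    · rcases a3 with z | z
      · exact ⟨x, z, q1 x z⟩
      · exact ⟨x, r2 x z, z⟩
    · exact ⟨r3 x y, x, y⟩
    · exact ⟨y, x, q1 y x⟩
  obtain ⟨b12, b13, b23⟩ := all
  refine ⟨?_, ?_, ?_⟩
  · have := P.mul_mem hj (P.inv_mem b23)
    have e : d1 * d2 * d3 * (d2 * d3)⁻¹ = d1 := by group
    rwa [e] at this
  · have := P.mul_mem (P.inv_mem b13) hj
    have e : (d1 * d3)⁻¹ * (d1 * d2 * d3) = d2 := by
      calc (d1 * d3)⁻¹ * (d1 * d2 * d3) = d3⁻¹ * (d2 * d3) := by group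
        _ = d3⁻¹ * (d3 * d2) := by rw [T.c23.eq]
        _ = d2 := by group
    rwa [e] at this
  · have := P.mul_mem (P.inv_mem b12) hj
    have e : (d1 * d2)⁻¹ * (d1 * d2 * d3) = d3 := by group
    rwa [e] at this

theorem comm_F {g : G} (hg : g ∈ Subgroup.closure (F3 D d1 d2 d3)) : Commute g d1 ∧ Commute g d2 ∧ Commute g d3 :=
  ⟨centralizes_of_closure (fun y hy => (mem_F3.1 hy).2.2.1.symm) hg, centralizes_of_closure (fun y hy => (mem_F3.1 hy).2.2.2.1.symm) hg,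
    centralizes_of_closure (fun y hy => (mem_F3.1 hy).2.2.2.2.symm) hg⟩

/-- elements commuting with three commuting members -/
theorem cent3 (H : Hyp24 D N) (T : T3 D d1 d2 d3) {α : G} (c1 : Commute α d1) (c2 : Commute α d2) (c3 : Commute α d3) :
    α ∈ Subgroup.closure (F3 D d1 d2 d3) := by
  have h := H.h
  obtain ⟨m1, m2, m3⟩ := mem_F H T
  have hF := h.C T.m1
  have hα : α ∈ Subgroup.closure (H92.Tri.C D d1) := by
    rw [H92.Exact.centralizer_three h H.hcl H.hZ T.m1, Subgroup.mem_centralizer_singleton_iff]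
    exact c1
  have ht := hF.lev.tri
  obtain ⟨g, hg, c, hc, hgy⟩ := H92.Exact.exact_two hF (α := α) (fun y hy => conj_closure ht hα hy) (fun y hy => by
    have := conj_closure ht (Subgroup.inv_mem _ hα) hy
    rwa [inv_inv] at this) (fun ζ _ hζy => centralizes_of_closure (fun y hy => (hζy y hy).symm) hα) T.h2 T.h3 c2 c3
  have hg' : g ∈ Subgroup.closure (F3 D d1 d2 d3) := hg
  have hcP : c ∈ Subgroup.closure (F3 D d1 d2 d3) := by
    rcases hc with rfl | rfl | rfl | rfl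
    · exact Subgroup.one_mem _
    · exact m2
    · exact m3
    · exact Subgroup.mul_mem _ m2 m3
  have c4 : Commute (c * (g⁻¹ * α)) d1 :=
    (comm_F hcP).1.mul_left (((comm_F hg').1.inv_left).mul_left c1)
  have h2 := (center_H h H.hcl H.hZ T.m1).2.1 _ hgy c4
  have h3 : α = g * (c⁻¹ * (c * (g⁻¹ * α))) := by group
  rw [h3]
  refine Subgroup.mul_mem _ hg' (Subgroup.mul_mem _ (Subgroup.inv_mem _ hcP) ?_)
  rcases h2 with h2 | h2 <;> rw [h2]
  · exact Subgroup.one_mem _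
  · exact m1

end H86.Fi24J
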