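import Mathlib
import Cfsg.Prelude.Def_FischerSpaces
import Cfsg.Agent.Lib.H86.Fi24J
import Cfsg.Agent.Lib.H92.PSUEquiv

/-! The centralizer of three commuting members in a level 3 group: the quasisimple group. -/

set_option autoImplicit false
set_option linter.dupNamespace false
set_option linter.unusedSectionVars false
set_option linter.style.haveILetI false
set_option linter.unusedVariables false
open Cfsg

namespace H86.Fi24K
open H92.Tri H92.Pol H92.Lev H92.RelList H92.Setup H92.Geo H92.Inv2 H92.Inv3 H92.M24 H92.M23b H92.Uniq H92.Out24 H92.QS H92.Simple H92.Cover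
open H86.Fi24J
open scoped commutatorElement

variable {G : Type*} [Group G] {D : Set G} {N : Subgroup G} {d1 d2 d3 : G}

/-- the four-group -/
def E3 (d1 d2 d3 : G) : Subgroup G := Subgroup.closure ({d1 * d2, d1 * d3} : Set G)

/-- the joint centralizer in `N` -/
def KK (N : Subgroup G) (d1 d2 d3 : G) : Subgroup G := N ⊓ Subgroup.centralizer (E3 d1 d2 d3 : Set G)

theorem mem_cent_E3 {g : G} : g ∈ Subgroup.centralizer (E3 d1 d2 d3 : Set G) ↔ Commute g (d1 * d2) ∧ Commute g (d1 * d3) := by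
  rw [E3, Subgroup.centralizer_closure, Subgroup.mem_centralizer_iff]
  constructor
  · intro h
    exact ⟨(h _ (by simp)).symm, (h _ (by simp)).symm⟩
  · rintro ⟨h1, h2⟩ x (rfl | hx)
    · exact h1.symm.eq
    · rw [Set.mem_singleton_iff.1 hx]; exact h2.symm.eq

theorem comm_of_pairs (H : Hyp24 D N) (T : T3 D d1 d2 d3) {g : G} (h1 : Commute g (d1 * d2)) (h2 : Commute g (d1 * d3)) :
    Commute g d1 ∧ Commute g d2 ∧ Commute g d3 := by
  have h3 : d3 ∈ H92.Tri.C D d1 := ⟨T.m3, T.n13.symm, T.c13⟩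
  rcases pair_conj H.h.lev H.hcl T.m1 T.h2 h1 with ⟨a, b⟩ | ⟨a, b⟩
  · rcases pair_conj H.h.lev H.hcl T.m1 h3 h2 with ⟨a', c⟩ | ⟨a', c⟩
    · exact ⟨mul_inv_eq_iff_eq_mul.1 a, mul_inv_eq_iff_eq_mul.1 b, mul_inv_eq_iff_eq_mul.1 c⟩
    · exact absurd (a.symm.trans a') T.n13
  · rcases pair_conj H.h.lev H.hcl T.m1 h3 h2 with ⟨a', c⟩ | ⟨a', c⟩
    · exact absurd (a'.symm.trans a) T.n12
    · exact absurd (a.symm.trans a') T.n23

theorem mem_KK (H : Hyp24 D N) (T : T3 D d1 d2 d3) {g : G} : g ∈ KK N d1 d2 d3 ↔ g ∈ N ∧ g ∈ Subgroup.closure (F3 D d1 d2 d3) := by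
  rw [KK, Subgroup.mem_inf, mem_cent_E3]
  constructor
  · rintro ⟨h0, h1, h2⟩
    obtain ⟨a, b, c⟩ := comm_of_pairs H T h1 h2
    exact ⟨h0, cent3 H T a b c⟩
  · rintro ⟨h0, h1⟩
    obtain ⟨a, b, c⟩ := comm_F h1
    exact ⟨h0, a.mul_right b, a.mul_right c⟩

theorem mem_KK' (H : Hyp24 D N) (T : T3 D d1 d2 d3) {g : G} : g ∈ KK N d1 d2 d3 ↔ g ∈ N ∧ Commute g d1 ∧ Commute g d2 ∧ Commute g d3 := by
  rw [mem_KK H T]
  constructor
  · rintro ⟨h0, h1⟩
    exact ⟨h0, comm_F h1⟩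
  · rintro ⟨h0, a, b, c⟩
    exact ⟨h0, cent3 H T a b c⟩

theorem jj (H : Hyp24 D N) (T : T3 D d1 d2 d3) : (d1 * d2 * d3) * (d1 * d2 * d3) = 1 := by
  have ht := H.h.lev.tri
  calc (d1 * d2 * d3) * (d1 * d2 * d3) = d1 * (d2 * d3 * d1) * (d2 * d3) := by group
    _ = d1 * (d1 * (d2 * d3)) * (d2 * d3) := by rw [(T.c12.mul_right T.c13).eq]
    _ = (d1 * d1) * (d2 * (d3 * d2) * d3) := by group
    _ = (d1 * d1) * ((d2 * d2) * (d3 * d3)) := by rw [← T.c23.eq]; group
    _ = 1 := by rw [ht.sq d1 T.m1, ht.sq d2 T.m2, ht.sq d3 T.m3, one_mul, one_mul]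

theorem j_mem (H : Hyp24 D N) (T : T3 D d1 d2 d3) : d1 * d2 * d3 ∈ Subgroup.closure (F3 D d1 d2 d3) := by
  obtain ⟨m1, m2, m3⟩ := mem_F H T
  exact Subgroup.mul_mem _ (Subgroup.mul_mem _ m1 m2) m3

theorem j_comm {g : G} (hg : g ∈ Subgroup.closure (F3 D d1 d2 d3)) : Commute (d1 * d2 * d3) g := by
  obtain ⟨a, b, c⟩ := comm_F hg
  exact ((a.mul_right b).mul_right c).symm

/-- the generating set of the quasisimple group -/
def S3 (D : Set G) (d1 d2 d3 : G) : Set G := (fun f => d1 * d2 * d3 * f) '' F3 D d1 d2 d3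

theorem S3_KK (H : Hyp24 D N) (T : T3 D d1 d2 d3) : Subgroup.closure (S3 D d1 d2 d3) ≤ KK N d1 d2 d3 := by
  rw [Subgroup.closure_le]
  rintro _ ⟨f, hf, rfl⟩
  show d1 * d2 * d3 * f ∈ KK N d1 d2 d3
  rw [mem_KK H T]
  refine ⟨H.mul_mem (j_notMem H T) (H.hDN f (F3_sub hf)), Subgroup.mul_mem _ (j_mem H T) (Subgroup.subset_closure hf)⟩

theorem or_S3 (H : Hyp24 D N) (T : T3 D d1 d2 d3) : ∀ l : List G, (∀ a ∈ l, a ∈ F3 D d1 d2 d3) →
    l.prod ∈ Subgroup.closure (S3 D d1 d2 d3) ∨ d1 * d2 * d3 * l.prod ∈ Subgroup.closure (S3 D d1 d2 d3) := by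
  intro l
  induction l with
  | nil => intro _; left; rw [List.prod_nil]; exact Subgroup.one_mem _
  | cons a l ih =>
    intro hl
    have ha := hl a (by simp)
    have hS : d1 * d2 * d3 * a ∈ Subgroup.closure (S3 D d1 d2 d3) := Subgroup.subset_closure ⟨a, ha, rfl⟩
    have hja : Commute (d1 * d2 * d3) a := j_comm (Subgroup.subset_closure ha)
    rw [List.prod_cons]
    rcases ih (fun x hx => hl x (by simp [hx])) with h | h
    · right
      have := Subgroup.mul_mem _ hS h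
      rwa [mul_assoc (d1 * d2 * d3) a] at this
    · left
      have h1 := Subgroup.mul_mem _ hS h
      have e : d1 * d2 * d3 * a * (d1 * d2 * d3 * l.prod) = a * l.prod := by
        calc d1 * d2 * d3 * a * (d1 * d2 * d3 * l.prod) = d1 * d2 * d3 * (a * (d1 * d2 * d3)) * l.prod := by group
          _ = d1 * d2 * d3 * (d1 * d2 * d3 * a) * l.prod := by rw [hja.eq]
          _ = (d1 * d2 * d3) * (d1 * d2 * d3) * (a * l.prod) := by group
          _ = a * l.prod := by rw [jj H T, one_mul]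
      rwa [e] at h1

theorem closure_or (H : Hyp24 D N) (T : T3 D d1 d2 d3) {g : G} (hg : g ∈ Subgroup.closure (F3 D d1 d2 d3)) :
    g ∈ Subgroup.closure (S3 D d1 d2 d3) ∨ d1 * d2 * d3 * g ∈ Subgroup.closure (S3 D d1 d2 d3) := by
  obtain ⟨l, hl, rfl⟩ := exists_list_of_closure (lg H T).lev.tri hg
  exact or_S3 H T l hl

theorem closure_S3 (H : Hyp24 D N) (T : T3 D d1 d2 d3) : Subgroup.closure (S3 D d1 d2 d3) = KK N d1 d2 d3 := by
  apply le_antisymm (S3_KK H T)
  intro g hg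
  rw [mem_KK H T] at hg
  rcases closure_or H T hg.2 with h | h
  · exact h
  · exfalso
    have h1 := S3_KK H T h
    rw [mem_KK H T] at h1
    exact j_notMem H T ((N.mul_mem_cancel_right hg.1).1 h1.1)

theorem prod_map_j (z : G) : ∀ l : List G, (∀ a ∈ l, Commute z a) → (l.map (fun a => z * a)).prod = z ^ l.length * l.prod := by
  intro l
  induction l with
  | nil => intro _; simp
  | cons a l ih =>
    intro hl
    rw [List.map_cons, List.prod_cons, ih (fun x hx => hl x (by simp [hx])), List.prod_cons, List.length_cons, pow_succ']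
    have h1 : Commute (z ^ l.length) a := (hl a (by simp)).pow_left _
    calc z * a * (z ^ l.length * l.prod) = z * (a * z ^ l.length) * l.prod := by group
      _ = z * (z ^ l.length * a) * l.prod := by rw [h1.eq]
      _ = z * z ^ l.length * (a * l.prod) := by group

theorem perfect (H : Hyp24 D N) (T : T3 D d1 d2 d3) : Group.IsPerfect ↥(KK N d1 d2 d3) := by
  rw [← closure_S3 H T]
  have ht := H.h.lev.tri
  have hF := (lg H T).lev
  obtain ⟨l, hl, hll, hlp⟩ := line H T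
  have hjF : ∀ f ∈ F3 D d1 d2 d3, Commute (d1 * d2 * d3) f := fun f hf => j_comm (Subgroup.subset_closure hf)
  apply perfect_of_odd (S3 D d1 d2 d3) ?_ ?_ (l.map (fun a => d1 * d2 * d3 * a))
  · intro x hx
    obtain ⟨a, ha, rfl⟩ := List.mem_map.1 hx
    exact ⟨a, hl a ha, rfl⟩
  · rw [List.length_map, hll]; decide
  · rw [prod_map_j _ l (fun a ha => hjF a (hl a ha)), hll, hlp]
    have e : (d1 * d2 * d3) ^ 5 * (d1 * d2 * d3) = ((d1 * d2 * d3) * (d1 * d2 * d3)) ^ 3 := by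
      rw [← pow_succ, ← pow_two, ← pow_mul]
    rw [e, jj H T, one_pow]
  · rintro _ ⟨f, hf, rfl⟩
    show d1 * d2 * d3 * f * (d1 * d2 * d3 * f) = 1
    calc d1 * d2 * d3 * f * (d1 * d2 * d3 * f) = d1 * d2 * d3 * (f * (d1 * d2 * d3)) * f := by group
      _ = d1 * d2 * d3 * (d1 * d2 * d3 * f) * f := by rw [(hjF f hf).eq]
      _ = (d1 * d2 * d3) * (d1 * d2 * d3) * (f * f) := by group
      _ = 1 := by rw [jj H T, ht.sq f (F3_sub hf), one_mul]
  · rintro _ ⟨f, hf, rfl⟩ _ ⟨f', hf', rfl⟩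
    obtain ⟨g, hg, he⟩ := hF.trans hf hf'
    have hjg : Commute (d1 * d2 * d3) g := j_comm hg
    have e1 : g * (d1 * d2 * d3 * f) * g⁻¹ = d1 * d2 * d3 * f' := by
      rw [← he]
      calc g * (d1 * d2 * d3 * f) * g⁻¹ = (g * (d1 * d2 * d3)) * f * g⁻¹ := by group
        _ = (d1 * d2 * d3 * g) * f * g⁻¹ := by rw [hjg.eq]
        _ = d1 * d2 * d3 * (g * f * g⁻¹) := by group
    rcases closure_or H T hg with h | h
    · exact ⟨g, h, e1⟩
    · refine ⟨_, h, ?_⟩
      have hjx : Commute (d1 * d2 * d3) (d1 * d2 * d3 * f') := (Commute.refl _).mul_right (hjF f' hf')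
      calc d1 * d2 * d3 * g * (d1 * d2 * d3 * f) * (d1 * d2 * d3 * g)⁻¹
          = d1 * d2 * d3 * (g * (d1 * d2 * d3 * f) * g⁻¹) * (d1 * d2 * d3)⁻¹ := by group
        _ = d1 * d2 * d3 * (d1 * d2 * d3 * f') * (d1 * d2 * d3)⁻¹ := by rw [e1]
        _ = d1 * d2 * d3 * f' := by rw [hjx.eq]; group

/-- elements of the centre of the closure -/
theorem central_iff (H : Hyp24 D N) (T : T3 D d1 d2 d3) (z : ↥(Subgroup.closure (F3 D d1 d2 d3))) :
    z ∈ Subgroup.center ↥(Subgroup.closure (F3 D d1 d2 d3)) ↔ ∀ y ∈ F3 D d1 d2 d3, Commute (z : G) y := by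
  rw [Subgroup.mem_center_iff]
  constructor
  · intro h y hy
    exact (congrArg Subtype.val (h ⟨y, Subgroup.subset_closure hy⟩)).symm
  · intro h g
    exact Subtype.ext (centralizes_of_closure (fun y hy => (h y hy).symm) g.2).eq

theorem E3_le (H : Hyp24 D N) (T : T3 D d1 d2 d3) : E3 d1 d2 d3 ≤ KK N d1 d2 d3 := by
  rw [E3, Subgroup.closure_le]
  rintro x (rfl | hx)
  · exact (mem_KK' H T).2 ⟨H.pair_mem T.m1 T.m2, (Commute.refl d1).mul_left T.c12.symm, T.c12.mul_left (Commute.refl d2), T.c13.mul_left T.c23⟩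
  · rw [Set.mem_singleton_iff.1 hx]
    exact (mem_KK' H T).2 ⟨H.pair_mem T.m1 T.m3, (Commute.refl d1).mul_left T.c13.symm, T.c12.mul_left T.c23.symm, T.c13.mul_left (Commute.refl d3)⟩

theorem E3_comm (H : Hyp24 D N) (T : T3 D d1 d2 d3) {x g : G} (hx : x ∈ E3 d1 d2 d3) (hg : Commute g d1 ∧ Commute g d2 ∧ Commute g d3) : Commute x g := by
  apply centralizes_of_closure _ hx
  rintro y (rfl | hy)
  · exact (hg.1.mul_right hg.2.1).symm
  · rw [Set.mem_singleton_iff.1 hy]; exact (hg.1.mul_right hg.2.2).symm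

/-- an element of `N` centralizing the common neighbours and `d1, d2, d3` lies in the four-group -/
theorem mem_E3 (H : Hyp24 D N) (T : T3 D d1 d2 d3) {z : G} (hzN : z ∈ N) (hz : ∀ y ∈ F3 D d1 d2 d3, Commute z y) (c1 : Commute z d1)
    (c2 : Commute z d2) (c3 : Commute z d3) : z ∈ E3 d1 d2 d3 := by
  have ht := H.h.lev.tri
  have a12 : d1 * d2 ∈ E3 d1 d2 d3 := Subgroup.subset_closure (by simp)
  have a13 : d1 * d3 ∈ E3 d1 d2 d3 := Subgroup.subset_closure (by simp)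
  obtain ⟨w, hw, hlw⟩ := cent8 H T hz c1 c2 c3
  rcases hlw with hlw | hlw
  · rcases hw with e | e | e | e
    · rw [hlw, e]; exact Subgroup.one_mem _
    · rw [hlw, e] at hzN; exact absurd hzN (H.hDN _ T.m1)
    · rw [hlw, e] at hzN; exact absurd hzN (H.hDN _ T.m2)
    · rw [hlw, e]; exact a12
  · rcases hw with e | e | e | e
    · rw [hlw, e, mul_one] at hzN; exact absurd hzN (H.hDN _ T.m3)
    · rw [hlw, e, T.c13.symm.eq]; exact a13
    · rw [hlw, e]
      have := Subgroup.mul_mem _ (Subgroup.inv_mem _ a13) a12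
      have e2 : (d1 * d3)⁻¹ * (d1 * d2) = d3 * d2 := by
        rw [_root_.mul_inv_rev, H92.Tri.inv_eq ht T.m3]; group
      rwa [e2] at this
    · rw [hlw, e, mul3 T] at hzN; exact absurd hzN (j_notMem H T)

theorem mem_center_KK (H : Hyp24 D N) (T : T3 D d1 d2 d3) (z : ↥(KK N d1 d2 d3)) :
    z ∈ Subgroup.center ↥(KK N d1 d2 d3) ↔ (z : G) ∈ E3 d1 d2 d3 := by
  rw [Subgroup.mem_center_iff]
  constructor
  · intro h
    have hz := (mem_KK' H T).1 z.2
    apply mem_E3 H T hz.1 ?_ hz.2.1 hz.2.2.1 hz.2.2.2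
    intro y hy
    have h1 : d1 * d2 * d3 * y ∈ KK N d1 d2 d3 := S3_KK H T (Subgroup.subset_closure ⟨y, hy, rfl⟩)
    have h2 : Commute (z : G) (d1 * d2 * d3 * y) := (congrArg Subtype.val (h ⟨_, h1⟩)).symm
    have h3 : Commute (z : G) (d1 * d2 * d3) := (hz.2.1.mul_right hz.2.2.1).mul_right hz.2.2.2
    have e : y = (d1 * d2 * d3)⁻¹ * (d1 * d2 * d3 * y) := by group
    rw [e]
    exact h3.inv_right.mul_right h2
  · intro h g
    exact Subtype.ext (E3_comm H T h ((mem_KK' H T).1 g.2).2).symm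

theorem center_map (H : Hyp24 D N) (T : T3 D d1 d2 d3) : (Subgroup.center ↥(KK N d1 d2 d3)).map (KK N d1 d2 d3).subtype = E3 d1 d2 d3 := by
  ext x
  constructor
  · rintro ⟨z, hz, rfl⟩
    exact (mem_center_KK H T z).1 hz
  · intro hx
    exact ⟨⟨x, E3_le H T hx⟩, (mem_center_KK H T _).2 hx, rfl⟩

/-- the central quotients agree -/
theorem quot_equiv (H : Hyp24 D N) (T : T3 D d1 d2 d3) : Nonempty ((↥(KK N d1 d2 d3) ⧸ Subgroup.center ↥(KK N d1 d2 d3)) ≃*
    (↥(Subgroup.closure (F3 D d1 d2 d3)) ⧸ Subgroup.center ↥(Subgroup.closure (F3 D d1 d2 d3)))) := by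
  have hle : KK N d1 d2 d3 ≤ Subgroup.closure (F3 D d1 d2 d3) := fun g hg => ((mem_KK H T).1 hg).2
  let φ : ↥(KK N d1 d2 d3) →* ↥(Subgroup.closure (F3 D d1 d2 d3)) ⧸ Subgroup.center ↥(Subgroup.closure (F3 D d1 d2 d3)) :=
    (QuotientGroup.mk' _).comp (Subgroup.inclusion hle)
  have hker : φ.ker = Subgroup.center ↥(KK N d1 d2 d3) := by
    ext z
    rw [MonoidHom.mem_ker]
    show (QuotientGroup.mk (Subgroup.inclusion hle z) : ↥(Subgroup.closure (F3 D d1 d2 d3)) ⧸ Subgroup.center ↥(Subgroup.closure (F3 D d1 d2 d3))) = 1 ↔ _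
    rw [QuotientGroup.eq_one_iff, central_iff H T, mem_center_KK H T]
    have hz := (mem_KK' H T).1 z.2
    constructor
    · intro h
      exact mem_E3 H T hz.1 h hz.2.1 hz.2.2.1 hz.2.2.2
    · intro h y hy
      exact E3_comm H T h (comm_F (Subgroup.subset_closure hy))
  have hsurj : Function.Surjective φ := by
    intro q
    obtain ⟨g, rfl⟩ := QuotientGroup.mk_surjective q
    by_cases hg : (g : G) ∈ N
    · exact ⟨⟨g, (mem_KK H T).2 ⟨hg, g.2⟩⟩, rfl⟩
    · have h1 : (d1 * d2 * d3) * (g : G) ∈ KK N d1 d2 d3 :=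
        (mem_KK H T).2 ⟨H.mul_mem (j_notMem H T) hg, Subgroup.mul_mem _ (j_mem H T) g.2⟩
      refine ⟨⟨_, h1⟩, ?_⟩
      show (QuotientGroup.mk (Subgroup.inclusion hle ⟨_, h1⟩) : ↥(Subgroup.closure (F3 D d1 d2 d3)) ⧸ Subgroup.center ↥(Subgroup.closure (F3 D d1 d2 d3))) = QuotientGroup.mk g
      rw [QuotientGroup.eq, central_iff H T]
      intro y hy
      have e : ((((Subgroup.inclusion hle ⟨_, h1⟩)⁻¹ * g : ↥(Subgroup.closure (F3 D d1 d2 d3)))) : G) = (g : G)⁻¹ * (d1 * d2 * d3)⁻¹ * g := by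
        show ((d1 * d2 * d3) * (g : G))⁻¹ * g = _
        group
      rw [e]
      have hjg : Commute (d1 * d2 * d3) (g : G) := j_comm g.2
      have e2 : (g : G)⁻¹ * (d1 * d2 * d3)⁻¹ * g = (d1 * d2 * d3)⁻¹ := by
        rw [mul_assoc, hjg.inv_left.eq]; group
      rw [e2]
      exact (j_comm (Subgroup.subset_closure hy)).inv_left
  exact ⟨(QuotientGroup.quotientMulEquivOfEq hker.symm).trans (QuotientGroup.quotientKerEquivOfSurjective φ hsurj)⟩

theorem quasi (H : Hyp24 D N) (T : T3 D d1 d2 d3) : IsQuasisimple ↥(KK N d1 d2 d3) := by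
  obtain ⟨e⟩ := quot_equiv H T
  exact ⟨perfect H T, (e.isSimpleGroup_congr).2 (simple_zero (lg H T).lev)⟩

/-- the central quotient is the unitary group -/
theorem exists_psu (H : Hyp24 D N) (T : T3 D d1 d2 d3) : ∃ (F : Type) (_ : Field F) (_ : Fintype F), Fintype.card F = 4 ∧
    Nonempty ((↥(KK N d1 d2 d3) ⧸ Subgroup.center ↥(KK N d1 d2 d3)) ≃* PSU 6 F 2) := by
  obtain ⟨hT, F, i1, i2, τ, P⟩ := lg H T
  obtain ⟨e⟩ := H92.PSUEquiv.psu_equiv hT P
  obtain ⟨e'⟩ := quot_equiv H T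
  exact ⟨F, i1, i2, P.card, ⟨e'.trans e⟩⟩

/-- a subgroup whose commutators with a perfect group are central centralizes it -/
theorem comm_of_perfect {A : Type*} [Group A] (hA : Group.IsPerfect A) (φ : MulAut A) (h : ∀ k : A, ∀ m : A, Commute (φ k * k⁻¹) m) : ∀ k, φ k = k := by
  have h1 : commutator A ≤ ({ carrier := {k | φ k = k}
                              mul_mem' := fun {a b} ha hb => by
                                show φ (a * b) = a * b
                                rw [map_mul, show φ a = a from ha, show φ b = b from hb]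
                              one_mem' := map_one φ
                              inv_mem' := fun {a} ha => by
                                show φ a⁻¹ = a⁻¹
                                rw [map_inv, show φ a = a from ha] } : Subgroup A) := by
    rw [commutator_def, Subgroup.commutator_le]
    intro k _ l _
    show φ ⁅k, l⁆ = ⁅k, l⁆
    rw [map_commutatorElement]
    obtain ⟨z, hz, hzc⟩ : ∃ z, φ k = z * k ∧ ∀ m, Commute z m := ⟨φ k * k⁻¹, by group, h k⟩
    obtain ⟨w, hw, hwc⟩ : ∃ w, φ l = w * l ∧ ∀ m, Commute w m := ⟨φ l * l⁻¹, by group, h l⟩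
    rw [hz, hw, commutatorElement_def, commutatorElement_def]
    calc z * k * (w * l) * (z * k)⁻¹ * (w * l)⁻¹ = z * (k * w) * l * k⁻¹ * z⁻¹ * l⁻¹ * w⁻¹ := by group
      _ = z * (w * k) * l * k⁻¹ * z⁻¹ * l⁻¹ * w⁻¹ := by rw [(hwc k).eq]
      _ = z * (w * (k * l * k⁻¹)) * z⁻¹ * l⁻¹ * w⁻¹ := by group
      _ = w * (k * l * k⁻¹) * z * z⁻¹ * l⁻¹ * w⁻¹ := by rw [(hzc (w * (k * l * k⁻¹))).eq]
      _ = w * (k * l * k⁻¹ * l⁻¹) * w⁻¹ := by group
      _ = (k * l * k⁻¹ * l⁻¹) * w * w⁻¹ := by rw [(hwc (k * l * k⁻¹ * l⁻¹)).eq]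
      _ = k * l * k⁻¹ * l⁻¹ := by group
  intro k
  have h2 : k ∈ commutator A := by
    rw [Group.isPerfect_def.1 hA]; trivial
  exact h1 h2

end H86.Fi24K
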