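import Mathlib
import Cfsg.Prelude.Def_FischerSpaces
import Cfsg.Agent.Lib.H86.Fi24K
import Cfsg.Agent.S0815

/-! The centralizer of a product of three commuting members in the derived group of a level 3 group. -/

set_option autoImplicit false
set_option linter.dupNamespace false
set_option linter.unusedSectionVars false
set_option linter.style.haveILetI false
set_option linter.unusedVariables false
open Cfsg

namespace H86.Fi24L
open H92.Tri H92.Pol H92.Lev H92.RelList H92.Setup H92.Geo H92.Inv2 H92.Inv3 H92.M24 H92.M23b H92.Uniq H92.Out24 H92.QS H92.Simple H92.Cover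
open H86.Fi24J H86.Fi24K

variable {G : Type*} [Group G] {D : Set G} {N : Subgroup G} {d1 d2 d3 : G}

theorem map_center' {A B : Type*} [Group A] [Group B] (e : A ≃* B) : (Subgroup.center A).map e.toMonoidHom = Subgroup.center B := by
  ext b
  constructor
  · rintro ⟨a, ha, rfl⟩
    rw [SetLike.mem_coe, Subgroup.mem_center_iff] at ha
    rw [Subgroup.mem_center_iff]
    intro g
    show g * e a = e a * g
    obtain ⟨g', rfl⟩ := e.surjective g
    rw [← map_mul, ha, map_mul]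
  · intro hb
    rw [Subgroup.mem_center_iff] at hb
    refine ⟨e.symm b, ?_, e.apply_symm_apply b⟩
    rw [SetLike.mem_coe, Subgroup.mem_center_iff]
    intro g
    apply e.injective
    rw [map_mul, map_mul, e.apply_symm_apply]
    exact hb _

/-- the centralizer in `N` of the product -/
def CL (N : Subgroup G) (d1 d2 d3 : G) : Subgroup G := N ⊓ Subgroup.centralizer ({d1 * d2 * d3} : Set G)

theorem mem_CL {c : G} : c ∈ CL N d1 d2 d3 ↔ c ∈ N ∧ Commute c (d1 * d2 * d3) := by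
  rw [CL, Subgroup.mem_inf, Subgroup.mem_centralizer_singleton_iff]
  exact Iff.rfl

theorem KK_le (H : Hyp24 D N) (T : T3 D d1 d2 d3) : KK N d1 d2 d3 ≤ CL N d1 d2 d3 := by
  intro g hg
  obtain ⟨h0, a, b, c⟩ := (mem_KK' H T).1 hg
  exact mem_CL.2 ⟨h0, (a.mul_right b).mul_right c⟩

theorem triple (H : Hyp24 D N) (T : T3 D d1 d2 d3) {c : G} (hc : Commute c (d1 * d2 * d3)) {x : G} (hx : x = d1 ∨ x = d2 ∨ x = d3) :
    c * x * c⁻¹ = d1 ∨ c * x * c⁻¹ = d2 ∨ c * x * c⁻¹ = d3 := by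
  let l : List G := [d1, d2, d3]
  let l' : List G := l.map (fun y => c * y * c⁻¹)
  have hlS : ∀ y, y ∈ l ↔ y = d1 ∨ y = d2 ∨ y = d3 := by intro y; simp [l]
  have hnd : l.Nodup := by simp [l, T.n12, T.n13, T.n23]
  have hinj : Function.Injective (fun y : G => c * y * c⁻¹) := by
    intro a b hab; simpa using hab
  have hp : l.prod = l'.prod := by
    have e1 : l.prod = d1 * d2 * d3 := by simp [l, mul_assoc]
    have e2 : l'.prod = c * (d1 * d2 * d3) * c⁻¹ := by simp [l', l, mul_assoc]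
    rw [e1, e2, hc.eq, mul_inv_cancel_right]
  have hlD : ∀ y ∈ l, y ∈ D := by
    intro y hy
    rcases (hlS y).1 hy with rfl | rfl | rfl
    exacts [T.m1, T.m2, T.m3]
  have hlc : ∀ y ∈ l, ∀ z ∈ l, Commute y z := by
    intro y hy z hz
    rcases (hlS y).1 hy with rfl | rfl | rfl <;> rcases (hlS z).1 hz with rfl | rfl | rfl <;>
      first | exact Commute.refl _ | exact T.c12 | exact T.c13 | exact T.c23 | exact T.c12.symm | exact T.c13.symm | exact T.c23.symm
  have key := unique_short H.h.lev 3 le_rfl (by omega) l l' hnd hlD hlc (by simp [l]) (hnd.map hinj)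
    (by
      intro y hy
      obtain ⟨z, hz, rfl⟩ := List.mem_map.1 hy
      exact H.conj _ (hlD z hz))
    (by
      intro y hy y' hy'
      obtain ⟨z, hz, rfl⟩ := List.mem_map.1 hy
      obtain ⟨z', hz', rfl⟩ := List.mem_map.1 hy'
      have := (hlc z hz z' hz').map (MulAut.conj c)
      simpa using this)
    (by simp [l', l]) hp
  rw [← hlS, key]
  exact List.mem_map.2 ⟨x, (hlS x).2 hx, rfl⟩

theorem KK_conj (H : Hyp24 D N) (T : T3 D d1 d2 d3) {c g : G} (hc : c ∈ CL N d1 d2 d3) (hg : g ∈ KK N d1 d2 d3) : c * g * c⁻¹ ∈ KK N d1 d2 d3 := by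
  obtain ⟨hcN, hcj⟩ := mem_CL.1 hc
  obtain ⟨h0, k1, k2, k3⟩ := (mem_KK' H T).1 hg
  have hall : ∀ x, (x = d1 ∨ x = d2 ∨ x = d3) → Commute g x := by
    rintro x (rfl | rfl | rfl) <;> assumption
  have key : ∀ x, (x = d1 ∨ x = d2 ∨ x = d3) → Commute (c * g * c⁻¹) x := by
    intro x hx
    have h1 := hall _ (triple H T hcj.inv_left hx)
    have h2 : Commute (c * g * c⁻¹) (c * (c⁻¹ * x * c⁻¹⁻¹) * c⁻¹) := h1.map (MulAut.conj c).toMonoidHom
    have e : c * (c⁻¹ * x * c⁻¹⁻¹) * c⁻¹ = x := by group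
    rwa [e] at h2
  exact (mem_KK' H T).2 ⟨H.normal.conj_mem g h0 c, key d1 (by simp), key d2 (by simp), key d3 (by simp)⟩

theorem KK_normal (H : Hyp24 D N) (T : T3 D d1 d2 d3) : ((KK N d1 d2 d3).subgroupOf (CL N d1 d2 d3)).Normal :=
  ⟨fun g hg c => KK_conj H T c.2 hg⟩

theorem E3_normal (H : Hyp24 D N) (T : T3 D d1 d2 d3) : ((E3 d1 d2 d3).subgroupOf (CL N d1 d2 d3)).Normal := by
  refine ⟨fun x hx c => ?_⟩
  rw [Subgroup.mem_subgroupOf] at hx ⊢
  have hxK := E3_le H T hx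
  have hy := KK_conj H T c.2 hxK
  have h1 := (mem_center_KK H T ⟨_, hxK⟩).2 hx
  rw [Subgroup.mem_center_iff] at h1
  refine (mem_center_KK H T ⟨_, hy⟩).1 ?_
  rw [Subgroup.mem_center_iff]
  intro g
  have hg' : (c : G)⁻¹ * g * (c : G)⁻¹⁻¹ ∈ KK N d1 d2 d3 := KK_conj H T (Subgroup.inv_mem _ c.2) g.2
  have h2 : ((c : G)⁻¹ * g * (c : G)⁻¹⁻¹) * x = x * ((c : G)⁻¹ * g * (c : G)⁻¹⁻¹) := congrArg Subtype.val (h1 ⟨_, hg'⟩)
  apply Subtype.ext
  show (g : G) * (c * x * (c : G)⁻¹) = (c * x * (c : G)⁻¹) * g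
  calc (g : G) * (c * x * (c : G)⁻¹) = c * (((c : G)⁻¹ * g * (c : G)⁻¹⁻¹) * x) * (c : G)⁻¹ := by group
    _ = c * (x * ((c : G)⁻¹ * g * (c : G)⁻¹⁻¹)) * (c : G)⁻¹ := by rw [h2]
    _ = _ := by group

/-- the symmetric group on the three members -/
theorem sym (H : Hyp24 D N) (T : T3 D d1 d2 d3) (hn : ((KK N d1 d2 d3).subgroupOf (CL N d1 d2 d3)).Normal) :
    Nonempty (↥(CL N d1 d2 d3) ⧸ (KK N d1 d2 d3).subgroupOf (CL N d1 d2 d3) ≃* Equiv.Perm (Fin 3)) := by
  obtain ⟨hle, hnorm, ⟨e⟩⟩ := H92.Sym3.sym3 (by norm_num : 2 ≤ 3) H.h.lev (fun g y hy => H.conj g hy) d1 d2 d3 T.m1 T.m2 T.m3 T.n12 T.n13 T.n23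
    T.c12 T.c13 T.c23 (Subgroup.centralizer ({d1, d2, d3} : Set G)) (Subgroup.centralizer ({d1 * d2 * d3} : Set G)) rfl rfl
  have hinc : CL N d1 d2 d3 ≤ Subgroup.centralizer ({d1 * d2 * d3} : Set G) := inf_le_right
  have hmem : ∀ g : G, g ∈ Subgroup.centralizer ({d1, d2, d3} : Set G) ↔ Commute g d1 ∧ Commute g d2 ∧ Commute g d3 := by
    intro k
    rw [Subgroup.mem_centralizer_iff]
    constructor
    · intro hk
      exact ⟨(hk d1 (by simp)).symm, (hk d2 (by simp)).symm, (hk d3 (by simp)).symm⟩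
    · rintro ⟨k1, k2, k3⟩ x hx
      simp only [Set.mem_insert_iff, Set.mem_singleton_iff] at hx
      rcases hx with rfl | rfl | rfl
      · exact k1.symm.eq
      · exact k2.symm.eq
      · exact k3.symm.eq
  let φ : ↥(CL N d1 d2 d3) →* ↥(Subgroup.centralizer ({d1 * d2 * d3} : Set G)) ⧸
      (Subgroup.centralizer ({d1, d2, d3} : Set G)).subgroupOf (Subgroup.centralizer ({d1 * d2 * d3} : Set G)) :=
    (QuotientGroup.mk' _).comp (Subgroup.inclusion hinc)
  have hker : φ.ker = (KK N d1 d2 d3).subgroupOf (CL N d1 d2 d3) := by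
    ext c
    rw [MonoidHom.mem_ker]
    show (QuotientGroup.mk (Subgroup.inclusion hinc c) : ↥(Subgroup.centralizer ({d1 * d2 * d3} : Set G)) ⧸
      (Subgroup.centralizer ({d1, d2, d3} : Set G)).subgroupOf (Subgroup.centralizer ({d1 * d2 * d3} : Set G))) = 1 ↔ _
    rw [QuotientGroup.eq_one_iff, Subgroup.mem_subgroupOf, Subgroup.mem_subgroupOf, mem_KK' H T]
    show (c : G) ∈ Subgroup.centralizer ({d1, d2, d3} : Set G) ↔ _
    rw [hmem]
    exact ⟨fun h => ⟨(mem_CL.1 c.2).1, h⟩, fun h => h.2⟩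
  have hsurj : Function.Surjective φ := by
    intro q
    obtain ⟨g, rfl⟩ := QuotientGroup.mk_surjective q
    have hgj : Commute (g : G) (d1 * d2 * d3) := Subgroup.mem_centralizer_singleton_iff.1 g.2
    by_cases hg : (g : G) ∈ N
    · exact ⟨⟨g, mem_CL.2 ⟨hg, hgj⟩⟩, rfl⟩
    · have hd1j : Commute d1 (d1 * d2 * d3) := ((Commute.refl d1).mul_right T.c12).mul_right T.c13
      have h1 : (g : G) * d1 ∈ CL N d1 d2 d3 := mem_CL.2 ⟨H.mul_mem hg (H.hDN d1 T.m1), hgj.mul_left hd1j⟩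
      refine ⟨⟨_, h1⟩, ?_⟩
      show (QuotientGroup.mk (Subgroup.inclusion hinc ⟨_, h1⟩) : ↥(Subgroup.centralizer ({d1 * d2 * d3} : Set G)) ⧸
        (Subgroup.centralizer ({d1, d2, d3} : Set G)).subgroupOf (Subgroup.centralizer ({d1 * d2 * d3} : Set G))) = QuotientGroup.mk g
      rw [QuotientGroup.eq, Subgroup.mem_subgroupOf]
      have e : ((((Subgroup.inclusion hinc ⟨_, h1⟩)⁻¹ * g : ↥(Subgroup.centralizer ({d1 * d2 * d3} : Set G)))) : G) = d1⁻¹ := by
        show ((g : G) * d1)⁻¹ * g = _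
        group
      rw [e, hmem]
      exact ⟨(Commute.refl d1).inv_left, T.c12.inv_left, T.c13.inv_left⟩
  exact ⟨((QuotientGroup.quotientMulEquivOfEq hker.symm).trans (QuotientGroup.quotientKerEquivOfSurjective φ hsurj)).trans e⟩

section cl
variable [Finite G]

theorem quasi' (H : Hyp24 D N) (T : T3 D d1 d2 d3) : IsQuasisimple ↥((KK N d1 d2 d3).subgroupOf (CL N d1 d2 d3)) := by
  rw [H26.Components.isQuasisimple_subgroupOf (KK_le H T)]
  exact quasi H T

theorem mem_E3_of_comm (H : Hyp24 D N) (T : T3 D d1 d2 d3) {c : G} (hcN : c ∈ N) (hc : ∀ k ∈ KK N d1 d2 d3, Commute c k) : c ∈ E3 d1 d2 d3 := by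
  have h12 : d1 * d2 ∈ E3 d1 d2 d3 := Subgroup.subset_closure (by simp)
  have h13 : d1 * d3 ∈ E3 d1 d2 d3 := Subgroup.subset_closure (by simp)
  have h1 := comm_of_pairs H T (hc _ (E3_le H T h12)) (hc _ (E3_le H T h13))
  have hcK : c ∈ KK N d1 d2 d3 := (mem_KK' H T).2 ⟨hcN, h1⟩
  refine (mem_center_KK H T ⟨c, hcK⟩).1 ?_
  rw [Subgroup.mem_center_iff]
  intro k
  exact Subtype.ext (hc k k.2).symm.eq

theorem gfit (H : Hyp24 D N) (T : T3 D d1 d2 d3) : (generalizedFittingSubgroup ↥(CL N d1 d2 d3)).map (CL N d1 d2 d3).subtype = KK N d1 d2 d3 := by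
  haveI := KK_normal H T
  rw [gfit_of_quasi _ (quasi' H T), Subgroup.subgroupOf_map_subtype, inf_eq_left.2 (KK_le H T)]
  intro c hc
  rw [Subgroup.mem_centralizer_iff] at hc
  rw [Subgroup.mem_subgroupOf]
  apply E3_le H T
  apply mem_E3_of_comm H T (mem_CL.1 c.2).1
  intro k hk
  have := hc ⟨k, KK_le H T hk⟩ hk
  exact (congrArg Subtype.val this).symm

/-- the action on the central quotient -/
noncomputable def act (H : Hyp24 D N) (T : T3 D d1 d2 d3) : ↥(CL N d1 d2 d3) →*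
    MulAut (↥((KK N d1 d2 d3).subgroupOf (CL N d1 d2 d3)) ⧸ Subgroup.center ↥((KK N d1 d2 d3).subgroupOf (CL N d1 d2 d3))) :=
  haveI := KK_normal H T
  (quoAut _).comp (MulAut.conjNormal : ↥(CL N d1 d2 d3) →* MulAut ↥((KK N d1 d2 d3).subgroupOf (CL N d1 d2 d3)))

theorem act_ker (H : Hyp24 D N) (T : T3 D d1 d2 d3) : (act H T).ker = (E3 d1 d2 d3).subgroupOf (CL N d1 d2 d3) := by
  haveI := KK_normal H T
  ext c
  rw [MonoidHom.mem_ker, Subgroup.mem_subgroupOf]
  have hmk : ∀ k : ↥((KK N d1 d2 d3).subgroupOf (CL N d1 d2 d3)), act H T c (QuotientGroup.mk k) = QuotientGroup.mk (MulAut.conjNormal c k) := fun k => rfl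
  constructor
  · intro hc
    have h1 := comm_of_perfect (quasi' H T).1 (MulAut.conjNormal c) (by
      intro k m
      have h2 := hmk k
      rw [hc, MulAut.one_apply, QuotientGroup.eq] at h2
      have h3 : MulAut.conjNormal c k * k⁻¹ = k * (k⁻¹ * MulAut.conjNormal c k) * k⁻¹ := by group
      have h4 : MulAut.conjNormal c k * k⁻¹ ∈ Subgroup.center ↥((KK N d1 d2 d3).subgroupOf (CL N d1 d2 d3)) := by
        rw [h3]
        exact (inferInstance : (Subgroup.center ↥((KK N d1 d2 d3).subgroupOf (CL N d1 d2 d3))).Normal).conj_mem _ h2 k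
      exact (Subgroup.mem_center_iff.1 h4 m).symm)
    apply mem_E3_of_comm H T (mem_CL.1 c.2).1
    intro k hk
    have h2 := h1 ⟨⟨k, KK_le H T hk⟩, hk⟩
    have h3 := congrArg (fun z : ↥((KK N d1 d2 d3).subgroupOf (CL N d1 d2 d3)) => ((z : ↥(CL N d1 d2 d3)) : G)) h2
    simp only [MulAut.conjNormal_apply] at h3
    have h4 : (c : G) * k * (c : G)⁻¹ = k := h3
    exact mul_inv_eq_iff_eq_mul.1 h4
  · intro hc
    ext q
    obtain ⟨k, rfl⟩ := QuotientGroup.mk_surjective q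
    rw [hmk, MulAut.one_apply]
    congr 1
    apply Subtype.ext
    rw [MulAut.conjNormal_apply]
    apply Subtype.ext
    show (c : G) * ((k : ↥(CL N d1 d2 d3)) : G) * (c : G)⁻¹ = ((k : ↥(CL N d1 d2 d3)) : G)
    rw [mul_inv_eq_iff_eq_mul]
    exact (E3_comm H T hc ((mem_KK' H T).1 k.2).2).eq

/-- the automorphism group of the unitary group -/
theorem aut (H : Hyp24 D N) (T : T3 D d1 d2 d3) {F : Type} [Field F] [Fintype F] (hF : Fintype.card F = 4)
    (e : (↥(KK N d1 d2 d3) ⧸ Subgroup.center ↥(KK N d1 d2 d3)) ≃* PSU 6 F 2) (hn : ((E3 d1 d2 d3).subgroupOf (CL N d1 d2 d3)).Normal) :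
    Nonempty (↥(CL N d1 d2 d3) ⧸ (E3 d1 d2 d3).subgroupOf (CL N d1 d2 d3) ≃* MulAut (PSU 6 F 2)) := by
  have hle := KK_le H T
  haveI hnK := KK_normal H T
  haveI : Fact (Nat.Prime 2) := ⟨Nat.prime_two⟩
  have hAut : Nat.card (MulAut (PSU 6 F 2)) = 6 * Nat.card (PSU 6 F 2) := by
    rw [Cfsg.Agent.S0815.result (F := F) 2 1 le_rfl (q := 2) (by norm_num) (by rw [hF]; norm_num) 6 (by norm_num) (by norm_num)]
    norm_num
  -- transport of the quotient
  let e1 : ↥((KK N d1 d2 d3).subgroupOf (CL N d1 d2 d3)) ≃* ↥(KK N d1 d2 d3) := Subgroup.subgroupOfEquivOfLe hle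
  let e2 : (↥((KK N d1 d2 d3).subgroupOf (CL N d1 d2 d3)) ⧸ Subgroup.center ↥((KK N d1 d2 d3).subgroupOf (CL N d1 d2 d3))) ≃* PSU 6 F 2 :=
    (QuotientGroup.congr _ _ e1 (map_center' e1)).trans e
  -- cardinalities
  obtain ⟨s⟩ := sym H T hnK
  have c1 : Nat.card ↥(CL N d1 d2 d3) = 6 * Nat.card ↥(KK N d1 d2 d3) := by
    rw [Subgroup.card_eq_card_quotient_mul_card_subgroup ((KK N d1 d2 d3).subgroupOf (CL N d1 d2 d3)), Nat.card_congr s.toEquiv,
      Nat.card_congr e1.toEquiv]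
    congr 1
    rw [Nat.card_eq_fintype_card]
    rfl
  have c2 : Nat.card ↥(KK N d1 d2 d3) = Nat.card (PSU 6 F 2) * Nat.card ↥(E3 d1 d2 d3) := by
    rw [Subgroup.card_eq_card_quotient_mul_card_subgroup (Subgroup.center ↥(KK N d1 d2 d3)), Nat.card_congr e.toEquiv]
    congr 1
    rw [← center_map H T, Subgroup.card_map_of_injective (Subgroup.subtype_injective _)]
  have c3 : Nat.card (↥(CL N d1 d2 d3) ⧸ (E3 d1 d2 d3).subgroupOf (CL N d1 d2 d3)) = 6 * Nat.card (PSU 6 F 2) := by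
    have h1 := Subgroup.card_eq_card_quotient_mul_card_subgroup ((E3 d1 d2 d3).subgroupOf (CL N d1 d2 d3))
    rw [Nat.card_congr (Subgroup.subgroupOfEquivOfLe ((E3_le H T).trans hle)).toEquiv, c1, c2, ← mul_assoc] at h1
    exact (Nat.eq_of_mul_eq_mul_right Nat.card_pos h1).symm
  have hM : Nat.card (MulAut (↥((KK N d1 d2 d3).subgroupOf (CL N d1 d2 d3)) ⧸ Subgroup.center ↥((KK N d1 d2 d3).subgroupOf (CL N d1 d2 d3)))) =
      6 * Nat.card (PSU 6 F 2) := by
    rw [← hAut]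
    exact Nat.card_congr (MulAut.congr e2).toEquiv
  haveI : Finite (↥((KK N d1 d2 d3).subgroupOf (CL N d1 d2 d3)) ⧸ Subgroup.center ↥((KK N d1 d2 d3).subgroupOf (CL N d1 d2 d3))) := Quotient.finite _
  haveI hfin : Finite (MulAut (↥((KK N d1 d2 d3).subgroupOf (CL N d1 d2 d3)) ⧸ Subgroup.center ↥((KK N d1 d2 d3).subgroupOf (CL N d1 d2 d3)))) :=
    Finite.of_injective (fun f => (f : _ → _)) DFunLike.coe_injective
  have hinj : Function.Injective (QuotientGroup.kerLift (act H T)) := QuotientGroup.kerLift_injective _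
  have hker := act_ker H T
  have hcard : Nat.card (↥(CL N d1 d2 d3) ⧸ (act H T).ker) = 6 * Nat.card (PSU 6 F 2) := by
    rw [← c3]
    exact Nat.card_congr (QuotientGroup.quotientMulEquivOfEq hker).toEquiv
  have hbij : Function.Bijective (QuotientGroup.kerLift (act H T)) := hinj.bijective_of_nat_card_le (by rw [hM, hcard])
  exact ⟨(QuotientGroup.quotientMulEquivOfEq hker.symm).trans ((MulEquiv.ofBijective _ hbij).trans (MulAut.congr e2))⟩

end cl

end H86.Fi24L
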