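import Mathlib
import Cfsg.Prelude.Def_FischerSpaces
import Cfsg.Agent.Lib.H86.Fi24L
import Cfsg.Agent.Lib.H91.FY24Order

/-! Groups of type M(24): the level 3 hypotheses for the commutator subgroup. -/

set_option autoImplicit false
set_option linter.dupNamespace false
set_option linter.unusedSectionVars false
set_option linter.style.haveILetI false
set_option linter.unusedVariables false
open Cfsg

namespace H86.Fi24M
open H92.Tri H92.Pol H92.Lev H92.RelList H92.Setup H92.Geo H92.Out24
open H86.Fi24J H86.Fi24K H86.Fi24L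

variable {G : Type*} [Group G] {D : Set G}

theorem hyp24 [Finite G] (hD : IsThreeTranspositionGroup D) (hprim : IsPrimitiveUnderConj D) (ht : IsOfTypeM24 G D) :
    Hyp24 D (commutator G) := by
  have hZ := ht.1
  have hT := of_set hD.1 hD.2.1
  have h1 : (1 : G) ∉ D := by
    intro h
    have := hD.1.1 1 h
    simp at this
  obtain ⟨hL, hc1, hc2, hc3⟩ := H92.TypeNum.card24 hT h1 hD.2.2 hD.2.1 hprim ht
  obtain ⟨f1, f2, f3, f4, f5⟩ := H91.FY.facts24 hD hprim ht
  have hcomm : commutator G = layer G := by
    haveI : (layer G).Normal := Subgroup.normal_of_index_eq_two f1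
    apply le_antisymm
    · haveI : IsCyclic (G ⧸ layer G) := isCyclic_of_prime_card (p := 2) (by rw [← Subgroup.index_eq_card]; exact f1)
      have hc : ∀ a b : G ⧸ layer G, a * b = b * a := fun a b => by
        obtain ⟨g, hg⟩ := IsCyclic.exists_generator (α := G ⧸ layer G)
        obtain ⟨i, hi⟩ := Subgroup.mem_zpowers_iff.1 (hg a)
        obtain ⟨j, hj⟩ := Subgroup.mem_zpowers_iff.1 (hg b)
        rw [← hi, ← hj]
        exact zpow_mul_comm g i j
      rw [commutator_def, Subgroup.commutator_le]
      intro a _ b _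
      rw [← QuotientGroup.eq_one_iff]
      have h2 := hc (QuotientGroup.mk a) (QuotientGroup.mk b)
      have h3 : (QuotientGroup.mk (a * b * a⁻¹ * b⁻¹) : G ⧸ layer G) = QuotientGroup.mk a * QuotientGroup.mk b * (QuotientGroup.mk a)⁻¹ * (QuotientGroup.mk b)⁻¹ := rfl
      show (QuotientGroup.mk (a * b * a⁻¹ * b⁻¹) : G ⧸ layer G) = 1
      rw [h3, h2]; group
    · rw [← H26.Components.commutator_layer_self, commutator_def]
      exact Subgroup.commutator_mono le_top le_top
  refine ⟨hL, hD.2.2, hZ, hc1, hc2, hc3, ?_, ?_, f3⟩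
  · rw [hcomm]; exact f1
  · intro d hd hdN
    have h2 : Subgroup.closure D ≤ commutator G := by
      rw [Subgroup.closure_le]
      intro y hy
      obtain ⟨g, _, he⟩ := hL.lev.trans hd hy
      rw [← he]
      exact (inferInstance : (commutator G).Normal).conj_mem d hdN g
    rw [hD.2.2, hcomm] at h2
    have h3 : layer G = ⊤ := top_le_iff.1 h2
    rw [h3, Subgroup.index_top] at f1
    omega

end H86.Fi24M
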