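import Cfsg.Agent.Lib.H86.SLTwoGen

/-!
A finite group theoretic analysis of `⟨u(k), v(kλ)⟩ ≤ SL₂(S)`, `S = k[λ]` a finite commutative
`k`-algebra.
-/

set_option autoImplicit false
set_option linter.unusedSimpArgs false
set_option linter.unusedVariables false
set_option linter.style.haveILetI false
set_option linter.unusedSectionVars false
open Polynomial
open scoped commutatorElement

namespace H86.FinSL

/-- `SL₂`. -/
abbrev SL2 (S : Type*) [CommRing S] := Matrix.SpecialLinearGroup (Fin 2) S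

section basic
variable {S : Type*} [CommRing S]

theorem ext2 {g h : SL2 S} (h00 : g.1 0 0 = h.1 0 0) (h01 : g.1 0 1 = h.1 0 1)
    (h10 : g.1 1 0 = h.1 1 0) (h11 : g.1 1 1 = h.1 1 1) : g = h := by
  apply Subtype.ext
  ext i j
  fin_cases i <;> fin_cases j
  · exact h00
  · exact h01
  · exact h10
  · exact h11

theorem det2 (g : SL2 S) : g.1 0 0 * g.1 1 1 - g.1 0 1 * g.1 1 0 = 1 := by
  rw [← Matrix.det_fin_two]; exact g.2

/-- Build an element of `SL₂`. -/
def mk2 (a b c d : S) (h : a * d - b * c = 1) : SL2 S :=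
  ⟨!![a, b; c, d], by rw [Matrix.det_fin_two_of]; exact h⟩

@[simp] theorem mk00 (a b c d : S) (h) : (mk2 a b c d h).1 0 0 = a := rfl
@[simp] theorem mk01 (a b c d : S) (h) : (mk2 a b c d h).1 0 1 = b := rfl
@[simp] theorem mk10 (a b c d : S) (h) : (mk2 a b c d h).1 1 0 = c := rfl
@[simp] theorem mk11 (a b c d : S) (h) : (mk2 a b c d h).1 1 1 = d := rfl

theorem mulE (g h : SL2 S) (i j : Fin 2) :
    (g * h).1 i j = g.1 i 0 * h.1 0 j + g.1 i 1 * h.1 1 j := by
  show (g.1 * h.1) i j = _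
  rw [Matrix.mul_apply, Fin.sum_univ_two]

@[simp] theorem one00 : (1 : SL2 S).1 0 0 = 1 := rfl
@[simp] theorem one01 : (1 : SL2 S).1 0 1 = 0 := rfl
@[simp] theorem one10 : (1 : SL2 S).1 1 0 = 0 := rfl
@[simp] theorem one11 : (1 : SL2 S).1 1 1 = 1 := rfl

/-- Upper unitriangular. -/
def u (b : S) : SL2 S := mk2 1 b 0 1 (by ring)
/-- Lower unitriangular. -/
def v (b : S) : SL2 S := mk2 1 0 b 1 (by ring)

@[simp] theorem u00 (b : S) : (u b).1 0 0 = 1 := rfl
@[simp] theorem u01 (b : S) : (u b).1 0 1 = b := rfl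
@[simp] theorem u10 (b : S) : (u b).1 1 0 = 0 := rfl
@[simp] theorem u11 (b : S) : (u b).1 1 1 = 1 := rfl
@[simp] theorem v00 (b : S) : (v b).1 0 0 = 1 := rfl
@[simp] theorem v01 (b : S) : (v b).1 0 1 = 0 := rfl
@[simp] theorem v10 (b : S) : (v b).1 1 0 = b := rfl
@[simp] theorem v11 (b : S) : (v b).1 1 1 = 1 := rfl

theorem u_add (a b : S) : u (a + b) = u a * u b := by
  apply ext2 <;> simp [mulE, add_comm]

theorem v_add (a b : S) : v (a + b) = v a * v b := by
  apply ext2 <;> simp [mulE, add_comm]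

theorem u_zero : u (0 : S) = 1 := by apply ext2 <;> simp
theorem v_zero : v (0 : S) = 1 := by apply ext2 <;> simp

theorem u_inv (a : S) : (u a)⁻¹ = u (-a) := by
  rw [inv_eq_iff_mul_eq_one, ← u_add, add_neg_cancel, u_zero]

theorem v_inv (a : S) : (v a)⁻¹ = v (-a) := by
  rw [inv_eq_iff_mul_eq_one, ← v_add, add_neg_cancel, v_zero]

theorem u_pow (a : S) (n : ℕ) : u a ^ n = u (n * a) := by
  induction n with
  | zero => simp [u_zero]
  | succ n ih => rw [pow_succ, ih, ← u_add]; congr 1; push_cast; ring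

theorem v_pow (a : S) (n : ℕ) : v a ^ n = v (n * a) := by
  induction n with
  | zero => simp [v_zero]
  | succ n ih => rw [pow_succ, ih, ← v_add]; congr 1; push_cast; ring

theorem u_inj {a b : S} (h : u a = u b) : a = b := by
  have := congrArg (fun g : SL2 S => g.1 0 1) h; exact this

theorem v_inj {a b : S} (h : v a = v b) : a = b := by
  have := congrArg (fun g : SL2 S => g.1 1 0) h; exact this

/-- Conjugation by `diag(s, 1)`. -/
def dil (s : Sˣ) : SL2 S →* SL2 S where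
  toFun g := mk2 (g.1 0 0) (s * g.1 0 1) ((s⁻¹ : Sˣ) * g.1 1 0) (g.1 1 1) (by
    have := det2 g
    have e : (s : S) * g.1 0 1 * (((s⁻¹ : Sˣ) : S) * g.1 1 0) =
        ((s : S) * ((s⁻¹ : Sˣ) : S)) * (g.1 0 1 * g.1 1 0) := by ring
    rw [e, Units.mul_inv, one_mul, this])
  map_one' := by apply ext2 <;> simp
  map_mul' g h := by
    have hs : (s : S) * ((s⁻¹ : Sˣ) : S) = 1 := Units.mul_inv s
    apply ext2
    · simp only [mk00, mk01, mk10, mk11, mulE]
      linear_combination (-g.1 0 1 * h.1 1 0) * hs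
    · simp only [mk00, mk01, mk10, mk11, mulE]; ring
    · simp only [mk00, mk01, mk10, mk11, mulE]; ring
    · simp only [mk00, mk01, mk10, mk11, mulE]
      linear_combination (-g.1 1 0 * h.1 0 1) * hs

/-- Conjugation by the permutation matrix. -/
def sw : SL2 S →* SL2 S where
  toFun g := mk2 (g.1 1 1) (g.1 1 0) (g.1 0 1) (g.1 0 0) (by linear_combination det2 g)
  map_one' := by apply ext2 <;> simp
  map_mul' g h := by
    apply ext2 <;> simp only [mk00, mk01, mk10, mk11, mulE] <;> ring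

theorem dil_u (s : Sˣ) (b : S) : dil s (u b) = u (s * b) := by
  apply ext2 <;> simp [dil]
theorem dil_v (s : Sˣ) (b : S) : dil s (v b) = v ((s⁻¹ : Sˣ) * b) := by
  apply ext2 <;> simp [dil]
theorem sw_u (b : S) : sw (u b) = v b := by apply ext2 <;> simp [sw]
theorem sw_v (b : S) : sw (v b) = u b := by apply ext2 <;> simp [sw]

/-- Elements commuting with `u x`, `x` a unit. -/
theorem comm_u {x : S} (hx : IsUnit x) {g : SL2 S} (h : u x * g = g * u x) :
    g.1 1 0 = 0 ∧ g.1 1 1 = g.1 0 0 := by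
  have h00 := congrArg (fun g : SL2 S => g.1 0 0) h
  have h01 := congrArg (fun g : SL2 S => g.1 0 1) h
  simp only [mulE, u00, u01, u10, u11] at h00 h01
  have e0 : x * g.1 1 0 = 0 := by linear_combination h00
  have e1 : x * (g.1 1 1 - g.1 0 0) = 0 := by linear_combination h01
  exact ⟨hx.mul_right_eq_zero.1 e0, sub_eq_zero.1 (hx.mul_right_eq_zero.1 e1)⟩

/-- The `(0,0)` entry of a power of an upper triangular matrix. -/
theorem pow00 {g : SL2 S} (h : g.1 1 0 = 0) (n : ℕ) : (g ^ n).1 0 0 = g.1 0 0 ^ n := by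
  induction n with
  | zero => simp
  | succ n ih =>
    rw [pow_succ, mulE, ih, h, mul_zero, add_zero, pow_succ]

/-- An element of odd order `p` commuting with `u x`, `x` a unit, is `u b`. -/
theorem eq_u_of_comm {x : S} (hx : IsUnit x) {g : SL2 S} (h : u x * g = g * u x) {p : ℕ}
    (hp : Odd p) (hg : g ^ p = 1) : g = u (g.1 0 1) := by
  obtain ⟨h1, h2⟩ := comm_u hx h
  have hd := det2 g
  rw [h1, h2, mul_zero, sub_zero] at hd
  have h3 := pow00 h1 p
  rw [hg, one00] at h3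
  obtain ⟨m, rfl⟩ := hp
  have h4 : g.1 0 0 = 1 := by
    rw [pow_succ, pow_mul, pow_two, hd, one_pow, one_mul] at h3
    exact h3.symm
  apply ext2
  · rw [h4, u00]
  · rw [u01]
  · rw [h1, u10]
  · rw [h2, h4, u11]

end basic

/-! ### Relative derived series -/
section ds
variable {X Y : Type*} [Group X] [Group Y]

/-- Relative derived series. -/
def ds (H : Subgroup X) : ℕ → Subgroup X
  | 0 => H
  | n + 1 => ⁅ds H n, ds H n⁆

theorem ds_map (f : X →* Y) (H : Subgroup X) (n : ℕ) : (ds H n).map f = ds (H.map f) n := by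
  induction n with
  | zero => rfl
  | succ n ih => rw [ds, ds, Subgroup.map_commutator, ih]

theorem ds_succ_le (H : Subgroup X) (n : ℕ) : ds H (n + 1) ≤ ds H n :=
  Subgroup.commutator_le_self _

theorem ds_anti (H : Subgroup X) : Antitone (ds H) := antitone_nat_of_succ_le (ds_succ_le H)

theorem ds_le (H : Subgroup X) (n : ℕ) : ds H n ≤ H := ds_anti H (Nat.zero_le n)

theorem ds_stable {H : Subgroup X} {n : ℕ} (h : ds H (n + 1) = ds H n) (m : ℕ) :
    ds H (n + m) = ds H n := by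
  induction m with
  | zero => rfl
  | succ m ih => rw [← add_assoc, ds, ih]; exact h

theorem ds_exists_stable [Finite X] (H : Subgroup X) (N : ℕ) :
    ∃ n, N ≤ n ∧ ds H (n + 1) = ds H n := by
  by_contra hcon
  push Not at hcon
  have hlt : ∀ m, Nat.card (ds H (N + m)) + m ≤ Nat.card (ds H N) := by
    intro m
    induction m with
    | zero => simp
    | succ m ih =>
      have h1 : ds H (N + m + 1) < ds H (N + m) :=
        lt_of_le_of_ne (ds_succ_le _ _) (hcon (N + m) (by omega))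
      have h2 : Nat.card (ds H (N + m + 1)) < Nat.card (ds H (N + m)) := by
        apply lt_of_le_of_ne (Subgroup.card_le_of_le h1.le)
        intro e
        exact h1.ne (Subgroup.eq_of_le_of_card_ge h1.le e.ge)
      rw [← add_assoc N m 1]
      have h3 : Nat.card (ds H (N + m + 1)) + (m + 1) ≤ Nat.card (ds H (N + m)) + m := by omega
      exact h3.trans ih
  have := hlt (Nat.card (ds H N) + 1)
  omega

theorem ds_invariant {H : Subgroup X} {f : X →* X} (h : H.map f = H) (n : ℕ) :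
    (ds H n).map f = ds H n := by rw [ds_map, h]

theorem ds_conj {H : Subgroup X} {g x : X} (hg : g ∈ H) {n : ℕ} (hx : x ∈ ds H n) :
    g * x * g⁻¹ ∈ ds H n := by
  have h1 : H.map (MulAut.conj g).toMonoidHom = H := by
    apply le_antisymm
    · rintro _ ⟨y, hy, rfl⟩
      exact mul_mem (mul_mem hg hy) (inv_mem hg)
    · intro y hy
      refine ⟨g⁻¹ * y * g, mul_mem (mul_mem (inv_mem hg) hy) hg, ?_⟩
      show g * (g⁻¹ * y * g) * g⁻¹ = y
      group
  rw [← ds_invariant h1 n]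
  exact ⟨x, hx, rfl⟩

theorem ds_top_of_perfect (h : ⁅(⊤ : Subgroup X), (⊤ : Subgroup X)⁆ = ⊤) (n : ℕ) :
    ds (⊤ : Subgroup X) n = ⊤ := by
  induction n with
  | zero => rfl
  | succ n ih => rw [ds, ih, h]

end ds

/-! ### `SL₂` over a field -/
section field
variable {L : Type*} [Field L]

theorem u_eq_up (b : L) : u b = H98.DicksonField.up b := rfl
theorem v_eq_lo (b : L) : v b = H98.DicksonField.lo b := rfl

theorem eq_top_of {X : Subgroup (SL2 L)} (h1 : ∀ b, u b ∈ X) (h2 : ∀ b, v b ∈ X) : X = ⊤ :=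
  SLTwoGen.eq_top_of h1 h2

/-- The diagonal matrix. -/
def dg (a : L) (ha : a ≠ 0) : SL2 L := mk2 a 0 0 a⁻¹ (by rw [mul_inv_cancel₀ ha]; ring)

theorem perfect (h : ∃ a : L, a ≠ 0 ∧ a ^ 2 ≠ 1) :
    ⁅(⊤ : Subgroup (SL2 L)), (⊤ : Subgroup (SL2 L))⁆ = ⊤ := by
  obtain ⟨a, ha, ha2⟩ := h
  have hne : a ^ 2 - 1 ≠ 0 := sub_ne_zero.2 ha2
  have hne' : a⁻¹ ^ 2 - 1 ≠ 0 := by
    intro h0
    apply ha2
    have : a⁻¹ ^ 2 = 1 := sub_eq_zero.1 h0
    rw [inv_pow, inv_eq_one] at this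
    exact this
  have hinv : (dg a ha)⁻¹ = dg a⁻¹ (inv_ne_zero ha) := by
    rw [inv_eq_iff_mul_eq_one]
    apply ext2 <;> simp [mulE, dg, ha]
  apply eq_top_of
  · intro b
    have e : u b = ⁅dg a ha, u (b / (a ^ 2 - 1))⁆ := by
      rw [commutatorElement_def, hinv, u_inv]
      apply ext2
      · simp [mulE, dg, ha]
      · simp [mulE, dg, ha]; field_simp; ring
      · simp [mulE, dg, ha]
      · simp [mulE, dg, ha]
    rw [e]
    exact Subgroup.commutator_mem_commutator (Subgroup.mem_top _) (Subgroup.mem_top _)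
  · intro b
    have e : v b = ⁅dg a ha, v (b / (a⁻¹ ^ 2 - 1))⁆ := by
      rw [commutatorElement_def, hinv, v_inv]
      apply ext2
      · simp [mulE, dg, ha]
      · simp [mulE, dg, ha]
      · simp only [mulE, dg, mk00, mk01, mk10, mk11, v00, v01, v10, v11, inv_inv]
        have : b = (a⁻¹ ^ 2 - 1) * (b / (a⁻¹ ^ 2 - 1)) := by rw [mul_div_cancel₀ _ hne']
        linear_combination this + (b / (a⁻¹ ^ 2 - 1)) * (mul_inv_cancel₀ ha)
      · simp [mulE, dg, ha]
    rw [e]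
    exact Subgroup.commutator_mem_commutator (Subgroup.mem_top _) (Subgroup.mem_top _)

/-- Normal subgroups of `SL₂(L)` are central or everything. -/
theorem normal_dichotomy (h : ∃ a : L, a ≠ 0 ∧ a ^ 2 ≠ 1) (N : Subgroup (SL2 L)) (hN : N.Normal) :
    N ≤ Subgroup.center (SL2 L) ∨ N = ⊤ := by
  have hsimple : IsSimpleGroup (Matrix.ProjectiveSpecialLinearGroup (Fin 2) L) :=
    Matrix.ProjectiveSpecialLinearGroup.rank_two_simple' h
  let q : SL2 L →* Matrix.ProjectiveSpecialLinearGroup (Fin 2) L := QuotientGroup.mk' _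
  have hq : Function.Surjective q := QuotientGroup.mk'_surjective _
  have hn : (N.map q).Normal := hN.map q hq
  rcases hn.eq_bot_or_eq_top with h1 | h1
  · left
    intro x hx
    have : q x ∈ N.map q := ⟨x, hx, rfl⟩
    rw [h1, Subgroup.mem_bot] at this
    exact (QuotientGroup.eq_one_iff x).1 this
  · right
    rw [eq_top_iff, ← perfect h, Subgroup.commutator_le]
    intro x _ y _
    have hx : ∀ x : SL2 L, ∃ n ∈ N, ∃ z ∈ Subgroup.center (SL2 L), x = n * z := by
      intro x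
      have : q x ∈ N.map q := by rw [h1]; exact Subgroup.mem_top _
      obtain ⟨n, hn, e⟩ := this
      refine ⟨n, hn, n⁻¹ * x, ?_, by group⟩
      exact (QuotientGroup.eq).1 e
    obtain ⟨n, hn, z, hz, rfl⟩ := hx x
    obtain ⟨m, hm, w, hw, rfl⟩ := hx y
    have hz' := Subgroup.mem_center_iff.1 hz
    have hw' := Subgroup.mem_center_iff.1 hw
    have e : ⁅n * z, m * w⁆ = ⁅n, m⁆ := by
      rw [commutatorElement_def, commutatorElement_def, mul_inv_rev, mul_inv_rev]
      have e1 : n * z * (m * w) * (z⁻¹ * n⁻¹) * (w⁻¹ * m⁻¹) =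
          n * m * n⁻¹ * m⁻¹ := by
        have a1 : z * (m * w) = (m * w) * z := (hz' (m * w)).symm
        have a2 : w * n⁻¹ = n⁻¹ * w := (hw' n⁻¹).symm
        calc n * z * (m * w) * (z⁻¹ * n⁻¹) * (w⁻¹ * m⁻¹)
            = n * (z * (m * w)) * z⁻¹ * n⁻¹ * w⁻¹ * m⁻¹ := by simp only [mul_assoc]
          _ = n * m * (w * n⁻¹) * w⁻¹ * m⁻¹ := by rw [a1]; group
          _ = n * m * n⁻¹ * m⁻¹ := by rw [a2]; group
      exact e1
    rw [e, commutatorElement_def]
    exact mul_mem (mul_mem (mul_mem hn hm) (inv_mem hn)) (inv_mem hm)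

theorem exists_sq_ne {k : Type*} [Field k] (h2 : (2 : k) ≠ 0) (h3 : Nat.card k ≠ 3) :
    ∃ a : k, a ≠ 0 ∧ a ^ 2 ≠ 1 := by
  by_contra hcon
  push Not at hcon
  have hall : ∀ a : k, a = 0 ∨ a = 1 ∨ a = -1 := by
    intro a
    by_cases ha : a = 0
    · exact Or.inl ha
    · right; exact mul_self_eq_one_iff.1 (by rw [← pow_two]; exact hcon a ha)
  apply h3
  have hne : (1 : k) ≠ -1 := by
    intro h
    apply h2
    have : (1 : k) + 1 = 0 := by nth_rewrite 2 [h]; ring
    rw [← one_add_one_eq_two]; exact this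
  have huniv : (Set.univ : Set k) = {0, 1, -1} := by
    ext a
    simp only [Set.mem_univ, Set.mem_insert_iff, Set.mem_singleton_iff, true_iff]
    exact hall a
  have h1 : (0 : k) ∉ ({1, -1} : Set k) := by
    simp only [Set.mem_insert_iff, Set.mem_singleton_iff, not_or]
    exact ⟨zero_ne_one, fun h => one_ne_zero (neg_eq_zero.1 h.symm)⟩
  rw [← Set.ncard_univ, huniv, Set.ncard_insert_of_notMem h1, Set.ncard_pair hne]

end field

/-! ### Elements of `p`-power order -/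
section nilp
variable {S : Type*} [CommRing S]

theorem entry_pow_mem {J : Ideal S} {N : Matrix (Fin 2) (Fin 2) S} (h : ∀ i j, N i j ∈ J) (n : ℕ) :
    ∀ i j, (N ^ n) i j ∈ J ^ n := by
  induction n with
  | zero => intro i j; simp
  | succ n ih =>
    intro i j
    rw [pow_succ, pow_succ, Matrix.mul_apply, Fin.sum_univ_two]
    exact Ideal.add_mem _ (Ideal.mul_mem_mul (ih i 0) (h 0 j)) (Ideal.mul_mem_mul (ih i 1) (h 1 j))

/-- In characteristic `p`, an element of `SL₂(S)`, `S` Artinian, trivial modulo all maximal ideals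
has `p`-power order. -/
theorem ppow_of_all_max [IsArtinianRing S] (p : ℕ) [hp : Fact p.Prime] [CharP S p] (g : SL2 S)
    (h : ∀ m : Ideal S, m.IsMaximal → ∀ i j, (g.1 - 1) i j ∈ m) : ∃ n : ℕ, g ^ (p ^ n) = 1 := by
  obtain ⟨N, hN⟩ := IsArtinianRing.isNilpotent_jacobson_bot (R := S)
  have hent : ∀ i j, (g.1 - 1) i j ∈ Ideal.jacobson (⊥ : Ideal S) := by
    intro i j
    rw [Ideal.jacobson, Submodule.mem_sInf]
    rintro m ⟨-, hm⟩
    exact h m hm i j
  have hpow : (g.1 - 1) ^ N = 0 := by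
    ext i j
    have := entry_pow_mem hent N i j
    rw [hN] at this
    exact this
  refine ⟨N, ?_⟩
  have hle : N ≤ p ^ N := (Nat.lt_pow_self hp.out.one_lt).le
  have h0 : (g.1 - 1) ^ (p ^ N) = 0 := pow_eq_zero_of_le hle hpow
  have hc : CharP (Matrix (Fin 2) (Fin 2) S) p := inferInstance
  have e : (1 + (g.1 - 1)) ^ (p ^ N) = 1 := by
    rw [add_pow_char_pow_of_commute p N (Commute.one_left _), h0, one_pow, add_zero]
  rw [add_sub_cancel] at e
  apply Subtype.ext
  show (g ^ p ^ N).1 = 1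
  rw [← e]
  exact Matrix.SpecialLinearGroup.coe_pow g _

end nilp

section main
universe w
variable {k : Type*} {S : Type w} [Field k] [CommRing S] [Algebra k S]

/-- The group generated by the `u c`, `v (c l)`, `c ∈ k`. -/
def HH (k : Type*) {S : Type w} [Field k] [CommRing S] [Algebra k S] (l : S) : Subgroup (SL2 S) :=
  Subgroup.closure ({g | ∃ c : k, g = u (algebraMap k S c)} ∪
    {g | ∃ c : k, g = v (algebraMap k S c * l)})

theorem u_mem_HH (l : S) (c : k) : u (algebraMap k S c) ∈ HH k l :=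
  Subgroup.subset_closure (Or.inl ⟨c, rfl⟩)

theorem v_mem_HH (l : S) (c : k) : v (algebraMap k S c * l) ∈ HH k l :=
  Subgroup.subset_closure (Or.inr ⟨c, rfl⟩)

/-- The map on `SL₂`. -/
abbrev mp {S L : Type*} [CommRing S] [CommRing L] (f : S →+* L) : SL2 S →* SL2 L :=
  Matrix.SpecialLinearGroup.map f

theorem mp_u {S L : Type*} [CommRing S] [CommRing L] (f : S →+* L) (b : S) :
    mp f (u b) = u (f b) := by
  apply ext2
  · exact map_one f
  · rfl
  · exact map_zero f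
  · exact map_one f

theorem mp_v {S L : Type*} [CommRing S] [CommRing L] (f : S →+* L) (b : S) :
    mp f (v b) = v (f b) := by
  apply ext2
  · exact map_one f
  · exact map_zero f
  · rfl
  · exact map_one f

theorem mp_apply {S L : Type*} [CommRing S] [CommRing L] (f : S →+* L) (g : SL2 S) (i j : Fin 2) :
    (mp f g).1 i j = f (g.1 i j) := rfl

/-- The image of `HH` over a residue field is everything. -/
theorem map_HH (h2 : (2 : k) ≠ 0) (h3 : Nat.card k ≠ 3) (l : Sˣ) [Algebra.IsIntegral k S]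
    (hgen : ∀ y : S, ∃ x : k[X], aeval (l : S) x = y) {L : Type*} [Field L] (f : S →+* L)
    (hf : Function.Surjective f) : (HH k (l : S)).map (mp f) = ⊤ := by
  letI : Algebra k L := (f.comp (algebraMap k S)).toAlgebra
  let fa : S →ₐ[k] L := { f with commutes' := fun c => rfl }
  have hl0 : f (l : S) ≠ 0 := (l.isUnit.map f).ne_zero
  have hint : IsIntegral k (f (l : S)) := (Algebra.IsIntegral.isIntegral (R := k) (l : S)).map fa
  have htop : ∀ y : L, ∃ x : k[X], aeval (f (l : S)) x = y := by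
    intro y
    obtain ⟨s, rfl⟩ := hf y
    obtain ⟨x, rfl⟩ := hgen s
    exact ⟨x, aeval_algHom_apply fa (l : S) x⟩
  have := SLTwoGen.gen_eq_top h2 h3 hint hl0 htop
  rw [eq_top_iff, ← this]
  unfold SLTwoGen.gen
  rw [Subgroup.closure_le]
  rintro g (⟨c, rfl⟩ | ⟨c, rfl⟩)
  · exact ⟨_, u_mem_HH (l : S) c, mp_u f _⟩
  · refine ⟨_, v_mem_HH (l : S) c, ?_⟩
    rw [mp_v, map_mul]; rfl

/-- Properties of the subgroup `D`. -/
structure Hyp (k : Type*) {S : Type w} [Field k] [CommRing S] [Algebra k S] (l : Sˣ)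
    (D : Subgroup (SL2 S)) : Prop where
  conj : ∀ g ∈ HH k (l : S), ∀ x ∈ D, g * x * g⁻¹ ∈ D
  le : D ≤ HH k (l : S)
  dil : ∀ s : k, ∀ x : S, u x ∈ D → u (algebraMap k S s * x) ∈ D
  sw : ∀ x : S, u x ∈ D ↔ v ((l : S) * x) ∈ D
  top : ∀ {L : Type w} [Field L] (f : S →+* L), Function.Surjective f → D.map (mp f) = ⊤
  min : ∀ x : S, u x ∈ D → x = 0 ∨ IsUnit x
  gen : ∀ y : S, ∃ x : k[X], aeval (l : S) x = y

section D
variable [Finite k] [Finite S] (p : ℕ) [hp : Fact p.Prime] [CharP S p] (hp2 : Odd p) {l : Sˣ}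
  {D : Subgroup (SL2 S)}

/-- A subgroup normalized by `HH` of order divisible by `p` contains some `u x`, `x ≠ 0`. -/
theorem exists_u_mem (hp2 : Odd p) (N : Subgroup (SL2 S))
    (hN : ∀ x ∈ N, u 1 * x * (u 1)⁻¹ ∈ N) (hpN : p ∣ Nat.card N) :
    ∃ x : S, x ≠ 0 ∧ u x ∈ N := by
  classical
  haveI : Finite (SL2 S) := inferInstance
  haveI := Fintype.ofFinite N
  have hu : (u 1 : SL2 S) ^ p = 1 := by
    rw [u_pow, CharP.cast_eq_zero, zero_mul, u_zero]
  let f : Function.End N := fun x => ⟨u 1 * x.1 * (u 1)⁻¹, hN x.1 x.2⟩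
  have hfn : ∀ (n : ℕ) (x : N), ((f ^ n) x : SL2 S) = u 1 ^ n * x.1 * (u 1 ^ n)⁻¹ := by
    intro n
    induction n with
    | zero => intro x; show (x : SL2 S) = _; simp
    | succ n ih =>
      intro x
      rw [pow_succ]
      show (((f ^ n) (f x) : N) : SL2 S) = _
      rw [ih]
      show u 1 ^ n * (u 1 * x.1 * (u 1)⁻¹) * (u 1 ^ n)⁻¹ = _
      rw [pow_succ]; group
  have hf : f ^ p ^ 1 = 1 := by
    funext x
    apply Subtype.ext
    rw [pow_one, hfn, hu]
    show 1 * x.1 * 1⁻¹ = x.1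
    simp
  have hmod := Equiv.Perm.card_fixedPoints_modEq (α := N) hf
  let C : Subgroup (SL2 S) := N ⊓ Subgroup.centralizer {u 1}
  have hC : ∀ x : SL2 S, x ∈ C ↔ x ∈ N ∧ u 1 * x = x * u 1 := by
    intro x
    rw [Subgroup.mem_inf, Subgroup.mem_centralizer_singleton_iff]
    exact ⟨fun h => ⟨h.1, h.2.symm⟩, fun h => ⟨h.1, h.2.symm⟩⟩
  have hcard : Fintype.card (Function.fixedPoints f) = Nat.card C := by
    rw [← Nat.card_eq_fintype_card]
    refine Nat.card_congr ⟨fun x => ⟨x.1.1, (hC _).2 ⟨x.1.2, ?_⟩⟩,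
      fun x => ⟨⟨x.1, ((hC _).1 x.2).1⟩, ?_⟩, ?_, ?_⟩
    · have h1 : f x.1 = x.1 := x.2
      have h2 : u 1 * x.1.1 * (u 1)⁻¹ = x.1.1 := congrArg Subtype.val h1
      rw [mul_inv_eq_iff_eq_mul] at h2
      exact h2
    · have h1 := ((hC _).1 x.2).2
      apply Subtype.ext
      show u 1 * x.1 * (u 1)⁻¹ = x.1
      rw [mul_inv_eq_iff_eq_mul]
      exact h1
    · intro x; rfl
    · intro x; rfl
  rw [hcard] at hmod
  have hpC : p ∣ Nat.card C := by
    have h1 : Fintype.card N ≡ 0 [MOD p] := by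
      rw [← Nat.card_eq_fintype_card]; exact (Nat.modEq_zero_iff_dvd).2 hpN
    exact (Nat.modEq_zero_iff_dvd).1 (hmod.symm.trans h1)
  obtain ⟨z, hz⟩ := exists_prime_orderOf_dvd_card' (G := C) p hpC
  have hz1 : (z : SL2 S) ^ p = 1 := by
    rw [← Subgroup.coe_pow, ← hz, pow_orderOf_eq_one]; rfl
  obtain ⟨hzN, hzc⟩ := (hC _).1 z.2
  have hzu := eq_u_of_comm isUnit_one hzc hp2 hz1
  refine ⟨z.1.1 0 1, fun h0 => ?_, hzu ▸ hzN⟩
  rw [h0, u_zero] at hzu
  have : z = 1 := Subtype.ext hzu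
  rw [this, orderOf_one] at hz
  exact hp.out.one_lt.ne hz

variable {L : Type w} [Field L] (f : S →+* L)

theorem u1_mem : (u 1 : SL2 S) ∈ HH k (l : S) := by
  have := u_mem_HH (k := k) (l : S) 1
  rwa [map_one] at this

theorem conjR (h : Hyp k l D) {g x : SL2 S} (hg : g ∈ HH k (l : S))
    (hx : x ∈ D ⊓ (mp f).ker) : g * x * g⁻¹ ∈ D ⊓ (mp f).ker := by
  refine Subgroup.mem_inf.2 ⟨h.conj g hg x (Subgroup.mem_inf.1 hx).1, ?_⟩
  have := (mp f).mem_ker.1 (Subgroup.mem_inf.1 hx).2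
  rw [MonoidHom.mem_ker, map_mul, map_mul, map_inv, this]; simp

theorem not_dvd_card_R (hp2 : Odd p) (h : Hyp k l D) : ¬ p ∣ Nat.card (D ⊓ (mp f).ker : Subgroup (SL2 S)) := by
  intro hdvd
  obtain ⟨x, hx0, hx⟩ := exists_u_mem p hp2 _ (fun x hx => conjR f h u1_mem hx) hdvd
  obtain ⟨hxD, hxk⟩ := Subgroup.mem_inf.1 hx
  rw [MonoidHom.mem_ker, mp_u, ← u_zero] at hxk
  have hfx := u_inj hxk
  rcases h.min x hxD with h1 | h1
  · exact hx0 h1
  · exact (h1.map f).ne_zero hfx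

theorem R_central (hp2 : Odd p) (h2 : (2 : k) ≠ 0) (h3 : Nat.card k ≠ 3) (h : Hyp k l D)
    {r d : SL2 S} (hr : r ∈ D ⊓ (mp f).ker) (hd : d ∈ D) : r * d = d * r := by
  have hnd := not_dvd_card_R p f hp2 h
  set R := D ⊓ (mp f).ker with hR
  set c := r * d * r⁻¹ * d⁻¹ with hc
  have hcR : c ∈ R := by
    have h1 : d * r⁻¹ * d⁻¹ ∈ R := conjR f h (h.le hd) (inv_mem hr)
    have : c = r * (d * r⁻¹ * d⁻¹) := by rw [hc]; group
    rw [this]; exact mul_mem hr h1
  have hmax : ∀ m : Ideal S, m.IsMaximal → ∀ i j, (c.1 - 1) i j ∈ m := by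
    intro m hm i j
    letI : Field (S ⧸ m) := Ideal.Quotient.field m
    let f' : S →+* (S ⧸ m) := Ideal.Quotient.mk m
    have hf' : Function.Surjective f' := Ideal.Quotient.mk_surjective
    have htop := h.top f' hf'
    obtain ⟨a, ha, ha2⟩ := exists_sq_ne h2 h3
    have hex : ∃ a : S ⧸ m, a ≠ 0 ∧ a ^ 2 ≠ 1 := by
      have hinj : Function.Injective (f'.comp (algebraMap k S)) := RingHom.injective _
      refine ⟨(f'.comp (algebraMap k S)) a, fun h0 => ha (hinj (by rw [h0, map_zero])), fun h1 => ?_⟩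
      apply ha2
      apply hinj
      rw [map_pow, h1, map_one]
    have hN : (R.map (mp f')).Normal := by
      constructor
      rintro _ ⟨n, hn, rfl⟩ g
      have hg : g ∈ D.map (mp f') := by rw [htop]; exact Subgroup.mem_top _
      obtain ⟨g', hg', rfl⟩ := hg
      exact ⟨g' * n * g'⁻¹, conjR f h (h.le hg') hn, by simp⟩
    rcases normal_dichotomy hex _ hN with h1 | h1
    · have h4 : mp f' r ∈ Subgroup.center _ := h1 ⟨r, hr, rfl⟩
      have h5 : mp f' c = 1 := by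
        rw [hc, map_mul, map_mul, map_mul, map_inv, map_inv]
        have := Subgroup.mem_center_iff.1 h4 (mp f' d)
        rw [← this]; group
      have h6 : f' (c.1 i j) = (1 : SL2 (S ⧸ m)).1 i j := by
        rw [← mp_apply, h5]
      have h7 : f' ((c.1 - 1) i j) = 0 := by
        rw [Matrix.sub_apply, map_sub, h6]
        have : (1 : SL2 (S ⧸ m)).1 i j = f' ((1 : Matrix (Fin 2) (Fin 2) S) i j) := by
          rw [Matrix.one_apply]
          show (1 : Matrix (Fin 2) (Fin 2) (S ⧸ m)) i j = _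
          rw [Matrix.one_apply]
          split_ifs <;> simp
        rw [this, sub_self]
      exact Ideal.Quotient.eq_zero_iff_mem.1 h7
    · exfalso
      apply hnd
      refine dvd_trans ?_ (Subgroup.card_map_dvd R (mp f'))
      have hu1 : (u 1 : SL2 (S ⧸ m)) ^ p = 1 := by
        rw [u_pow]
        have : ((p : ℕ) : S ⧸ m) = 0 := by
          have := congrArg f' (CharP.cast_eq_zero S p)
          rwa [map_natCast, map_zero] at this
        rw [this, zero_mul, u_zero]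
      have hu2 : (u 1 : SL2 (S ⧸ m)) ≠ 1 := by
        intro h0
        rw [← u_zero] at h0
        exact one_ne_zero (u_inj h0)
      have horder : orderOf (u 1 : SL2 (S ⧸ m)) = p := orderOf_eq_prime hu1 hu2
      have hmem : (u 1 : SL2 (S ⧸ m)) ∈ R.map (mp f') := by rw [h1]; exact Subgroup.mem_top _
      have := orderOf_dvd_natCard (⟨u 1, hmem⟩ : R.map (mp f'))
      rwa [← Subgroup.orderOf_coe, horder] at this
  obtain ⟨n, hn⟩ := ppow_of_all_max p c hmax
  have h8 : orderOf c ∣ p ^ n := orderOf_dvd_of_pow_eq_one hn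
  have h9 : orderOf c ∣ Nat.card R := by
    have := orderOf_dvd_natCard (⟨c, hcR⟩ : R)
    rwa [← Subgroup.orderOf_coe] at this
  have h10 : Nat.Coprime (p ^ n) (Nat.card R) :=
    Nat.Coprime.pow_left n ((Nat.Prime.coprime_iff_not_dvd hp.out).2 hnd)
  have h11 : orderOf c = 1 := Nat.eq_one_of_dvd_coprimes h10 h8 h9
  rw [orderOf_eq_one_iff] at h11
  rw [hc] at h11
  rw [mul_inv_eq_one, mul_inv_eq_iff_eq_mul] at h11
  exact h11

/-- Elements of order dividing `p` of `D` are determined by their image in `SL₂(L)`. -/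
theorem uniq (hp2 : Odd p) (h2 : (2 : k) ≠ 0) (h3 : Nat.card k ≠ 3) (h : Hyp k l D)
    {g₁ g₂ : SL2 S} (h1 : g₁ ∈ D) (h1' : g₂ ∈ D) (e1 : g₁ ^ p = 1) (e2 : g₂ ^ p = 1)
    (e : mp f g₁ = mp f g₂) : g₁ = g₂ := by
  have hr : g₂⁻¹ * g₁ ∈ D ⊓ (mp f).ker := by
    refine Subgroup.mem_inf.2 ⟨mul_mem (inv_mem h1') h1, ?_⟩
    rw [MonoidHom.mem_ker, map_mul, map_inv, e, inv_mul_cancel]
  have hc := R_central p f hp2 h2 h3 h hr h1'
  have hcomm : Commute g₂⁻¹ g₁ := by
    have h4 : g₂⁻¹ * g₁ * g₂ = g₁ := by rw [hc]; group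
    have : g₁ * g₂ = g₂ * g₁ := by
      calc g₁ * g₂ = g₂ * (g₂⁻¹ * g₁ * g₂) := by group
        _ = g₂ * g₁ := by rw [h4]
    exact (show Commute g₂ g₁ from this.symm).inv_left
  have hpow : (g₂⁻¹ * g₁) ^ p = 1 := by
    rw [hcomm.mul_pow, inv_pow, e1, e2]; simp
  have h8 : orderOf (g₂⁻¹ * g₁) ∣ p := orderOf_dvd_of_pow_eq_one hpow
  have h9 : orderOf (g₂⁻¹ * g₁) ∣ Nat.card (D ⊓ (mp f).ker : Subgroup (SL2 S)) := by
    have := orderOf_dvd_natCard (⟨g₂⁻¹ * g₁, hr⟩ : (D ⊓ (mp f).ker : Subgroup (SL2 S)))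
    rwa [← Subgroup.orderOf_coe] at this
  have h10 : Nat.Coprime p (Nat.card (D ⊓ (mp f).ker : Subgroup (SL2 S))) :=
    (Nat.Prime.coprime_iff_not_dvd hp.out).2 (not_dvd_card_R p f hp2 h)
  have h11 : orderOf (g₂⁻¹ * g₁) = 1 := Nat.eq_one_of_dvd_coprimes h10 h8 h9
  rw [orderOf_eq_one_iff, inv_mul_eq_one] at h11
  exact h11.symm

include f in
theorem castL : ((p : ℕ) : L) = 0 := by
  have := congrArg f (CharP.cast_eq_zero S p)
  rwa [map_natCast, map_zero] at this

theorem u_pow_p (x : S) : (u x) ^ p = 1 := by rw [u_pow, CharP.cast_eq_zero, zero_mul, u_zero]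
theorem v_pow_p (x : S) : (v x) ^ p = 1 := by rw [v_pow, CharP.cast_eq_zero, zero_mul, v_zero]

theorem dvd_card_D (h : Hyp k l D) (hf : Function.Surjective f) : p ∣ Nat.card D := by
  refine dvd_trans ?_ (Subgroup.card_map_dvd D (mp f))
  have hu1 : (u 1 : SL2 L) ^ p = 1 := by
    rw [u_pow, castL p f, zero_mul, u_zero]
  have hu2 : (u 1 : SL2 L) ≠ 1 := by
    intro h0
    rw [← u_zero] at h0
    exact one_ne_zero (u_inj h0)
  have horder : orderOf (u 1 : SL2 L) = p := orderOf_eq_prime hu1 hu2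
  have hmem : (u 1 : SL2 L) ∈ D.map (mp f) := by rw [h.top f hf]; exact Subgroup.mem_top _
  have := orderOf_dvd_natCard (⟨u 1, hmem⟩ : D.map (mp f))
  rwa [← Subgroup.orderOf_coe, horder] at this

theorem exists_unit (hp2 : Odd p) (h : Hyp k l D) (hf : Function.Surjective f) :
    ∃ x : Sˣ, u (x : S) ∈ D := by
  obtain ⟨x, hx0, hx⟩ := exists_u_mem p hp2 D (fun x hx => h.conj _ u1_mem x hx)
    (dvd_card_D p f h hf)
  rcases h.min x hx with h1 | h1
  · exact absurd h1 hx0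
  · obtain ⟨y, rfl⟩ := h1
    exact ⟨y, hx⟩

theorem eqA (h : Hyp k l D) {x x' : S} (hx : u x ∈ D) (hx' : u x' ∈ D) (e : f x = f x') :
    x = x' := by
  have h1 : u (x - x') ∈ D := by
    rw [sub_eq_add_neg, u_add, ← u_inv]; exact mul_mem hx (inv_mem hx')
  rcases h.min _ h1 with h2 | h2
  · exact sub_eq_zero.1 h2
  · exact absurd (by rw [map_sub, e, sub_self]) (h2.map f).ne_zero

theorem surjA (hp2 : Odd p) (h2 : (2 : k) ≠ 0) (h3 : Nat.card k ≠ 3) (h : Hyp k l D)
    (hf : Function.Surjective f) (y : L) : ∃ x : S, u x ∈ D ∧ f x = y := by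
  obtain ⟨x0, hx0⟩ := exists_unit p f hp2 h hf
  have hy : u y ∈ D.map (mp f) := by rw [h.top f hf]; exact Subgroup.mem_top _
  obtain ⟨g, hg, eg⟩ := hy
  set n := Nat.card (D ⊓ (mp f).ker : Subgroup (SL2 S)) with hn
  have hcop : Nat.Coprime n p :=
    ((Nat.Prime.coprime_iff_not_dvd hp.out).2 (not_dvd_card_R p f hp2 h)).symm
  obtain ⟨t, -, ht⟩ := Nat.exists_mul_mod_eq_one_of_coprime hcop hp.out.one_lt
  have hcast : ((n * t : ℕ) : L) = 1 := by
    have h5 : n * t = p * (n * t / p) + 1 := by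
      rw [← ht]; exact (Nat.div_add_mod _ _).symm
    rw [h5, Nat.cast_add, Nat.cast_mul, castL p f]; simp
  have hgp : g ^ p ∈ D ⊓ (mp f).ker := by
    refine Subgroup.mem_inf.2 ⟨pow_mem hg p, ?_⟩
    rw [MonoidHom.mem_ker, map_pow, eg, u_pow, castL p f, zero_mul, u_zero]
  have hgpn : (g ^ p) ^ n = 1 := by
    have := pow_card_eq_one' (G := (D ⊓ (mp f).ker : Subgroup (SL2 S))) (x := ⟨g ^ p, hgp⟩)
    exact congrArg Subtype.val this
  set g' := g ^ (n * t) with hg'
  have hg'D : g' ∈ D := pow_mem hg _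
  have hg'p : g' ^ p = 1 := by
    rw [hg', ← pow_mul, mul_comm (n * t) p, pow_mul, pow_mul, hgpn, one_pow]
  have hg'f : mp f g' = u y := by
    rw [hg', map_pow, eg, u_pow, hcast, one_mul]
  have hconj : u (x0 : S) * g' * (u (x0 : S))⁻¹ = g' := by
    apply uniq p f hp2 h2 h3 h (mul_mem (mul_mem hx0 hg'D) (inv_mem hx0)) hg'D _ hg'p
    · rw [map_mul, map_mul, map_inv, mp_u, hg'f, ← u_add, add_comm, u_add]; group
    · rw [conj_pow, hg'p]; simp
  have hcomm : u (x0 : S) * g' = g' * u (x0 : S) := mul_inv_eq_iff_eq_mul.1 hconj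
  have hu := eq_u_of_comm x0.isUnit hcomm hp2 hg'p
  refine ⟨g'.1 0 1, hu ▸ hg'D, ?_⟩
  rw [hu, mp_u] at hg'f
  exact u_inj hg'f

/-- The multiplier property. -/
def TT (D : Subgroup (SL2 S)) (s : S) : Prop := ∀ x, u x ∈ D → u (s * x) ∈ D

theorem TT_add {s t : S} (hs : TT D s) (ht : TT D t) : TT D (s + t) := by
  intro x hx
  rw [add_mul, u_add]; exact mul_mem (hs x hx) (ht x hx)

theorem TT_mul {s t : S} (hs : TT D s) (ht : TT D t) : TT D (s * t) := by
  intro x hx
  rw [mul_assoc]; exact hs _ (ht x hx)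

theorem TT_neg {s : S} (hs : TT D s) : TT D (-s) := by
  intro x hx
  rw [neg_mul, ← u_inv]; exact inv_mem (hs x hx)

theorem TT_sub {s t : S} (hs : TT D s) (ht : TT D t) : TT D (s - t) := by
  rw [sub_eq_add_neg]; exact TT_add hs (TT_neg ht)

theorem TT_sq (hp2 : Odd p) (h2 : (2 : k) ≠ 0) (h3 : Nat.card k ≠ 3) (h : Hyp k l D)
    (hf : Function.Surjective f) (y : L) (hy : y ≠ 0) : ∃ a : S, TT D (a ^ 2) ∧ f a = y := by
  have hgy : dg y hy ∈ D.map (mp f) := by rw [h.top f hf]; exact Subgroup.mem_top _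
  obtain ⟨g, hg, eg⟩ := hgy
  have key : ∀ x, u x ∈ D → ∃ x', u x' ∈ D ∧ g * u x = u x' * g := by
    intro x hx
    obtain ⟨x', hx', e'⟩ := surjA p f hp2 h2 h3 h hf (y ^ 2 * f x)
    refine ⟨x', hx', ?_⟩
    have hc : g * u x * g⁻¹ = u x' := by
      apply uniq p f hp2 h2 h3 h (mul_mem (mul_mem hg hx) (inv_mem hg)) hx' _ (u_pow_p p x')
      · rw [map_mul, map_mul, map_inv, mp_u, mp_u, eg, e', mul_inv_eq_iff_eq_mul]
        apply ext2
        · simp [mulE, dg]
        · simp only [mulE, dg, mk00, mk01, mk10, mk11, u00, u01, u10, u11]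
          field_simp; ring
        · simp [mulE, dg]
        · simp [mulE, dg]
      · rw [conj_pow, u_pow_p p x]; simp
    exact mul_inv_eq_iff_eq_mul.1 hc
  obtain ⟨x0, hx0⟩ := exists_unit p f hp2 h hf
  obtain ⟨x0', hx0', e0⟩ := key _ hx0
  have h11 := congrArg (fun g : SL2 S => g.1 1 1) e0
  simp only [mulE, u00, u01, u10, u11] at h11
  have hc : g.1 1 0 = 0 := by
    have : g.1 1 0 * (x0 : S) = 0 := by linear_combination h11
    exact (x0.isUnit.mul_left_eq_zero).1 this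
  have hdet := det2 g
  rw [hc, mul_zero, sub_zero] at hdet
  refine ⟨g.1 0 0, ?_, ?_⟩
  · intro x hx
    obtain ⟨x', hx', e1⟩ := key x hx
    have h01 := congrArg (fun g : SL2 S => g.1 0 1) e1
    simp only [mulE, u00, u01, u10, u11] at h01
    have : g.1 0 0 ^ 2 * x = x' := by
      linear_combination (g.1 0 0) * h01 + x' * hdet
    rw [this]; exact hx'
  · have := congrArg (fun g : SL2 L => g.1 0 0) eg
    exact this

theorem TT_surj (hp2 : Odd p) (h2 : (2 : k) ≠ 0) (h3 : Nat.card k ≠ 3) (h : Hyp k l D)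
    (hf : Function.Surjective f) (z : L) : ∃ s : S, TT D s ∧ f s = z := by
  have hsq : ∀ w : L, ∃ s : S, TT D s ∧ f s = w ^ 2 := by
    intro w
    by_cases hw : w = 0
    · refine ⟨0, fun x _ => by rw [zero_mul, u_zero]; exact one_mem _, ?_⟩
      rw [hw, map_zero]; ring
    · obtain ⟨a, ha, rfl⟩ := TT_sq p f hp2 h2 h3 h hf w hw
      exact ⟨a ^ 2, ha, map_pow _ _ _⟩
  obtain ⟨s1, hs1, e1⟩ := hsq (z + 1)
  obtain ⟨s2, hs2, e2⟩ := hsq (z - 1)
  refine ⟨algebraMap k S (4 : k)⁻¹ * (s1 - s2), TT_mul (fun x hx => h.dil _ x hx)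
    (TT_sub hs1 hs2), ?_⟩
  have h4 : (4 : k) ≠ 0 := by
    have : (4 : k) = 2 * 2 := by norm_num
    rw [this]; exact mul_ne_zero h2 h2
  have h5 : f (algebraMap k S (4 : k)⁻¹) * 4 = 1 := by
    have : (4 : L) = f (algebraMap k S 4) := by rw [map_ofNat, map_ofNat]
    rw [this, ← map_mul, ← map_mul, inv_mul_cancel₀ h4, map_one, map_one]
  rw [map_mul, map_sub, e1, e2]
  linear_combination z * h5

theorem weyl (hp2 : Odd p) (h2 : (2 : k) ≠ 0) (h3 : Nat.card k ≠ 3) (h : Hyp k l D)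
    (hf : Function.Surjective f) (x0 : Sˣ) (hx0 : u (x0 : S) ∈ D) :
    u (((l⁻¹ * x0⁻¹ : Sˣ)) : S) ∈ D := by
  have hl0 : f (l : S) ≠ 0 := (l.isUnit.map f).ne_zero
  have hx00 : f (x0 : S) ≠ 0 := (x0.isUnit.map f).ne_zero
  obtain ⟨x1, hx1, e1⟩ := surjA p f hp2 h2 h3 h hf (-(f (l : S))⁻¹ * (f (x0 : S))⁻¹)
  have hz : v ((l : S) * x1) ∈ D := (h.sw x1).1 hx1
  set z := (l : S) * x1 with hzdef
  have hfz : f z = -(f (x0 : S))⁻¹ := by
    rw [hzdef, map_mul, e1]; field_simp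
  set w := u (x0 : S) * v z * u (x0 : S) with hw
  have hwD : w ∈ D := mul_mem (mul_mem hx0 hz) hx0
  have hconj : w * u (x0 : S) * w⁻¹ = v z := by
    apply uniq p f hp2 h2 h3 h (mul_mem (mul_mem hwD hx0) (inv_mem hwD)) hz _ (v_pow_p p z)
    · rw [map_mul, map_mul, map_inv, mul_inv_eq_iff_eq_mul, hw, map_mul, map_mul, mp_u, mp_v, hfz]
      apply ext2 <;> simp only [mulE, u00, u01, u10, u11, v00, v01, v10, v11] <;> field_simp <;> ring
    · rw [conj_pow, u_pow_p p _]; simp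
  have hrel : w * u (x0 : S) = v z * w := mul_inv_eq_iff_eq_mul.1 hconj
  have h01 := congrArg (fun g : SL2 S => g.1 0 1) hrel
  simp only [hw, mulE, u00, u01, u10, u11, v00, v01, v10, v11] at h01
  have h5 : (1 + (x0 : S) * z) * x0 = 0 := by linear_combination h01
  have h6 : 1 + (x0 : S) * z = 0 := (x0.isUnit.mul_left_eq_zero).1 h5
  have h7 : ((l⁻¹ * x0⁻¹ : Sˣ) : S) = -x1 := by
    rw [Units.val_mul]
    have hl1 : ((l⁻¹ : Sˣ) : S) * l = 1 := Units.inv_mul l
    have hx1' : ((x0⁻¹ : Sˣ) : S) * x0 = 1 := Units.inv_mul x0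
    rw [hzdef] at h6
    linear_combination (((l⁻¹ : Sˣ) : S) * ((x0⁻¹ : Sˣ) : S)) * h6 -
      (((x0⁻¹ : Sˣ) : S) * x0 * x1) * hl1 - x1 * hx1'
  rw [h7, ← u_inv]
  exact inv_mem hx1

theorem u_one_mem (hp2 : Odd p) (h2 : (2 : k) ≠ 0) (h3 : Nat.card k ≠ 3) (h : Hyp k l D)
    (hf : Function.Surjective f) : u (1 : S) ∈ D := by
  obtain ⟨x', hx', e'⟩ := surjA p f hp2 h2 h3 h hf 1
  obtain ⟨x0, hx0⟩ := exists_unit p f hp2 h hf
  have hz : v ((l : S) * x0) ∈ D := (h.sw _).1 hx0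
  have hg : u (1 - x') ∈ HH k (l : S) := by
    rw [sub_eq_add_neg, u_add, ← u_inv]
    exact mul_mem u1_mem (inv_mem (h.le hx'))
  have hconj : u (1 - x') * v ((l : S) * x0) * (u (1 - x'))⁻¹ = v ((l : S) * x0) := by
    apply uniq p f hp2 h2 h3 h (h.conj _ hg _ hz) hz _ (v_pow_p p _)
    · rw [map_mul, map_mul, map_inv, mp_u, map_sub, e', map_one, sub_self, u_zero]; simp
    · rw [conj_pow, v_pow_p p _]; simp
  have hrel := mul_inv_eq_iff_eq_mul.1 hconj
  have h00 := congrArg (fun g : SL2 S => g.1 0 0) hrel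
  simp only [mulE, u00, u01, u10, u11, v00, v01, v10, v11] at h00
  have h5 : (1 - x') * ((l * x0 : Sˣ) : S) = 0 := by
    rw [Units.val_mul]; linear_combination h00
  have h6 : 1 - x' = 0 := ((l * x0).isUnit.mul_left_eq_zero).1 h5
  rw [sub_eq_zero] at h6
  rw [h6]; exact hx'

theorem main (hp2 : Odd p) (h2 : (2 : k) ≠ 0) (h3 : Nat.card k ≠ 3) (h : Hyp k l D)
    (hf : Function.Surjective f) (y : S) : u y ∈ D ∧ v y ∈ D ∧ (y = 0 ∨ IsUnit y) := by
  have h1 := u_one_mem p f hp2 h2 h3 h hf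
  have hT : ∀ x, u x ∈ D → TT D x := by
    intro x hx
    obtain ⟨s, hs, e⟩ := TT_surj p f hp2 h2 h3 h hf (f x)
    have hs1 : u s ∈ D := by have := hs 1 h1; rwa [mul_one] at this
    have := eqA f h hs1 hx e
    rw [← this]; exact hs
  have hl1 : u ((l⁻¹ : Sˣ) : S) ∈ D := by
    have := weyl p f hp2 h2 h3 h hf 1 (by rw [Units.val_one]; exact h1)
    rwa [inv_one, mul_one] at this
  have hl2 : u (((l⁻¹ * l⁻¹ : Sˣ)) : S) ∈ D := by
    rw [Units.val_mul]; exact hT _ hl1 _ hl1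
  have hl : u (l : S) ∈ D := by
    have := weyl p f hp2 h2 h3 h hf _ hl2
    have e : l⁻¹ * (l⁻¹ * l⁻¹)⁻¹ = l := by group
    rwa [e] at this
  have hTl := hT _ hl
  have hall : ∀ y : S, TT D y := by
    intro y
    obtain ⟨x, rfl⟩ := h.gen y
    have hscal : ∀ c : k, TT D (algebraMap k S c) := fun c x hx => h.dil c x hx
    induction x using Polynomial.induction_on' with
    | add p q hp hq => rw [map_add]; exact TT_add hp hq
    | monomial n c =>
      rw [aeval_monomial]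
      refine TT_mul (hscal c) ?_
      induction n with
      | zero => intro x hx; rw [pow_zero, one_mul]; exact hx
      | succ n ih => rw [pow_succ]; exact TT_mul ih hTl
  have hu : ∀ y : S, u y ∈ D := by
    intro y
    have := hall y 1 h1
    rwa [mul_one] at this
  refine ⟨hu y, ?_, h.min y (hu y)⟩
  have := (h.sw (((l⁻¹ : Sˣ) : S) * y)).1 (hu _)
  rwa [← mul_assoc, Units.mul_inv, one_mul] at this

end D

theorem map_eq_of_le {X : Type*} [Group X] {H : Subgroup X} {f : X →* X} (h1 : H.map f ≤ H)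
    (h2 : ∀ x ∈ H, ∃ y ∈ H, f y = x) : H.map f = H :=
  le_antisymm h1 fun x hx => by obtain ⟨y, hy, e⟩ := h2 x hx; exact ⟨y, hy, e⟩

theorem HH_map_le {l : S} {f : SL2 S →* SL2 S} (h1 : ∀ c : k, f (u (algebraMap k S c)) ∈ HH k l)
    (h2 : ∀ c : k, f (v (algebraMap k S c * l)) ∈ HH k l) : (HH k l).map f ≤ HH k l := by
  rw [Subgroup.map_le_iff_le_comap]
  conv_lhs => unfold HH
  rw [Subgroup.closure_le]
  rintro g (⟨c, rfl⟩ | ⟨c, rfl⟩)
  · exact h1 c
  · exact h2 c

theorem dil_HH {s : k} (hs : s ≠ 0) (l : S) :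
    (HH k l).map (dil (Units.map (algebraMap k S).toMonoidHom (Units.mk0 s hs))) ≤ HH k l := by
  apply HH_map_le
  · intro c
    rw [dil_u]
    have : ((Units.map (algebraMap k S).toMonoidHom (Units.mk0 s hs) : Sˣ) : S) *
        algebraMap k S c = algebraMap k S (s * c) := by rw [map_mul]; rfl
    rw [this]
    exact u_mem_HH l _
  · intro c
    rw [dil_v, ← map_inv]
    have : ((Units.map (algebraMap k S).toMonoidHom (Units.mk0 s hs)⁻¹ : Sˣ) : S) *
        (algebraMap k S c * l) = algebraMap k S (s⁻¹ * c) * l := by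
      rw [map_mul, mul_assoc]
      congr 1
    rw [this]
    exact v_mem_HH l _

theorem dil_dil (s : Sˣ) (g : SL2 S) : dil s (dil s⁻¹ g) = g := by
  apply ext2
  · rfl
  · show (s : S) * (((s⁻¹ : Sˣ) : S) * g.1 0 1) = g.1 0 1
    rw [← mul_assoc, Units.mul_inv, one_mul]
  · show ((s⁻¹ : Sˣ) : S) * (((s⁻¹⁻¹ : Sˣ) : S) * g.1 1 0) = g.1 1 0
    rw [← mul_assoc, Units.mul_inv, one_mul]
  · rfl

theorem dil_HH_eq {s : k} (hs : s ≠ 0) (l : S) :
    (HH k l).map (dil (Units.map (algebraMap k S).toMonoidHom (Units.mk0 s hs))) = HH k l := by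
  apply map_eq_of_le (dil_HH hs l)
  intro x hx
  refine ⟨dil (Units.map (algebraMap k S).toMonoidHom (Units.mk0 s hs))⁻¹ x, ?_, dil_dil _ _⟩
  have h1 : (Units.map (algebraMap k S).toMonoidHom (Units.mk0 s hs))⁻¹ =
      Units.map (algebraMap k S).toMonoidHom (Units.mk0 s⁻¹ (inv_ne_zero hs)) := by
    ext
    rfl
  rw [h1]
  exact dil_HH (inv_ne_zero hs) l ⟨x, hx, rfl⟩

/-- The involutory automorphism exchanging `u x` and `v (l x)`. -/
def tw (l : Sˣ) : SL2 S →* SL2 S := (dil l⁻¹).comp sw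

theorem tw_u (l : Sˣ) (x : S) : tw l (u x) = v ((l : S) * x) := by
  show dil l⁻¹ (sw (u x)) = _
  rw [sw_u, dil_v, inv_inv]

theorem tw_v (l : Sˣ) (x : S) : tw l (v x) = u (((l⁻¹ : Sˣ) : S) * x) := by
  show dil l⁻¹ (sw (v x)) = _
  rw [sw_v, dil_u]

theorem tw_tw (l : Sˣ) (g : SL2 S) : tw l (tw l g) = g := by
  apply ext2
  · rfl
  · show ((l⁻¹ : Sˣ) : S) * (((l⁻¹⁻¹ : Sˣ) : S) * g.1 0 1) = g.1 0 1
    rw [← mul_assoc, Units.mul_inv, one_mul]
  · show ((l⁻¹⁻¹ : Sˣ) : S) * (((l⁻¹ : Sˣ) : S) * g.1 1 0) = g.1 1 0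
    rw [← mul_assoc, Units.inv_mul, one_mul]
  · rfl

theorem tw_HH_eq (l : Sˣ) : (HH k (l : S)).map (tw l) = HH k (l : S) := by
  have hle : (HH k (l : S)).map (tw l) ≤ HH k (l : S) := by
    apply HH_map_le
    · intro c
      rw [tw_u, mul_comm]; exact v_mem_HH _ c
    · intro c
      rw [tw_v, mul_comm, mul_assoc, Units.mul_inv, mul_one]; exact u_mem_HH _ c
  exact map_eq_of_le hle fun x hx => ⟨tw l x, hle ⟨x, hx, rfl⟩, tw_tw l x⟩

theorem hyp_ds (h2 : (2 : k) ≠ 0) (h3 : Nat.card k ≠ 3) (l : Sˣ) [Algebra.IsIntegral k S]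
    (hgen : ∀ y : S, ∃ x : k[X], aeval (l : S) x = y) (n : ℕ)
    (hmin : ∀ x : S, u x ∈ ds (HH k (l : S)) n → x = 0 ∨ IsUnit x) :
    Hyp k l (ds (HH k (l : S)) n) where
  conj := fun g hg x hx => ds_conj hg hx
  le := ds_le _ _
  dil := by
    intro s x hx
    by_cases hs : s = 0
    · rw [hs, map_zero, zero_mul, u_zero]; exact one_mem _
    · rw [← ds_invariant (dil_HH_eq hs (l : S)) n]
      refine ⟨u x, hx, ?_⟩
      rw [dil_u]; rfl
  sw := by
    intro x
    constructor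
    · intro hx
      rw [← ds_invariant (tw_HH_eq (k := k) l) n]
      exact ⟨u x, hx, tw_u l x⟩
    · intro hx
      rw [← ds_invariant (tw_HH_eq (k := k) l) n]
      refine ⟨_, hx, ?_⟩
      rw [tw_v, ← mul_assoc, Units.inv_mul, one_mul]
  top := by
    intro L _ f hf
    rw [ds_map, map_HH h2 h3 l hgen f hf]
    apply ds_top_of_perfect
    apply perfect
    obtain ⟨a, ha, ha2⟩ := exists_sq_ne h2 h3
    have hinj : Function.Injective (f.comp (algebraMap k S)) := RingHom.injective _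
    refine ⟨(f.comp (algebraMap k S)) a, fun h0 => ha (hinj (by rw [h0, map_zero])), fun h1 => ?_⟩
    apply ha2
    apply hinj
    rw [map_pow, h1, map_one]
  min := hmin
  gen := hgen

/-- The final form: if every `x ≠ 0` with `u x` in the `n`-th derived group of `HH k l` is a unit
then `S` is a field and the `n`-th derived group contains all `u x`, `v x`. -/
theorem main_ds [Finite k] [Finite S] [Nontrivial S] (h2 : (2 : k) ≠ 0) (h3 : Nat.card k ≠ 3)
    (l : Sˣ) (hgen : ∀ y : S, ∃ x : k[X], aeval (l : S) x = y) (n : ℕ)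
    (hmin : ∀ x : S, u x ∈ ds (HH k (l : S)) n → x = 0 ∨ IsUnit x) (y : S) :
    u y ∈ ds (HH k (l : S)) n ∧ v y ∈ ds (HH k (l : S)) n ∧ (y = 0 ∨ IsUnit y) := by
  haveI : Algebra.IsIntegral k S := by
    haveI : Module.Finite k S := Module.Finite.of_finite
    infer_instance
  obtain ⟨p, hpc⟩ := CharP.exists k
  haveI := hpc
  haveI hp : Fact p.Prime := ⟨(CharP.char_is_prime_or_zero k p).resolve_right (by
    rintro rfl
    haveI := CharP.charP_to_charZero k
    exact not_injective_infinite_finite (Nat.cast : ℕ → k) Nat.cast_injective)⟩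
  have hp2 : p ≠ 2 := by
    rintro rfl
    exact h2 (by exact_mod_cast CharP.cast_eq_zero k 2)
  have hodd : Odd p := hp.out.odd_of_ne_two hp2
  haveI : CharP S p := charP_of_injective_algebraMap (algebraMap k S).injective p
  obtain ⟨m, hm⟩ := Ideal.exists_maximal S
  letI : Field (S ⧸ m) := Ideal.Quotient.field m
  exact main p (Ideal.Quotient.mk m) hodd h2 h3 (hyp_ds h2 h3 l hgen n hmin)
    Ideal.Quotient.mk_surjective y

end main

end H86.FinSL
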