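import Mathlib

set_option autoImplicit false
set_option linter.unusedSimpArgs false
set_option linter.unusedVariables false
set_option linter.style.haveILetI false
set_option linter.unusedSectionVars false

/-!
Elements of `p`-power order of `GL_n(F)`, `F` of characteristic `p`, are the unipotent matrices;
the number of nilpotent endomorphisms of a finite space (`|Nil V| |V| = |End V|`).
-/

namespace H86.GLUnip

open Matrix

variable {F : Type*} [Field F] (p : ℕ) [Fact p.Prime] [CharP F p] {n : ℕ}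

theorem sub_one_pow (M : Matrix (Fin n) (Fin n) F) (k : ℕ) : (M - 1) ^ p ^ k = M ^ p ^ k - 1 := by
  rcases Nat.eq_zero_or_pos n with h0 | h0
  · subst h0
    exact Subsingleton.elim _ _
  · haveI : Nonempty (Fin n) := ⟨⟨0, h0⟩⟩
    rw [sub_pow_char_pow_of_commute p k (Commute.one_right M), one_pow]

theorem order_iff (g : GL (Fin n) F) :
    (∃ k : ℕ, orderOf g = p ^ k) ↔ ∃ k : ℕ, ((g : Matrix (Fin n) (Fin n) F) - 1) ^ k = 0 := by
  constructor
  · rintro ⟨k, hk⟩
    refine ⟨p ^ k, ?_⟩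
    rw [sub_one_pow, ← Units.val_pow_eq_pow_val, ← hk, pow_orderOf_eq_one, Units.val_one, sub_self]
  · rintro ⟨k, hk⟩
    have hp : p.Prime := Fact.out
    obtain ⟨j, hj⟩ : ∃ j, k ≤ p ^ j := ⟨k, (Nat.lt_pow_self hp.one_lt).le⟩
    have h1 : ((g : Matrix (Fin n) (Fin n) F) - 1) ^ p ^ j = 0 := pow_eq_zero_of_le hj hk
    rw [sub_one_pow, sub_eq_zero, ← Units.val_pow_eq_pow_val] at h1
    have h2 : g ^ p ^ j = 1 := Units.ext h1
    obtain ⟨i, -, hi⟩ := (Nat.dvd_prime_pow hp).mp (orderOf_dvd_of_pow_eq_one h2)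
    exact ⟨i, hi⟩

/-- unipotent matrices are invertible -/
theorem isUnit_of_unip {M : Matrix (Fin n) (Fin n) F} {k : ℕ} (h : (M - 1) ^ k = 0) : IsUnit M := by
  have h1 : IsNilpotent (M - 1) := ⟨k, h⟩
  have h2 := h1.isUnit_one_add
  rwa [add_sub_cancel] at h2

end H86.GLUnip
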