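import Cfsg.Agent.Lib.H33.Leech13

set_option autoImplicit false
open Cfsg

/-! The 352 vectors permuted by the Higman-Sims group: shapes, number and moves by the Mathieu group. -/

namespace H86.HS352
open Finset H9.Leech H9.LeechGood H8.GolayCode H8.GolayCount H8.GolayBasic H33.Leech1 H33.Leech2 H33.Leech3 H33.Leech4 H33.Leech5 H33.Leech6 H33.Leech7 H33.Leech8 H33.Leech10 H33.Leech11 H33.Leech12 H33.Leech13

/-- the set of 352 vectors relative to `B`, `V5` -/
structure InK (x : leechLattice) : Prop where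
  n : sqNorm (x : GolayPt → ℤ) = 32
  b : dotInt (B : GolayPt → ℤ) x = -8
  v : dotInt (V5 : GolayPt → ℤ) x = 16

theorem shapesK {x : leechLattice} (h : InK x) :
    (∃ O, ∃ hO : O ∈ octads, P ∉ O ∧ Q ∈ O ∧ x = twoInd O hO) ∨
    (∃ C, ∃ hC : C ∈ octads, P ∉ C ∧ Q ∈ C ∧ x = oddV C hC.1 Q) := by
  have hB := h.b
  have hV := h.v
  rw [dotB] at hB
  rw [dotV5] at hV
  rcases classify32 x.2 h.n with ⟨i, j, hij, hi, hj, h0⟩ | ⟨O, hO, h1, h2⟩ | ⟨c, hc, j, h3⟩
  · exfalso
    have key : ∀ k, (x : GolayPt → ℤ) k = 4 ∨ (x : GolayPt → ℤ) k = -4 ∨ (x : GolayPt → ℤ) k = 0 := by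
      intro k
      by_cases hki : k = i
      · subst hki; rcases hi with h | h <;> simp [h]
      · by_cases hkj : k = j
        · subst hkj; rcases hj with h | h <;> simp [h]
        · right; right; exact h0 k hki hkj
    rcases key P with h | h | h <;> rcases key Q with h' | h' | h' <;> rw [h, h'] at hB <;> omega
  · left
    have hle : ∀ k, 0 ≤ 2 * ind O k - (x : GolayPt → ℤ) k := by
      intro k
      unfold ind
      split_ifs with hk
      · have := h1 k hk; omega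
      · have := h2 k hk; omega
    have h7 : ∑ k, (2 * ind O k - (x : GolayPt → ℤ) k) = 16 - ∑ k, (x : GolayPt → ℤ) k := by
      rw [sum_sub_distrib, ← mul_sum, sum_ind, hO.2]
      norm_num
    have h8 : 0 ≤ ∑ k, (2 * ind O k - (x : GolayPt → ℤ) k) := sum_nonneg fun k _ => hle k
    have kP : (x : GolayPt → ℤ) P = 2 ∨ (x : GolayPt → ℤ) P = -2 ∨ (x : GolayPt → ℤ) P = 0 := by
      by_cases hPO : P ∈ O
      · rcases h1 P hPO with h | h <;> simp [h]
      · right; right; exact h2 P hPO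
    have kQ : (x : GolayPt → ℤ) Q = 2 ∨ (x : GolayPt → ℤ) Q = -2 ∨ (x : GolayPt → ℤ) Q = 0 := by
      by_cases hQO : Q ∈ O
      · rcases h1 Q hQO with h | h <;> simp [h]
      · right; right; exact h2 Q hQO
    have hP0 : (x : GolayPt → ℤ) P = 0 := by
      rcases kP with h | h | h <;> rcases kQ with h' | h' | h' <;> rw [h, h'] at hB <;> rw [h] at hV <;> omega
    have hQ2 : (x : GolayPt → ℤ) Q = 2 := by omega
    have hPO : P ∉ O := by intro hn; have := h1 P hn; omega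
    have hQO : Q ∈ O := by by_contra hn; have := h2 Q hn; omega
    have h9 := (sum_eq_zero_iff_of_nonneg fun k _ => hle k).1 (by rw [h7]; omega)
    refine ⟨O, hO, hPO, hQO, ?_⟩
    apply Subtype.ext
    funext k
    rw [coe_twoInd]
    have := h9 k (mem_univ k)
    linarith
  · right
    have hs : ∑ i, (x : GolayPt → ℤ) i = 24 - 2 * (c.card : ℤ) - 4 * eps c j := by
      rw [← sum_odd c j]; exact sum_congr rfl fun i _ => h3 i
    rw [hs] at hV
    have hP := h3 P
    have hQ := h3 Q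
    have e1 : eps c P = 1 ∨ eps c P = -1 := by unfold eps; split_ifs <;> simp
    have e2 : eps c Q = 1 ∨ eps c Q = -1 := by unfold eps; split_ifs <;> simp
    have e3 : eps c j = 1 ∨ eps c j = -1 := by unfold eps; split_ifs <;> simp
    have hcard := weight_cases hc
    by_cases hQj : Q = j
    · subst hQj
      rw [if_pos rfl] at hQ
      rw [if_neg PQ] at hP
      have hQc : Q ∈ c := by
        by_contra hh
        rw [eps_out hh] at hQ
        rcases e1 with e | e <;> rw [e] at hP <;> omega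
      have hPc : P ∉ c := by
        intro hh
        rw [eps_in hh] at hP
        rw [eps_in hQc] at hQ
        omega
      rw [eps_out hPc] at hP
      rw [eps_in hQc] at hV
      have h8 : c.card = 8 := by omega
      refine ⟨c, ⟨hc, h8⟩, hPc, hQc, ?_⟩
      apply Subtype.ext
      funext k
      rw [coe_oddV, h3 k]
    · exfalso
      rw [if_neg hQj] at hQ
      by_cases hPj : P = j
      · subst hPj
        rw [if_pos rfl] at hP
        rcases e1 with e | e <;> rw [e] at hP hV <;> rcases e2 with e' | e' <;> rw [e'] at hQ <;> omega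
      · rw [if_neg hPj] at hP
        have hPc : P ∈ c := by
          by_contra hh
          rw [eps_out hh] at hP
          rcases e2 with e' | e' <;> rw [e'] at hQ <;> omega
        have hpos : 0 < c.card := card_pos.2 ⟨P, hPc⟩
        rw [eps_in hPc] at hP
        rcases e3 with e | e <;> rw [e] at hV <;> omega

theorem InK_O {O : Finset GolayPt} (hO : O ∈ octads) (h1 : P ∉ O) (h2 : Q ∈ O) : InK (twoInd O hO) := by
  refine ⟨twoInd_norm hO, ?_, ?_⟩
  · rw [dotB, coe_twoInd, coe_twoInd, ind_out h1, ind_in h2]; norm_num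
  · rw [dotV5, sum_congr rfl fun i _ => coe_twoInd hO i, ← mul_sum, sum_ind, hO.2, coe_twoInd, ind_out h1]; norm_num

theorem InK_C {C : Finset GolayPt} (hC : C ∈ octads) (h1 : P ∉ C) (h2 : Q ∈ C) : InK (oddV C hC.1 Q) := by
  refine ⟨by unfold oddV; rw [co0_norm, Wj_norm], ?_, ?_⟩
  · rw [dotB, coe_oddV, coe_oddV, if_neg PQ, if_pos rfl, eps_out h1, eps_in h2]; norm_num
  · rw [dotV5, sum_congr rfl fun i _ => coe_oddV hC.1 Q i, sum_odd, coe_oddV, if_neg PQ, eps_out h1, eps_in h2, hC.2]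
    norm_num

def gQ (C : Finset GolayPt) : GolayPt → ℤ := fun i => eps C i * (if i = Q then -3 else 1)

theorem setK : (fun x : leechLattice => (x : GolayPt → ℤ)) '' {x | InK x} =
    fB '' {O | O ∈ octads ∧ P ∉ O ∧ Q ∈ O} ∪ gQ '' {O | O ∈ octads ∧ P ∉ O ∧ Q ∈ O} := by
  ext y
  simp only [Set.mem_image, Set.mem_union, Set.mem_ofPred_eq]
  constructor
  · rintro ⟨x, hx, rfl⟩
    rcases shapesK hx with ⟨O, hO, h1, h2, rfl⟩ | ⟨O, hO, h1, h2, rfl⟩
    · exact Or.inl ⟨O, ⟨hO, h1, h2⟩, rfl⟩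
    · exact Or.inr ⟨O, ⟨hO, h1, h2⟩, funext fun i => (coe_oddV hO.1 Q i).symm⟩
  · rintro (⟨O, ⟨hO, h1, h2⟩, rfl⟩ | ⟨O, ⟨hO, h1, h2⟩, rfl⟩)
    · exact ⟨_, InK_O hO h1 h2, rfl⟩
    · exact ⟨_, InK_C hO h1 h2, funext fun i => coe_oddV hO.1 Q i⟩

theorem count352 : {x | InK x}.ncard = 352 := by
  rw [← Set.ncard_image_of_injective _ (Subtype.val_injective (p := fun x => x ∈ leechLattice))]
  rw [show (Subtype.val '' {x | InK x} : Set (GolayPt → ℤ)) = _ from setK]
  have vB : ∀ O : Finset GolayPt, Q ∈ O → fB O Q = 2 := by intro O hO; unfold fB; rw [ind_in hO]; rfl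
  have vC : ∀ O : Finset GolayPt, Q ∈ O → gQ O Q = 3 := by intro O hO; unfold gQ; rw [eps_in hO, if_pos rfl]; rfl
  have iB : Set.InjOn fB {O | O ∈ octads ∧ P ∉ O ∧ Q ∈ O} := by
    intro O _ O' _ h
    ext i
    have h1 : 2 * ind O i = 2 * ind O' i := congrFun h i
    by_cases h2 : i ∈ O <;> by_cases h3 : i ∈ O'
    · simp [h2, h3]
    · rw [ind_in h2, ind_out h3] at h1; omega
    · rw [ind_out h2, ind_in h3] at h1; omega
    · simp [h2, h3]
  have iC : Set.InjOn gQ {O | O ∈ octads ∧ P ∉ O ∧ Q ∈ O} := by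
    intro O _ O' _ h
    ext i
    have h1 : eps O i * (if i = Q then -3 else 1) = eps O' i * (if i = Q then -3 else 1) := congrFun h i
    by_cases h2 : i ∈ O <;> by_cases h3 : i ∈ O'
    · simp [h2, h3]
    · rw [eps_in h2, eps_out h3] at h1; split_ifs at h1 <;> omega
    · rw [eps_out h2, eps_in h3] at h1; split_ifs at h1 <;> omega
    · simp [h2, h3]
  have f3 : (fB '' {O | O ∈ octads ∧ P ∉ O ∧ Q ∈ O}).Finite := (Set.toFinite _).image _
  have f4 : (gQ '' {O | O ∈ octads ∧ P ∉ O ∧ Q ∈ O}).Finite := (Set.toFinite _).image _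
  rw [Set.ncard_union_eq _ f3 f4, iB.ncard_image, iC.ncard_image, cD]
  rw [Set.disjoint_left]
  rintro x ⟨O, hO, rfl⟩ ⟨C, hC, h⟩
  have := congrFun h Q
  rw [vB O hO.2.2, vC C hC.2.2] at this
  omega

theorem moveD {O O' : Finset GolayPt} (hO : O ∈ octads) (hO' : O' ∈ octads) (h1 : P ∉ O) (h2 : Q ∈ O)
    (h1' : P ∉ O') (h2' : Q ∈ O') : ∃ σ ∈ M24, σ P = P ∧ σ Q = Q ∧ O.image σ = O' := by
  obtain ⟨σ, hσ, h3, h5, h4⟩ := H33.M24Move.move hO hO' [Q] [Q] (by simp) (by simp) rfl (by simp)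
    (by simp [h2]) (by simp [h2']) P P h1 h1'
  simp only [List.map_cons, List.map_nil, List.cons.injEq, and_true] at h3
  exact ⟨σ, hσ, h5, h3, h4⟩

/-- vectors with the same value at `Q` are conjugate -/
theorem transK {x x' : leechLattice} (hx : InK x) (hx' : InK x') (hq : (x : GolayPt → ℤ) Q = (x' : GolayPt → ℤ) Q) :
    ∃ g : Co0, g • B = B ∧ g • V5 = V5 ∧ g • x = x' := by
  rcases shapesK hx with ⟨O, hO, h1, h2, rfl⟩ | ⟨O, hO, h1, h2, rfl⟩ <;>
    rcases shapesK hx' with ⟨O', hO', h1', h2', rfl⟩ | ⟨O', hO', h1', h2', rfl⟩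
  · obtain ⟨σ, hσ, h3, h4, h5⟩ := moveD hO hO' h1 h2 h1' h2'
    exact ⟨pm σ hσ, pm_B hσ h3 h4, pm_V5 hσ h3, pm_twoInd hσ hO hO' h5⟩
  · exfalso
    rw [coe_twoInd, coe_oddV, ind_in h2, eps_in h2', if_pos rfl] at hq
    omega
  · exfalso
    rw [coe_twoInd, coe_oddV, ind_in h2', eps_in h2, if_pos rfl] at hq
    omega
  · obtain ⟨σ, hσ, h3, h4, h5⟩ := moveD hO hO' h1 h2 h1' h2'
    exact ⟨pm σ hσ, pm_B hσ h3 h4, pm_V5 hσ h3, pm_oddV hσ hO.1 hO'.1 h5 h4⟩

theorem value_Q {x : leechLattice} (hx : InK x) : (x : GolayPt → ℤ) Q = 2 ∨ (x : GolayPt → ℤ) Q = 3 := by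
  rcases shapesK hx with ⟨O, hO, h1, h2, rfl⟩ | ⟨O, hO, h1, h2, rfl⟩
  · left; rw [coe_twoInd, ind_in h2]; rfl
  · right; rw [coe_oddV, eps_in h2, if_pos rfl]; rfl

end H86.HS352
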