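import Cfsg.Agent.Lib.H86.Rank3
import Cfsg.Agent.Lib.H92.SRG
import Cfsg.Agent.Lib.H33.Leech16
import Cfsg.Agent.Lib.H9.HSOut2
import Cfsg.Agent.S0430

set_option autoImplicit false

/-! Recognition of the Higman–Sims group by its rank three action. -/

namespace H86.HSRec

open Cfsg MulAction H63.LeechHS H63.LeechFrame H9.LeechGood H33.Leech1 H33.Leech2 H33.Leech6 H33.Leech11 H33.Leech12 H33.Leech15
open H63.LeechMin H9.Leech

theorem hsg_iso : Nonempty (HSg ≃* Spor.HS) := by
  have hB : V5 + (B - V5) = B := by abel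
  have e1 := eight_form_self V5
  have e2 := eight_form_self (B - V5)
  have e3 := eight_form V5 (B - V5)
  rw [pairHs.nv] at e1
  rw [pairHs.nw] at e2
  rw [pairHs.vw] at e3
  have h1 : form V5 V5 = 6 := by omega
  have h2 : form (B - V5) (B - V5) = 6 := by omega
  have h3 : form V5 (B - V5) = -4 := by omega
  have h4 : form V5 B = 2 := by rw [← hB, map_add, h1, h3]; norm_num
  have h5 : form B B = 4 := by
    rw [← hB, form_add_left, map_add, map_add, h1, h2, h3, form_symm (B - V5) V5, h3]; norm_num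
  have hpq : (none : GolayPt) ≠ some 0 := by simp
  obtain ⟨t, k1, k2, k3⟩ := hs_exists h1 h5 h4
  obtain ⟨g, _, hg1, hg2⟩ := hs_tr hpq k1 h1 h5 k2 k3 h4
  exact ⟨(ggEquiv hg1 hg2).symm.symm.trans H9.HSOut.hsEquiv⟩

theorem params {V : Type*} [Fintype V] [DecidableEq V] {Γ : SimpleGraph V} [DecidableRel Γ.Adj] {s t : ℕ}
    (h : Γ.IsSRGWith 100 22 s t) (hs : s < 22) (ht : t ≤ 22) : s = 0 ∧ t = 6 := by
  have hD : 0 < ((s : ℤ) - t) ^ 2 + 4 * ((22 : ℕ) - t) := by
    by_cases h0 : t = 22
    · subst h0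
      have : ((s : ℤ) - (22 : ℕ)) ≠ 0 := by omega
      positivity
    · have : (0 : ℤ) < ((22 : ℕ) - t) := by omega
      nlinarith [sq_nonneg ((s : ℤ) - t)]
  obtain ⟨h1, z, hz⟩ := H92.SRG.srg Γ h (by norm_num) hD
  have h2 : (s = 0 ∧ t = 6) ∨ (s = 7 ∧ t = 4) ∨ (s = 14 ∧ t = 2) ∨ (s = 21 ∧ t = 0) := by omega
  rcases h2 with h2 | ⟨rfl, rfl⟩ | ⟨rfl, rfl⟩ | ⟨rfl, rfl⟩
  · exact h2
  · exfalso
    norm_num at hz
    omega
  · exfalso
    norm_num at hz
    have h3 : z ^ 2 = 6776 := by omega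
    have h4 : (|z|) ^ 2 = 6776 := by rw [sq_abs]; exact h3
    have h5 : 0 ≤ |z| := abs_nonneg z
    have h6 : |z| ≤ 82 ∨ 83 ≤ |z| := by omega
    rcases h6 with h6 | h6 <;> nlinarith
  · exfalso
    norm_num at hz
    omega

theorem idx2 {A : Type*} [Group A] [Finite A] {n : ℕ} (hn : 2 < n) (hA : Nat.card A = 2 * n) (R1 R2 : Subgroup A)
    (h1 : Nat.card R1 = n) (h2 : Nat.card R2 = n) (hs : IsSimpleGroup R2) : R1 = R2 := by
  have hi : R1.index = 2 := by
    have := R1.card_mul_index
    rw [h1, hA] at this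
    have h0 : 0 < n := by omega
    exact Nat.eq_of_mul_eq_mul_left h0 (by omega)
  have hN : R1.Normal := Subgroup.normal_of_index_eq_two hi
  symm
  rcases hs.eq_bot_or_eq_top_of_normal (R1.subgroupOf R2) inferInstance with h | h
  · exfalso
    have h3 : R1.relIndex R2 = n := by
      rw [Subgroup.relIndex, h, Subgroup.index_bot, h2]
    have h4 : R1.relIndex R2 ≤ R1.index := Nat.le_of_dvd (by omega) (Subgroup.relIndex_dvd_index_of_normal R1 R2)
    omega
  · rw [Subgroup.subgroupOf_eq_top] at h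
    exact Subgroup.eq_of_le_of_card_ge h (by rw [h1, h2])

/-- an automorphism group of order 44352000 of the Higman–Sims graph is the Higman–Sims group -/
theorem iso_of_graph {V : Type*} [Fintype V] [DecidableEq V] {Γ : SimpleGraph V} [DecidableRel Γ.Adj]
    (h : Γ.IsSRGWith 100 22 0 6) {G : Type*} [Group G] (φ : G →* (Γ ≃g Γ)) (hφ : Function.Injective φ)
    (hc : Nat.card G = 44352000) : Nonempty (G ≃* Spor.HS) := by
  classical
  have v0 : V := by
    have h := h.card
    exact Classical.choice (Fintype.card_pos_iff.1 (by omega))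
  obtain ⟨f⟩ := H10.HSGraph.nonempty_iso h (v0 := v0)
  have hα := H10.HSGraph.card_pt h (v0 := v0)
  have hB := H10.HSGraph.isSteinerSystem h (v0 := v0)
  obtain ⟨E⟩ := H9.Aut22.exists_emb hα hB H33.Leech2.PQ
  -- transport
  let θ : (Γ ≃g Γ) ≃* GA (H10.HSGraph.blocks Γ v0) :=
    { toFun := fun ψ => (f.trans ψ).trans f.symm
      invFun := fun ψ => (f.symm.trans ψ).trans f
      left_inv := fun ψ => by
        apply RelIso.ext; intro x
        simp
      right_inv := fun ψ => by
        apply RelIso.ext; intro x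
        simp
      map_mul' := fun ψ ψ' => by
        apply RelIso.ext; intro x
        change f.symm (ψ (ψ' (f x))) = f.symm (ψ (f (f.symm (ψ' (f x)))))
        rw [RelIso.apply_symm_apply] }
  have hGA : Nat.card (GA (H10.HSGraph.blocks Γ v0)) = 88704000 := H33.Leech15.card_GA hα hB
  have hfin : Finite (GA (H10.HSGraph.blocks Γ v0)) := H33.Leech15.finite_GA
  have hs := H33.Leech16.isHS_HSg
  have hss := hs.1
  have a : H10.HSGraph.Pt Γ v0 := Classical.choice (Fintype.card_pos_iff.1 (by rw [hα]; norm_num))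
  have hinj : Function.Injective (H33.Leech16.hm E) := by
    rw [← MonoidHom.ker_eq_bot_iff]
    rcases hss.eq_bot_or_eq_top_of_normal (H33.Leech16.hm E).ker inferInstance with h | h
    · exact h
    · exfalso
      obtain ⟨g, hg, hgA⟩ := to_A' (F_InH E (some (Sum.inl a)))
      have h1 : (⟨g, hg⟩ : HSg) ∈ (H33.Leech16.hm E).ker := by rw [h]; trivial
      have h2 : autG E ⟨g, hg⟩ = 1 := h1
      have h3 := F_autG E ⟨g, hg⟩ (some (Sum.inl a))
      rw [h2] at h3
      have h4 : F E (some (Sum.inl a)) = F E none := h3.trans hgA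
      have := F_inj E h4
      simp at this
  let e2 : HSg ≃* (H33.Leech16.hm E).range := MonoidHom.ofInjective hinj
  let φ' : G →* GA (H10.HSGraph.blocks Γ v0) := θ.toMonoidHom.comp φ
  have hφ' : Function.Injective φ' := θ.injective.comp hφ
  let e1 : G ≃* φ'.range := MonoidHom.ofInjective hφ'
  have hcard1 : Nat.card φ'.range = 44352000 := by rw [← Nat.card_congr e1.toEquiv]; exact hc
  have hcard2 : Nat.card (H33.Leech16.hm E).range = 44352000 := by rw [← Nat.card_congr e2.toEquiv]; exact hs.2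
  have hsim : IsSimpleGroup (H33.Leech16.hm E).range := H63.LeechHS.isSimple_of_equiv e2
  have heq := idx2 (n := 44352000) (by norm_num) (by rw [hGA]) φ'.range (H33.Leech16.hm E).range hcard1 hcard2 hsim
  obtain ⟨e3⟩ := hsg_iso
  exact ⟨(e1.trans (MulEquiv.subgroupCongr heq)).trans (e2.symm.trans e3)⟩

end H86.HSRec
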