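import Mathlib

set_option autoImplicit false
set_option linter.unusedSimpArgs false
set_option linter.unusedVariables false
set_option linter.style.haveILetI false
set_option linter.unusedSectionVars false

/-!
`End V ≃ Nil V × V` for a finite dimensional vector space (Leinster's linear Joyal bijection),
hence `|Nil V| |V| = |End V|` over a finite field.
-/

namespace H86.NilCount

open Module

variable {F V : Type*} [Field F] [AddCommGroup V] [Module F V] [FiniteDimensional F V]

/-- endomorphisms extending `α` on `W` and nilpotent modulo `W` -/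
def A (W : Submodule F V) (α : W →ₗ[F] W) : Type _ :=
  {T : End F V // (∀ w : W, T w = (α w : V)) ∧ ∀ v, (T ^ (finrank F V)) v ∈ W}

theorem pow_sub_mem {T T' : End F V} {W : Submodule F V} (hT : ∀ w ∈ W, T w ∈ W)
    (h : ∀ v, T' v - T v ∈ W) (k : ℕ) (v : V) : (T' ^ k) v - (T ^ k) v ∈ W := by
  induction k with
  | zero => simp
  | succ k ih =>
    rw [pow_succ', pow_succ', End.mul_apply, End.mul_apply]
    have h1 := h ((T' ^ k) v)
    have h2 := hT _ ih
    rw [map_sub] at h2
    have h3 := W.add_mem h1 h2
    rwa [sub_add_sub_cancel] at h3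

theorem exists_proj (W : Submodule F V) : ∃ π : V →ₗ[F] W, ∀ w : W, π w = w := by
  obtain ⟨π, hπ⟩ := LinearMap.exists_leftInverse_of_injective W.subtype (by simp)
  exact ⟨π, fun w => by
    have := congrArg (fun f => f w) hπ
    simpa using this⟩

/-- a chosen projection onto `W` -/
noncomputable def proj (W : Submodule F V) : V →ₗ[F] W := (exists_proj W).choose

theorem proj_apply (W : Submodule F V) (w : W) : proj W w = w := (exists_proj W).choose_spec w

theorem A_key (W : Submodule F V) (α β : W →ₗ[F] W) (T : End F V) (hT : (∀ w : W, T w = (α w : V)) ∧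
      ∀ v, (T ^ (finrank F V)) v ∈ W) :
      ((∀ w : W, (T + W.subtype ∘ₗ (β - α) ∘ₗ proj W) w = (β w : V)) ∧
      ∀ v, ((T + W.subtype ∘ₗ (β - α) ∘ₗ proj W) ^ (finrank F V)) v ∈ W) := by
  constructor
  · intro w
    simp [hT.1 w, proj_apply W w]
  · intro v
    have h1 := pow_sub_mem (T := T) (T' := T + W.subtype ∘ₗ (β - α) ∘ₗ proj W)
      (W := W) (fun w hw => by rw [hT.1 ⟨w, hw⟩]; exact (α ⟨w, hw⟩).2)
      (fun v => by
        rw [LinearMap.add_apply, add_sub_cancel_left]
        exact (((β - α) ∘ₗ proj W) v).2) (finrank F V) v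
    have h2 := W.add_mem h1 (hT.2 v)
    rwa [sub_add_cancel] at h2

theorem A_inv (W : Submodule F V) (α β : W →ₗ[F] W) (T : End F V) :
    T + W.subtype ∘ₗ (β - α) ∘ₗ proj W + W.subtype ∘ₗ (α - β) ∘ₗ proj W = T := by
  ext v
  simp only [LinearMap.add_apply, LinearMap.comp_apply, LinearMap.sub_apply, Submodule.subtype_apply,
    AddSubgroupClass.coe_sub]
  abel

noncomputable def equivA (W : Submodule F V) (α β : W →ₗ[F] W) : A W α ≃ A W β where
  toFun := fun T => ⟨_, A_key W α β T.1 T.2⟩
  invFun := fun T => ⟨_, A_key W β α T.1 T.2⟩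
  left_inv := by
    rintro ⟨T, hT⟩
    exact Subtype.ext (A_inv W α β T)
  right_inv := by
    rintro ⟨T, hT⟩
    exact Subtype.ext (A_inv W β α T)

/-! ### the Fitting side -/

theorem pow_mem {W : Submodule F V} {T : End F V} (α : W →ₗ[F] W) (h : ∀ w : W, T w = (α w : V))
    (k : ℕ) (w : W) : (T ^ k) w = ((α ^ k) w : V) := by
  induction k with
  | zero => simp
  | succ k ih => rw [pow_succ', pow_succ', End.mul_apply, End.mul_apply, ih, h]

theorem range_eq {W : Submodule F V} {T : End F V} (α : W ≃ₗ[F] W)
    (h : ∀ w : W, T w = ((α : W →ₗ[F] W) w : V)) (h2 : ∀ v, (T ^ (finrank F V)) v ∈ W) :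
    LinearMap.range (T ^ (finrank F V)) = W := by
  apply le_antisymm
  · rintro _ ⟨v, rfl⟩
    exact h2 v
  · intro w hw
    have hb : Function.Surjective ((α : W →ₗ[F] W) ^ (finrank F V)) := by
      have : ∀ k : ℕ, ((α : W →ₗ[F] W) ^ k) = ((α ^ k : W ≃ₗ[F] W) : W →ₗ[F] W) := by
        intro k
        induction k with
        | zero => rfl
        | succ k ih =>
          rw [pow_succ', pow_succ', ih]
          rfl
      rw [this]
      exact (α ^ (finrank F V)).surjective
    obtain ⟨u, hu⟩ := hb ⟨w, hw⟩
    refine ⟨u, ?_⟩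
    rw [pow_mem _ h, hu]

theorem range_stable (T : End F V) :
    LinearMap.range (T ^ (finrank F V + 1)) = LinearMap.range (T ^ (finrank F V)) := by
  have h1 : LinearMap.ker (T ^ (finrank F V)) = LinearMap.ker (T ^ (finrank F V + 1)) :=
    (End.ker_pow_eq_ker_pow_finrank_of_le (Nat.le_succ _)).symm
  apply Submodule.eq_of_le_of_finrank_eq
  · rintro _ ⟨v, rfl⟩
    refine ⟨T v, ?_⟩
    rw [pow_succ, End.mul_apply]
  · have a1 := LinearMap.finrank_range_add_finrank_ker (T ^ (finrank F V))
    have a2 := LinearMap.finrank_range_add_finrank_ker (T ^ (finrank F V + 1))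
    rw [h1] at a1
    omega

noncomputable def equivEnd : (Σ W : Submodule F V, Σ α : (W ≃ₗ[F] W), A W (α : W →ₗ[F] W)) ≃ End F V := by
  refine Equiv.ofBijective (fun x => x.2.2.1) ⟨?_, ?_⟩
  · rintro ⟨W, α, T, hT⟩ ⟨W', α', T', hT'⟩ h
    simp only at h
    subst h
    have hW : W = W' := by rw [← range_eq α hT.1 hT.2, range_eq α' hT'.1 hT'.2]
    subst hW
    have hα : α = α' := by
      ext w
      have h1 := hT.1 w
      have h2 := hT'.1 w
      rw [h1] at h2
      exact h2
    subst hα
    rfl
  · intro T
    set n := finrank F V with hn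
    set W := LinearMap.range (T ^ n) with hW
    have hmem : ∀ w ∈ W, T w ∈ W := by
      rintro _ ⟨v, rfl⟩
      refine ⟨T v, ?_⟩
      rw [← End.mul_apply, ← End.mul_apply, ← pow_succ, ← pow_succ']
    let f : W →ₗ[F] W := T.restrict hmem
    have hsurj : Function.Surjective f := by
      rintro ⟨w, hw⟩
      have h1 : w ∈ LinearMap.range (T ^ (n + 1)) := by rw [range_stable]; exact hw
      obtain ⟨v, hv⟩ := h1
      refine ⟨⟨(T ^ n) v, v, rfl⟩, ?_⟩
      apply Subtype.ext
      rw [LinearMap.restrict_apply]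
      rw [pow_succ', End.mul_apply] at hv
      exact hv
    have hinj : Function.Injective f := LinearMap.injective_iff_surjective.mpr hsurj
    let α : W ≃ₗ[F] W := LinearEquiv.ofBijective f ⟨hinj, hsurj⟩
    exact ⟨⟨W, α, T, fun w => rfl, fun v => ⟨v, rfl⟩⟩, rfl⟩

/-! ### the cyclic side -/

/-- the shift of a basis -/
noncomputable def shift {W : Submodule F V} (b : Basis (Fin (finrank F W)) F W) : W →ₗ[F] W :=
  b.constr F (fun i => if h : (i : ℕ) + 1 < finrank F W then b ⟨i + 1, h⟩ else 0)

theorem shift_pow {W : Submodule F V} (b : Basis (Fin (finrank F W)) F W) (k : ℕ)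
    (i : Fin (finrank F W)) :
    ((shift b) ^ k) (b i) = if h : (i : ℕ) + k < finrank F W then b ⟨i + k, h⟩ else 0 := by
  induction k with
  | zero => simp
  | succ k ih =>
    rw [pow_succ', End.mul_apply, ih]
    by_cases h : (i : ℕ) + k < finrank F W
    · rw [dif_pos h, shift, Basis.constr_basis]
      rfl
    · have h' : ¬ ((i : ℕ) + (k + 1) < finrank F W) := by omega
      rw [dif_neg h, map_zero, dif_neg h']

theorem shift_nil {W : Submodule F V} (b : Basis (Fin (finrank F W)) F W) :
    (shift b) ^ (finrank F W) = 0 := by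
  apply b.ext
  intro i
  have h : ¬ ((i : ℕ) + finrank F W < finrank F W) := by omega
  rw [shift_pow, dif_neg h]
  rfl

/-- the cyclic vector -/
noncomputable def vec {W : Submodule F V} (b : Basis (Fin (finrank F W)) F W) : V :=
  if h : 0 < finrank F W then (b ⟨0, h⟩ : V) else 0

theorem pow_vec {W : Submodule F V} {T : End F V} (b : Basis (Fin (finrank F W)) F W)
    (h : ∀ w : W, T w = (shift b w : V)) (i : Fin (finrank F W)) : (T ^ (i : ℕ)) (vec b) = b i := by
  have h0 : 0 < finrank F W := i.pos
  rw [vec, dif_pos h0, pow_mem _ h, shift_pow]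
  simp only [Fin.val_mk, zero_add, i.2, dite_true]

theorem span_vec {W : Submodule F V} {T : End F V} (b : Basis (Fin (finrank F W)) F W)
    (h : ∀ w : W, T w = (shift b w : V)) :
    Submodule.span F (Set.range fun k : ℕ => (T ^ k) (vec b)) = W := by
  apply le_antisymm
  · rw [Submodule.span_le]
    rintro _ ⟨k, rfl⟩
    rcases Nat.eq_zero_or_pos (finrank F W) with h0 | h0
    · rw [vec, dif_neg (by omega)]
      simp
    · rw [vec, dif_pos h0]
      show (T ^ k) (b ⟨0, h0⟩ : V) ∈ W
      rw [pow_mem _ h]
      exact Subtype.mem _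
  · intro w hw
    have h1 : (⟨w, hw⟩ : W) ∈ Submodule.span F (Set.range b) := by rw [b.span_eq]; trivial
    have h2 := Submodule.mem_map_of_mem (f := W.subtype) h1
    rw [Submodule.map_span] at h2
    refine Submodule.span_mono ?_ h2
    rintro _ ⟨_, ⟨i, rfl⟩, rfl⟩
    exact ⟨i, pow_vec b h i⟩

theorem nilp {W : Submodule F V} {T : End F V} (b : Basis (Fin (finrank F W)) F W)
    (h : ∀ w : W, T w = (shift b w : V)) (h2 : ∀ v, (T ^ (finrank F V)) v ∈ W) : IsNilpotent T := by
  refine ⟨finrank F W + finrank F V, ?_⟩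
  ext v
  rw [pow_add, End.mul_apply]
  have h3 := pow_mem _ h (finrank F W) ⟨_, h2 v⟩
  rw [shift_nil] at h3
  exact h3

theorem indep (T : End F V) : ∀ (d : ℕ) (v : V), (T ^ (d + 1)) v = 0 → (T ^ d) v ≠ 0 →
    LinearIndependent F (fun i : Fin (d + 1) => (T ^ (i : ℕ)) v) := by
  intro d
  induction d with
  | zero =>
    intro v h1 h2
    have : (fun i : Fin (0 + 1) => (T ^ (i : ℕ)) v) = fun _ => v := by
      funext i
      have : (i : ℕ) = 0 := by omega
      rw [this]; rfl
    rw [this]
    haveI : Unique (Fin (0 + 1)) := inferInstanceAs (Unique (Fin 1))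
    rw [linearIndependent_unique_iff]
    simpa using h2
  | succ d ih =>
    intro v h1 h2
    have h3 := ih (T v) (by rwa [← End.mul_apply, ← pow_succ]) (by rwa [← End.mul_apply, ← pow_succ])
    have h4 : (fun i : Fin (d + 1 + 1) => (T ^ (i : ℕ)) v) =
        Fin.cons v (fun i : Fin (d + 1) => (T ^ (i : ℕ)) (T v)) := by
      funext i
      refine Fin.cases ?_ (fun i => ?_) i
      · simp
      · simp only [Fin.val_succ, Fin.cons_succ]
        rw [pow_succ, End.mul_apply]
    rw [h4, linearIndependent_finCons]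
    refine ⟨h3, fun hmem => h2 ?_⟩
    have h5 : Submodule.span F (Set.range (fun i : Fin (d + 1) => (T ^ (i : ℕ)) (T v))) ≤
        LinearMap.ker (T ^ (d + 1)) := by
      rw [Submodule.span_le]
      rintro _ ⟨i, rfl⟩
      show (T ^ (d + 1)) ((T ^ (i : ℕ)) (T v)) = 0
      rw [← End.mul_apply, ← End.mul_apply, ← pow_add, ← pow_succ,
        show d + 1 + (i : ℕ) + 1 = (i : ℕ) + (d + 1 + 1) by omega, pow_add, End.mul_apply, h1, map_zero]
    exact h5 hmem

noncomputable def equivNil :
    (Σ W : Submodule F V, Σ b : Basis (Fin (finrank F W)) F W, A W (shift b)) ≃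
      {T : End F V // IsNilpotent T} × V := by
  refine Equiv.ofBijective (fun x => (⟨x.2.2.1, nilp x.2.1 x.2.2.2.1 x.2.2.2.2⟩, vec x.2.1)) ⟨?_, ?_⟩
  · rintro ⟨W, b, T, hT⟩ ⟨W', b', T', hT'⟩ h
    simp only [Prod.mk.injEq, Subtype.mk.injEq] at h
    obtain ⟨h1, h2⟩ := h
    subst h1
    have hW : W = W' := by rw [← span_vec b hT.1, ← span_vec b' hT'.1, h2]
    subst hW
    have hb : b = b' := by
      apply Basis.eq_of_apply_eq
      intro i
      apply Subtype.ext
      rw [← pow_vec b hT.1 i, ← pow_vec b' hT'.1 i, h2]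
    subst hb
    rfl
  · rintro ⟨⟨T, hT⟩, v⟩
    classical
    obtain ⟨m, hm⟩ := hT
    have hex : ∃ d, (T ^ d) v = 0 := ⟨m, by rw [hm]; rfl⟩
    set d := Nat.find hex with hd
    have hdv : (T ^ d) v = 0 := Nat.find_spec hex
    have hmin : ∀ k < d, (T ^ k) v ≠ 0 := fun k hk => Nat.find_min hex hk
    have hli : LinearIndependent F (fun i : Fin d => (T ^ (i : ℕ)) v) := by
      rcases Nat.eq_zero_or_pos d with h0 | h0
      · rw [h0]
        exact linearIndependent_empty_type
      · obtain ⟨e, he⟩ : ∃ e, d = e + 1 := ⟨d - 1, by omega⟩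
        rw [he]
        exact indep T e v (he ▸ hdv) (hmin e (by omega))
    set W := Submodule.span F (Set.range (fun i : Fin d => (T ^ (i : ℕ)) v)) with hW
    have hfr : finrank F W = d := by
      rw [hW, finrank_span_eq_card hli, Fintype.card_fin]
    let b0 : Basis (Fin d) F W := Basis.span hli
    have hb0 : ∀ i, (b0 i : V) = (T ^ (i : ℕ)) v := fun i => congrArg Subtype.val (Basis.span_apply hli i)
    let b : Basis (Fin (finrank F W)) F W := b0.reindex (finCongr hfr.symm)
    have hb : ∀ i, (b i : V) = (T ^ (i : ℕ)) v := by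
      intro i
      simp only [b, Basis.reindex_apply]
      rw [hb0]
      simp
    have hT1 : ∀ w : W, T w = (shift b w : V) := by
      have : T ∘ₗ W.subtype = W.subtype ∘ₗ shift b := by
        apply b.ext
        intro i
        simp only [LinearMap.comp_apply, Submodule.subtype_apply]
        rw [hb i, ← End.mul_apply, ← pow_succ', shift, Basis.constr_basis]
        split_ifs with h
        · rw [hb]
        · rw [show (i : ℕ) + 1 = d by omega, hdv]
          rfl
      intro w
      exact congrArg (fun f => f w) this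
    have hT2 : ∀ v, (T ^ (finrank F V)) v ∈ W := by
      intro u
      have : (T ^ (finrank F V)) = 0 := by
        have h1 : LinearMap.ker (T ^ (finrank F V)) = ⊤ := by
          have h2 : LinearMap.ker (T ^ (m + finrank F V)) = LinearMap.ker (T ^ (finrank F V)) :=
            End.ker_pow_eq_ker_pow_finrank_of_le (by omega)
          rw [← h2, pow_add, hm, zero_mul]
          exact LinearMap.ker_zero
        exact LinearMap.ker_eq_top.mp h1
      rw [this]
      exact W.zero_mem
    refine ⟨⟨W, b, T, hT1, hT2⟩, ?_⟩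
    simp only [Prod.mk.injEq, true_and]
    rcases Nat.eq_zero_or_pos d with h0 | h0
    · rw [vec, dif_neg (by omega)]
      rw [h0] at hdv
      simpa using hdv.symm
    · rw [vec, dif_pos (by omega), hb]
      rfl

/-- automorphisms and bases -/
noncomputable def equivBasis (W : Submodule F V) :
    (W ≃ₗ[F] W) ≃ Basis (Fin (finrank F W)) F W :=
  { toFun := fun e => (finBasis F W).map e
    invFun := fun b => (finBasis F W).equiv b (Equiv.refl _)
    left_inv := by
      intro e
      apply LinearEquiv.toLinearMap_injective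
      apply (finBasis F W).ext
      intro i
      simp
    right_inv := by
      intro b
      apply Basis.eq_of_apply_eq
      intro i
      simp }

noncomputable def main : End F V ≃ {T : End F V // IsNilpotent T} × V := by
  refine equivEnd.symm.trans (Equiv.trans ?_ equivNil)
  refine Equiv.sigmaCongrRight fun W => ?_
  refine Equiv.sigmaCongr (equivBasis W) fun α => ?_
  exact equivA W _ _

theorem card_nil [Finite F] :
    Nat.card {T : End F V // IsNilpotent T} * Nat.card V = Nat.card (End F V) := by
  rw [← Nat.card_prod]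
  exact (Nat.card_congr main).symm

end H86.NilCount
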