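import Mathlib

/-!
Square-zero elements `a` of a ring `R`, the units `tv a = 1 + a`, and the generation lemma over an
infinite field: if `a² = t² = 0` and `c = at + ta` is algebraic over the infinite field `k` (char ≠ 2)
then the group generated by `1 + ka`, `1 + kt` contains `1 + x(c) a` for every polynomial `x`.
-/

set_option autoImplicit false
set_option linter.unusedSimpArgs false
set_option linter.unusedVariables false
open Polynomial

namespace H86.Quad1

section ring
variable {R : Type*} [Ring R]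

open Classical in
/-- The unit `1 + a` when `a * a = 0` (and `1` otherwise). -/
noncomputable def tv (a : R) : Rˣ :=
  if h : a * a = 0 then
    ⟨1 + a, 1 - a, by rw [add_mul, mul_sub, mul_sub, h]; simp, by
      rw [sub_mul, mul_add, mul_add, h]; simp⟩
  else 1

theorem val_tv {a : R} (h : a * a = 0) : ((tv a : Rˣ) : R) = 1 + a := by
  unfold tv; rw [dif_pos h]

theorem neg_sq {a : R} (h : a * a = 0) : (-a) * (-a) = 0 := by rw [neg_mul_neg, h]

theorem inv_tv {a : R} (h : a * a = 0) : (tv a)⁻¹ = tv (-a) := by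
  rw [inv_eq_iff_mul_eq_one]
  ext
  rw [Units.val_mul, val_tv h, val_tv (neg_sq h), Units.val_one]
  rw [add_mul, mul_add, mul_add, mul_neg, mul_neg, h]; simp

theorem val_inv_tv {a : R} (h : a * a = 0) : (((tv a)⁻¹ : Rˣ) : R) = 1 - a := by
  rw [inv_tv h, val_tv (neg_sq h), sub_eq_add_neg]

@[simp] theorem tv_zero : tv (0 : R) = 1 := by
  ext; rw [val_tv (by simp)]; simp

theorem tv_inj {a b : R} (ha : a * a = 0) (hb : b * b = 0) (h : tv a = tv b) : a = b := by
  have := congrArg (Units.val) h
  rw [val_tv ha, val_tv hb] at this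
  exact add_left_cancel this

theorem tv_ne_one {a : R} (ha : a * a = 0) (h : a ≠ 0) : tv a ≠ 1 := fun h1 => h (tv_inj ha (by simp) (h1.trans tv_zero.symm))

theorem tv_eq_one_iff {a : R} (ha : a * a = 0) : tv a = 1 ↔ a = 0 :=
  ⟨fun h => by_contra fun h1 => tv_ne_one ha h1 h, fun h => by rw [h, tv_zero]⟩

theorem add_sq {a b : R} (ha : a * a = 0) (hb : b * b = 0) (hab : a * b + b * a = 0) :
    (a + b) * (a + b) = 0 := by
  rw [add_mul, mul_add, mul_add, ha, hb, zero_add, add_zero, hab]

theorem tv_add {a b : R} (ha : a * a = 0) (hb : b * b = 0) (hab : a * b = 0) (hba : b * a = 0) :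
    tv (a + b) = tv a * tv b := by
  ext
  rw [Units.val_mul, val_tv ha, val_tv hb, val_tv (add_sq ha hb (by rw [hab, hba, add_zero])),
    add_mul, mul_add, mul_add, hab]
  simp [add_assoc, add_comm, add_left_comm]

theorem conj_sq (g : Rˣ) {a : R} (ha : a * a = 0) :
    ((g : R) * a * ((g⁻¹ : Rˣ) : R)) * ((g : R) * a * ((g⁻¹ : Rˣ) : R)) = 0 := by
  calc ((g : R) * a * ((g⁻¹ : Rˣ) : R)) * ((g : R) * a * ((g⁻¹ : Rˣ) : R))
      = (g : R) * a * (((g⁻¹ : Rˣ) : R) * (g : R)) * a * ((g⁻¹ : Rˣ) : R) := by
        simp only [mul_assoc]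
    _ = 0 := by rw [Units.inv_mul, mul_one, mul_assoc (g : R) a a, ha]; simp

theorem conj_tv (g : Rˣ) {a : R} (ha : a * a = 0) :
    g * tv a * g⁻¹ = tv ((g : R) * a * ((g⁻¹ : Rˣ) : R)) := by
  ext
  rw [Units.val_mul, Units.val_mul, val_tv ha, val_tv (conj_sq g ha), mul_add, add_mul, mul_one,
    Units.mul_inv]

end ring

section alg
variable {k : Type*} [Field k] {R : Type*} [Ring R] [Algebra k R]

theorem smul_sq (s : k) {a : R} (h : a * a = 0) : (s • a) * (s • a) = 0 := by
  rw [smul_mul_smul_comm, h, smul_zero]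

/-- The group `⟨1 + k a, 1 + k t⟩`. -/
def pairGroup (k : Type*) [Field k] {R : Type*} [Ring R] [Algebra k R] (a t : R) : Subgroup Rˣ :=
  Subgroup.closure ({g | ∃ s : k, g = tv (s • a)} ∪ {g | ∃ s : k, g = tv (s • t)})

theorem left_mem (a t : R) (s : k) : tv (s • a) ∈ pairGroup k a t :=
  Subgroup.subset_closure (Or.inl ⟨s, rfl⟩)

theorem right_mem (a t : R) (s : k) : tv (s • t) ∈ pairGroup k a t :=
  Subgroup.subset_closure (Or.inr ⟨s, rfl⟩)

theorem pairGroup_comm (a t : R) : pairGroup k a t = pairGroup k t a := by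
  unfold pairGroup; rw [Set.union_comm]

theorem pairGroup_le {a t : R} {H : Subgroup Rˣ} (h1 : ∀ s : k, tv (s • a) ∈ H)
    (h2 : ∀ s : k, tv (s • t) ∈ H) : pairGroup k a t ≤ H := by
  unfold pairGroup
  rw [Subgroup.closure_le]
  rintro g (⟨s, rfl⟩ | ⟨s, rfl⟩)
  · exact h1 s
  · exact h2 s

/-! ### The pseudo-Euclidean recursion -/

/-- Product of the leading coefficients occurring in the fraction-free reduction of `(P, X S)`. -/
noncomputable def red {K : Type*} [CommRing K] : ℕ → K[X] → K[X] → K
  | 0, P, _ => P.coeff 0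
  | n + 1, P, S =>
    P.coeff (n + 1) * (C (P.coeff (n + 1)) * S - C (S.coeff (n + 1)) * P).coeff n *
      red n (C ((C (P.coeff (n + 1)) * S - C (S.coeff (n + 1)) * P).coeff n) * P -
          C (P.coeff (n + 1)) * (X * (C (P.coeff (n + 1)) * S - C (S.coeff (n + 1)) * P)))
        (C (P.coeff (n + 1)) * S - C (S.coeff (n + 1)) * P)

theorem red_map {K K' : Type*} [CommRing K] [CommRing K'] (φ : K →+* K') (n : ℕ) (P S : K[X]) :
    red n (P.map φ) (S.map φ) = φ (red n P S) := by
  induction n generalizing P S with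
  | zero => simp [red]
  | succ n ih =>
    have h1 : (C ((P.map φ).coeff (n + 1)) * S.map φ - C ((S.map φ).coeff (n + 1)) * P.map φ) =
        (C (P.coeff (n + 1)) * S - C (S.coeff (n + 1)) * P).map φ := by
      simp
    rw [red, red, map_mul, map_mul, ← ih, h1]
    simp

/-- `Q(P, S) = P² a - P S (at - ta) - S² c t` evaluated at `c = at + ta`. -/
noncomputable def Q (a t : R) (P S : k[X]) : R :=
  aeval (a * t + t * a) P * aeval (a * t + t * a) P * a -
    aeval (a * t + t * a) P * aeval (a * t + t * a) S * (a * t - t * a) -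
    aeval (a * t + t * a) S * aeval (a * t + t * a) S * ((a * t + t * a) * t)

theorem comm_left {a t : R} (ha : a * a = 0) : (a * t + t * a) * a = a * (a * t + t * a) := by
  rw [add_mul, mul_add, mul_assoc t a a, ha, ← mul_assoc a a t, ha, mul_assoc]; simp

theorem comm_right {a t : R} (ht : t * t = 0) : (a * t + t * a) * t = t * (a * t + t * a) := by
  rw [add_mul, mul_add, mul_assoc a t t, ht, ← mul_assoc t t a, ht, mul_assoc]; simp

theorem aeval_comm {c b : R} (h : c * b = b * c) (x : k[X]) : aeval c x * b = b * aeval c x := by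
  have h1 : Commute c b := h
  have h2 : Commute (aeval c x) b := by
    induction x using Polynomial.induction_on' with
    | add p q hp hq => rw [map_add]; exact hp.add_left hq
    | monomial n r =>
      rw [aeval_monomial]
      exact (Algebra.commute_algebraMap_left r b).mul_left (h1.pow_left n)
  exact h2

theorem aeval_comm' (c : R) (x y : k[X]) : aeval c x * aeval c y = aeval c y * aeval c x := by
  rw [← map_mul, mul_comm, map_mul]

theorem reassoc {a b c : R} (h : a * b = c) (x : R) : a * (b * x) = c * x := by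
  rw [← mul_assoc, h]

theorem conj_Q_left {a t p q : R} (s : k) (ha : a * a = 0) (ht : t * t = 0)
    (hpa : a * p = p * a) (hpt : t * p = p * t) (hqa : a * q = q * a) (hqt : t * q = q * t)
    (hpq : q * p = p * q) :
    (1 + s • a) * (p * p * a - p * q * (a * t - t * a) - q * q * ((a * t + t * a) * t)) *
        (1 - s • a) =
      (p + s • ((a * t + t * a) * q)) * (p + s • ((a * t + t * a) * q)) * a -
        (p + s • ((a * t + t * a) * q)) * q * (a * t - t * a) -
        q * q * ((a * t + t * a) * t) := by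
  simp only [mul_add, add_mul, mul_sub, sub_mul, mul_assoc, smul_mul_assoc, mul_smul_comm,
    one_mul, mul_one, smul_add, smul_sub, ha, ht, hpa, hpt, hqa, hqt, hpq, reassoc ha, reassoc ht,
    reassoc hpa, reassoc hpt, reassoc hqa, reassoc hqt, reassoc hpq, zero_mul, mul_zero, smul_zero,
    sub_zero, add_zero, zero_add, zero_sub, sub_neg_eq_add]
  module

theorem conj_Q_right {a t p q : R} (s : k) (ha : a * a = 0) (ht : t * t = 0)
    (hpa : a * p = p * a) (hpt : t * p = p * t) (hqa : a * q = q * a) (hqt : t * q = q * t)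
    (hpq : q * p = p * q) :
    (1 + s • t) * (p * p * a - p * q * (a * t - t * a) - q * q * ((a * t + t * a) * t)) *
        (1 - s • t) =
      p * p * a - p * (q + s • p) * (a * t - t * a) -
        (q + s • p) * (q + s • p) * ((a * t + t * a) * t) := by
  simp only [mul_add, add_mul, mul_sub, sub_mul, mul_assoc, smul_mul_assoc, mul_smul_comm,
    one_mul, mul_one, smul_add, smul_sub, ha, ht, hpa, hpt, hqa, hqt, hpq, reassoc ha, reassoc ht,
    reassoc hpa, reassoc hpt, reassoc hqa, reassoc hqt, reassoc hpq, zero_mul, mul_zero, smul_zero,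
    sub_zero, add_zero, zero_add, zero_sub, sub_neg_eq_add]
  module

theorem Q_conj_left {a t : R} (ha : a * a = 0) (ht : t * t = 0) (s : k) (P S : k[X]) :
    ((tv (s • a) : Rˣ) : R) * Q a t P S * (((tv (s • a))⁻¹ : Rˣ) : R) =
      Q a t (P + C s * (X * S)) S := by
  have ca := comm_left (t := t) ha
  have ct := comm_right (a := a) ht
  rw [val_tv (smul_sq s ha), val_inv_tv (smul_sq s ha)]
  unfold Q
  rw [conj_Q_left s ha ht (aeval_comm ca P).symm (aeval_comm ct P).symm (aeval_comm ca S).symm
    (aeval_comm ct S).symm (aeval_comm' _ S P)]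
  simp only [map_add, map_mul, aeval_C, aeval_X, Algebra.algebraMap_eq_smul_one, smul_mul_assoc,
    one_mul]

theorem Q_conj_right {a t : R} (ha : a * a = 0) (ht : t * t = 0) (s : k) (P S : k[X]) :
    ((tv (s • t) : Rˣ) : R) * Q a t P S * (((tv (s • t))⁻¹ : Rˣ) : R) =
      Q a t P (S + C s * P) := by
  have ca := comm_left (t := t) ha
  have ct := comm_right (a := a) ht
  rw [val_tv (smul_sq s ht), val_inv_tv (smul_sq s ht)]
  unfold Q
  rw [conj_Q_right s ha ht (aeval_comm ca P).symm (aeval_comm ct P).symm (aeval_comm ca S).symm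
    (aeval_comm ct S).symm (aeval_comm' _ S P)]
  simp only [map_add, map_mul, aeval_C, aeval_X, Algebra.algebraMap_eq_smul_one, smul_mul_assoc,
    one_mul]

/-- The pairs `(P, S)` for which `Q(P, S)` is a scalar multiple of a conjugate of `a`. -/
def Reach (a t : R) (P S : k[X]) : Prop :=
  ∃ g ∈ pairGroup k a t, ∃ ξ : k, ξ ≠ 0 ∧ Q a t P S = ξ • ((g : R) * a * ((g⁻¹ : Rˣ) : R))

theorem reach_left {a t : R} (ha : a * a = 0) (ht : t * t = 0) {P S : k[X]} (s : k)
    (h : Reach a t P S) : Reach a t (P + C s * (X * S)) S := by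
  obtain ⟨g, hg, ξ, hξ, h⟩ := h
  refine ⟨tv (s • a) * g, mul_mem (left_mem a t s) hg, ξ, hξ, ?_⟩
  rw [← Q_conj_left ha ht s P S, h, mul_inv_rev, Units.val_mul, Units.val_mul]
  simp only [mul_assoc, smul_mul_assoc, mul_smul_comm]

theorem reach_right {a t : R} (ha : a * a = 0) (ht : t * t = 0) {P S : k[X]} (s : k)
    (h : Reach a t P S) : Reach a t P (S + C s * P) := by
  obtain ⟨g, hg, ξ, hξ, h⟩ := h
  refine ⟨tv (s • t) * g, mul_mem (right_mem a t s) hg, ξ, hξ, ?_⟩
  rw [← Q_conj_right ha ht s P S, h, mul_inv_rev, Units.val_mul, Units.val_mul]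
  simp only [mul_assoc, smul_mul_assoc, mul_smul_comm]

theorem reach_base {a t : R} {l : k} (hl : l ≠ 0) : Reach a t (C l) 0 := by
  refine ⟨1, one_mem _, l * l, mul_ne_zero hl hl, ?_⟩
  simp [Q, Algebra.algebraMap_eq_smul_one, mul_smul]

theorem reach_of_red {a t : R} (ha : a * a = 0) (ht : t * t = 0) (n : ℕ) :
    ∀ P S : k[X], P.natDegree ≤ n → S.natDegree ≤ n → red n P S ≠ 0 →
      ∀ l m : k, l ≠ 0 → m ≠ 0 → Reach a t (C l * P) (C m * S) := by
  induction n with
  | zero =>
    intro P S hP hS h l m hl hm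
    rw [red] at h
    have hP' := Polynomial.eq_C_of_natDegree_le_zero hP
    have hS' := Polynomial.eq_C_of_natDegree_le_zero hS
    set p := P.coeff 0
    set r := S.coeff 0
    have h1 : Reach a t (C (l * p)) (0 + C (m * r / (l * p)) * C (l * p)) :=
      reach_right ha ht _ (reach_base (mul_ne_zero hl h))
    have h2 : (0 : k[X]) + C (m * r / (l * p)) * C (l * p) = C m * S := by
      rw [hS', zero_add, ← C_mul, ← C_mul, div_mul_cancel₀ _ (mul_ne_zero hl h)]
    rw [h2] at h1
    rw [hP', ← C_mul]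
    exact h1
  | succ n ih =>
    intro P S hP hS h l m hl hm
    rw [red] at h
    set p := P.coeff (n + 1) with hp
    set r := S.coeff (n + 1) with hr
    set S' : k[X] := C p * S - C r * P with hS'
    set r' := S'.coeff n with hr'
    set P' : k[X] := C r' * P - C p * (X * S') with hP'
    have hp0 : p ≠ 0 := fun h0 => h (by rw [h0]; ring)
    have hr0 : r' ≠ 0 := fun h0 => h (by rw [h0]; ring)
    have hred : red n P' S' ≠ 0 := fun h0 => h (by rw [h0]; ring)
    have hS'1 : S'.natDegree ≤ n + 1 := by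
      refine (natDegree_sub_le _ _).trans (max_le ?_ ?_)
      · exact (natDegree_C_mul_le _ _).trans hS
      · exact (natDegree_C_mul_le _ _).trans hP
    have hS'd : S'.natDegree ≤ n := by
      rw [natDegree_le_iff_coeff_eq_zero]
      intro N hN
      rcases eq_or_lt_of_le (Nat.succ_le_of_lt hN) with h1 | h1
      · rw [← h1]
        show S'.coeff (n + 1) = 0
        rw [hS', coeff_sub, coeff_C_mul, coeff_C_mul, ← hp, ← hr]; ring
      · exact coeff_eq_zero_of_natDegree_lt (lt_of_le_of_lt hS'1 h1)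
    have hP'1 : P'.natDegree ≤ n + 1 := by
      refine (natDegree_sub_le _ _).trans (max_le ?_ ?_)
      · exact (natDegree_C_mul_le _ _).trans hP
      · refine (natDegree_C_mul_le _ _).trans ?_
        refine natDegree_mul_le.trans ?_
        have := natDegree_X_le (R := k)
        omega
    have hP'd : P'.natDegree ≤ n := by
      rw [natDegree_le_iff_coeff_eq_zero]
      intro N hN
      rcases eq_or_lt_of_le (Nat.succ_le_of_lt hN) with h1 | h1
      · rw [← h1]
        show P'.coeff (n + 1) = 0
        rw [hP', coeff_sub, coeff_C_mul, coeff_C_mul, ← hp, coeff_X_mul, ← hr']; ring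
      · exact coeff_eq_zero_of_natDegree_lt (lt_of_le_of_lt hP'1 h1)
    have h1 := ih P' S' hP'd hS'd hred (l / r') (m / p) (div_ne_zero hl hr0) (div_ne_zero hm hp0)
    have h2 := reach_left ha ht (l / r' * p / (m / p)) h1
    have e2 : C (l / r') * P' + C (l / r' * p / (m / p)) * (X * (C (m / p) * S')) = C l * P := by
      have e : C (l / r' * p / (m / p)) * (X * (C (m / p) * S')) =
          C (l / r') * (C p * (X * S')) := by
        have : C (l / r' * p / (m / p)) * C (m / p) = (C (l / r') * C p : k[X]) := by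
          rw [← C_mul, ← C_mul, div_mul_cancel₀ _ (div_ne_zero hm hp0)]
        calc C (l / r' * p / (m / p)) * (X * (C (m / p) * S'))
            = (C (l / r' * p / (m / p)) * C (m / p)) * (X * S') := by ring
          _ = _ := by rw [this]; ring
      rw [e, hP']
      have : C (l / r') * (C r' * P) = C l * P := by
        rw [← mul_assoc, ← C_mul, div_mul_cancel₀ _ hr0]
      rw [mul_sub, this]; ring
    rw [e2] at h2
    have h3 := reach_right ha ht (m / p * r / l) h2
    have e3 : C (m / p) * S' + C (m / p * r / l) * (C l * P) = C m * S := by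
      rw [← mul_assoc, ← C_mul, div_mul_cancel₀ _ hl, hS', mul_sub, ← mul_assoc, ← C_mul,
        div_mul_cancel₀ _ hp0, C_mul]
      ring
    rw [e3] at h3
    exact h3

/-- A pair of polynomials of degree `n` whose reduction is completely nondegenerate. -/
theorem exists_red_one (n : ℕ) : ∃ P S : k[X], P.natDegree ≤ n ∧ S.natDegree ≤ n ∧
    P.coeff n = 1 ∧ S.coeff n = 1 ∧ red n P S = 1 := by
  induction n with
  | zero => exact ⟨1, 1, by simp, by simp, by simp, by simp, by simp [red]⟩
  | succ n ih =>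
    obtain ⟨P, S, hP, hS, hp, hs, h⟩ := ih
    have hPn : P.coeff (n + 1) = 0 := coeff_eq_zero_of_natDegree_lt (by omega)
    have hSn : S.coeff (n + 1) = 0 := coeff_eq_zero_of_natDegree_lt (by omega)
    have h1 : (P + X * S).natDegree ≤ n + 1 := by
      refine (natDegree_add_le _ _).trans (max_le (by omega) ?_)
      refine natDegree_mul_le.trans ?_
      have := natDegree_X_le (R := k)
      omega
    have h2 : (S + (P + X * S)).natDegree ≤ n + 1 :=
      (natDegree_add_le _ _).trans (max_le (by omega) h1)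
    have h3 : (P + X * S).coeff (n + 1) = 1 := by rw [coeff_add, coeff_X_mul, hPn, hs, zero_add]
    have h4 : (S + (P + X * S)).coeff (n + 1) = 1 := by rw [coeff_add, h3, hSn, zero_add]
    refine ⟨P + X * S, S + (P + X * S), h1, h2, h3, h4, ?_⟩
    rw [red, h3, h4]
    have e1 : C 1 * (S + (P + X * S)) - C 1 * (P + X * S) = S := by rw [C_1]; ring
    rw [e1, hs]
    have e2 : C 1 * (P + X * S) - C 1 * (X * S) = P := by rw [C_1]; ring
    rw [e2, h]; ring

theorem commute_of_mem {a t c : R} (ha : a * a = 0) (ht : t * t = 0) (hca : Commute c a)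
    (hct : Commute c t) {g : Rˣ} (hg : g ∈ pairGroup k a t) : Commute c (g : R) := by
  unfold pairGroup at hg
  induction hg using Subgroup.closure_induction with
  | mem g hg =>
    rcases hg with ⟨s, rfl⟩ | ⟨s, rfl⟩
    · rw [val_tv (smul_sq s ha)]
      exact (Commute.one_right c).add_right (hca.smul_right s)
    · rw [val_tv (smul_sq s ht)]
      exact (Commute.one_right c).add_right (hct.smul_right s)
  | one => exact Commute.one_right c
  | mul x y _ _ hx hy => rw [Units.val_mul]; exact hx.mul_right hy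
  | inv x _ hx => exact hx.units_inv_right

theorem mul_sq_zero {a c : R} (ha : a * a = 0) (hca : Commute c a) (x y : k[X]) :
    (aeval c x * a) * (aeval c y * a) = 0 := by
  rw [mul_assoc, ← mul_assoc a, ← aeval_comm hca.eq y, mul_assoc, ha, mul_zero, mul_zero]

/-- The polynomials `x` with `1 + k x(c) a` contained in `H`. -/
noncomputable def coefs (k : Type*) [Field k] {R : Type*} [Ring R] [Algebra k R] (a c : R)
    (ha : a * a = 0) (hca : Commute c a) (H : Subgroup Rˣ) : Submodule k k[X] where
  carrier := {x | ∀ r : k, tv (r • (aeval c x * a)) ∈ H}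
  zero_mem' := by intro r; simp
  add_mem' := by
    intro x y hx hy r
    rw [map_add, add_mul, smul_add, tv_add (smul_sq _ (mul_sq_zero ha hca x x))
      (smul_sq _ (mul_sq_zero ha hca y y))]
    · exact mul_mem (hx r) (hy r)
    · rw [smul_mul_smul_comm, mul_sq_zero ha hca, smul_zero]
    · rw [smul_mul_smul_comm, mul_sq_zero ha hca, smul_zero]
  smul_mem' := by
    intro s x hx r
    have h : r • (aeval c (s • x) * a) = (r * s) • (aeval c x * a) := by
      rw [map_smul, smul_mul_assoc, smul_smul]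
    show tv (r • (aeval c (s • x) * a)) ∈ H
    rw [h]
    exact hx (r * s)

/-- **Lemma G.** Over an infinite field of characteristic not `2`, if `c = at + ta` is integral,
then `⟨1 + ka, 1 + kt⟩` contains all `1 + x(c) a`. -/
theorem lemmaG [Infinite k] (h2 : (2 : k) ≠ 0) {a t : R} (ha : a * a = 0) (ht : t * t = 0)
    (hc : IsIntegral k (a * t + t * a)) (x : k[X]) :
    tv (aeval (a * t + t * a) x * a) ∈ pairGroup k a t := by
  classical
  set c := a * t + t * a with hcdef
  have ca : Commute c a := comm_left ha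
  have ct : Commute c t := comm_right ht
  set F := minpoly k c with hF
  have hFm : F.Monic := minpoly.monic hc
  have hF0 : aeval c F = 0 := minpoly.aeval k c
  set n := F.natDegree with hn
  obtain ⟨P, S, hP, hS, -, -, hred⟩ := exists_red_one (k := k) n
  -- the subspace of admissible coefficients
  set A := coefs k a c ha ca (pairGroup k a t) with hA
  have h1A : (1 : k[X]) ∈ A := by
    intro r
    rw [map_one, one_mul]
    exact left_mem a t r
  -- the key step
  have key : ∀ ν : k[X], ∃ ρ : k[X], ρ ≠ 0 ∧ ∀ s : k, ρ.eval s ≠ 0 →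
      ∀ y ∈ A, y * ((1 + C s * ν) * (1 + C s * ν)) ∈ A := by
    intro ν
    set P' := (ν * P) %ₘ F with hP'
    set S' := (ν * S) %ₘ F with hS'
    have hP'n : P'.natDegree ≤ n := natDegree_modByMonic_le _ hFm
    have hS'n : S'.natDegree ≤ n := natDegree_modByMonic_le _ hFm
    let Pt : k[X][X] := P.map C + C X * P'.map C
    let St : k[X][X] := S.map C + C X * S'.map C
    have hPt : ∀ s : k, Pt.map (evalRingHom s) = P + C s * P' := by
      intro s
      have hid : (evalRingHom s).comp (C : k →+* k[X]) = RingHom.id k := by ext; simp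
      simp only [Pt, Polynomial.map_add, Polynomial.map_mul, Polynomial.map_map, map_C, hid,
        Polynomial.map_id]
      simp
    have hSt : ∀ s : k, St.map (evalRingHom s) = S + C s * S' := by
      intro s
      have hid : (evalRingHom s).comp (C : k →+* k[X]) = RingHom.id k := by ext; simp
      simp only [St, Polynomial.map_add, Polynomial.map_mul, Polynomial.map_map, map_C, hid,
        Polynomial.map_id]
      simp
    have hrho : ∀ s : k, (red n Pt St).eval s = red n (P + C s * P') (S + C s * S') := by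
      intro s
      rw [← hPt s, ← hSt s, red_map]; rfl
    refine ⟨red n Pt St, ?_, ?_⟩
    · intro h0
      have := hrho 0
      rw [h0] at this
      simp [hred] at this
    · intro s hs y hy
      rw [hrho s] at hs
      have hdeg1 : (P + C s * P').natDegree ≤ n :=
        (natDegree_add_le _ _).trans (max_le hP ((natDegree_C_mul_le _ _).trans hP'n))
      have hdeg2 : (S + C s * S').natDegree ≤ n :=
        (natDegree_add_le _ _).trans (max_le hS ((natDegree_C_mul_le _ _).trans hS'n))
      have r0 : Reach a t (C 1 * P) (C 1 * S) :=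
        reach_of_red ha ht n P S hP hS (by rw [hred]; exact one_ne_zero) 1 1 one_ne_zero one_ne_zero
      have r1 : Reach a t (C 1 * (P + C s * P')) (C 1 * (S + C s * S')) :=
        reach_of_red ha ht n _ _ hdeg1 hdeg2 hs 1 1 one_ne_zero one_ne_zero
      rw [C_1, one_mul, one_mul] at r0 r1
      obtain ⟨g0, hg0, ξ0, hξ0, e0⟩ := r0
      obtain ⟨g1, hg1, ξ1, hξ1, e1⟩ := r1
      set m : R := aeval c (1 + C s * ν) with hm
      have ev1 : aeval c (P + C s * P') = m * aeval c P := by
        rw [hm, map_add, map_add, map_mul, map_mul, hP', aeval_modByMonic_eq_self_of_root hF0,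
          map_mul, map_one, add_mul, one_mul, mul_assoc]
      have ev2 : aeval c (S + C s * S') = m * aeval c S := by
        rw [hm, map_add, map_add, map_mul, map_mul, hS', aeval_modByMonic_eq_self_of_root hF0,
          map_mul, map_one, add_mul, one_mul, mul_assoc]
      have eQ : Q a t (P + C s * P') (S + C s * S') = m * m * Q a t P S := by
        unfold Q
        rw [← hcdef, ev1, ev2]
        have c1 : aeval c P * m = m * aeval c P := aeval_comm' _ _ _
        have c2 : aeval c S * m = m * aeval c S := aeval_comm' _ _ _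
        simp only [mul_sub, mul_assoc, reassoc c1, reassoc c2]
      -- conjugating element
      have hcm0 : Commute m (g0 : R) := by
        have : Commute c (g0 : R) := commute_of_mem ha ht ca ct hg0
        exact aeval_comm this.eq _
      have hgm : ∀ {g : Rˣ}, g ∈ pairGroup k a t → ∀ z : k[X], Commute (aeval c z) (g : R) :=
        fun hg z => aeval_comm (commute_of_mem ha ht ca ct hg).eq _
      have conj_a : ((g0⁻¹ * g1 : Rˣ) : R) * a * (((g0⁻¹ * g1)⁻¹ : Rˣ) : R) =
          (ξ0 / ξ1) • (m * m * a) := by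
        have e1' : (g1 : R) * a * ((g1⁻¹ : Rˣ) : R) = ξ1⁻¹ • (m * m * Q a t P S) := by
          rw [← eQ, e1, smul_smul, inv_mul_cancel₀ hξ1, one_smul]
        calc ((g0⁻¹ * g1 : Rˣ) : R) * a * (((g0⁻¹ * g1)⁻¹ : Rˣ) : R)
            = ((g0⁻¹ : Rˣ) : R) * ((g1 : R) * a * ((g1⁻¹ : Rˣ) : R)) * (g0 : R) := by
              rw [mul_inv_rev, inv_inv, Units.val_mul, Units.val_mul]; simp only [mul_assoc]
          _ = ((g0⁻¹ : Rˣ) : R) * (ξ1⁻¹ • (m * m * (ξ0 • ((g0 : R) * a * ((g0⁻¹ : Rˣ) : R))))) *
              (g0 : R) := by rw [e1', e0]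
          _ = (ξ1⁻¹ * ξ0) • (((g0⁻¹ : Rˣ) : R) * (m * m * ((g0 : R) * a * ((g0⁻¹ : Rˣ) : R))) *
              (g0 : R)) := by
              simp only [mul_smul_comm, smul_mul_assoc, smul_smul]
          _ = (ξ1⁻¹ * ξ0) • (m * m * a) := by
              congr 1
              have hci : Commute m ((g0⁻¹ : Rˣ) : R) := hcm0.units_inv_right
              calc ((g0⁻¹ : Rˣ) : R) * (m * m * ((g0 : R) * a * ((g0⁻¹ : Rˣ) : R))) * (g0 : R)
                  = (((g0⁻¹ : Rˣ) : R) * (m * m)) * ((g0 : R) * a * (((g0⁻¹ : Rˣ) : R) *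
                    (g0 : R))) := by simp only [mul_assoc]
                _ = m * m * (((g0⁻¹ : Rˣ) : R) * (g0 : R)) * a * (((g0⁻¹ : Rˣ) : R) * (g0 : R)) := by
                    rw [← (hci.mul_left hci).eq]; simp only [mul_assoc]
                _ = m * m * a := by rw [Units.inv_mul, mul_one, mul_one]
          _ = (ξ0 / ξ1) • (m * m * a) := by rw [div_eq_mul_inv, mul_comm]
      intro r
      have hmem : (g0⁻¹ * g1) * tv ((r * (ξ1 / ξ0)) • (aeval c y * a)) * (g0⁻¹ * g1)⁻¹ ∈
          pairGroup k a t := by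
        have hg : g0⁻¹ * g1 ∈ pairGroup k a t := mul_mem (inv_mem hg0) hg1
        exact mul_mem (mul_mem hg (hy _)) (inv_mem hg)
      rw [conj_tv _ (smul_sq _ (mul_sq_zero ha ca y y))] at hmem
      have hgy : Commute (aeval c y) ((g0⁻¹ * g1 : Rˣ) : R) :=
        hgm (mul_mem (inv_mem hg0) hg1) y
      have e : ((g0⁻¹ * g1 : Rˣ) : R) * ((r * (ξ1 / ξ0)) • (aeval c y * a)) *
          (((g0⁻¹ * g1)⁻¹ : Rˣ) : R) =
          r • (aeval c (y * ((1 + C s * ν) * (1 + C s * ν))) * a) := by
        calc ((g0⁻¹ * g1 : Rˣ) : R) * ((r * (ξ1 / ξ0)) • (aeval c y * a)) *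
              (((g0⁻¹ * g1)⁻¹ : Rˣ) : R)
            = (r * (ξ1 / ξ0)) • (aeval c y * (((g0⁻¹ * g1 : Rˣ) : R) * a *
              (((g0⁻¹ * g1)⁻¹ : Rˣ) : R))) := by
              rw [mul_smul_comm, smul_mul_assoc, ← mul_assoc, ← hgy.eq]; simp only [mul_assoc]
          _ = (r * (ξ1 / ξ0) * (ξ0 / ξ1)) • (aeval c y * (m * m * a)) := by
              rw [conj_a, mul_smul_comm, smul_smul]
          _ = r • (aeval c (y * ((1 + C s * ν) * (1 + C s * ν))) * a) := by
              have h3 : r * (ξ1 / ξ0) * (ξ0 / ξ1) = r := by field_simp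
              rw [h3, map_mul, map_mul, ← hm]; simp only [mul_assoc]
      rw [e] at hmem
      exact hmem
  -- conclude: `A` is everything
  have hall : ∀ ν : k[X], ν ∈ A := by
    intro ν
    obtain ⟨ρ, hρ, hk⟩ := key ν
    obtain ⟨s1, hs1⟩ : ∃ s1 : k, s1 ∉ ((ρ * X).roots.toFinset) := Infinite.exists_notMem_finset _
    obtain ⟨s2, hs2⟩ : ∃ s2 : k, s2 ∉ ((ρ * X * (X - C s1)).roots.toFinset) :=
      Infinite.exists_notMem_finset _
    have hne1 : ρ * X ≠ 0 := mul_ne_zero hρ X_ne_zero
    have hne2 : ρ * X * (X - C s1) ≠ 0 := mul_ne_zero hne1 (X_sub_C_ne_zero s1)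
    rw [Multiset.mem_toFinset, mem_roots hne1, IsRoot.def, eval_mul, eval_X, mul_eq_zero,
      not_or] at hs1
    rw [Multiset.mem_toFinset, mem_roots hne2, IsRoot.def, eval_mul, eval_mul, eval_X, eval_sub,
      eval_X, eval_C, mul_eq_zero, mul_eq_zero, not_or, not_or, sub_eq_zero] at hs2
    have m1 := hk s1 hs1.1 1 h1A
    have m2 := hk s2 hs2.1.1 1 h1A
    have m3 : ((s2 * s2) • (1 * ((1 + C s1 * ν) * (1 + C s1 * ν)) - 1) -
        (s1 * s1) • (1 * ((1 + C s2 * ν) * (1 + C s2 * ν)) - 1) : k[X]) ∈ A :=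
      A.sub_mem (A.smul_mem _ (A.sub_mem m1 h1A)) (A.smul_mem _ (A.sub_mem m2 h1A))
    have e3 : ((s2 * s2) • (1 * ((1 + C s1 * ν) * (1 + C s1 * ν)) - 1) -
        (s1 * s1) • (1 * ((1 + C s2 * ν) * (1 + C s2 * ν)) - 1) : k[X]) =
        (2 * s1 * s2 * (s2 - s1)) • ν := by
      simp only [smul_eq_C_mul, C_mul, C_sub, map_ofNat]
      ring
    rw [e3] at m3
    have hne : 2 * s1 * s2 * (s2 - s1) ≠ 0 :=
      mul_ne_zero (mul_ne_zero (mul_ne_zero h2 hs1.2) hs2.1.2) (sub_ne_zero.2 hs2.2)
    have m4 := A.smul_mem (2 * s1 * s2 * (s2 - s1))⁻¹ m3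
    rwa [smul_smul, inv_mul_cancel₀ hne, one_smul] at m4
  have := hall x 1
  rwa [one_smul] at this

end alg

end H86.Quad1
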