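import Cfsg.Agent.Lib.H86.Quad9

/-!
Quadratic pairs: every root group has an opposite conjugate; the surjectivity
`[a, 𝔢(b)] = 𝔢([a,b])` for non-commuting nilpotent pairs.
-/

set_option autoImplicit false
set_option linter.unusedSimpArgs false
set_option linter.unusedVariables false
set_option linter.style.haveILetI false
set_option linter.unusedSectionVars false
open H86.Quad1 H86.FinSL H86.Quad2 H86.Quad3 H86.Quad4 H86.Quad5 H86.Quad6 H86.Quad7 H86.Quad8
open H86.Quad9 H86.Unip Polynomial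

namespace H86.Quad10

universe u v

section irr
variable {k : Type u} [Field k] {M : Type v} [AddCommGroup M] [Module k M] [FiniteDimensional k M]
variable {G : Subgroup (LinearMap.GeneralLinearGroup k M)}

/-- A normal unipotent subgroup of an irreducible group is trivial. -/
theorem normal_unip_trivial (hG : Cfsg.IsIrreducibleFor G)
    {H : Subgroup (LinearMap.GeneralLinearGroup k M)}
    (hN : ∀ g ∈ G, ∀ h ∈ H, g * h * g⁻¹ ∈ H) (hu : Cfsg.IsUnipotentOn H) : H = ⊥ := by
  obtain ⟨⟨m, hm⟩, hirr⟩ := hG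
  obtain ⟨v, hv, hv0, hfix⟩ := exists_fix hu (inv_top H) (W := ⊥) (by
    intro h
    exact hm ((Submodule.mem_bot k).1 (h Submodule.mem_top)))
  have hvf : v ∈ Cfsg.fixedSubmodule H := by
    rw [mem_fixed]
    intro g hg
    exact sub_eq_zero.1 ((Submodule.mem_bot k).1 (hfix g hg))
  have htop : Cfsg.fixedSubmodule H = ⊤ := by
    rcases hirr (Cfsg.fixedSubmodule H) (by
      intro g hg w hw
      rw [mem_fixed] at hw ⊢
      intro h hh
      have h1 := hw _ (hN g⁻¹ (inv_mem hg) h hh)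
      have h2 := congrArg (fun x => (g : Module.End k M) x) h1
      have h3 : (g : Module.End k M) (((g⁻¹ * h * (g⁻¹)⁻¹ : (Module.End k M)ˣ) : Module.End k M) w) =
          (h : Module.End k M) ((g : Module.End k M) w) := by
        rw [inv_inv, Units.val_mul, Units.val_mul]
        show (g : Module.End k M) (((g⁻¹ : (Module.End k M)ˣ) : Module.End k M)
          ((h : Module.End k M) ((g : Module.End k M) w))) = _
        rw [app_inv]
      rw [← h3]
      exact h2) with h | h
    · rw [h] at hvf; exact absurd hvf hv0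
    · exact h
  rw [eq_bot_iff]
  intro h hh
  rw [Subgroup.mem_bot]
  apply Units.ext
  apply LinearMap.ext
  intro x
  have : x ∈ Cfsg.fixedSubmodule H := by rw [htop]; trivial
  exact mem_fixed.1 this h hh

end irr

section main
variable {k : Type u} [Field k] [Good k] {M : Type v} [AddCommGroup M] [Module k M]
  [FiniteDimensional k M]
variable {G : Subgroup (LinearMap.GeneralLinearGroup k M)}

theorem Esub_le {a : Module.End k M} (ha : a ∈ AAd G) : Esub G a ha ≤ G := by
  rintro _ ⟨b, hb, rfl⟩; exact AA_mem hb.1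

/-- a version of Baer–Suzuki for sets of elements of `AAd G` -/
theorem exists_opp_of_set (hG : Cfsg.IsIrreducibleFor G) {X : Set (Module.End k M)}
    (hX : X ⊆ AAd G) (hne : X.Nonempty)
    (hconj : ∀ x ∈ X, ∀ g ∈ G, (g : Module.End k M) * x * ((g⁻¹ : (Module.End k M)ˣ) : Module.End k M) ∈ X) :
    ∃ x ∈ X, ∃ y ∈ X, Opp x y := by
  by_contra hcon
  push Not at hcon
  let W : Set (Subgroup (LinearMap.GeneralLinearGroup k M)) :=
    {A | ∃ x, ∃ hx : x ∈ X, A = Esub G x (hX hx)}
  have hW : Cfsg.IsUnipotentOn (jn W) := by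
    apply baer_suzuki
    · rintro _ ⟨x, hx, rfl⟩ _ ⟨y, hy, rfl⟩
      exact np_unip ((np_iff (hX hx) (hX hy)).2 (hcon x hx y hy))
    · rintro _ ⟨x, hx, rfl⟩ g hg _ ⟨y, hy, rfl⟩
      have hgG := Esub_le (hX hx) hg
      exact ⟨_, hconj y hy g hgG, conjBy_Esub (hX hy) hgG⟩
  have hN : ∀ g ∈ G, ∀ h ∈ jn W, g * h * g⁻¹ ∈ jn W := by
    intro g hg h hh
    refine jn_induction (P := fun h => g * h * g⁻¹ ∈ jn W) ?_ ?_ ?_ hh
    · rintro _ ⟨x, hx, rfl⟩ h hh
      apply le_jn (D := W) (A := Esub G _ (hX (hconj x hx g hg))) ⟨_, hconj x hx g hg, rfl⟩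
      rw [← conjBy_Esub (hX hx) hg]
      exact ⟨h, hh, rfl⟩
    · simp
    · intro x y hx hy
      have : g * (x * y) * g⁻¹ = (g * x * g⁻¹) * (g * y * g⁻¹) := by group
      rw [this]; exact mul_mem hx hy
  have hbot := normal_unip_trivial hG hN hW
  obtain ⟨x, hx⟩ := hne
  have h1 : (tv x : LinearMap.GeneralLinearGroup k M) ∈ jn W :=
    le_jn (D := W) (A := Esub G x (hX hx)) ⟨x, hx, rfl⟩ ⟨x, self_mem_EE (hX hx).1, rfl⟩
  rw [hbot, Subgroup.mem_bot] at h1
  exact tv_ne_one (hX hx).1.1 (hX hx).2.1 h1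

/-- every root group has an opposite conjugate -/
theorem exists_opp (hG : Cfsg.IsIrreducibleFor G) {a : Module.End k M} (ha : a ∈ AAd G) :
    ∃ g ∈ G, Opp a ((g : Module.End k M) * a * ((g⁻¹ : (Module.End k M)ˣ) : Module.End k M)) := by
  obtain ⟨x, ⟨g, hg, rfl⟩, y, ⟨h, hh, rfl⟩, hxy⟩ := exists_opp_of_set hG
    (X := {x | ∃ g ∈ G, x = (g : Module.End k M) * a * ((g⁻¹ : (Module.End k M)ˣ) : Module.End k M)})
    (by rintro _ ⟨g, hg, rfl⟩; exact conj_mem_AAd ha hg) ⟨_, 1, one_mem _, rfl⟩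
    (by
      rintro _ ⟨h, hh, rfl⟩ g hg
      refine ⟨g * h, mul_mem hg hh, ?_⟩
      rw [mul_inv_rev, Units.val_mul, Units.val_mul]
      simp only [mul_assoc])
  refine ⟨g⁻¹ * h, mul_mem (inv_mem hg) hh, ?_⟩
  have h1 : ∀ (g : LinearMap.GeneralLinearGroup k M) {x y : Module.End k M}, Opp x y →
      Opp ((g : Module.End k M) * x * ((g⁻¹ : (Module.End k M)ˣ) : Module.End k M))
        ((g : Module.End k M) * y * ((g⁻¹ : (Module.End k M)ˣ) : Module.End k M)) := by
    intro g x y hxy
    unfold Opp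
    rw [range_conj, ker_conj, range_conj, ker_conj]
    constructor
    · exact Submodule.disjoint_map (unit_inj g) hxy.1
    · exact Submodule.disjoint_map (unit_inj g) hxy.2
  have h2 := h1 g⁻¹ hxy
  rw [conj_inv_conj'] at h2
  convert h2 using 1
  rw [mul_inv_rev, Units.val_mul, Units.val_mul]
  simp only [mul_assoc]

end main

end H86.Quad10
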