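import Cfsg.Agent.Lib.H86.Quad10

/-!
Quadratic pairs: the surjectivity `[a, 𝔢(b)] = 𝔢([a,b])` for non-commuting nilpotent pairs.
-/

set_option autoImplicit false
set_option linter.unusedSimpArgs false
set_option linter.unusedVariables false
set_option linter.style.haveILetI false
set_option linter.unusedSectionVars false
open H86.Quad1 H86.FinSL H86.Quad2 H86.Quad3 H86.Quad4 H86.Quad5 H86.Quad6 H86.Quad7 H86.Quad8
open H86.Quad9 H86.Quad10 H86.Unip Polynomial

namespace H86.Quad11

universe u v

section ring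
variable {R : Type*} [Ring R]

/-- The relations between two inverse pairs `(e, c)` and `(α, α')` with the same projections. -/
structure Two (e c α α' : R) : Prop where
  ee : e * e = 0
  cc : c * c = 0
  ece : e * (c * e) = e
  cec : c * (e * c) = c
  aa : α * α = 0
  bb : α' * α' = 0
  aba : α * (α' * α) = α
  bab : α' * (α * α') = α'
  ea : e * α = 0
  ae : α * e = 0
  cb : c * α' = 0
  bc : α' * c = 0
  eca : e * (c * α) = α
  ace : α * (c * e) = α
  ceb : c * (e * α') = α'
  bec : α' * (e * c) = α'
  ab : α * α' = e * c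
  ba : α' * α = c * e

/-- The torus element. -/
def tor (e c α α' : R) : R := 1 - e * c - c * e + α * c + α' * e

/-- shape -/
structure Sh (e c x : R) : Prop where
  ex : e * x = 0
  xe : x * e = 0
  sh : x - x * (c * e) - e * (c * x) + e * (c * (x * (c * e))) = 0

theorem Sh.mul3 {e c x y z : R} (hx : Sh e c x) (hy : Sh e c y) (hz : Sh e c z) :
    x * (y * z) = 0 := by
  have h1 : y = y * (c * e) + e * (c * y) - e * (c * (y * (c * e))) := by
    have := hy.sh
    rw [← sub_eq_zero, ← this]; abel
  rw [h1]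
  simp only [mul_add, add_mul, mul_sub, sub_mul, mul_assoc, hz.ex, hx.xe, mul_zero, reassoc hx.xe,
    zero_mul, sub_zero, add_zero]

/-- conjugation by the torus element of an element of the right shape. -/
theorem Two.conj {e c α α' x : R} (h : Two e c α α') (hx : Sh e c x) :
    tor e c α α' * x * tor e c e c = 0 → True := fun _ => trivial

theorem Two.conj_formula {e c α α' x : R} (h : Two e c α α') (hx : Sh e c x) :
    (1 - e * c - c * e + α * c + α' * e) * x * (1 - e * c - c * e + e * α' + c * α) =
      x * (c * α) - e * (c * (x * (c * α))) + α * (c * x) - α * (c * (x * (c * e))) +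
        α * (c * (x * (c * α))) := by
  have h1 := hx.sh
  have h2 : (1 - e * c - c * e + α * c + α' * e) * x * (1 - e * c - c * e + e * α' + c * α) =
      (x - x * (c * e) - e * (c * x) + e * (c * (x * (c * e)))) +
      (x * (c * α) - e * (c * (x * (c * α))) + α * (c * x) - α * (c * (x * (c * e))) +
        α * (c * (x * (c * α)))) := by
    simp only [mul_add, add_mul, mul_sub, sub_mul, mul_assoc, one_mul, mul_one, hx.ex, hx.xe,
      mul_zero, reassoc hx.xe, reassoc hx.ex, zero_mul, sub_zero, add_zero]
    abel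
  rw [h2, h1, zero_add]

end ring

section main
variable {k : Type u} [Field k] {M : Type v} [AddCommGroup M] [Module k M]
variable {G : Subgroup (LinearMap.GeneralLinearGroup k M)}

theorem p_mul {e c α : Module.End k M} (h : IP e c) (hr : LinearMap.range α ≤ LinearMap.range e) :
    e * (c * α) = α := by
  ext m
  exact h.ab_range (hr ⟨m, rfl⟩)

theorem mul_q {e c α : Module.End k M} (h : IP e c) (hr : LinearMap.ker e ≤ LinearMap.ker α) :
    α * (c * e) = α := by
  ext m
  have h1 : m - c (e m) ∈ LinearMap.ker e := by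
    show e (m - c (e m)) = 0
    rw [map_sub, h.aba_app, sub_self]
  have h2 : α (m - c (e m)) = 0 := hr h1
  rw [map_sub, sub_eq_zero] at h2
  exact h2.symm

theorem two_of {e c α α' : Module.End k M} (h : IP e c) (h' : IP α α')
    (h1 : LinearMap.range α = LinearMap.range e) (h2 : LinearMap.ker α = LinearMap.ker e)
    (h3 : LinearMap.range α' = LinearMap.range c) (h4 : LinearMap.ker α' = LinearMap.ker c) :
    Two e c α α' := by
  have e1 : e * (c * α) = α := p_mul h h1.le
  have e2 : α * (c * e) = α := mul_q h h2.ge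
  have e3 : c * (e * α') = α' := p_mul h.symm h3.le
  have e4 : α' * (e * c) = α' := mul_q h.symm h4.ge
  have e5 : α * (α' * e) = e := p_mul h' h1.ge
  have e6 : e * (α' * α) = e := mul_q h' h2.le
  refine ⟨h.a2, h.b2, by rw [← mul_assoc]; exact h.aba, by rw [← mul_assoc]; exact h.bab, h'.a2,
    h'.b2, by rw [← mul_assoc]; exact h'.aba, by rw [← mul_assoc]; exact h'.bab, ?_, ?_, ?_, ?_,
    e1, e2, e3, e4, ?_, ?_⟩
  · rw [mul_eq_zero_iff, h1]; exact range_le_ker h.a2
  · rw [mul_eq_zero_iff, h2]; exact range_le_ker h.a2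
  · rw [mul_eq_zero_iff, h3]; exact range_le_ker h.b2
  · rw [mul_eq_zero_iff, h4]; exact range_le_ker h.b2
  · rw [← e4, ← mul_assoc, ← mul_assoc, mul_assoc α, e5]
  · rw [← e3, mul_assoc c, mul_assoc e, e6]

theorem Two.nU_mul {e c α α' : Module.End k M} (h : Two e c α α') (h1 : IP e c) (h2 : IP α α') :
    (((nU α α' * (nU e c)⁻¹ : (Module.End k M)ˣ)) : Module.End k M) =
      1 - e * c - c * e + α * c + α' * e := by
  rw [Units.val_mul, h2.nU_val, h1.nU_inv]
  simp only [h.ab, h.ba]
  simp only [mul_add, add_mul, mul_sub, sub_mul, mul_assoc, one_mul, mul_one, mul_zero, zero_mul,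
    h.ee, h.cc, h.ece, h.cec, h.ea, h.ae, h.cb, h.bc, reassoc h.ee, reassoc h.cc, reassoc h.ae,
    reassoc h.bc, reassoc h.ea, reassoc h.cb, h.eca, h.ace, h.ceb, h.bec, sub_zero, add_zero, zero_sub,
    zero_add]
  abel

theorem Two.nU_mul' {e c α α' : Module.End k M} (h : Two e c α α') (h1 : IP e c) (h2 : IP α α') :
    ((((nU α α' * (nU e c)⁻¹)⁻¹ : (Module.End k M)ˣ)) : Module.End k M) =
      1 - e * c - c * e + e * α' + c * α := by
  rw [mul_inv_rev, inv_inv, Units.val_mul, h1.nU_val, h2.nU_inv]
  simp only [h.ab, h.ba]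
  simp only [mul_add, add_mul, mul_sub, sub_mul, mul_assoc, one_mul, mul_one, mul_zero, zero_mul,
    h.ee, h.cc, h.ece, h.cec, h.ea, h.ae, h.cb, h.bc, reassoc h.ee, reassoc h.cc, reassoc h.ae,
    reassoc h.bc, reassoc h.ea, reassoc h.cb, h.eca, h.ace, h.ceb, h.bec, sub_zero, add_zero, zero_sub,
    zero_add]
  abel

end main

end H86.Quad11
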