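import Cfsg.Agent.Lib.H86.Quad11

/-!
Quadratic pairs: the surjectivity `[a, 𝔢(b)] = 𝔢([a,b])` for non-commuting nilpotent pairs.
-/

set_option autoImplicit false
set_option linter.unusedSimpArgs false
set_option linter.unusedVariables false
set_option linter.style.haveILetI false
set_option linter.unusedSectionVars false
open H86.Quad1 H86.FinSL H86.Quad2 H86.Quad3 H86.Quad4 H86.Quad5 H86.Quad6 H86.Quad7 H86.Quad8
open H86.Quad9 H86.Quad10 H86.Quad11 H86.Unip Polynomial

namespace H86.Quad12

universe u v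

variable {k : Type u} [Field k] [Good k] {M : Type v} [AddCommGroup M] [Module k M]
  [FiniteDimensional k M]
variable {G : Subgroup (LinearMap.GeneralLinearGroup k M)}

theorem sh_of {e c x : Module.End k M} (hip : IP e c) (ex : e * x = 0) (xe : x * e = 0)
    (h : ∀ m ∈ LinearMap.ker e, x m ∈ LinearMap.range e) : Sh e c x := by
  refine ⟨ex, xe, ?_⟩
  ext m
  have h1 : m - c (e m) ∈ LinearMap.ker e := by
    show e (m - c (e m)) = 0
    rw [map_sub, hip.aba_app, sub_self]
  have h2 := hip.ab_range (h _ h1)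
  show x m - x (c (e m)) - e (c (x m)) + e (c (x (c (e m)))) = 0
  rw [map_sub, map_sub, map_sub] at h2
  have : x m - x (c (e m)) - e (c (x m)) + e (c (x (c (e m)))) =
      (x m - x (c (e m))) - (e (c (x m)) - e (c (x (c (e m))))) := by abel
  rw [this, h2, sub_self]

theorem NP.sh_a {a b c : Module.End k M} (h : NP G a b) (hne : a * b - b * a ≠ 0)
    (hip : IP (a * b - b * a) c) : Sh (a * b - b * a) c a :=
  sh_of hip h.ea h.ae fun m hm => h.a_ker hne hm

theorem NP.sh_b {a b c : Module.End k M} (h : NP G a b) (hne : a * b - b * a ≠ 0)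
    (hip : IP (a * b - b * a) c) : Sh (a * b - b * a) c b := by
  refine sh_of hip h.eb h.be fun m hm => ?_
  have h1 := h.symm.a_ker (NP.swap hne) (m := m) (by
    rw [← neg_sub (a * b) (b * a), LinearMap.ker_neg]; exact hm)
  rw [← neg_sub (a * b) (b * a), LinearMap.range_neg] at h1
  exact h1

/-- relations in a non-commuting nilpotent pair with an inverse of the commutator -/
structure Rel (a b c : Module.End k M) : Prop where
  r1 : a * (b * (c * (a * b))) = a * b
  r2 : b * (a * (c * (a * b))) = 0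
  r3 : b * (a * (c * (b * a))) = -(b * a)
  r4 : a * (b * (c * (b * a))) = 0
  pab : (a * b - b * a) * (c * (a * b)) = a * b
  pba : (a * b - b * a) * (c * (b * a)) = b * a
  abq : a * (b * (c * (a * b - b * a))) = a * b
  baq : b * (a * (c * (a * b - b * a))) = b * a

theorem NP.rel {a b c : Module.End k M} (h : NP G a b) (hne : a * b - b * a ≠ 0)
    (hip : IP (a * b - b * a) c) : Rel a b c := by
  obtain ⟨-, -, h1, h2, h3, h4⟩ := h.info hne
  have hpa : ∀ m, (a * b - b * a) (c (a (b m))) = a (b m) := fun m =>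
    hip.ab_range (by rw [h3]; exact Submodule.mem_sup_left ⟨m, rfl⟩)
  have hpb : ∀ m, (a * b - b * a) (c (b (a m))) = b (a m) := fun m =>
    hip.ab_range (by rw [h3]; exact Submodule.mem_sup_right ⟨m, rfl⟩)
  have hA : ∀ m, b (a (c (a (b m)))) = 0 ∧ a (b (c (a (b m)))) = a (b m) := by
    intro m
    have h5 : a (b (c (a (b m)))) - b (a (c (a (b m)))) = a (b m) := hpa m
    have h6 : b (a (c (a (b m)))) = a (b (c (a (b m)) - m)) := by
      rw [map_sub, map_sub]
      have : b (a (c (a (b m)))) = a (b (c (a (b m)))) - (a (b (c (a (b m)))) - b (a (c (a (b m))))) := by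
        abel
      rw [this, h5]
    have h7 : b (a (c (a (b m)))) = 0 :=
      Submodule.disjoint_def.1 h4 _ (by rw [h6]; exact ⟨_, rfl⟩) ⟨_, rfl⟩
    exact ⟨h7, by rw [h7, sub_zero] at h5; exact h5⟩
  have hB : ∀ m, a (b (c (b (a m)))) = 0 ∧ b (a (c (b (a m)))) = -(b (a m)) := by
    intro m
    have h5 : a (b (c (b (a m)))) - b (a (c (b (a m)))) = b (a m) := hpb m
    have h6 : a (b (c (b (a m)))) = b (a (c (b (a m)) + m)) := by
      rw [map_add, map_add, add_comm]
      exact sub_eq_iff_eq_add.1 h5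
    have h7 : a (b (c (b (a m)))) = 0 :=
      Submodule.disjoint_def.1 h4 _ ⟨_, rfl⟩ (by rw [h6]; exact ⟨_, rfl⟩)
    exact ⟨h7, by rw [h7, zero_sub] at h5; exact neg_eq_iff_eq_neg.1 h5⟩
  have hk := h.ker_comm hne
  have hka : LinearMap.ker (a * b - b * a) ≤ LinearMap.ker (a * b) := by
    intro m hm
    rw [hk] at hm
    obtain ⟨_, ⟨y, rfl⟩, z, hz, rfl⟩ := Submodule.mem_sup.1 hm.1
    show a (b (a y + z)) = 0
    rw [map_add, show b z = 0 from hz, add_zero]
    have := congrArg (fun f : Module.End k M => f y) h.aba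
    exact this
  have hkb : LinearMap.ker (a * b - b * a) ≤ LinearMap.ker (b * a) := by
    intro m hm
    rw [hk] at hm
    obtain ⟨_, ⟨y, rfl⟩, z, hz, rfl⟩ := Submodule.mem_sup.1 hm.2
    show b (a (b y + z)) = 0
    rw [map_add, show a z = 0 from hz, add_zero]
    have := congrArg (fun f : Module.End k M => f y) h.bab
    exact this
  refine ⟨?_, ?_, ?_, ?_, ?_, ?_, ?_, ?_⟩
  · ext m; exact (hA m).2
  · ext m; exact (hA m).1
  · ext m; exact (hB m).2
  · ext m; exact (hB m).1
  · ext m; exact hpa m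
  · ext m; exact hpb m
  · have := mul_q hip hka
    rw [mul_assoc] at this
    exact this
  · have := mul_q hip hkb
    rw [mul_assoc] at this
    exact this

theorem nilp_of_sandwich {u c : Module.End k M} (h : u * (c * u) = 0) : IsNilpotent (u * c) :=
  ⟨2, by rw [pow_two, mul_assoc, ← mul_assoc c u c, ← mul_assoc u, h, zero_mul]⟩

theorem eq_zero_of_sandwich {e c u : Module.End k M} (he : e ∈ AAd G) (hip : IP e c)
    (hu : u ∈ EE G e) (h : u * (c * u) = 0) : u = 0 := by
  by_contra hne
  have h1 : Opp u c := hip.opp.congr (EE_range hu hne) (EE_ker hu hne) rfl rfl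
  exact not_nilpotent_of_opp h1 hne (nilp_of_sandwich h)

/-- all the data of a non-commuting nilpotent pair, an inverse `c` of `e = [a, b]`, and
`α ∈ 𝔢(e)`. -/
theorem tor_data {e c α : Module.End k M} (he : e ∈ AAd G) (hc : c ∈ AAd G) (hip : IP e c)
    (hα : α ∈ EE G e) (hα0 : α ≠ 0) : ∃ α', Two e c α α' ∧ ∃ g ∈ G,
      ((g : (Module.End k M)ˣ) : Module.End k M) = 1 - e * c - c * e + α * c + α' * e ∧
      ((g⁻¹ : (Module.End k M)ˣ) : Module.End k M) = 1 - e * c - c * e + e * α' + c * α := by
  have hA := mem_AAd_of_EE he hα hα0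
  obtain ⟨α', h1, h2, h3⟩ := exists_ip hA hc
    (hip.opp.congr (EE_range hα hα0) (EE_ker hα hα0) rfl rfl)
  have htwo := two_of hip h3 (EE_range hα hα0) (EE_ker hα hα0) (EE_range h1 h2) (EE_ker h1 h2)
  refine ⟨α', htwo, nU α α' * (nU e c)⁻¹,
    mul_mem (nU_mem hα.1 h1.1) (inv_mem (nU_mem he.1 hc.1)), htwo.nU_mul hip h3,
    htwo.nU_mul' hip h3⟩

theorem sh_conj {e c α α' b : Module.End k M} (h : Two e c α α') (hb : Sh e c b) :
    Sh e c (b * (c * α) - e * (c * (b * (c * α))) + α * (c * b) - α * (c * (b * (c * e))) +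
        α * (c * (b * (c * α)))) := by
  refine ⟨?_, ?_, ?_⟩
  · simp only [mul_add, add_mul, mul_sub, sub_mul, mul_assoc, mul_zero, zero_mul,
      h.ee, h.ea, reassoc h.ee, reassoc h.ea, hb.ex, reassoc hb.ex, sub_zero, add_zero]
  · simp only [mul_add, add_mul, mul_sub, sub_mul, mul_assoc, mul_zero, zero_mul,
      h.ee, h.ae, hb.xe, sub_zero, add_zero]
  · have e1 : ∀ z, e * (c * (e * z)) = e * z := fun z => by
      rw [← mul_assoc c, ← mul_assoc e, h.ece]
    have e2 : ∀ z, e * (c * (α * z)) = α * z := fun z => by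
      rw [← mul_assoc c, ← mul_assoc e, h.eca]
    simp only [mul_add, add_mul, mul_sub, sub_mul, mul_assoc, mul_zero, zero_mul, h.ace, e1, e2,
      h.ece, h.eca]
    abel

/-- The first containment: `T(α) = abcα - αcba ∈ 𝔢(e)`. -/
theorem T_mem {a b c α : Module.End k M} (h : NP G a b) (hne : a * b - b * a ≠ 0)
    (hc : c ∈ AAd G) (hip : IP (a * b - b * a) c) (hα : α ∈ EE G (a * b - b * a)) :
    a * (b * (c * α)) - α * (c * (b * a)) ∈ EE G (a * b - b * a) := by
  by_cases hα0 : α = 0
  · subst hα0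
    simp only [mul_zero, zero_mul, sub_zero]; exact zero_mem_EE
  have he := h.e_mem hne
  obtain ⟨α', htwo, g, hg, hg1, hg2⟩ := tor_data he hc hip hα hα0
  have hsa := NP.sh_a h hne hip
  have hsb := NP.sh_b h hne hip
  have hrel := NP.rel h hne hip
  set e := a * b - b * a with hedef
  have hB := conj_mem_AAd h.hb hg
  rw [hg1, hg2, htwo.conj_formula hsb] at hB
  set B := b * (c * α) - e * (c * (b * (c * α))) + α * (c * b) - α * (c * (b * (c * e))) +
        α * (c * (b * (c * α))) with hBdef
  have hsB : Sh e c B := sh_conj htwo hsb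
  have h1 := comm_mem_AA h.ha.1 hB.1 (by rw [mul_assoc]; exact hsa.mul3 hsB hsa)
    (by rw [mul_assoc]; exact hsB.mul3 hsa hsB)
  have hαa : α * a = 0 := by
    rw [← htwo.ace, mul_assoc, mul_assoc, hsa.ex, mul_zero, mul_zero]
  have haα : a * α = 0 := by
    rw [← htwo.eca, ← mul_assoc, hsa.xe, zero_mul]
  have h2 : a * B - B * a = a * (b * (c * α)) - α * (c * (b * a)) := by
    rw [hBdef]
    simp only [mul_add, add_mul, mul_sub, sub_mul, mul_assoc, mul_zero, zero_mul, hαa, haα,
      reassoc haα, hsa.ex, reassoc hsa.xe, sub_zero, add_zero, zero_add]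
  rw [h2] at h1
  apply mem_EE_of_le he h1
  · have : a * (b * (c * α)) - α * (c * (b * a)) =
        e * (c * (a * (b * (c * α)) - α * (c * (b * a)))) := by
      have e1 : e * (c * (a * (b * (c * α)))) = a * (b * (c * α)) := by
        have := congrArg (fun z => z * (c * α)) hrel.pab
        simp only [mul_assoc] at this
        exact this
      have e2 : ∀ z, e * (c * (α * z)) = α * z := fun z => by
        rw [← mul_assoc c, ← mul_assoc e, htwo.eca]
      rw [mul_sub, mul_sub, e1, e2]
    rw [this]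
    rintro _ ⟨m, rfl⟩
    exact ⟨_, rfl⟩
  · intro m hm
    show a (b (c (α m))) - α (c (b (a m))) = 0
    have h3 : α m = 0 := ker_le_of_EE hα hm
    have h4 : b (a m) = 0 := by
      have h5 := congrArg (fun f : Module.End k M => f m) hrel.baq
      have h6 : b (a (c (e m))) = b (a m) := h5
      rw [← h6, show e m = 0 from hm, map_zero, map_zero, map_zero]
    rw [h3, h4]; simp

/-- The main relation: elements of `𝔢(e)c` commute with `abc`. -/
theorem S_zero {a b c α : Module.End k M} (h : NP G a b) (hne : a * b - b * a ≠ 0)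
    (hc : c ∈ AAd G) (hip : IP (a * b - b * a) c) (hα : α ∈ EE G (a * b - b * a)) :
    a * (b * (c * α)) = α * (c * (a * b)) := by
  have he := h.e_mem hne
  have hrel := NP.rel h hne hip
  have hq : ∀ α ∈ EE G (a * b - b * a), α * (c * (a * b - b * a)) = α := fun α hα =>
    mul_q hip (ker_le_of_EE hα)
  have hS : ∀ α ∈ EE G (a * b - b * a),
      a * (b * (c * α)) - α * (c * (a * b)) ∈ EE G (a * b - b * a) := by
    intro α hα
    have h1 := sub_mem_EE he (T_mem h hne hc hip hα) hα
    have h2 : a * (b * (c * α)) - α * (c * (b * a)) - α =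
        a * (b * (c * α)) - α * (c * (a * b)) := by
      nth_rw 3 [← hq α hα]
      rw [mul_sub, mul_sub]; abel
    rwa [h2] at h1
  have r1' : ∀ z, a * (b * (c * (a * (b * z)))) = a * (b * z) := fun z => by
    have := congrArg (fun x => x * z) hrel.r1
    simp only [mul_assoc] at this
    exact this
  have h1 := hS α hα
  have h2 := hS _ h1
  have e1 : a * (b * (c * (a * (b * (c * α)) - α * (c * (a * b))))) -
      (a * (b * (c * α)) - α * (c * (a * b))) * (c * (a * b)) =
      a * (b * (c * α)) - (2 : k) • (a * (b * (c * (α * (c * (a * b)))))) + α * (c * (a * b)) := by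
    simp only [mul_sub, sub_mul, mul_assoc, r1', hrel.r1]
    module
  rw [e1] at h2
  have half : ∀ z, (2 : k) • z ∈ EE G (a * b - b * a) → z ∈ EE G (a * b - b * a) := by
    intro z hz
    have := smul_mem_EE he hz (2 : k)⁻¹
    rwa [smul_smul, inv_mul_cancel₀ Good.two, one_smul] at this
  have hu : a * (b * (c * α)) - a * (b * (c * (α * (c * (a * b))))) ∈ EE G (a * b - b * a) := by
    apply half
    have := add_mem_EE he h2 h1
    convert this using 1
    module
  have hv : α * (c * (a * b)) - a * (b * (c * (α * (c * (a * b))))) ∈ EE G (a * b - b * a) := by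
    apply half
    have := sub_mem_EE he h2 h1
    convert this using 1
    module
  have hu0 := eq_zero_of_sandwich he hip hu (by
    simp only [mul_sub, sub_mul, mul_assoc, r1', hrel.r1]
    abel)
  have hv0 := eq_zero_of_sandwich he hip hv (by
    simp only [mul_sub, sub_mul, mul_assoc, r1', hrel.r1]
    abel)
  rw [sub_eq_zero] at hu0 hv0
  rw [hu0, ← hv0]

end H86.Quad12
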