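import Cfsg.Agent.Lib.H86.Quad12

/-!
Quadratic pairs: the surjectivity `[a, 𝔢(b)] = 𝔢([a,b])` for non-commuting nilpotent pairs.
-/

set_option autoImplicit false
set_option linter.unusedSimpArgs false
set_option linter.unusedVariables false
set_option linter.style.haveILetI false
set_option linter.unusedSectionVars false
open H86.Quad1 H86.FinSL H86.Quad2 H86.Quad3 H86.Quad4 H86.Quad5 H86.Quad6 H86.Quad7 H86.Quad8
open H86.Quad9 H86.Quad10 H86.Quad11 H86.Quad12 H86.Unip Polynomial

namespace H86.Quad13

universe u v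

variable {k : Type u} [Field k] [Good k] {M : Type v} [AddCommGroup M] [Module k M]
  [FiniteDimensional k M]
variable {G : Subgroup (LinearMap.GeneralLinearGroup k M)}

theorem T_eq {a b c α : Module.End k M} (h : NP G a b) (hne : a * b - b * a ≠ 0)
    (hc : c ∈ AAd G) (hip : IP (a * b - b * a) c) (hα : α ∈ EE G (a * b - b * a)) :
    a * (b * (c * α)) - α * (c * (b * a)) = α := by
  have hq : α * (c * (a * b - b * a)) = α := mul_q hip (ker_le_of_EE hα)
  rw [S_zero h hne hc hip hα, ← mul_sub, ← mul_sub, hq]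

theorem T_eq' {a b c α : Module.End k M} (h : NP G a b) (hne : a * b - b * a ≠ 0)
    (hc : c ∈ AAd G) (hip : IP (a * b - b * a) c) (hα : α ∈ EE G (a * b - b * a)) :
    α * (c * (a * b)) - b * (a * (c * α)) = α := by
  have hp : (a * b - b * a) * (c * α) = α := p_mul hip (range_le_of_EE hα)
  rw [sub_mul, mul_assoc, mul_assoc, S_zero h hne hc hip hα] at hp
  exact hp

theorem T_comm {a b c α : Module.End k M} (h : NP G a b) (hne : a * b - b * a ≠ 0)
    (hc : c ∈ AAd G) (hip : IP (a * b - b * a) c) (hα : α ∈ EE G (a * b - b * a)) :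
    b * (a * (c * α)) = α * (c * (b * a)) := by
  have h1 := T_eq h hne hc hip hα
  have h2 := T_eq' h hne hc hip hα
  rw [S_zero h hne hc hip hα] at h1
  rw [← h2] at h1
  have h3 : α * (c * (a * b)) - α * (c * (b * a)) = α * (c * (a * b)) - b * (a * (c * α)) := by
    rw [h2]; rw [h2] at h1; exact h1
  exact (sub_right_injective h3).symm

/-- Surjectivity in the normalised case. -/
theorem surj0 {a b c : Module.End k M} (h : NP G a b) (hne : a * b - b * a ≠ 0)
    (hc : c ∈ AAd G) (hip : IP (a * b - b * a) c)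
    (hχ : (a * b - b * a) * (c * (b * (c * (a * b - b * a)))) = 0)
    {α : Module.End k M} (hα : α ∈ EE G (a * b - b * a)) :
    ∃ b' ∈ EE G b, a * b' - b' * a = α := by
  by_cases hα0 : α = 0
  · exact ⟨0, zero_mem_EE, by rw [hα0]; simp⟩
  have he := h.e_mem hne
  obtain ⟨α', htwo, g, hg, hg1, hg2⟩ := tor_data he hc hip hα hα0
  have hsa := NP.sh_a h hne hip
  have hsb := NP.sh_b h hne hip
  have hrel := NP.rel h hne hip
  have hT := T_eq h hne hc hip hα
  have hTc := T_comm h hne hc hip hα
  have hS := S_zero h hne hc hip hα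
  have hinfo := h.info hne
  have haker := fun m => h.symm.a_ker (NP.swap hne) (m := m)
  rw [← neg_sub (a * b) (b * a), LinearMap.ker_neg, LinearMap.range_neg] at haker
  set e := a * b - b * a with hedef
  have hB := conj_mem_AAd h.hb hg
  rw [hg1, hg2, htwo.conj_formula hsb] at hB
  -- simplify `B`
  have hpbc : e * (c * (b * c)) = 0 := by
    rw [← htwo.cec]
    have := congrArg (fun z => z * c) hχ
    simp only [mul_assoc, zero_mul] at this
    simp only [mul_assoc, htwo.cec] at this ⊢
    exact this
  have hacbc : α * (c * (b * c)) = 0 := by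
    have : α * (c * (b * c)) = α * (c * (e * (c * (b * c)))) := by
      conv_lhs => rw [← htwo.ace]
      simp only [mul_assoc]
    rw [this, hpbc, mul_zero, mul_zero]
  have hBeq : b * (c * α) - e * (c * (b * (c * α))) + α * (c * b) - α * (c * (b * (c * e))) +
        α * (c * (b * (c * α))) = b * (c * α) + α * (c * b) := by
    have e1 : e * (c * (b * (c * α))) = 0 := by
      have := congrArg (fun z => z * α) hpbc
      simpa only [mul_assoc, zero_mul] using this
    have e2 : α * (c * (b * (c * e))) = 0 := by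
      have := congrArg (fun z => z * e) hacbc
      simpa only [mul_assoc, zero_mul] using this
    have e3 : α * (c * (b * (c * α))) = 0 := by
      have := congrArg (fun z => z * α) hacbc
      simpa only [mul_assoc, zero_mul] using this
    rw [e1, e2, e3]; simp
  rw [hBeq] at hB
  have hαa : α * a = 0 := by
    rw [← htwo.ace, mul_assoc, mul_assoc, hsa.ex, mul_zero, mul_zero]
  have haα : a * α = 0 := by
    rw [← htwo.eca, ← mul_assoc, hsa.xe, zero_mul]
  have hrea : LinearMap.range e ≤ LinearMap.ker a := (mul_eq_zero_iff a e).1 hsa.xe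
  refine ⟨b * (c * α) + α * (c * b), ?_, ?_⟩
  · apply mem_EE_of_le h.hb hB.1
    · rintro _ ⟨m, rfl⟩
      rw [LinearMap.add_apply]
      refine Submodule.add_mem _ ⟨_, rfl⟩ ?_
      -- `e c b m ∈ range (b a)`
      have h1 : (m - c (e m)) ∈ LinearMap.ker e := by
        show e (m - c (e m)) = 0
        rw [map_sub, hip.aba_app, sub_self]
      have h2 := haker _ h1
      have h3 : b (m - c (e m)) ∈ LinearMap.range (b * a) := by
        rw [hinfo.2.2.2.1]
        exact ⟨⟨_, rfl⟩, hrea h2⟩
      obtain ⟨y, hy⟩ := h3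
      have h4 : e (c (b m)) = b (a y) := by
        have h5 : e (c (b (m - c (e m)))) = b (m - c (e m)) := hip.ab_range h2
        have h6 : e (c (b (c (e m)))) = 0 := congrArg (fun f : Module.End k M => f m) hχ
        rw [map_sub, map_sub, map_sub, h6, sub_zero] at h5
        rw [h5, ← map_sub]; exact hy.symm
      have h5 : (α * (c * b)) m = b (a (c (α y))) := by
        have h6 := congrArg (fun f : Module.End k M => f (b m)) (congrArg (fun z => z * c) htwo.ace)
        have h7 : α (c (e (c (b m)))) = α (c (b m)) := h6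
        have h8 : b (a (c (α y))) = α (c (b (a y))) :=
          congrArg (fun f : Module.End k M => f y) hTc
        rw [h8, ← h4, h7]; rfl
      rw [h5]
      exact ⟨_, rfl⟩
    · intro m hm
      have hbm : b m = 0 := hm
      show b (c (α m)) + α (c (b m)) = 0
      rw [hbm, map_zero, map_zero, add_zero]
      have h1 : a (b (c (α m))) = 0 := by
        have : a (b (c (α m))) = α (c (a (b m))) := congrArg (fun f : Module.End k M => f m) hS
        rw [this, hbm]; simp
      have h2 : b (c (α m)) ∈ LinearMap.range e := by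
        rw [hinfo.2.2.2.2.1]
        apply Submodule.mem_sup_right
        rw [hinfo.2.2.2.1]
        exact ⟨⟨_, rfl⟩, h1⟩
      have h3 := hip.ab_range h2
      have h4 : e (c (b (c (α m)))) = 0 :=
        congrArg (fun f : Module.End k M => f (α m)) hpbc
      rw [← h3, h4]
  · have : a * (b * (c * α) + α * (c * b)) - (b * (c * α) + α * (c * b)) * a =
        a * (b * (c * α)) - α * (c * (b * a)) := by
      simp only [mul_add, add_mul, mul_assoc, hαa, reassoc haα, mul_zero, zero_mul, add_zero,
        zero_add]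
    rw [this, hT]

/-- **Surjectivity**: `[a, 𝔢(b)] = 𝔢([a, b])`. -/
theorem surj (hG : Cfsg.IsIrreducibleFor G) {a b : Module.End k M} (h : NP G a b)
    (hne : a * b - b * a ≠ 0) {α : Module.End k M} (hα : α ∈ EE G (a * b - b * a)) :
    ∃ b' ∈ EE G b, a * b' - b' * a = α := by
  have he := h.e_mem hne
  obtain ⟨g₀, hg₀, hopp⟩ := exists_opp hG he
  obtain ⟨c, hcE, hc0, hip⟩ := exists_ip he (conj_mem_AAd he hg₀) hopp
  have hc := mem_AAd_of_EE (conj_mem_AAd he hg₀) hcE hc0
  have hsa := NP.sh_a h hne hip
  have hsb := NP.sh_b h hne hip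
  -- the component `χ` of `b`
  have hχmem : (a * b - b * a) * (c * (b * (c * (a * b - b * a)))) ∈ EE G (a * b - b * a) := by
    -- conjugate by the involution
    have htwo : Two (a * b - b * a) c (-(a * b - b * a)) (-c) :=
      two_of hip hip.neg (LinearMap.range_neg _) (LinearMap.ker_neg _) (LinearMap.range_neg _)
        (LinearMap.ker_neg _)
    have hg : (nU (-(a * b - b * a)) (-c) * (nU (a * b - b * a) c)⁻¹) ∈ G :=
      mul_mem (nU_mem (neg_mem_AA he.1) (neg_mem_AA hc.1)) (inv_mem (nU_mem he.1 hc.1))
    have hB := conj_mem_AAd h.hb hg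
    rw [htwo.nU_mul hip hip.neg, htwo.nU_mul' hip hip.neg, htwo.conj_formula hsb] at hB
    set e := a * b - b * a with hedef
    have hs := hsb.sh
    have hBeq : b * (c * -e) - e * (c * (b * (c * -e))) + -e * (c * b) - -e * (c * (b * (c * e))) +
        -e * (c * (b * (c * -e))) = -b + (2 : k) • (e * (c * (b * (c * e)))) := by
      have : b = b * (c * e) + e * (c * b) - e * (c * (b * (c * e))) := by
        rw [← sub_eq_zero, ← hs]; abel
      conv_rhs => rw [this]
      simp only [mul_neg, neg_mul, neg_neg]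
      have e1 : ∀ z, e * (c * (e * z)) = e * z := fun z => by
        rw [← mul_assoc c, ← mul_assoc e, htwo.ece]
      simp only [mul_add, add_mul, mul_sub, sub_mul, mul_assoc, e1, htwo.ece]
      module
    rw [hBeq] at hB
    have hx1 : b * (e * (c * (b * (c * e)))) = 0 := by
      rw [← mul_assoc, hsb.xe, zero_mul]
    have hx2 : e * (c * (b * (c * e))) * b = 0 := by
      simp only [mul_assoc, hsb.ex, mul_zero]
    have hsum : (2 : k) • (e * (c * (b * (c * e)))) ∈ AA G := by
      have h1 := add_mem_AA h.hb.1 hB.1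
        (by rw [mul_add, mul_neg, h.hb.1.1, mul_smul_comm, hx1]; simp)
        (by rw [add_mul, neg_mul, h.hb.1.1, smul_mul_assoc, hx2]; simp)
      rwa [← add_assoc, add_neg_cancel, zero_add] at h1
    have h1 : e * (c * (b * (c * e))) ∈ AA G := by
      have := smul_mem_AA hsum (2 : k)⁻¹
      rwa [smul_smul, inv_mul_cancel₀ Good.two, one_smul] at this
    apply mem_EE_of_le he h1
    · rintro _ ⟨m, rfl⟩; exact ⟨_, rfl⟩
    · intro m hm
      show e (c (b (c (e m)))) = 0
      rw [show e m = 0 from hm]; simp
  by_cases hχ0 : (a * b - b * a) * (c * (b * (c * (a * b - b * a)))) = 0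
  · exact surj0 h hne hc hip hχ0 hα
  -- conjugate `c`
  obtain ⟨χ', htwo, g, hg, hg1, hg2⟩ := tor_data he hc hip hχmem hχ0
  have hY := conj_mem_AAd h.ha hg
  rw [hg1, hg2, htwo.conj_formula hsa] at hY
  have hsY := sh_conj htwo hsa
  have hT' := T_eq' h hne hc hip hχmem
  set e := a * b - b * a with hedef
  set χ := e * (c * (b * (c * e))) with hχdef
  set y := a * (c * χ) - e * (c * (a * (c * χ))) + χ * (c * a) - χ * (c * (a * (c * e))) +
        χ * (c * (a * (c * χ))) with hydef
  have hyb : y * b - b * y = χ := by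
    have hχb : χ * b = 0 := by
      rw [← htwo.ace]; simp only [mul_assoc, hsb.ex, mul_zero]
    have hbχ : b * χ = 0 := by
      rw [← htwo.eca, ← mul_assoc, hsb.xe, zero_mul]
    have : y * b - b * y = χ * (c * (a * b)) - b * (a * (c * χ)) := by
      rw [hydef]
      simp only [mul_add, add_mul, mul_sub, sub_mul, mul_assoc, mul_zero, zero_mul, hχb, hbχ,
        reassoc hbχ, hsb.ex, reassoc hsb.xe, sub_zero, add_zero, zero_add]
      try abel
    rw [this, hT']
  have hyby : y * (b * y) = 0 := hsY.mul3 hsb hsY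
  have hgy : (tv y : LinearMap.GeneralLinearGroup k M) ∈ G := AA_mem hY.1
  have hyy : y * y = 0 := hY.1.1
  -- the conjugate of `e` by `tv y` is `e`
  have hey : ((tv y : (Module.End k M)ˣ) : Module.End k M) * e *
      (((tv y)⁻¹ : (Module.End k M)ˣ) : Module.End k M) = e := by
    rw [val_tv hyy, val_inv_tv hyy]
    simp only [mul_add, add_mul, mul_sub, sub_mul, mul_one, one_mul, hsY.ex, hsY.xe, mul_assoc]
    simp
  set c' := ((tv y : (Module.End k M)ˣ) : Module.End k M) * c *
      (((tv y)⁻¹ : (Module.End k M)ˣ) : Module.End k M) with hc'def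
  have hc' : c' ∈ AAd G := conj_mem_AAd hc hgy
  have hinv : (((tv y)⁻¹ : (Module.End k M)ˣ) : Module.End k M) *
      ((tv y : (Module.End k M)ˣ) : Module.End k M) = 1 := Units.inv_mul _
  have hip' : IP e c' := by
    refine ⟨hip.a2, hc'.1.1, ?_, ?_⟩
    · have h1 : (((tv y : (Module.End k M)ˣ) : Module.End k M) * e *
          (((tv y)⁻¹ : (Module.End k M)ˣ) : Module.End k M)) * c' *
          (((tv y : (Module.End k M)ˣ) : Module.End k M) * e *
          (((tv y)⁻¹ : (Module.End k M)ˣ) : Module.End k M)) =
          ((tv y : (Module.End k M)ˣ) : Module.End k M) * (e * c * e) *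
          (((tv y)⁻¹ : (Module.End k M)ˣ) : Module.End k M) := by
        rw [hc'def]
        simp only [mul_assoc, reassoc hinv, one_mul]
      rw [hey, hip.aba, hey] at h1
      exact h1
    · have h1 : c' * (((tv y : (Module.End k M)ˣ) : Module.End k M) * e *
          (((tv y)⁻¹ : (Module.End k M)ˣ) : Module.End k M)) * c' =
          ((tv y : (Module.End k M)ˣ) : Module.End k M) * (c * e * c) *
          (((tv y)⁻¹ : (Module.End k M)ˣ) : Module.End k M) := by
        rw [hc'def]
        simp only [mul_assoc, reassoc hinv, one_mul]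
      rw [hey, hip.bab] at h1
      exact h1
  refine surj0 h hne hc' hip' ?_ hα
  -- `e c' b c' e = 0`
  have hb' : (((tv y)⁻¹ : (Module.End k M)ˣ) : Module.End k M) * b *
      ((tv y : (Module.End k M)ˣ) : Module.End k M) = b - χ := by
    rw [val_tv hyy, val_inv_tv hyy, ← hyb]
    simp only [mul_add, add_mul, mul_sub, sub_mul, mul_one, one_mul, mul_assoc, hyby]
    abel
  have h1 : e * (c' * (b * (c' * e))) = ((tv y : (Module.End k M)ˣ) : Module.End k M) *
      (e * (c * (((((tv y)⁻¹ : (Module.End k M)ˣ) : Module.End k M) * b *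
      ((tv y : (Module.End k M)ˣ) : Module.End k M)) * (c * e)))) *
      (((tv y)⁻¹ : (Module.End k M)ˣ) : Module.End k M) := by
    have h2 : e * (c' * (b * (c' * e))) = (((tv y : (Module.End k M)ˣ) : Module.End k M) * e *
      (((tv y)⁻¹ : (Module.End k M)ˣ) : Module.End k M)) * (c' * (b * (c' *
      (((tv y : (Module.End k M)ˣ) : Module.End k M) * e *
      (((tv y)⁻¹ : (Module.End k M)ˣ) : Module.End k M))))) := by rw [hey]
    rw [h2, hc'def]
    simp only [mul_assoc, reassoc hinv, one_mul]
  rw [h1, hb']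
  have h2 : e * (c * ((b - χ) * (c * e))) = 0 := by
    have e1 : ∀ z, e * (c * (e * z)) = e * z := fun z => by
      rw [← mul_assoc c, ← mul_assoc e, htwo.ece]
    rw [sub_mul b χ (c * e), mul_sub c (b * (c * e)) (χ * (c * e)),
      mul_sub e (c * (b * (c * e))) (c * (χ * (c * e))), hχdef]
    simp only [mul_assoc, e1, htwo.ece]
    exact sub_self _
  rw [h2, mul_zero, zero_mul]

end H86.Quad13
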