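import Cfsg.Agent.Lib.H86.Quad13

/-!
Quadratic pairs: group-level statements about commutators `⁅E, F⁆` of members of `Σ`.
-/

set_option autoImplicit false
set_option linter.unusedSimpArgs false
set_option linter.unusedVariables false
set_option linter.style.haveILetI false
set_option linter.unusedSectionVars false
open H86.Quad1 H86.FinSL H86.Quad2 H86.Quad3 H86.Quad4 H86.Quad5 H86.Quad6 H86.Quad7 H86.Quad8
open H86.Quad9 H86.Quad10 H86.Quad11 H86.Quad12 H86.Quad13 H86.Unip Polynomial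
open scoped commutatorElement

namespace H86.Quad14

universe u v

section grp
variable {X : Type*} [Group X]

/-- elements centralizing `D` whose commutator with `y` lies in `D` -/
def cs (D : Subgroup X) (y : X) : Subgroup X where
  carrier := {x | (∀ d ∈ D, x * d = d * x) ∧ x * y * x⁻¹ * y⁻¹ ∈ D}
  one_mem' := ⟨fun d _ => by simp, by simp⟩
  mul_mem' := by
    rintro a b ⟨ha, ha'⟩ ⟨hb, hb'⟩
    refine ⟨fun d hd => by rw [mul_assoc, hb d hd, ← mul_assoc, ha d hd, mul_assoc], ?_⟩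
    have e : a * b * y * (a * b)⁻¹ * y⁻¹ = (a * (b * y * b⁻¹ * y⁻¹) * a⁻¹) * (a * y * a⁻¹ * y⁻¹) := by
      group
    rw [e, ha _ hb', mul_inv_cancel_right]
    exact mul_mem hb' ha'
  inv_mem' := by
    rintro a ⟨ha, ha'⟩
    refine ⟨fun d hd => by rw [inv_mul_eq_iff_eq_mul, ← mul_assoc, ha d hd, mul_inv_cancel_right], ?_⟩
    have e : a⁻¹ * y * a⁻¹⁻¹ * y⁻¹ = a⁻¹ * ((a * y * a⁻¹ * y⁻¹)⁻¹ * a) := by group
    rw [e, ← ha _ (inv_mem ha'), inv_mul_cancel_left]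
    exact inv_mem ha'

theorem comm_sup_le {E F D : Subgroup X}
    (hEE : ∀ x ∈ E, ∀ y ∈ E, x * y * x⁻¹ * y⁻¹ ∈ D)
    (hEF : ∀ x ∈ E, ∀ y ∈ F, x * y * x⁻¹ * y⁻¹ ∈ D)
    (hFF : ∀ x ∈ F, ∀ y ∈ F, x * y * x⁻¹ * y⁻¹ ∈ D)
    (hE : ∀ x ∈ E, ∀ d ∈ D, x * d = d * x) (hF : ∀ x ∈ F, ∀ d ∈ D, x * d = d * x) :
    ⁅E ⊔ F, E ⊔ F⁆ ≤ D ∧ ∀ x ∈ E ⊔ F, ∀ d ∈ D, x * d = d * x := by
  have hFE : ∀ x ∈ F, ∀ y ∈ E, x * y * x⁻¹ * y⁻¹ ∈ D := by
    intro x hx y hy
    have e : x * y * x⁻¹ * y⁻¹ = (y * x * y⁻¹ * x⁻¹)⁻¹ := by group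
    rw [e]; exact inv_mem (hEF y hy x hx)
  have h1 : ∀ y ∈ E, E ⊔ F ≤ cs D y := fun y hy =>
    sup_le (fun x hx => ⟨hE x hx, hEE x hx y hy⟩) (fun x hx => ⟨hF x hx, hFE x hx y hy⟩)
  have h2 : ∀ y ∈ F, E ⊔ F ≤ cs D y := fun y hy =>
    sup_le (fun x hx => ⟨hE x hx, hEF x hx y hy⟩) (fun x hx => ⟨hF x hx, hFF x hx y hy⟩)
  have h3 : ∀ x ∈ E ⊔ F, E ⊔ F ≤ cs D x := by
    intro x hx
    apply sup_le
    · intro y hy
      refine ⟨hE y hy, ?_⟩
      have e : y * x * y⁻¹ * x⁻¹ = (x * y * x⁻¹ * y⁻¹)⁻¹ := by group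
      rw [e]; exact inv_mem (h1 y hy hx).2
    · intro y hy
      refine ⟨hF y hy, ?_⟩
      have e : y * x * y⁻¹ * x⁻¹ = (x * y * x⁻¹ * y⁻¹)⁻¹ := by group
      rw [e]; exact inv_mem (h2 y hy hx).2
  refine ⟨?_, ?_⟩
  · rw [Subgroup.commutator_le]
    intro x hx y hy
    rw [commutatorElement_def]
    exact (h3 y hy hx).2
  · intro x hx
    exact (h3 1 (one_mem _) hx).1

end grp

section main
variable {k : Type u} [Field k] [Good k] {M : Type v} [AddCommGroup M] [Module k M]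
  [FiniteDimensional k M]
variable {G : Subgroup (LinearMap.GeneralLinearGroup k M)}

/-- the commutator of two elements in a nilpotent pair of root groups -/
theorem comm_elem {a b x y : Module.End k M} (h : NP G a b) (hx : x ∈ EE G a) (hy : y ∈ EE G b) :
    (tv x : LinearMap.GeneralLinearGroup k M) * tv y * (tv x)⁻¹ * (tv y)⁻¹ =
      tv (x * y - y * x) ∧ (x * y - y * x) * (x * y - y * x) = 0 := by
  have h1 := comm_tv hx.1.1 hy.1.1 (np_aba h hx hx hy) (np_aba h.symm hy hy hx)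
  exact ⟨h1.2, h1.1⟩

theorem closure_left (hG : Cfsg.IsIrreducibleFor G) {a b x : Module.End k M} (h : NP G a b)
    (hne : a * b - b * a ≠ 0) (hx : x ∈ EE G a) (hx0 : x ≠ 0) :
    Subgroup.closure ((fun f : LinearMap.GeneralLinearGroup k M => tv x * f * (tv x)⁻¹ * f⁻¹) ''
      (Esub G b h.hb : Set (LinearMap.GeneralLinearGroup k M))) = Esub G _ (h.e_mem hne) := by
  apply le_antisymm
  · rw [Subgroup.closure_le]
    rintro _ ⟨_, ⟨y, hy, rfl⟩, rfl⟩
    refine ⟨x * y - y * x, h.comm_EE hne hx hy, ?_⟩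
    exact (comm_elem h hx hy).1
  · rintro _ ⟨δ, hδ, rfl⟩
    have hx' := h.ofEE hx hx0 (self_mem_EE h.hb.1) h.hb.2.1
    have hne' : x * b - b * x ≠ 0 := h.comm_ne hne hx hx0 (self_mem_EE h.hb.1) h.hb.2.1
    have hEE : EE G (x * b - b * x) = EE G (a * b - b * a) :=
      EE_self (h.comm_EE hne hx (self_mem_EE h.hb.1)) hne'
    obtain ⟨y, hy, hxy⟩ := surj hG hx' hne' (α := δ) (by rw [hEE]; exact hδ)
    refine Subgroup.subset_closure ⟨tv y, ⟨y, hy, rfl⟩, ?_⟩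
    show tv x * tv y * (tv x)⁻¹ * (tv y)⁻¹ = _
    rw [(comm_elem h hx hy).1, hxy]

theorem closure_right (hG : Cfsg.IsIrreducibleFor G) {a b y : Module.End k M} (h : NP G a b)
    (hne : a * b - b * a ≠ 0) (hy : y ∈ EE G b) (hy0 : y ≠ 0) :
    Subgroup.closure ((fun f : LinearMap.GeneralLinearGroup k M => f * tv y * f⁻¹ * (tv y)⁻¹) ''
      (Esub G a h.ha : Set (LinearMap.GeneralLinearGroup k M))) = Esub G _ (h.e_mem hne) := by
  apply le_antisymm
  · rw [Subgroup.closure_le]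
    rintro _ ⟨_, ⟨x, hx, rfl⟩, rfl⟩
    refine ⟨x * y - y * x, h.comm_EE hne hx hy, ?_⟩
    exact (comm_elem h hx hy).1
  · rintro _ ⟨δ, hδ, rfl⟩
    have hy' := h.symm.ofEE hy hy0 (self_mem_EE h.ha.1) h.ha.2.1
    have hne' : y * a - a * y ≠ 0 :=
      h.symm.comm_ne (NP.swap hne) hy hy0 (self_mem_EE h.ha.1) h.ha.2.1
    have hEE : EE G (y * a - a * y) = EE G (a * b - b * a) := by
      rw [EE_self (h.symm.comm_EE (NP.swap hne) hy (self_mem_EE h.ha.1)) hne',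
        ← neg_sub (a * b) (b * a), neg_EE_eq (h.e_mem hne)]
    obtain ⟨x, hx, hxy⟩ := surj hG hy' hne' (α := -δ) (by
      rw [hEE]; exact neg_mem_EE (h.e_mem hne) hδ)
    refine Subgroup.subset_closure ⟨tv x, ⟨x, hx, rfl⟩, ?_⟩
    show tv x * tv y * (tv x)⁻¹ * (tv y)⁻¹ = _
    rw [(comm_elem h hx hy).1, ← neg_sub, hxy, neg_neg]

theorem commutator_eq (hG : Cfsg.IsIrreducibleFor G) {a b : Module.End k M} (h : NP G a b)
    (hne : a * b - b * a ≠ 0) : ⁅Esub G a h.ha, Esub G b h.hb⁆ = Esub G _ (h.e_mem hne) := by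
  apply le_antisymm
  · rw [Subgroup.commutator_le]
    rintro _ ⟨x, hx, rfl⟩ _ ⟨y, hy, rfl⟩
    rw [commutatorElement_def, (comm_elem h hx hy).1]
    exact ⟨_, h.comm_EE hne hx hy, rfl⟩
  · rw [← closure_left hG h hne (self_mem_EE h.ha.1) h.ha.2.1, Subgroup.closure_le]
    rintro _ ⟨f, hf, rfl⟩
    show tv a * f * (tv a)⁻¹ * f⁻¹ ∈ _
    rw [← commutatorElement_def]
    exact Subgroup.commutator_mem_commutator ⟨a, self_mem_EE h.ha.1, rfl⟩ hf

theorem commutator_eq_bot {a b : Module.End k M} (h : NP G a b)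
    (hc : a * b = b * a) : ⁅Esub G a h.ha, Esub G b h.hb⁆ = ⊥ := by
  rw [eq_bot_iff, Subgroup.commutator_le]
  rintro _ ⟨x, hx, rfl⟩ _ ⟨y, hy, rfl⟩
  rw [commutatorElement_def, (comm_elem h hx hy).1, Subgroup.mem_bot, h.all_comm hc hx hy, sub_self,
    tv_zero]

/-- `U(D)` as a subgroup. -/
def core (G : Subgroup (LinearMap.GeneralLinearGroup k M)) (e : Module.End k M) (he : e ∈ AAd G) :
    Subgroup (LinearMap.GeneralLinearGroup k M) where
  carrier := {g | (g ∈ G ∧ g ∈ Subgroup.normalizer (Esub G e he : Set _)) ∧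
    (∀ m : M, (g : M →ₗ[k] M) m - m ∈ LinearMap.ker e) ∧
    (∀ m ∈ LinearMap.ker e, (g : M →ₗ[k] M) m - m ∈ LinearMap.range e) ∧
    (∀ m ∈ LinearMap.range e, (g : M →ₗ[k] M) m = m)}
  one_mem' := by
    refine ⟨⟨one_mem _, one_mem _⟩, fun m => ?_, fun m _ => ?_, fun m _ => rfl⟩
    · show m - m ∈ _; simp
    · show m - m ∈ _; simp
  mul_mem' := by
    rintro g h ⟨⟨g1, g2⟩, g3, g4, g5⟩ ⟨⟨h1, h2⟩, h3, h4, h5⟩
    have e1 : ∀ m, ((g * h : LinearMap.GeneralLinearGroup k M) : M →ₗ[k] M) m =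
        (g : M →ₗ[k] M) ((h : M →ₗ[k] M) m) := fun m => rfl
    refine ⟨⟨mul_mem g1 h1, mul_mem g2 h2⟩, fun m => ?_, fun m hm => ?_, fun m hm => ?_⟩
    · rw [e1]
      have : (g : M →ₗ[k] M) ((h : M →ₗ[k] M) m) - m =
        ((g : M →ₗ[k] M) ((h : M →ₗ[k] M) m) - (h : M →ₗ[k] M) m) + ((h : M →ₗ[k] M) m - m) := by
        abel
      rw [this]; exact Submodule.add_mem _ (g3 _) (h3 _)
    · rw [e1]
      have h6 := h4 m hm
      have : (g : M →ₗ[k] M) ((h : M →ₗ[k] M) m) - m =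
        ((g : M →ₗ[k] M) m - m) + ((h : M →ₗ[k] M) m - m) := by
        have h7 := g5 _ h6
        rw [map_sub, sub_eq_iff_eq_add] at h7
        rw [h7]; abel
      rw [this]; exact Submodule.add_mem _ (g4 m hm) h6
    · rw [e1, h5 m hm, g5 m hm]
  inv_mem' := by
    rintro g ⟨⟨g1, g2⟩, g3, g4, g5⟩
    have i5 : ∀ m ∈ LinearMap.range e,
        ((g⁻¹ : LinearMap.GeneralLinearGroup k M) : M →ₗ[k] M) m = m := by
      intro m hm
      have h1 := inv_app g m
      rw [show (g : Module.End k M) m = m from g5 m hm] at h1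
      exact h1
    have key : ∀ m, ((g⁻¹ : LinearMap.GeneralLinearGroup k M) : M →ₗ[k] M) m - m =
        -(((g⁻¹ : LinearMap.GeneralLinearGroup k M) : M →ₗ[k] M) ((g : M →ₗ[k] M) m - m)) := by
      intro m
      rw [map_sub]
      have h1 : ((g⁻¹ : LinearMap.GeneralLinearGroup k M) : M →ₗ[k] M) ((g : M →ₗ[k] M) m) = m :=
        inv_app g m
      rw [h1]; abel
    have i4 : ∀ m ∈ LinearMap.ker e,
        ((g⁻¹ : LinearMap.GeneralLinearGroup k M) : M →ₗ[k] M) m - m ∈ LinearMap.range e := by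
      intro m hm
      rw [key, i5 _ (g4 m hm)]
      exact Submodule.neg_mem _ (g4 m hm)
    refine ⟨⟨inv_mem g1, inv_mem g2⟩, fun m => ?_, i4, i5⟩
    rw [key]
    apply Submodule.neg_mem
    have h1 := i4 _ (g3 m)
    have h2 := Submodule.add_mem _ (range_le_ker he.1.1 h1) (g3 m)
    rwa [sub_add_cancel] at h2

theorem core_eq (e : Module.End k M) (he : e ∈ AAd G) :
    (core G e he : Set (LinearMap.GeneralLinearGroup k M)) =
      Cfsg.quadraticUnipotentCore G (Esub G e he) := by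
  ext g
  unfold Cfsg.quadraticUnipotentCore
  rw [fixed_Esub, commutator_Esub]
  constructor
  · rintro ⟨⟨h1, h2⟩, h3, h4, h5⟩
    exact ⟨h1, h2, h3, h4, h5⟩
  · rintro ⟨h1, h2, h3, h4, h5⟩
    exact ⟨⟨h1, h2⟩, h3, h4, h5⟩

theorem mul_EE_comm {a b x δ : Module.End k M} (h : NP G a b)
    (hne : a * b - b * a ≠ 0) (hx : x ∈ EE G a) (hδ : δ ∈ EE G (a * b - b * a)) :
    x * δ = 0 ∧ δ * x = 0 := by
  constructor
  · rw [mul_eq_zero_iff]
    exact (range_le_of_EE hδ).trans (((mul_eq_zero_iff a _).1 h.ae).trans (ker_le_of_EE hx))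
  · rw [mul_eq_zero_iff]
    exact (range_le_of_EE hx).trans (((mul_eq_zero_iff _ a).1 h.ea).trans (ker_le_of_EE hδ))

theorem tv_comm {x δ : Module.End k M} (hx : x * x = 0) (hδ : δ * δ = 0) (h1 : x * δ = 0)
    (h2 : δ * x = 0) : (tv x : LinearMap.GeneralLinearGroup k M) * tv δ = tv δ * tv x := by
  rw [← tv_add hx hδ h1 h2, ← tv_add hδ hx h2 h1, add_comm]

theorem Esub_le_core {a b : Module.End k M} (h : NP G a b)
    (hne : a * b - b * a ≠ 0) : Esub G a h.ha ≤ core G _ (h.e_mem hne) := by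
  rintro _ ⟨x, hx, rfl⟩
  refine ⟨⟨AA_mem hx.1, ?_⟩, ?_, ?_, ?_⟩
  · apply Subgroup.centralizer_le_normalizer
    rw [Subgroup.mem_centralizer_iff]
    rintro _ ⟨δ, hδ, rfl⟩
    obtain ⟨h1, h2⟩ := mul_EE_comm h hne hx hδ
    exact tv_comm hδ.1.1 hx.1.1 h2 h1
  · intro m
    rw [tv_app hx.1.1, add_sub_cancel_left]
    exact (mul_eq_zero_iff _ a).1 h.ea (range_le_of_EE hx ⟨m, rfl⟩)
  · intro m hm
    rw [tv_app hx.1.1, add_sub_cancel_left]
    by_cases hx0 : x = 0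
    · rw [hx0]; simp
    have h' := h.ofEE hx hx0 (self_mem_EE h.hb.1) h.hb.2.1
    have hne' : x * b - b * x ≠ 0 := h.comm_ne hne hx hx0 (self_mem_EE h.hb.1) h.hb.2.1
    have hE := h.comm_EE hne hx (self_mem_EE h.hb.1)
    rw [← EE_range hE hne']
    apply h'.a_ker hne'
    rw [EE_ker hE hne']; exact hm
  · intro m hm
    rw [tv_app hx.1.1]
    have : x m = 0 := by
      have h1 : m ∈ LinearMap.ker a := (mul_eq_zero_iff a _).1 h.ae hm
      exact ker_le_of_EE hx h1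
    rw [this, add_zero]

theorem sup_le_core {a b : Module.End k M} (h : NP G a b)
    (hne : a * b - b * a ≠ 0) : Esub G a h.ha ⊔ Esub G b h.hb ≤ core G _ (h.e_mem hne) := by
  apply sup_le (Esub_le_core h hne)
  have h1 := Esub_le_core h.symm (NP.swap hne)
  have hneg : EE G (b * a - a * b) = EE G (a * b - b * a) := by
    rw [← neg_sub (a * b) (b * a), neg_EE_eq (h.e_mem hne)]
  intro g hg
  have h2 := h1 hg
  have h3 : (core G _ (h.symm.e_mem (NP.swap hne)) : Set (LinearMap.GeneralLinearGroup k M)) =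
      core G _ (h.e_mem hne) := by
    rw [core_eq, core_eq, Esub_congr (h.symm.e_mem (NP.swap hne)) (h.e_mem hne) hneg]
  have h4 : g ∈ (core G _ (h.symm.e_mem (NP.swap hne)) : Set (LinearMap.GeneralLinearGroup k M)) := h2
  rw [h3] at h4
  exact h4

theorem Esub_ne_bot {a : Module.End k M} (ha : a ∈ AAd G) : Esub G a ha ≠ ⊥ := by
  intro h
  have h1 : (tv a : LinearMap.GeneralLinearGroup k M) ∈ Esub G a ha := ⟨a, self_mem_EE ha.1, rfl⟩
  rw [h, Subgroup.mem_bot] at h1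
  exact tv_ne_one ha.1.1 ha.2.1 h1

theorem Esub_comm_elem {a : Module.End k M} (ha : a ∈ AAd G) {x y : LinearMap.GeneralLinearGroup k M}
    (hx : x ∈ Esub G a ha) (hy : y ∈ Esub G a ha) : x * y = y * x := by
  have := (Esub_comm ha).is_comm.comm ⟨x, hx⟩ ⟨y, hy⟩
  exact congrArg Subtype.val this

theorem comm_one_of {X : Type*} [Group X] {x y : X} (h : x * y = y * x) : x * y * x⁻¹ * y⁻¹ = 1 := by
  rw [h]; group

theorem class_two {a b : Module.End k M} (hG : Cfsg.IsIrreducibleFor G) (h : NP G a b)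
    (hne : a * b - b * a ≠ 0) :
    ⁅Esub G a h.ha ⊔ Esub G b h.hb, Esub G a h.ha ⊔ Esub G b h.hb⁆ ≠ ⊥ ∧
    ⁅⁅Esub G a h.ha ⊔ Esub G b h.hb, Esub G a h.ha ⊔ Esub G b h.hb⁆,
      Esub G a h.ha ⊔ Esub G b h.hb⁆ = ⊥ := by
  constructor
  · intro h0
    apply Esub_ne_bot (h.e_mem hne)
    rw [← commutator_eq hG h hne, eq_bot_iff, ← h0]
    exact Subgroup.commutator_mono le_sup_left le_sup_right
  · have hneg : EE G (b * a - a * b) = EE G (a * b - b * a) := by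
      rw [← neg_sub (a * b) (b * a), neg_EE_eq (h.e_mem hne)]
    have h1 := comm_sup_le (E := Esub G a h.ha) (F := Esub G b h.hb)
      (D := Esub G _ (h.e_mem hne))
      (fun x hx y hy => by rw [comm_one_of (Esub_comm_elem h.ha hx hy)]; exact one_mem _)
      (fun x hx y hy => by
        rw [← commutator_eq hG h hne, ← commutatorElement_def]
        exact Subgroup.commutator_mem_commutator hx hy)
      (fun x hx y hy => by rw [comm_one_of (Esub_comm_elem h.hb hx hy)]; exact one_mem _)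
      (by
        rintro _ ⟨x, hx, rfl⟩ _ ⟨δ, hδ, rfl⟩
        obtain ⟨h1, h2⟩ := mul_EE_comm h hne hx hδ
        exact tv_comm hx.1.1 hδ.1.1 h1 h2)
      (by
        rintro _ ⟨x, hx, rfl⟩ _ ⟨δ, hδ, rfl⟩
        rw [← hneg] at hδ
        obtain ⟨h1, h2⟩ := mul_EE_comm h.symm (NP.swap hne) hx hδ
        exact tv_comm hx.1.1 hδ.1.1 h1 h2)
    rw [eq_bot_iff, Subgroup.commutator_le]
    intro x hx y hy
    rw [commutatorElement_def, Subgroup.mem_bot]
    exact comm_one_of (h1.2 y hy x (h1.1 hx)).symm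

theorem np_of_unip {a b : Module.End k M} (ha : a ∈ AAd G) (hb : b ∈ AAd G)
    (h : Cfsg.IsUnipotentOn (Esub G a ha ⊔ Esub G b hb)) : NP G a b := by
  rw [np_iff ha hb]
  intro ho
  obtain ⟨b', h1, h2, hip⟩ := exists_ip ha hb ho
  -- `n(a)²` is `-1` on `range a`
  have hne : (LinearMap.range a) ≠ ⊥ := by
    intro h0
    exact ha.2.1 (LinearMap.range_eq_bot.1 h0)
  have hT1 : Inv (Esub G a ha ⊔ Esub G b hb) (LinearMap.range a ⊔ LinearMap.range b) := by
    intro g hg w hw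
    have h3 := sub_mem_comm hg w
    rw [commutator_sup, commutator_Esub, commutator_Esub] at h3
    have := Submodule.add_mem _ h3 hw
    rwa [sub_add_cancel] at this
  obtain ⟨v, hv, hv0, hfix⟩ := exists_fix h hT1 (W := ⊥) (by
    intro h0
    exact hne (le_bot_iff.1 (le_sup_left.trans h0)))
  have h3 : v ∈ Cfsg.fixedSubmodule (Esub G a ha ⊔ Esub G b hb) := by
    rw [mem_fixed]; intro g hg
    exact sub_eq_zero.1 ((Submodule.mem_bot k).1 (hfix g hg))
  rw [fixed_sup, fixed_Esub, fixed_Esub, ← EE_ker h1 h2] at h3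
  rw [← EE_range h1 h2] at hv
  exact hv0 ((Submodule.disjoint_def.1 hip.isCompl.disjoint) v h3 hv)

end main

end H86.Quad14
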