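import Mathlib
import Cfsg.Prelude.Def_RootSubgroups

/-!
Unipotent groups of linear maps: `Cfsg.IsUnipotentOn`. Fixed point criterion, normal products,
nilpotency, and the linear Baer–Suzuki theorem.
-/

set_option autoImplicit false
set_option linter.unusedSimpArgs false
set_option linter.unusedVariables false
set_option linter.style.haveILetI false
set_option linter.unusedSectionVars false
open Cfsg

namespace H86.Unip

variable {k : Type*} [Field k] {M : Type*} [AddCommGroup M] [Module k M]

local notation "GLM" => LinearMap.GeneralLinearGroup k M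

/-- The product of the `g - 1`, `g ∈ l`. -/
noncomputable def pr (l : List (LinearMap.GeneralLinearGroup k M)) : M →ₗ[k] M :=
  (l.map (fun g : LinearMap.GeneralLinearGroup k M => (g : M →ₗ[k] M) - 1)).prod

@[simp] theorem pr_nil : pr ([] : List (LinearMap.GeneralLinearGroup k M)) = 1 := rfl

theorem pr_cons (g : LinearMap.GeneralLinearGroup k M) (l : List (LinearMap.GeneralLinearGroup k M)) :
    pr (g :: l) = ((g : M →ₗ[k] M) - 1) * pr l := by
  unfold pr; rw [List.map_cons, List.prod_cons]

theorem pr_concat (g : LinearMap.GeneralLinearGroup k M)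
    (l : List (LinearMap.GeneralLinearGroup k M)) :
    pr (l ++ [g]) = pr l * ((g : M →ₗ[k] M) - 1) := by
  unfold pr; rw [List.map_append, List.prod_append, List.map_singleton, List.prod_singleton]

theorem unip_iff {H : Subgroup (LinearMap.GeneralLinearGroup k M)} :
    IsUnipotentOn H ↔ ∃ n : ℕ, ∀ l : List (LinearMap.GeneralLinearGroup k M),
      (∀ g ∈ l, g ∈ H) → l.length = n → pr l = 0 := by
  unfold IsUnipotentOn
  have e : ∀ l : List (LinearMap.GeneralLinearGroup k M),
      (l.map fun g => (g : M →ₗ[k] M) - 1).prod = pr l := by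
    intro l
    unfold pr
    congr 1
    induction l with
    | nil => rfl
    | cons a l ih =>
      simp only [List.map_cons] at ih ⊢
      rw [← ih]; rfl
  simp only [e]

/-- `W` is stable under `H`. -/
def Inv (H : Subgroup (LinearMap.GeneralLinearGroup k M)) (W : Submodule k M) : Prop :=
  ∀ g ∈ H, ∀ w ∈ W, (g : M →ₗ[k] M) w ∈ W

/-- A unipotent group has fixed vectors in every nonzero subquotient. -/
theorem exists_fix {H : Subgroup (LinearMap.GeneralLinearGroup k M)} (hH : IsUnipotentOn H)
    {V W : Submodule k M} (hV : Inv H V) (hVW : ¬ V ≤ W) :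
    ∃ v ∈ V, v ∉ W ∧ ∀ g ∈ H, (g : M →ₗ[k] M) v - v ∈ W := by
  classical
  obtain ⟨n, hn⟩ := unip_iff.1 hH
  obtain ⟨x, hxV, hxW⟩ := SetLike.not_le_iff_exists.1 hVW
  let P : ℕ → Prop := fun j => ∀ l : List (LinearMap.GeneralLinearGroup k M), (∀ g ∈ l, g ∈ H) →
    l.length = j → pr l x ∈ W
  have hPn : P n := by
    intro l hl hlen
    rw [hn l hl hlen]; exact W.zero_mem
  have hex : ∃ j, P j := ⟨n, hPn⟩
  have hspec := Nat.find_spec hex
  have hpos : Nat.find hex ≠ 0 := by
    intro h0
    rw [h0] at hspec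
    exact hxW (by simpa using hspec [] (by simp) rfl)
  obtain ⟨j, hj⟩ := Nat.exists_eq_succ_of_ne_zero hpos
  have hnot : ¬ P j := Nat.find_min hex (by omega)
  rw [hj] at hspec
  simp only [P, not_forall] at hnot
  obtain ⟨l, hl, hlen, hlW⟩ := hnot
  have hstay : ∀ l : List (LinearMap.GeneralLinearGroup k M), (∀ g ∈ l, g ∈ H) →
      pr l x ∈ V := by
    intro l
    induction l with
    | nil => intro _; simpa using hxV
    | cons g l ih =>
      intro hl
      have h1 := ih (fun g hg => hl g (List.mem_cons_of_mem _ hg))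
      rw [pr_cons, Module.End.mul_apply, LinearMap.sub_apply]
      exact V.sub_mem (hV g (hl g List.mem_cons_self) _ h1) h1
  refine ⟨_, hstay l hl, hlW, ?_⟩
  intro g hg
  have := hspec (g :: l) (by
    intro g' hg'
    rcases List.mem_cons.1 hg' with rfl | h
    · exact hg
    · exact hl g' h) (by simp [hlen])
  rw [pr_cons, Module.End.mul_apply, LinearMap.sub_apply] at this
  exact this

variable [FiniteDimensional k M]

/-- The fixed point criterion implies unipotence, with exponent the dimension. -/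
theorem of_fix {H : Subgroup (LinearMap.GeneralLinearGroup k M)}
    (h : ∀ W : Submodule k M, Inv H W → W ≠ ⊤ →
      ∃ v, v ∉ W ∧ ∀ g ∈ H, (g : M →ₗ[k] M) v - v ∈ W) :
    ∀ l : List (LinearMap.GeneralLinearGroup k M), (∀ g ∈ l, g ∈ H) →
      l.length = Module.finrank k M → pr l = 0 := by
  have key : ∀ j, j ≤ Module.finrank k M → ∃ W : Submodule k M, Inv H W ∧
      j ≤ Module.finrank k W ∧ ∀ l : List (LinearMap.GeneralLinearGroup k M), (∀ g ∈ l, g ∈ H) →
      l.length = j → ∀ w ∈ W, pr l w = 0 := by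
    intro j
    induction j with
    | zero =>
      intro _
      refine ⟨⊥, fun g _ w hw => ?_, Nat.zero_le _, fun l hl hlen w hw => ?_⟩
      · rw [(Submodule.mem_bot k).1 hw, map_zero]; exact Submodule.zero_mem _
      · rw [(Submodule.mem_bot k).1 hw, map_zero]
    | succ j ih =>
      intro hj
      obtain ⟨W, hW, hdim, hkill⟩ := ih (by omega)
      by_cases hWt : W = ⊤
      · subst hWt
        refine ⟨⊤, hW, by rw [finrank_top]; exact hj, fun l hl hlen w hw => ?_⟩
        obtain ⟨g, l', rfl⟩ := List.exists_cons_of_length_eq_add_one hlen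
        rw [pr_cons, Module.End.mul_apply,
          hkill l' (fun g hg => hl g (List.mem_cons_of_mem _ hg)) (by simpa using hlen) w hw,
          map_zero]
      · obtain ⟨v, hv, hfix⟩ := h W hW hWt
        refine ⟨W ⊔ Submodule.span k {v}, ?_, ?_, ?_⟩
        · intro g hg w hw
          obtain ⟨w1, hw1, w2, hw2, rfl⟩ := Submodule.mem_sup.1 hw
          obtain ⟨c, rfl⟩ := Submodule.mem_span_singleton.1 hw2
          rw [map_add, map_smul]
          have : (g : M →ₗ[k] M) w1 + c • (g : M →ₗ[k] M) v =
              ((g : M →ₗ[k] M) w1 + c • ((g : M →ₗ[k] M) v - v)) + c • v := by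
            rw [smul_sub]; abel
          rw [this]
          exact Submodule.add_mem_sup (W.add_mem (hW g hg w1 hw1) (W.smul_mem c (hfix g hg)))
            (Submodule.smul_mem _ _ (Submodule.mem_span_singleton_self v))
        · have : W < W ⊔ Submodule.span k {v} := by
            refine lt_of_le_of_ne le_sup_left fun e => hv ?_
            rw [e]
            exact Submodule.mem_sup_right (Submodule.mem_span_singleton_self v)
          have := Submodule.finrank_lt_finrank_of_lt this
          omega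
        · intro l hl hlen w hw
          rcases List.eq_nil_or_concat l with rfl | ⟨l', g, rfl⟩
          · simp at hlen
          · rw [List.concat_eq_append] at hl hlen ⊢
            rw [pr_concat, Module.End.mul_apply]
            apply hkill l' (fun g hg => hl g (List.mem_append_left _ hg)) (by simpa using hlen)
            have hg : g ∈ H := hl g (by simp)
            obtain ⟨w1, hw1, w2, hw2, rfl⟩ := Submodule.mem_sup.1 hw
            obtain ⟨c, rfl⟩ := Submodule.mem_span_singleton.1 hw2
            rw [map_add, map_smul, LinearMap.sub_apply, LinearMap.sub_apply]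
            exact W.add_mem (W.sub_mem (hW g hg w1 hw1) hw1) (W.smul_mem c (hfix g hg))
  intro l hl hlen
  obtain ⟨W, -, hdim, hkill⟩ := key _ le_rfl
  have hWt : W = ⊤ := Submodule.eq_top_of_finrank_eq
    (le_antisymm (Submodule.finrank_le W) hdim)
  subst hWt
  ext w
  exact hkill l hl hlen w Submodule.mem_top

theorem isUnipotentOn_of_fix {H : Subgroup (LinearMap.GeneralLinearGroup k M)}
    (h : ∀ W : Submodule k M, Inv H W → W ≠ ⊤ →
      ∃ v, v ∉ W ∧ ∀ g ∈ H, (g : M →ₗ[k] M) v - v ∈ W) : IsUnipotentOn H :=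
  unip_iff.2 ⟨_, of_fix h⟩

theorem inv_top (H : Subgroup (LinearMap.GeneralLinearGroup k M)) : Inv H ⊤ :=
  fun _ _ _ _ => Submodule.mem_top

theorem exists_fix_top {H : Subgroup (LinearMap.GeneralLinearGroup k M)} (hH : IsUnipotentOn H)
    {W : Submodule k M} (hW : W ≠ ⊤) : ∃ v, v ∉ W ∧ ∀ g ∈ H, (g : M →ₗ[k] M) v - v ∈ W := by
  obtain ⟨v, -, hv, h⟩ := exists_fix hH (inv_top H) (fun h => hW (top_le_iff.1 h))
  exact ⟨v, hv, h⟩

theorem Inv.mono {H K : Subgroup (LinearMap.GeneralLinearGroup k M)} (hHK : H ≤ K)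
    {W : Submodule k M} (h : Inv K W) : Inv H W := fun g hg => h g (hHK hg)

theorem mono {H K : Subgroup (LinearMap.GeneralLinearGroup k M)} (hHK : H ≤ K)
    (h : IsUnipotentOn K) : IsUnipotentOn H := by
  obtain ⟨n, hn⟩ := unip_iff.1 h
  exact unip_iff.2 ⟨n, fun l hl hlen => hn l (fun g hg => hHK (hl g hg)) hlen⟩

theorem isUnipotentOn_bot : IsUnipotentOn (⊥ : Subgroup (LinearMap.GeneralLinearGroup k M)) := by
  refine unip_iff.2 ⟨1, fun l hl hlen => ?_⟩
  obtain ⟨g, rfl⟩ := List.length_eq_one_iff.1 hlen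
  have : g = 1 := Subgroup.mem_bot.1 (hl g (by simp))
  rw [this, pr_cons]; simp

/-- The set of `g ∈ H` moving `v` only by elements of the `H`-stable subspace `W`. -/
theorem sub_mem_of_closure {S : Set (LinearMap.GeneralLinearGroup k M)} {W : Submodule k M}
    (hW : Inv (Subgroup.closure S) W) {v : M} (h : ∀ g ∈ S, (g : M →ₗ[k] M) v - v ∈ W)
    {g : LinearMap.GeneralLinearGroup k M} (hg : g ∈ Subgroup.closure S) :
    (g : M →ₗ[k] M) v - v ∈ W := by
  induction hg using Subgroup.closure_induction with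
  | mem g hg => exact h g hg
  | one => simp
  | mul x y hx hy h1 h2 =>
    have : ((x * y : LinearMap.GeneralLinearGroup k M) : M →ₗ[k] M) v - v =
        (x : M →ₗ[k] M) ((y : M →ₗ[k] M) v - v) + ((x : M →ₗ[k] M) v - v) := by
      rw [map_sub, Units.val_mul, Module.End.mul_apply]; abel
    rw [this]
    exact W.add_mem (hW x hx _ h2) h1
  | inv x hx h1 =>
    have hxi : ∀ z, ((x⁻¹ : LinearMap.GeneralLinearGroup k M) : M →ₗ[k] M)
        ((x : M →ₗ[k] M) z) = z := by
      intro z
      have : (((x⁻¹ : LinearMap.GeneralLinearGroup k M) : M →ₗ[k] M) * (x : M →ₗ[k] M)) z = z := by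
        rw [Units.inv_mul]; rfl
      exact this
    have : ((x⁻¹ : LinearMap.GeneralLinearGroup k M) : M →ₗ[k] M) v - v =
        -(((x⁻¹ : LinearMap.GeneralLinearGroup k M) : M →ₗ[k] M) ((x : M →ₗ[k] M) v - v)) := by
      rw [map_sub, hxi]; abel
    rw [this]
    exact W.neg_mem (hW _ (inv_mem hx) _ h1)

/-- If `K` and `L` are unipotent and `L` normalizes `K` then `K ⊔ L` is unipotent. -/
theorem sup_of_normalizes {K L : Subgroup (LinearMap.GeneralLinearGroup k M)}
    (hK : IsUnipotentOn K) (hL : IsUnipotentOn L)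
    (hN : ∀ l ∈ L, ∀ g ∈ K, l⁻¹ * g * l ∈ K) : IsUnipotentOn (K ⊔ L) := by
  apply isUnipotentOn_of_fix
  intro W hW hWt
  have hWK : Inv K W := hW.mono le_sup_left
  have hWL : Inv L W := hW.mono le_sup_right
  let V : Submodule k M :=
    { carrier := {v | ∀ g ∈ K, (g : M →ₗ[k] M) v - v ∈ W}
      zero_mem' := by intro g hg; simp
      add_mem' := by
        intro a b ha hb g hg
        have : (g : M →ₗ[k] M) (a + b) - (a + b) = ((g : M →ₗ[k] M) a - a) +
            ((g : M →ₗ[k] M) b - b) := by rw [map_add]; abel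
        rw [this]; exact W.add_mem (ha g hg) (hb g hg)
      smul_mem' := by
        intro c a ha g hg
        have : (g : M →ₗ[k] M) (c • a) - (c • a) = c • ((g : M →ₗ[k] M) a - a) := by
          rw [map_smul, smul_sub]
        rw [this]; exact W.smul_mem c (ha g hg) }
  have hVL : Inv L V := by
    intro l hl v hv g hg
    have h1 := hv (l⁻¹ * g * l) (hN l hl g hg)
    have h2 := hWL l hl _ h1
    have e : (l : M →ₗ[k] M) (((l⁻¹ * g * l : LinearMap.GeneralLinearGroup k M) : M →ₗ[k] M) v - v) =
        (g : M →ₗ[k] M) ((l : M →ₗ[k] M) v) - (l : M →ₗ[k] M) v := by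
      rw [map_sub]
      congr 1
      have : (l : M →ₗ[k] M) * ((l⁻¹ * g * l : LinearMap.GeneralLinearGroup k M) : M →ₗ[k] M) =
          (g : M →ₗ[k] M) * (l : M →ₗ[k] M) := by
        rw [← Units.val_mul, ← Units.val_mul]; congr 1; group
      exact congrArg (fun f : M →ₗ[k] M => f v) this
    rw [e] at h2
    exact h2
  have hVW : ¬ V ≤ W := by
    obtain ⟨v, hv, hfix⟩ := exists_fix_top hK hWt
    exact fun h => hv (h hfix)
  obtain ⟨v, hv, hvW, hfix⟩ := exists_fix hL hVL hVW
  refine ⟨v, hvW, ?_⟩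
  intro g hg
  have hcl : K ⊔ L = Subgroup.closure ((K : Set _) ∪ (L : Set _)) := by
    rw [Subgroup.closure_union, Subgroup.closure_eq, Subgroup.closure_eq]
  rw [hcl] at hg hW
  apply sub_mem_of_closure hW _ hg
  rintro x (hx | hx)
  · exact hv x hx
  · exact hfix x hx

/-! ### The algebra spanned by the `g - 1` -/

/-- The span of the `g - 1`, `g ∈ H`. -/
def nn (H : Subgroup (LinearMap.GeneralLinearGroup k M)) : Submodule k (Module.End k M) :=
  Submodule.span k ((fun g : LinearMap.GeneralLinearGroup k M => (g : Module.End k M) - 1) ''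
    (H : Set (LinearMap.GeneralLinearGroup k M)))

theorem sub_one_mem_nn {H : Subgroup (LinearMap.GeneralLinearGroup k M)}
    {g : LinearMap.GeneralLinearGroup k M} (hg : g ∈ H) : (g : Module.End k M) - 1 ∈ nn H :=
  Submodule.subset_span ⟨g, hg, rfl⟩

theorem nn_mono {H K : Subgroup (LinearMap.GeneralLinearGroup k M)} (h : H ≤ K) : nn H ≤ nn K :=
  Submodule.span_mono (Set.image_mono h)

theorem nn_mul_le (H : Subgroup (LinearMap.GeneralLinearGroup k M)) : nn H * nn H ≤ nn H := by
  unfold nn
  rw [Submodule.span_mul_span, Submodule.span_le]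
  rintro _ ⟨_, ⟨g, hg, rfl⟩, _, ⟨h, hh, rfl⟩, rfl⟩
  have e : ((g : Module.End k M) - 1) * ((h : Module.End k M) - 1) =
      (((g * h : LinearMap.GeneralLinearGroup k M) : Module.End k M) - 1) -
        ((g : Module.End k M) - 1) - ((h : Module.End k M) - 1) := by
    rw [Units.val_mul]; noncomm_ring
  show ((g : Module.End k M) - 1) * ((h : Module.End k M) - 1) ∈ _
  rw [e]
  exact Submodule.sub_mem _ (Submodule.sub_mem _ (sub_one_mem_nn (mul_mem hg hh))
    (sub_one_mem_nn hg)) (sub_one_mem_nn hh)

theorem nn_pow_eq_bot {H : Subgroup (LinearMap.GeneralLinearGroup k M)} (hH : IsUnipotentOn H) :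
    ∃ n, nn H ^ n = ⊥ := by
  obtain ⟨n, hn⟩ := unip_iff.1 hH
  refine ⟨n, ?_⟩
  unfold nn
  rw [Submodule.span_pow, eq_bot_iff, Submodule.span_le]
  intro x hx
  rw [Set.mem_pow] at hx
  obtain ⟨f, rfl⟩ := hx
  choose g hg hgf using fun i => (f i).2
  have : (List.ofFn fun i => (f i : Module.End k M)).prod = pr (List.ofFn g) := by
    unfold pr
    rw [List.map_ofFn]
    congr 2
    funext i
    exact (hgf i).symm
  rw [SetLike.mem_coe, Submodule.mem_bot, this]
  apply hn
  · intro x hx
    rw [List.mem_ofFn] at hx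
    obtain ⟨i, rfl⟩ := hx
    exact hg i
  · simp

theorem isNilpotent_of_isUnipotentOn {H : Subgroup (LinearMap.GeneralLinearGroup k M)}
    (hH : IsUnipotentOn H) : Group.IsNilpotent H := by
  obtain ⟨n, hn⟩ := nn_pow_eq_bot hH
  rw [Subgroup.nilpotent_iff_finite_descending_central_series]
  have hle : ∀ j : ℕ, nn H ^ (j + 1 + 1) ≤ nn H ^ (j + 1) := by
    intro j
    calc nn H ^ (j + 1 + 1) = nn H ^ j * (nn H * nn H) := by
          rw [pow_succ, pow_succ, mul_assoc]
      _ ≤ nn H ^ j * nn H := mul_le_mul' le_rfl (nn_mul_le H)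
      _ = nn H ^ (j + 1) := (pow_succ _ _).symm
  have hle1 : ∀ j : ℕ, nn H ^ (j + 1) ≤ nn H := by
    intro j
    induction j with
    | zero => simp
    | succ j ih => exact (hle j).trans ih
  have hmr : ∀ {j : ℕ} {x y : Module.End k M}, x ∈ nn H ^ j → y ∈ nn H → x * y ∈ nn H ^ (j + 1) :=
    fun hx hy => by rw [pow_succ]; exact Submodule.mul_mem_mul hx hy
  have hml : ∀ {j : ℕ} {x y : Module.End k M}, x ∈ nn H ^ j → y ∈ nn H → y * x ∈ nn H ^ (j + 1) :=
    fun hx hy => by rw [pow_succ']; exact Submodule.mul_mem_mul hy hx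
  let L : ℕ → Subgroup H := fun j =>
    { carrier := {g | ((g : LinearMap.GeneralLinearGroup k M) : Module.End k M) - 1 ∈
        nn H ^ (j + 1)}
      one_mem' := by
        show (((1 : H) : LinearMap.GeneralLinearGroup k M) : Module.End k M) - 1 ∈ nn H ^ (j + 1)
        simp
      mul_mem' := by
        intro g h hg hh
        show (((g * h : H) : LinearMap.GeneralLinearGroup k M) : Module.End k M) - 1 ∈
          nn H ^ (j + 1)
        have e : (((g * h : H) : LinearMap.GeneralLinearGroup k M) : Module.End k M) - 1 =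
            (((g : LinearMap.GeneralLinearGroup k M) : Module.End k M) - 1) *
              (((h : LinearMap.GeneralLinearGroup k M) : Module.End k M) - 1) +
            (((g : LinearMap.GeneralLinearGroup k M) : Module.End k M) - 1) +
            (((h : LinearMap.GeneralLinearGroup k M) : Module.End k M) - 1) := by
          rw [Subgroup.coe_mul, Units.val_mul]; noncomm_ring
        rw [e]
        exact Submodule.add_mem _ (Submodule.add_mem _
          (hle j (hmr hg (sub_one_mem_nn h.2))) hg) hh
      inv_mem' := by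
        intro g hg
        show (((g⁻¹ : H) : LinearMap.GeneralLinearGroup k M) : Module.End k M) - 1 ∈
          nn H ^ (j + 1)
        have e : (((g⁻¹ : H) : LinearMap.GeneralLinearGroup k M) : Module.End k M) - 1 =
            -(((g : LinearMap.GeneralLinearGroup k M) : Module.End k M) - 1) -
              (((g : LinearMap.GeneralLinearGroup k M) : Module.End k M) - 1) *
              ((((g⁻¹ : H) : LinearMap.GeneralLinearGroup k M) : Module.End k M) - 1) := by
          have h1 : ((g : LinearMap.GeneralLinearGroup k M) : Module.End k M) *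
              (((g⁻¹ : H) : LinearMap.GeneralLinearGroup k M) : Module.End k M) = 1 := by
            rw [← Units.val_mul, ← Subgroup.coe_mul, mul_inv_cancel]; rfl
          rw [mul_sub, sub_mul, h1]; noncomm_ring
        rw [e]
        exact Submodule.sub_mem _ (Submodule.neg_mem _ hg)
          (hle j (hmr hg (sub_one_mem_nn (g⁻¹).2))) }
  have hL : ∀ (j : ℕ) (g : H), g ∈ L j ↔
      ((g : LinearMap.GeneralLinearGroup k M) : Module.End k M) - 1 ∈ nn H ^ (j + 1) :=
    fun _ _ => Iff.rfl
  refine ⟨n, L, ⟨?_, ?_⟩, ?_⟩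
  · rw [eq_top_iff]
    intro g _
    rw [hL, pow_one]
    exact sub_one_mem_nn g.2
  · intro x j hx g
    rw [hL] at hx ⊢
    rw [commutatorElement_def]
    have e : (((x * g * x⁻¹ * g⁻¹ : H) : LinearMap.GeneralLinearGroup k M) : Module.End k M) - 1 =
        ((((x : LinearMap.GeneralLinearGroup k M) : Module.End k M) - 1) *
          (((g : LinearMap.GeneralLinearGroup k M) : Module.End k M) - 1) -
         (((g : LinearMap.GeneralLinearGroup k M) : Module.End k M) - 1) *
          (((x : LinearMap.GeneralLinearGroup k M) : Module.End k M) - 1)) *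
        (1 + ((((x⁻¹ * g⁻¹ : H) : LinearMap.GeneralLinearGroup k M) : Module.End k M) - 1)) := by
      have h1 : (((g * x : H) : LinearMap.GeneralLinearGroup k M) : Module.End k M) *
          (((x⁻¹ * g⁻¹ : H) : LinearMap.GeneralLinearGroup k M) : Module.End k M) = 1 := by
        rw [← Units.val_mul, ← Subgroup.coe_mul]
        have : g * x * (x⁻¹ * g⁻¹) = 1 := by group
        rw [this]; rfl
      have h2 : (((x * g * x⁻¹ * g⁻¹ : H) : LinearMap.GeneralLinearGroup k M) : Module.End k M) =
          (((x * g : H) : LinearMap.GeneralLinearGroup k M) : Module.End k M) *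
          (((x⁻¹ * g⁻¹ : H) : LinearMap.GeneralLinearGroup k M) : Module.End k M) := by
        rw [← Units.val_mul, ← Subgroup.coe_mul]
        have : x * g * x⁻¹ * g⁻¹ = x * g * (x⁻¹ * g⁻¹) := by group
        rw [this]
      have h3 : (((x * g * x⁻¹ * g⁻¹ : H) : LinearMap.GeneralLinearGroup k M) : Module.End k M) - 1 =
          ((((x * g : H) : LinearMap.GeneralLinearGroup k M) : Module.End k M) -
          (((g * x : H) : LinearMap.GeneralLinearGroup k M) : Module.End k M)) *
          (((x⁻¹ * g⁻¹ : H) : LinearMap.GeneralLinearGroup k M) : Module.End k M) := by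
        rw [sub_mul, h1, h2]
      rw [h3, add_sub_cancel]
      congr 1
      rw [Subgroup.coe_mul, Subgroup.coe_mul, Units.val_mul, Units.val_mul]
      noncomm_ring
    rw [e, mul_add, mul_one]
    have h3 : ((((x : LinearMap.GeneralLinearGroup k M) : Module.End k M) - 1) *
          (((g : LinearMap.GeneralLinearGroup k M) : Module.End k M) - 1) -
         (((g : LinearMap.GeneralLinearGroup k M) : Module.End k M) - 1) *
          (((x : LinearMap.GeneralLinearGroup k M) : Module.End k M) - 1)) ∈ nn H ^ (j + 1 + 1) :=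
      Submodule.sub_mem _ (hmr hx (sub_one_mem_nn g.2)) (hml hx (sub_one_mem_nn g.2))
    exact Submodule.add_mem _ h3 (hle (j + 1) (hmr h3 (sub_one_mem_nn (x⁻¹ * g⁻¹).2)))
  · rw [eq_bot_iff]
    intro g hg
    rw [hL] at hg
    have h0 : nn H ^ (n + 1) = ⊥ := by rw [pow_succ, hn, Submodule.bot_mul]
    rw [h0, Submodule.mem_bot, sub_eq_zero] at hg
    rw [Subgroup.mem_bot]
    apply Subtype.ext
    exact Units.ext hg

theorem conjBy_mul {X : Type*} [Group X] (A : Subgroup X) (x y : X) :
    conjBy A (x * y) = conjBy (conjBy A y) x := by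
  unfold conjBy
  rw [Subgroup.map_map]
  congr 1
  ext z
  simp [mul_assoc]

theorem mem_conjBy {X : Type*} [Group X] {A : Subgroup X} {x g : X} :
    g ∈ conjBy A x ↔ x⁻¹ * g * x ∈ A := by
  constructor
  · rintro ⟨a, ha, rfl⟩
    have : x⁻¹ * (MulAut.conj x).toMonoidHom a * x = a := by
      show x⁻¹ * (x * a * x⁻¹) * x = a
      group
    rwa [this]
  · intro h
    refine ⟨_, h, ?_⟩
    show x * (x⁻¹ * g * x) * x⁻¹ = g
    group

/-! ### The linear Baer–Suzuki theorem -/

/-- The join of a set of subgroups. -/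
def jn (D : Set (Subgroup (LinearMap.GeneralLinearGroup k M))) :
    Subgroup (LinearMap.GeneralLinearGroup k M) := ⨆ A ∈ D, A

theorem le_jn {D : Set (Subgroup (LinearMap.GeneralLinearGroup k M))}
    {A : Subgroup (LinearMap.GeneralLinearGroup k M)} (hA : A ∈ D) : A ≤ jn D :=
  le_iSup₂_of_le A hA le_rfl

theorem jn_le {D : Set (Subgroup (LinearMap.GeneralLinearGroup k M))}
    {H : Subgroup (LinearMap.GeneralLinearGroup k M)} (h : ∀ A ∈ D, A ≤ H) : jn D ≤ H :=
  iSup₂_le h

theorem jn_mono {D D' : Set (Subgroup (LinearMap.GeneralLinearGroup k M))} (h : D ⊆ D') :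
    jn D ≤ jn D' := jn_le fun _ hA => le_jn (h hA)

theorem jn_induction {D : Set (Subgroup (LinearMap.GeneralLinearGroup k M))}
    {P : LinearMap.GeneralLinearGroup k M → Prop} (h1 : ∀ A ∈ D, ∀ g ∈ A, P g) (h2 : P 1)
    (h3 : ∀ x y, P x → P y → P (x * y)) {g : LinearMap.GeneralLinearGroup k M} (hg : g ∈ jn D) :
    P g := by
  unfold jn at hg
  rw [← iSup_subtype''] at hg
  exact Subgroup.iSup_induction (C := P) _ hg (fun A x hx => h1 A.1 A.2 x hx) h2 h3

theorem sub_one_mem_of_jn {D : Set (Subgroup (LinearMap.GeneralLinearGroup k M))}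
    {N : Submodule k (Module.End k M)} (hN : N * N ≤ N)
    (h : ∀ A ∈ D, ∀ g ∈ A, (g : Module.End k M) - 1 ∈ N)
    {g : LinearMap.GeneralLinearGroup k M} (hg : g ∈ jn D) : (g : Module.End k M) - 1 ∈ N := by
  refine jn_induction (P := fun g => (g : Module.End k M) - 1 ∈ N) ?_ ?_ ?_ hg
  · intro A hA g hg; exact h A hA g hg
  · simp
  · intro x y hx hy
    have e : ((x * y : LinearMap.GeneralLinearGroup k M) : Module.End k M) - 1 =
        ((x : Module.End k M) - 1) * ((y : Module.End k M) - 1) + ((x : Module.End k M) - 1) +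
          ((y : Module.End k M) - 1) := by
      rw [Units.val_mul]; noncomm_ring
    rw [e]
    exact N.add_mem (N.add_mem (hN (Submodule.mul_mem_mul hx hy)) hx) hy

/-- If `H ≤ K` is unipotent and `K - 1` lies in the span of `H - 1` then `K` is unipotent. -/
theorem isUnipotentOn_of_nn {H K : Subgroup (LinearMap.GeneralLinearGroup k M)}
    (hH : IsUnipotentOn H) (hHK : H ≤ K) (h : ∀ g ∈ K, (g : Module.End k M) - 1 ∈ nn H) :
    IsUnipotentOn K := by
  apply isUnipotentOn_of_fix
  intro W hW hWt
  obtain ⟨v, hv, hfix⟩ := exists_fix_top hH hWt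
  refine ⟨v, hv, fun g hg => ?_⟩
  have key : ∀ x ∈ nn H, x v ∈ W := by
    intro x hx
    unfold nn at hx
    induction hx using Submodule.span_induction with
    | mem x hx =>
      obtain ⟨g, hg, rfl⟩ := hx
      exact hfix g hg
    | zero => exact W.zero_mem
    | add x y _ _ hx hy => exact W.add_mem hx hy
    | smul c x _ hx => exact W.smul_mem c hx
  exact key _ (h g hg)

section BaerSuzuki

variable {W : Set (Subgroup (LinearMap.GeneralLinearGroup k M))}

/-- Unipotent subsets of `W`. -/
def UU (W D : Set (Subgroup (LinearMap.GeneralLinearGroup k M))) : Prop :=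
  D ⊆ W ∧ IsUnipotentOn (jn D)

/-- The closure of `D` in `W`. -/
def cl (W D : Set (Subgroup (LinearMap.GeneralLinearGroup k M))) :
    Set (Subgroup (LinearMap.GeneralLinearGroup k M)) :=
  {A | A ∈ W ∧ ∀ g ∈ A, (g : Module.End k M) - 1 ∈ nn (jn D)}

theorem subset_cl {D : Set (Subgroup (LinearMap.GeneralLinearGroup k M))} (h : D ⊆ W) :
    D ⊆ cl W D := fun A hA => ⟨h hA, fun g hg => sub_one_mem_nn (le_jn hA hg)⟩

theorem nn_cl {D : Set (Subgroup (LinearMap.GeneralLinearGroup k M))} (h : D ⊆ W) :
    nn (jn (cl W D)) = nn (jn D) := by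
  apply le_antisymm
  · unfold nn
    rw [Submodule.span_le]
    rintro _ ⟨g, hg, rfl⟩
    exact sub_one_mem_of_jn (nn_mul_le (jn D)) (fun A hA => hA.2) hg
  · exact nn_mono (jn_mono (subset_cl h))

theorem cl_unip {D : Set (Subgroup (LinearMap.GeneralLinearGroup k M))} (h : UU W D) :
    UU W (cl W D) :=
  ⟨fun A hA => hA.1, isUnipotentOn_of_nn h.2 (jn_mono (subset_cl h.1)) fun g hg =>
    sub_one_mem_of_jn (nn_mul_le (jn D)) (fun A hA => hA.2) hg⟩

/-- Maximal unipotent subsets. -/
def MaxU (W D : Set (Subgroup (LinearMap.GeneralLinearGroup k M))) : Prop :=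
  UU W D ∧ ∀ D', UU W D' → D ⊆ D' → D' = D

theorem MaxU.cl_eq {D : Set (Subgroup (LinearMap.GeneralLinearGroup k M))} (h : MaxU W D) :
    cl W D = D := h.2 _ (cl_unip h.1) (subset_cl h.1.1)

theorem cl_mono {D D' : Set (Subgroup (LinearMap.GeneralLinearGroup k M))} (h : D ⊆ D') :
    cl W D ⊆ cl W D' := fun A hA => ⟨hA.1, fun g hg => nn_mono (jn_mono h) (hA.2 g hg)⟩

theorem exists_max : ∀ (n : ℕ) (D : Set (Subgroup (LinearMap.GeneralLinearGroup k M))),
    UU W D → Module.finrank k (Module.End k M) - Module.finrank k (nn (jn D)) = n →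
    ∃ D', MaxU W D' ∧ D ⊆ D' := by
  intro n
  induction n using Nat.strong_induction_on with
  | _ n ih =>
    intro D hD hn
    by_cases hm : MaxU W (cl W D)
    · exact ⟨_, hm, subset_cl hD.1⟩
    · have hcl := cl_unip hD
      simp only [MaxU, not_and, not_forall] at hm
      obtain ⟨D', hD', hsub, hne⟩ := hm hcl
      have hlt : nn (jn D) < nn (jn D') := by
        refine lt_of_le_of_ne (nn_mono (jn_mono ((subset_cl hD.1).trans hsub))) fun e => hne ?_
        apply Set.Subset.antisymm _ hsub
        intro A hA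
        refine ⟨hD'.1 hA, fun g hg => ?_⟩
        rw [e]
        exact sub_one_mem_nn (le_jn hA hg)
      have h1 := Submodule.finrank_lt_finrank_of_lt hlt
      have h2 := Submodule.finrank_le (nn (jn D'))
      obtain ⟨D'', hD'', hs⟩ := ih _ (by omega) D' hD' rfl
      exact ⟨D'', hD'', ((subset_cl hD.1).trans hsub).trans hs⟩

/-- Normalizer growth inside a maximal unipotent subset. -/
theorem exists_normalizing (hconj : ∀ g ∈ jn W, ∀ A ∈ W, conjBy A g ∈ W)
    {D₁ D : Set (Subgroup (LinearMap.GeneralLinearGroup k M))} (h1 : MaxU W D₁) (hD : D ⊆ D₁)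
    (hne : D ≠ D₁) : ∃ A ∈ D₁, A ∉ D ∧ A ≤ Subgroup.normalizer (jn D : Set _) := by
  by_contra hcon
  push Not at hcon
  set P := jn D₁ with hP
  have hnil : Group.IsNilpotent P := isNilpotent_of_isUnipotentOn h1.1.2
  -- `D₁` is stable under conjugation by `P`
  have hstab : ∀ g ∈ P, ∀ A ∈ D₁, conjBy A g ∈ D₁ := by
    intro g hg A hA
    rw [← h1.cl_eq]
    refine ⟨hconj g (jn_mono h1.1.1 hg) A (h1.1.1 hA), ?_⟩
    rintro _ ⟨a, ha, rfl⟩
    apply sub_one_mem_nn
    exact mul_mem (mul_mem hg (le_jn hA ha)) (inv_mem hg)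
  set N := P ⊓ Subgroup.normalizer (jn D : Set (LinearMap.GeneralLinearGroup k M)) with hN
  have hDP : jn D ≤ P := jn_mono hD
  have hDN : jn D ≤ N := le_inf hDP Subgroup.le_normalizer
  have hinN : ∀ A ∈ D₁, A ≤ N → A ∈ D := by
    intro A hA hAN
    by_contra hAD
    exact hcon A hA hAD (hAN.trans inf_le_right)
  have htop : N.subgroupOf P = ⊤ := by
    by_contra hlt
    have hcond := Group.normalizerCondition_of_isNilpotent (G := P) _ (lt_top_iff_ne_top.2 hlt)
    obtain ⟨x, hx1, hx2⟩ := SetLike.exists_of_lt hcond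
    apply hx2
    rw [Subgroup.mem_subgroupOf]
    -- conjugation by `x` or `x⁻¹` preserves `N`
    have hxN : ∀ y : P, y ∈ Subgroup.normalizer ((N.subgroupOf P : Subgroup P) : Set P) →
        ∀ g ∈ N, (y : LinearMap.GeneralLinearGroup k M) * g * (y : LinearMap.GeneralLinearGroup k M)⁻¹ ∈ N := by
      intro y hy g hg
      rw [Subgroup.mem_normalizer_iff] at hy
      have hgP : g ∈ P := (show g ∈ P ∧ _ from hg).1
      have := (hy ⟨g, hgP⟩).1 (Subgroup.mem_subgroupOf.2 hg)
      exact Subgroup.mem_subgroupOf.1 this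
    have hconjD : ∀ y : P, y ∈ Subgroup.normalizer ((N.subgroupOf P : Subgroup P) : Set P) →
        ∀ g ∈ jn D, (y : LinearMap.GeneralLinearGroup k M) * g * (y : LinearMap.GeneralLinearGroup k M)⁻¹ ∈ jn D := by
      intro y hy g hg
      refine jn_induction (P := fun g => (y : LinearMap.GeneralLinearGroup k M) * g *
        (y : LinearMap.GeneralLinearGroup k M)⁻¹ ∈ jn D) ?_ ?_ ?_ hg
      · intro A hA g hg
        have h3 : conjBy A (y : LinearMap.GeneralLinearGroup k M) ∈ D := by
          apply hinN _ (hstab _ y.2 A (hD hA))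
          rintro _ ⟨a, ha, rfl⟩
          exact hxN y hy a (hDN (le_jn hA ha))
        exact le_jn h3 ⟨g, hg, rfl⟩
      · simp
      · intro u v hu hv
        have : (y : LinearMap.GeneralLinearGroup k M) * (u * v) * (y : LinearMap.GeneralLinearGroup k M)⁻¹ =
            ((y : LinearMap.GeneralLinearGroup k M) * u * (y : LinearMap.GeneralLinearGroup k M)⁻¹) *
            ((y : LinearMap.GeneralLinearGroup k M) * v * (y : LinearMap.GeneralLinearGroup k M)⁻¹) := by group
        rw [this]; exact mul_mem hu hv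
    refine ⟨x.2, ?_⟩
    show (x : LinearMap.GeneralLinearGroup k M) ∈ Subgroup.normalizer _
    rw [Subgroup.mem_normalizer_iff]
    intro g
    constructor
    · exact hconjD x hx1 g
    · intro hg
      have := hconjD x⁻¹ (inv_mem hx1) _ hg
      have e : ((x⁻¹ : P) : LinearMap.GeneralLinearGroup k M) *
          ((x : LinearMap.GeneralLinearGroup k M) * g * (x : LinearMap.GeneralLinearGroup k M)⁻¹) *
          (((x⁻¹ : P) : LinearMap.GeneralLinearGroup k M))⁻¹ = g := by
        rw [Subgroup.coe_inv]; group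
      rwa [e] at this
  have hPN : P ≤ N := Subgroup.subgroupOf_eq_top.1 htop
  exact hne (Set.Subset.antisymm hD fun A hA => hinN A hA ((le_jn hA).trans hPN))

theorem max_unique (hWW : ∀ A ∈ W, ∀ B ∈ W, IsUnipotentOn (A ⊔ B))
    (hconj : ∀ g ∈ jn W, ∀ A ∈ W, conjBy A g ∈ W) :
    ∀ (n : ℕ) (D₁ D₂ : Set (Subgroup (LinearMap.GeneralLinearGroup k M))), MaxU W D₁ → MaxU W D₂ →
    Module.finrank k (Module.End k M) - Module.finrank k (nn (jn (D₁ ∩ D₂))) = n → D₁ = D₂ := by
  intro n
  induction n using Nat.strong_induction_on with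
  | _ n ih =>
    intro D₁ D₂ h1 h2 hn
    by_contra hne
    set D := D₁ ∩ D₂ with hD
    have hDcl : cl W D = D := by
      apply Set.Subset.antisymm _ (subset_cl (Set.inter_subset_left.trans h1.1.1))
      intro A hA
      refine ⟨?_, ?_⟩
      · rw [← h1.cl_eq]; exact cl_mono Set.inter_subset_left hA
      · rw [← h2.cl_eq]; exact cl_mono Set.inter_subset_right hA
    have hD1 : D ≠ D₁ := by
      intro e
      apply hne
      have : D₁ ⊆ D₂ := by rw [← e]; exact Set.inter_subset_right
      exact (h1.2 D₂ h2.1 this).symm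
    have hD2 : D ≠ D₂ := by
      intro e
      apply hne
      have : D₂ ⊆ D₁ := by rw [← e]; exact Set.inter_subset_left
      exact h2.2 D₁ h1.1 this
    obtain ⟨A₁, hA1, hA1D, hA1N⟩ := exists_normalizing hconj h1 Set.inter_subset_left hD1
    obtain ⟨A₂, hA2, hA2D, hA2N⟩ := exists_normalizing hconj h2 Set.inter_subset_right hD2
    have hU : UU W (D ∪ {A₁, A₂}) := by
      refine ⟨?_, ?_⟩
      · rintro A (hA | rfl | rfl)
        · exact h1.1.1 hA.1
        · exact h1.1.1 hA1
        · exact h2.1.1 hA2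
      · have hK : IsUnipotentOn (jn D) := mono (jn_mono Set.inter_subset_left) h1.1.2
        have hL : IsUnipotentOn (A₁ ⊔ A₂) := hWW _ (h1.1.1 hA1) _ (h2.1.1 hA2)
        have hNle : A₁ ⊔ A₂ ≤ Subgroup.normalizer (jn D : Set (LinearMap.GeneralLinearGroup k M)) :=
          sup_le hA1N hA2N
        refine mono ?_ (sup_of_normalizes hK hL fun l hl g hg => ?_)
        · apply jn_le
          rintro A (hA | rfl | rfl)
          · exact (le_jn hA).trans le_sup_left
          · exact le_sup_left.trans le_sup_right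
          · exact le_sup_right.trans le_sup_right
        · have := (Subgroup.mem_normalizer_iff.1 (inv_mem (hNle hl)) g).1 hg
          rwa [inv_inv] at this
    obtain ⟨D₃, h3, hsub⟩ := exists_max _ _ hU rfl
    have key : ∀ D' A, MaxU W D' → D ⊆ D' → A ∈ D' → A ∉ D → A ∈ D₃ → D' = D₃ := by
      intro D' A h' hDD' hAD' hAD hAD3
      have hlt : nn (jn D) < nn (jn (D' ∩ D₃)) := by
        have hsub' : D ⊆ D' ∩ D₃ := fun B hB => ⟨hDD' hB, hsub (Or.inl hB)⟩
        refine lt_of_le_of_ne (nn_mono (jn_mono hsub')) fun e => hAD ?_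
        rw [← hDcl]
        refine ⟨h'.1.1 hAD', fun g hg => ?_⟩
        rw [e]
        exact sub_one_mem_nn (le_jn (show A ∈ D' ∩ D₃ from ⟨hAD', hAD3⟩) hg)
      have e1 := Submodule.finrank_lt_finrank_of_lt hlt
      have e2 := Submodule.finrank_le (nn (jn (D' ∩ D₃)))
      exact ih _ (by omega) D' D₃ h' h3 rfl
    have e1 := key D₁ A₁ h1 Set.inter_subset_left hA1 hA1D (hsub (Or.inr (Or.inl rfl)))
    have e2 := key D₂ A₂ h2 Set.inter_subset_right hA2 hA2D (hsub (Or.inr (Or.inr rfl)))
    exact hne (e1.trans e2.symm)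

/-- **Linear Baer–Suzuki.** If `W` is stable under conjugation by its members and any two members
generate a unipotent group then all of them together generate a unipotent group. -/
theorem baer_suzuki (hWW : ∀ A ∈ W, ∀ B ∈ W, IsUnipotentOn (A ⊔ B))
    (hconj : ∀ B ∈ W, ∀ g ∈ B, ∀ A ∈ W, conjBy A g ∈ W) : IsUnipotentOn (jn W) := by
  have hconj' : ∀ g ∈ jn W, ∀ A ∈ W, conjBy A g ∈ W := by
    intro g hg
    refine jn_induction (P := fun g => ∀ A ∈ W, conjBy A g ∈ W) ?_ ?_ ?_ hg
    · intro B hB g hg; exact hconj B hB g hg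
    · intro A hA
      have : conjBy A 1 = A := by
        ext x
        simp [Subgroup.mem_map]
      rwa [this]
    · intro x y hx hy A hA
      rw [conjBy_mul]
      exact hx _ (hy _ hA)
  by_cases hW : W = ∅
  · subst hW
    have : jn (∅ : Set (Subgroup (LinearMap.GeneralLinearGroup k M))) = ⊥ := by
      rw [eq_bot_iff]; exact jn_le fun A hA => hA.elim
    rw [this]; exact isUnipotentOn_bot
  · obtain ⟨A, hA⟩ := Set.nonempty_iff_ne_empty.2 hW
    have hsing : ∀ B ∈ W, UU W {B} := by
      intro B hB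
      refine ⟨Set.singleton_subset_iff.2 hB, mono ?_ (hWW B hB B hB)⟩
      exact jn_le fun C hC => by rw [Set.mem_singleton_iff.1 hC]; exact le_sup_left
    obtain ⟨D₁, h1, hA1⟩ := exists_max _ _ (hsing A hA) rfl
    have : D₁ = W := by
      apply Set.Subset.antisymm h1.1.1
      intro B hB
      obtain ⟨D₂, h2, hB2⟩ := exists_max _ _ (hsing B hB) rfl
      rw [max_unique hWW hconj' _ D₁ D₂ h1 h2 rfl]
      exact hB2 rfl
    rw [← this]
    exact h1.1.2

end BaerSuzuki

end H86.Unip
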