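import Cfsg.Prelude.Def_RootSubgroups
import Cfsg.Agent.Lib.H86.Unip

/-!
Sets of abstract root subgroups given inside a larger group: transfer to the subgroup generated
by them.
-/

set_option autoImplicit false
set_option linter.unusedSimpArgs false
set_option linter.unusedVariables false
set_option linter.style.haveILetI false
set_option linter.unusedSectionVars false
open Cfsg
open scoped commutatorElement

namespace H86.RootTransfer

variable {X : Type*} [Group X]

theorem conjBy_subgroupOf {A H : Subgroup X} (g : H) :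
    conjBy (A.subgroupOf H) g = (conjBy A (g : X)).subgroupOf H := by
  ext x
  rw [H86.Unip.mem_conjBy, Subgroup.mem_subgroupOf, Subgroup.mem_subgroupOf, H86.Unip.mem_conjBy]
  rfl

theorem subgroupOf_inj {A B H : Subgroup X} (hA : A ≤ H) (hB : B ≤ H)
    (h : A.subgroupOf H = B.subgroupOf H) : A = B := by
  rw [← Subgroup.map_subgroupOf_eq_of_le hA, ← Subgroup.map_subgroupOf_eq_of_le hB, h]

theorem rankOneCondition_subgroupOf {A B H : Subgroup X} (hA : A ≤ H) (hB : B ≤ H)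
    (h : RankOneCondition A B) : RankOneCondition (A.subgroupOf H) (B.subgroupOf H) := by
  intro a ha ha1
  obtain ⟨b, hb, hb1, hab⟩ := h a (Subgroup.mem_subgroupOf.1 ha)
    (fun h0 => ha1 (Subtype.ext h0))
  refine ⟨⟨b, hB hb⟩, Subgroup.mem_subgroupOf.2 hb, fun h0 => hb1 (congrArg Subtype.val h0), ?_⟩
  rw [conjBy_subgroupOf, conjBy_subgroupOf]
  show (conjBy A b⁻¹).subgroupOf H = (conjBy B (a : X)⁻¹).subgroupOf H
  rw [hab]

theorem nilpotent_subgroupOf {A H : Subgroup X} (hA : A ≤ H) (h : Group.IsNilpotent A) :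
    Group.IsNilpotent (A.subgroupOf H) := by
  haveI := h
  exact (Group.isNilpotent_congr (Subgroup.subgroupOfEquivOfLe hA)).2 h

theorem rankOne_subgroupOf {A B H : Subgroup X} (hA : A ≤ H) (hB : B ≤ H)
    (h : IsRankOnePair A B) : IsRankOnePair (A.subgroupOf H) (B.subgroupOf H) :=
  ⟨fun h0 => h.ne (subgroupOf_inj hA hB h0), nilpotent_subgroupOf hA h.nilpotent_left,
    nilpotent_subgroupOf hB h.nilpotent_right, rankOneCondition_subgroupOf hA hB h.cond_left,
    rankOneCondition_subgroupOf hB hA h.cond_right⟩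

theorem commutator_subgroupOf {A B H : Subgroup X} (hA : A ≤ H) (hB : B ≤ H) :
    ⁅A.subgroupOf H, B.subgroupOf H⁆ = ⁅A, B⁆.subgroupOf H := by
  have h1 : (⁅A.subgroupOf H, B.subgroupOf H⁆).map H.subtype = ⁅A, B⁆ := by
    rw [Subgroup.map_commutator, Subgroup.map_subgroupOf_eq_of_le hA,
      Subgroup.map_subgroupOf_eq_of_le hB]
  rw [← h1]
  ext x
  rw [Subgroup.mem_subgroupOf]
  constructor
  · intro hx; exact ⟨x, hx, rfl⟩
  · rintro ⟨y, hy, hxy⟩
    have : y = x := Subtype.ext hxy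
    rwa [← this]

theorem closure_subgroupOf {H : Subgroup X} (T : Set X) (hT : T ⊆ H) :
    (Subgroup.closure T).subgroupOf H = Subgroup.closure ({x : H | (x : X) ∈ T}) := by
  have h1 : (Subgroup.closure ({x : H | (x : X) ∈ T})).map H.subtype = Subgroup.closure T := by
    rw [MonoidHom.map_closure]
    congr 1
    ext x
    constructor
    · rintro ⟨y, hy, rfl⟩; exact hy
    · intro hx; exact ⟨⟨x, hT hx⟩, hx, rfl⟩
  rw [← h1]
  ext x
  rw [Subgroup.mem_subgroupOf]
  constructor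
  · rintro ⟨y, hy, hxy⟩
    have : y = x := Subtype.ext hxy
    rwa [← this]
  · intro hx; exact ⟨x, hx, rfl⟩

theorem commutatorCase_subgroupOf {S : Set (Subgroup X)} {A B H : Subgroup X} (hA : A ≤ H)
    (hB : B ≤ H) (h : RootCommutatorCase S A B) :
    RootCommutatorCase ((fun A : Subgroup X => A.subgroupOf H) '' S) (A.subgroupOf H)
      (B.subgroupOf H) := by
  obtain ⟨h1, h2, h3, h4⟩ := h
  have hcomm : ∀ (a b : X), a ∈ H → b ∈ H → a * b * a⁻¹ * b⁻¹ ∈ H := fun a b ha hb =>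
    mul_mem (mul_mem (mul_mem ha hb) (inv_mem ha)) (inv_mem hb)
  refine ⟨?_, ?_, ?_, ?_⟩
  · rw [commutator_subgroupOf hA hB]; exact ⟨_, h1, rfl⟩
  · intro c hc x hx
    rw [commutator_subgroupOf hA hB, Subgroup.mem_subgroupOf] at hc
    apply Subtype.ext
    refine h2 _ hc _ ?_
    have h5 : (A.subgroupOf H ⊔ B.subgroupOf H).map H.subtype = A ⊔ B := by
      rw [Subgroup.map_sup, Subgroup.map_subgroupOf_eq_of_le hA,
        Subgroup.map_subgroupOf_eq_of_le hB]
    rw [← h5]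
    exact ⟨x, hx, rfl⟩
  · intro a ha ha1
    rw [commutator_subgroupOf hA hB, ← h3 a (Subgroup.mem_subgroupOf.1 ha)
      (fun h0 => ha1 (Subtype.ext h0)), closure_subgroupOf]
    · congr 1
      ext x
      constructor
      · rintro ⟨b, hb, rfl⟩
        exact ⟨b, Subgroup.mem_subgroupOf.1 hb, rfl⟩
      · rintro ⟨b, hb, hbx⟩
        exact ⟨⟨b, hB hb⟩, Subgroup.mem_subgroupOf.2 hb, Subtype.ext hbx⟩
    · rintro _ ⟨b, hb, rfl⟩
      exact hcomm _ _ a.2 (hB hb)
  · intro a ha ha1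
    rw [commutator_subgroupOf hA hB, ← h4 a (Subgroup.mem_subgroupOf.1 ha)
      (fun h0 => ha1 (Subtype.ext h0)), closure_subgroupOf]
    · congr 1
      ext x
      constructor
      · rintro ⟨b, hb, rfl⟩
        exact ⟨b, Subgroup.mem_subgroupOf.1 hb, rfl⟩
      · rintro ⟨b, hb, hbx⟩
        exact ⟨⟨b, hA hb⟩, Subgroup.mem_subgroupOf.2 hb, Subtype.ext hbx⟩
    · rintro _ ⟨b, hb, rfl⟩
      exact hcomm _ _ (hA hb) a.2

theorem generates_subgroupOf (S : Set (Subgroup X)) {H : Subgroup X} (hH : (⨆ A ∈ S, A) = H) :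
    (⨆ A ∈ (fun A : Subgroup X => A.subgroupOf H) '' S, A) = ⊤ := by
  rw [iSup_image]
  have hle : ∀ A ∈ S, A ≤ H := fun A hA => by rw [← hH]; exact le_iSup₂_of_le A hA le_rfl
  have h1 : (⨆ A ∈ S, A.subgroupOf H).map H.subtype = H := by
    rw [Subgroup.map_iSup]
    conv_rhs => rw [← hH]
    apply iSup_congr
    intro A
    rw [Subgroup.map_iSup]
    apply iSup_congr
    intro hA
    exact Subgroup.map_subgroupOf_eq_of_le (hle A hA)
  rw [eq_top_iff]
  intro x _
  have h2 : (x : X) ∈ (⨆ A ∈ S, A.subgroupOf H).map H.subtype := by rw [h1]; exact x.2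
  obtain ⟨y, hy, hxy⟩ := h2
  have : y = x := Subtype.ext hxy
  rwa [← this]

/-- The transfer theorem. -/
theorem rootSet_of {S : Set (Subgroup X)} {H : Subgroup X} (hH : (⨆ A ∈ S, A) = H)
    (hc : ∀ A ∈ S, IsMulCommutative A) (hne : ∀ A ∈ S, A ≠ ⊥)
    (hconj : ∀ A ∈ S, ∀ g ∈ H, conjBy A g ∈ S)
    (hpair : ∀ A ∈ S, ∀ B ∈ S, ⁅A, B⁆ = ⊥ ∨ IsRankOnePair A B ∨ RootCommutatorCase S A B) :
    IsRootSubgroupSet ((fun A : Subgroup X => A.subgroupOf H) '' S) := by
  have hle : ∀ A ∈ S, A ≤ H := fun A hA => by rw [← hH]; exact le_iSup₂_of_le A hA le_rfl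
  refine ⟨?_, ?_, generates_subgroupOf S hH, ?_, ?_⟩
  · rintro _ ⟨A, hA, rfl⟩
    haveI := hc A hA
    refine ⟨⟨fun x y => ?_⟩⟩
    have h1 : (⟨((x : H) : X), Subgroup.mem_subgroupOf.1 x.2⟩ : A) *
        ⟨((y : H) : X), Subgroup.mem_subgroupOf.1 y.2⟩ =
        ⟨((y : H) : X), Subgroup.mem_subgroupOf.1 y.2⟩ *
          ⟨((x : H) : X), Subgroup.mem_subgroupOf.1 x.2⟩ := (hc A hA).is_comm.comm _ _
    have h2 : ((x : H) : X) * ((y : H) : X) = ((y : H) : X) * ((x : H) : X) :=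
      congrArg Subtype.val h1
    exact Subtype.ext (Subtype.ext h2)
  · rintro _ ⟨A, hA, rfl⟩ h0
    apply hne A hA
    rw [← Subgroup.map_subgroupOf_eq_of_le (hle A hA)]
    have h1 : A.subgroupOf H = ⊥ := h0
    rw [h1, Subgroup.map_bot]
  · rintro _ ⟨A, hA, rfl⟩ g
    exact ⟨_, hconj A hA g g.2, (conjBy_subgroupOf g).symm⟩
  · rintro _ ⟨A, hA, rfl⟩ _ ⟨B, hB, rfl⟩
    rcases hpair A hA B hB with h | h | h
    · left
      show ⁅A.subgroupOf H, B.subgroupOf H⁆ = ⊥
      rw [commutator_subgroupOf (hle A hA) (hle B hB), h]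
      exact Subgroup.bot_subgroupOf H
    · right; left; exact rankOne_subgroupOf (hle A hA) (hle B hB) h
    · right; right; exact commutatorCase_subgroupOf (hle A hA) (hle B hB) h

end H86.RootTransfer
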