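import Cfsg.Agent.Lib.H86.Quad14
import Cfsg.Agent.Lib.H86.RootTransfer

/-!
Quadratic pairs: the trichotomy in the language of abstract root subgroups.
-/

set_option autoImplicit false
set_option linter.unusedSimpArgs false
set_option linter.unusedVariables false
set_option linter.style.haveILetI false
set_option linter.unusedSectionVars false
open H86.Quad1 H86.FinSL H86.Quad2 H86.Quad3 H86.Quad4 H86.Quad5 H86.Quad6 H86.Quad7 H86.Quad8
open H86.Quad9 H86.Quad10 H86.Quad11 H86.Quad12 H86.Quad13 H86.Quad14 H86.Unip Polynomial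
open scoped commutatorElement

namespace H86.Quad15

universe u v

section main
variable {k : Type u} [Field k] [Good k] {M : Type v} [AddCommGroup M] [Module k M]
  [FiniteDimensional k M]
variable {G : Subgroup (LinearMap.GeneralLinearGroup k M)}

theorem conj_mem_root {A : Subgroup (LinearMap.GeneralLinearGroup k M)}
    (hA : A ∈ Cfsg.quadraticRootSubgroups G) {g : LinearMap.GeneralLinearGroup k M} (hg : g ∈ G) :
    Cfsg.conjBy A g ∈ Cfsg.quadraticRootSubgroups G := by
  obtain ⟨a, ha, rfl⟩ := mem_root_iff.1 hA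
  rw [conjBy_Esub ha hg]
  exact mem_root_iff.2 ⟨_, _, rfl⟩

theorem root_case (hG : Cfsg.IsIrreducibleFor G) {a b : Module.End k M} (h : NP G a b)
    (hne : a * b - b * a ≠ 0) {S : Set (Subgroup (LinearMap.GeneralLinearGroup k M))}
    (hS : Esub G _ (h.e_mem hne) ∈ S) :
    Cfsg.RootCommutatorCase S (Esub G a h.ha) (Esub G b h.hb) := by
  refine ⟨?_, ?_, ?_, ?_⟩
  · rw [commutator_eq hG h hne]; exact hS
  · intro c hc x hx
    rw [commutator_eq hG h hne] at hc
    have h2 := class_two hG h hne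
    have h3 : ⁅x, c⁆ ∈ (⊥ : Subgroup (LinearMap.GeneralLinearGroup k M)) := by
      rw [← h2.2, Subgroup.commutator_comm]
      refine Subgroup.commutator_mem_commutator hx ?_
      rw [← commutator_eq hG h hne] at hc
      exact Subgroup.commutator_mono le_sup_left le_sup_right hc
    rw [Subgroup.mem_bot, commutatorElement_eq_one_iff_mul_comm] at h3
    exact h3.symm
  · rintro _ ⟨x, hx, rfl⟩ hx1
    rw [commutator_eq hG h hne]
    exact closure_left hG h hne hx (fun h0 => hx1 (by rw [h0]; exact tv_zero))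
  · rintro _ ⟨x, hx, rfl⟩ hx1
    rw [commutator_eq hG h hne]
    exact closure_right hG h hne hx (fun h0 => hx1 (by rw [h0]; exact tv_zero))

theorem trichotomy (hG : Cfsg.IsIrreducibleFor G)
    {A B : Subgroup (LinearMap.GeneralLinearGroup k M)}
    (hA : A ∈ Cfsg.quadraticRootSubgroups G) (hB : B ∈ Cfsg.quadraticRootSubgroups G) :
    ⁅A, B⁆ = ⊥ ∨ Cfsg.IsRankOnePair A B ∨
      Cfsg.RootCommutatorCase (Cfsg.quadraticRootSubgroups G) A B := by
  obtain ⟨a, ha, rfl⟩ := mem_root_iff.1 hA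
  obtain ⟨b, hb, rfl⟩ := mem_root_iff.1 hB
  by_cases ho : Opp a b
  · right; left; exact isRankOnePair ha hb ho
  · have h := (np_iff ha hb).2 ho
    by_cases hc : a * b = b * a
    · left; exact commutator_eq_bot h hc
    · right; right
      exact root_case hG h (sub_ne_zero.2 hc) (mem_root_iff.2 ⟨_, _, rfl⟩)

/-- A rank one pair of members of `Σ` is opposite. -/
theorem opp_of_rankOne {a b : Module.End k M} (ha : a ∈ AAd G) (hb : b ∈ AAd G)
    (h : Cfsg.RankOneCondition (Esub G a ha) (Esub G b hb))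
    (hne : Esub G a ha ≠ Esub G b hb) : Opp a b := by
  by_contra ho
  have hnp := (np_iff ha hb).2 ho
  obtain ⟨_, ⟨y, hy, rfl⟩, hy1, he⟩ := h (tv a) ⟨a, self_mem_EE ha.1, rfl⟩
    (tv_ne_one ha.1.1 ha.2.1)
  have haG := AA_mem ha.1
  have hyG := AA_mem hy.1
  rw [conjBy_Esub ha (inv_mem hyG), conjBy_Esub hb (inv_mem haG)] at he
  have hEE := EE_of_Esub he
  have h1 : (((tv y)⁻¹ : (Module.End k M)ˣ) : Module.End k M) * a *
      ((((tv y)⁻¹)⁻¹ : (Module.End k M)ˣ) : Module.End k M) ∈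
      EE G ((((tv a)⁻¹ : (Module.End k M)ˣ) : Module.End k M) * b *
      ((((tv a)⁻¹)⁻¹ : (Module.End k M)ˣ) : Module.End k M)) := by
    rw [← hEE]; exact self_mem_EE (conj_mem_AA ha.1 (inv_mem hyG))
  have h2 := conj_EE h1 haG
  rw [conj_inv_conj (tv a) b] at h2
  -- `h2 : tv a * (y⁻¹ a y) * (tv a)⁻¹ ∈ EE b`
  rw [inv_inv, val_inv_tv hy.1.1, val_tv hy.1.1, val_inv_tv ha.1.1, val_tv ha.1.1] at h2
  have haya : a * (y * a) = 0 := by
    rw [← mul_assoc]; exact np_aba hnp (self_mem_EE ha.1) (self_mem_EE ha.1) hy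
  have hyay : y * (a * y) = 0 := by
    rw [← mul_assoc]; exact np_aba hnp.symm hy hy (self_mem_EE ha.1)
  have h3 : (1 + a) * ((1 - y) * a * (1 + y)) * (1 - a) = a + (a * y - y * a) := by
    simp only [mul_add, add_mul, mul_sub, sub_mul, mul_one, one_mul, mul_assoc, haya, hyay,
      ha.1.1, mul_zero, reassoc ha.1.1, zero_mul]
    abel
  rw [h3] at h2
  by_cases hc : a * y - y * a = 0
  · rw [hc, add_zero] at h2
    apply hne
    exact Esub_congr ha hb (EE_self h2 ha.2.1)
  · have hy0 : y ≠ 0 := fun h0 => hy1 (by rw [h0]; exact tv_zero)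
    have hnp' := hnp.ofEE (self_mem_EE ha.1) ha.2.1 hy hy0
    -- `a = z - e`, `z ∈ EE y`
    have hEEy : EE G y = EE G b := EE_self hy hy0
    rw [← hEEy] at h2
    apply hc
    have h4 : y * (a + (a * y - y * a)) = 0 := EE_mul hy.1.1 (self_mem_EE hy.1) h2
    have h5 : (a + (a * y - y * a)) * y = 0 := EE_mul hy.1.1 h2 (self_mem_EE hy.1)
    rw [mul_add, hnp'.be, add_zero] at h4
    rw [add_mul, hnp'.eb, add_zero] at h5
    rw [h4, h5, sub_zero]

theorem upper_eq (L : Type*) [Field L] : Cfsg.upperUnipotentSL2 L =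
    Subgroup.closure {g | ∃ b : L, g = u b} := by
  unfold Cfsg.upperUnipotentSL2
  congr 1
  ext g
  constructor
  · rintro ⟨h1, h2, h3⟩
    exact ⟨g.1 0 1, ext2 h2 rfl h1 h3⟩
  · rintro ⟨b, rfl⟩
    exact ⟨rfl, rfl, rfl⟩

theorem lower_eq (L : Type*) [Field L] : Cfsg.lowerUnipotentSL2 L =
    Subgroup.closure {g | ∃ b : L, g = v b} := by
  unfold Cfsg.lowerUnipotentSL2
  congr 1
  ext g
  constructor
  · rintro ⟨h1, h2, h3⟩
    exact ⟨g.1 1 0, ext2 h2 h1 rfl h3⟩
  · rintro ⟨b, rfl⟩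
    exact ⟨rfl, rfl, rfl⟩

theorem three_lt_card {L : Type*} [Field L] [Algebra k L] : 3 < ENat.card L := by
  by_contra hcon
  push Not at hcon
  have hfin : Finite L := by
    by_contra h
    haveI := not_finite_iff_infinite.1 h
    rw [ENat.card_eq_top_of_infinite] at hcon
    exact absurd hcon (by decide)
  haveI : Finite k := Finite.of_injective _ (algebraMap k L).injective
  have h1 : Nat.card k ≤ Nat.card L :=
    Nat.card_le_card_of_injective _ (algebraMap k L).injective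
  have h2 : Nat.card L ≤ 3 := by
    rw [ENat.card_eq_coe_natCard] at hcon
    exact_mod_cast hcon
  have h3 : Nat.card k ≠ 3 := Good.card
  have h4 : Nat.card k ≤ 2 := by omega
  -- `0, 1, -1` are distinct
  have h5 : 3 ≤ Nat.card k := by
    let f : Fin 3 → k := ![0, 1, -1]
    have hf : Function.Injective f := by
      have h2 : (2 : k) ≠ 0 := Good.two
      have e : (1 : k) ≠ -1 := by
        intro h
        apply h2
        have : (2 : k) = 1 + 1 := by norm_num
        rw [this]; nth_rw 2 [h]; ring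
      intro i j hij
      fin_cases i <;> fin_cases j <;> simp_all [f]
    have := Nat.card_le_card_of_injective f hf
    simpa using this
  omega

/-- An opposite pair contains an `SL₂`-pair. -/
theorem psl_pair {a b : Module.End k M} (ha : a ∈ AAd G) (hb : b ∈ AAd G) (h : Opp a b) :
    ∃ A₀ B₀ : Subgroup (LinearMap.GeneralLinearGroup k M), A₀ ≤ Esub G a ha ∧ B₀ ≤ Esub G b hb ∧
      ∃ (k₁ : Type u) (_ : Field k₁), 3 < ENat.card k₁ ∧ Cfsg.IsPSL2PairOver k₁ A₀ B₀ := by
  obtain ⟨D⟩ := star Good.two Good.card ha hb.1 ((opp_iff ha hb).1 h)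
  haveI : Fact (Irreducible D.F) := ⟨D.irr⟩
  refine ⟨(Cfsg.upperUnipotentSL2 (AdjoinRoot D.F)).map D.σ.Ψ,
    (Cfsg.lowerUnipotentSL2 (AdjoinRoot D.F)).map D.σ.Ψ, ?_, ?_, AdjoinRoot D.F, inferInstance,
    three_lt_card (k := k), D.σ.Ψ, ?_, ?_, rfl, rfl⟩
  · rw [Subgroup.map_le_iff_le_comap, upper_eq, Subgroup.closure_le]
    rintro _ ⟨x, rfl⟩
    show D.σ.Ψ (u x) ∈ Esub G a ha
    rw [D.σ.Ψ_u]
    refine ⟨_, mem_EE_of_le ha (SD.AA_a D ha.1 hb.1 x) ?_ ?_, rfl⟩
    · rw [← D.σ.ca]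
      rintro _ ⟨m, rfl⟩
      exact ⟨_, rfl⟩
    · intro m hm
      show D.σ.ρ x (a m) = 0
      rw [show a m = 0 from hm, map_zero]
  · rw [Subgroup.map_le_iff_le_comap, lower_eq, Subgroup.closure_le]
    rintro _ ⟨x, rfl⟩
    show D.σ.Ψ (v x) ∈ Esub G b hb
    rw [D.σ.Ψ_v]
    refine ⟨_, mem_EE_of_le hb (SD.AA_t D ha.1 hb.1 _) ?_ ?_, rfl⟩
    · rw [← D.σ.ct]
      rintro _ ⟨m, rfl⟩
      exact ⟨_, rfl⟩
    · intro m hm
      show D.σ.ρ _ (b m) = 0
      rw [show b m = 0 from hm, map_zero]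
  · rw [← Subgroup.map_sup, MonoidHom.range_eq_map]
    congr 1
    symm
    apply FinSL.eq_top_of
    · intro b
      apply Subgroup.mem_sup_left
      rw [upper_eq]; exact Subgroup.subset_closure ⟨b, rfl⟩
    · intro b
      apply Subgroup.mem_sup_right
      rw [lower_eq]; exact Subgroup.subset_closure ⟨b, rfl⟩
  · rw [(MonoidHom.ker_eq_bot_iff _).2 (Sys.Ψ_injective D.σ (faith_a D.σ D.inj))]
    exact bot_le

theorem jn_le_G : (⨆ B ∈ Cfsg.quadraticRootSubgroups G, B) ≤ G := by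
  apply iSup₂_le
  intro B hB
  obtain ⟨b, hb, rfl⟩ := mem_root_iff.1 hB
  exact Esub_le hb

/-- a partner of a member of `Σ` -/
theorem exists_partner (hG : Cfsg.IsIrreducibleFor G)
    {A : Subgroup (LinearMap.GeneralLinearGroup k M)} (hA : A ∈ Cfsg.quadraticRootSubgroups G) :
    ∃ B ∈ Cfsg.quadraticRootSubgroups G, Cfsg.IsRankOnePair A B := by
  obtain ⟨a, ha, rfl⟩ := mem_root_iff.1 hA
  obtain ⟨g, hg, ho⟩ := exists_opp hG ha
  exact ⟨_, mem_root_iff.2 ⟨_, conj_mem_AAd ha hg, rfl⟩, isRankOnePair ha _ ho⟩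

end main

end H86.Quad15
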