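import Cfsg.Agent.Lib.H86.Quad15

/-!
Quadratic pairs: every quadratic element is a product of commuting elements of `𝒬_d` and an
element centralizing `⟨Σ⟩`.
-/

set_option autoImplicit false
set_option linter.unusedSimpArgs false
set_option linter.unusedVariables false
set_option linter.style.haveILetI false
set_option linter.unusedSectionVars false
open H86.Quad1 H86.FinSL H86.Quad2 H86.Quad3 H86.Quad4 H86.Quad5 H86.Quad6 H86.Quad7 H86.Quad8
open H86.Quad9 H86.Quad10 H86.Quad11 H86.Quad12 H86.Quad13 H86.Quad14 H86.Quad15 H86.Unip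
open Polynomial
open scoped commutatorElement

namespace H86.Quad16

universe u v

section main
variable {k : Type u} [Field k] [Good k] {M : Type v} [AddCommGroup M] [Module k M]
  [FiniteDimensional k M]
variable {G : Subgroup (LinearMap.GeneralLinearGroup k M)}

theorem rk_mid (x a y : Module.End k M) : rk (x * a * y) ≤ rk a := by
  unfold rk
  have h1 : LinearMap.range (x * a * y) ≤ (LinearMap.range a).map x := by
    rintro _ ⟨m, rfl⟩
    exact ⟨a (y m), ⟨_, rfl⟩, rfl⟩
  exact (Submodule.finrank_mono h1).trans (Submodule.finrank_map_le x _)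

theorem AAd_of_rk_le {a t : Module.End k M} (ha : a ∈ AAd G) (ht : t ∈ AA G) (h0 : t ≠ 0)
    (h : rk t ≤ rk a) : t ∈ AAd G := ⟨ht, h0, fun b hb hb0 => h.trans (ha.2.2 b hb hb0)⟩

/-- Splitting off an element of `AAd G` opposite to `a`. -/
theorem split {a t : Module.End k M} (ha : a ∈ AAd G) (ht : t ∈ AA G)
    (hn : ¬ IsNilpotent (a * t)) : ∃ t₁ ∈ AAd G, t - t₁ ∈ AA G ∧ t₁ * (t - t₁) = 0 ∧
      (t - t₁) * t₁ = 0 ∧ rk (t - t₁) < rk t ∧ Opp a t₁ := by
  obtain ⟨D⟩ := star Good.two Good.card ha ht hn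
  haveI := SD.nontrivial D
  set ε := D.σ.ρ 1 with hε
  have hεε : ε * ε = ε := by rw [hε, ← D.σ.mul, one_mul]
  have hct : t * ε = ε * t := D.σ.ct 1
  have h1 : ε * t ∈ AA G := SD.AA_t D ha.1 ht 1
  have h2 : ε * t ≠ 0 := fun h => one_ne_zero (faith_t D.σ D.inj 1 h)
  have h3 : ε * t = D.σ.ρ ((D.l⁻¹ : (AdjoinRoot D.F)ˣ)) * t * a * t := by
    have := D.σ.tat ((D.l⁻¹ : (AdjoinRoot D.F)ˣ))
    rw [Units.inv_mul] at this
    rw [hε, ← this]; simp only [mul_assoc]
  have h4 : ε * t ∈ AAd G := by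
    apply AAd_of_rk_le ha h1 h2
    rw [h3]; exact rk_mid _ a t
  have h5 : t * (ε * t) = 0 := by rw [← mul_assoc, hct, mul_assoc, ht.1, mul_zero]
  have h6 : (ε * t) * t = 0 := by rw [mul_assoc, ht.1, mul_zero]
  refine ⟨ε * t, h4, sub_mem_AA ht h1 h5 h6, ?_, ?_, ?_, ?_⟩
  · rw [mul_sub, h6, h1.1, sub_zero]
  · rw [sub_mul, h5, h1.1, sub_zero]
  · have hd : Disjoint (LinearMap.range (ε * t)) (LinearMap.range (t - ε * t)) := by
      rw [Submodule.disjoint_def]
      rintro _ ⟨x, rfl⟩ ⟨y, hy⟩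
      have e1 : ε ((ε * t) x) = (ε * t) x := by
        show (ε * ε) (t x) = _
        rw [hεε]; rfl
      rw [← e1, ← hy]
      show ε (t y - ε (t y)) = 0
      rw [map_sub]
      have : ε (ε (t y)) = ε (t y) := by
        show (ε * ε) (t y) = _
        rw [hεε]
      rw [this, sub_self]
    have hle : LinearMap.range (ε * t) ⊔ LinearMap.range (t - ε * t) ≤ LinearMap.range t := by
      apply sup_le
      · rw [← hct]; rintro _ ⟨x, rfl⟩; exact ⟨_, rfl⟩
      · rintro _ ⟨x, rfl⟩
        rw [LinearMap.sub_apply]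
        refine Submodule.sub_mem _ ⟨_, rfl⟩ ?_
        rw [← hct]; exact ⟨_, rfl⟩
    have e1 := Submodule.finrank_mono hle
    have e2 := Submodule.finrank_sup_add_finrank_inf_eq (LinearMap.range (ε * t))
      (LinearMap.range (t - ε * t))
    rw [hd.eq_bot, finrank_bot] at e2
    have e3 := rk_pos h2
    unfold rk at *
    omega
  · obtain ⟨t', ht', hip⟩ : ∃ t' ∈ EE G (ε * t), IP a t' := by
      refine ⟨D.σ.ρ ((D.l⁻¹ : (AdjoinRoot D.F)ˣ)) * t, ?_, ?_⟩
      · apply mem_EE_of_le h4 (SD.AA_t D ha.1 ht _)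
        · rw [← D.σ.ct]
          rintro _ ⟨m, rfl⟩
          refine ⟨D.σ.ρ ((D.l⁻¹ : (AdjoinRoot D.F)ˣ)) m, ?_⟩
          show (ε * t * D.σ.ρ _) m = (t * D.σ.ρ _) m
          rw [← hct, mul_assoc, hε, ← D.σ.mul, one_mul]
        · intro m hm
          have : D.σ.ρ ((D.l⁻¹ : (AdjoinRoot D.F)ˣ)) * t =
              D.σ.ρ ((D.l⁻¹ : (AdjoinRoot D.F)ˣ)) * (ε * t) := by
            rw [← mul_assoc, hε, ← D.σ.mul, mul_one]
          rw [this]
          show D.σ.ρ _ ((ε * t) m) = 0
          rw [show (ε * t) m = 0 from hm, map_zero]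
      · refine ⟨ha.1.1, D.σ.sqt _, ?_, ?_⟩
        · rw [← mul_assoc, D.σ.ca, mul_assoc, mul_assoc, ← mul_assoc a, D.σ.ata, Units.inv_mul,
            D.one_a]
        · have h1 : D.σ.ρ ((D.l⁻¹ : (AdjoinRoot D.F)ˣ)) * t * a *
              (D.σ.ρ ((D.l⁻¹ : (AdjoinRoot D.F)ˣ)) * t) =
              D.σ.ρ ((D.l⁻¹ : (AdjoinRoot D.F)ˣ)) *
                (D.σ.ρ ((D.l⁻¹ : (AdjoinRoot D.F)ˣ)) * (t * a * t)) := by
            rw [mul_assoc (D.σ.ρ _) t a, mul_assoc (D.σ.ρ _) (t * a),
              ← mul_assoc (t * a) (D.σ.ρ _) t, D.σ.cta, mul_assoc (D.σ.ρ _) (t * a) t]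
          rw [h1, D.σ.tat, ← mul_assoc, ← D.σ.mul]
          congr 2
          rw [Units.inv_mul, mul_one]
    exact hip.opp.congr rfl rfl (EE_range ht' (hip.ne_zero ha.2.1)).symm
      (EE_ker ht' (hip.ne_zero ha.2.1)).symm

/-- The elements orthogonal to all of `AAd G`. -/
def TT (G : Subgroup (LinearMap.GeneralLinearGroup k M)) : Set (Module.End k M) :=
  {x | ∀ a ∈ AAd G, a * x * a = 0}

theorem TT_sub {x y : Module.End k M} (hx : x ∈ TT G) (hy : y ∈ TT G) : x - y ∈ TT G := by
  intro a ha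
  rw [mul_sub, sub_mul, hx a ha, hy a ha, sub_zero]

theorem TT_add {x y : Module.End k M} (hx : x ∈ TT G) (hy : y ∈ TT G) : x + y ∈ TT G := by
  intro a ha
  rw [mul_add, add_mul, hx a ha, hy a ha, add_zero]

theorem TT_smul {x : Module.End k M} (s : k) (hx : x ∈ TT G) : s • x ∈ TT G := by
  intro a ha
  rw [mul_smul_comm, smul_mul_assoc, hx a ha, smul_zero]

theorem TT_conj {x : Module.End k M} (hx : x ∈ TT G) {g : LinearMap.GeneralLinearGroup k M}
    (hg : g ∈ G) : (g : Module.End k M) * x * ((g⁻¹ : (Module.End k M)ˣ) : Module.End k M) ∈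
      TT G := by
  intro a ha
  have h1 := hx _ (conj_mem_AAd ha (inv_mem hg))
  rw [inv_inv] at h1
  have hinv : (g : Module.End k M) * ((g⁻¹ : (Module.End k M)ˣ) : Module.End k M) = 1 :=
    Units.mul_inv g
  have h2 : a * ((g : Module.End k M) * x * ((g⁻¹ : (Module.End k M)ˣ) : Module.End k M)) * a =
      (g : Module.End k M) * (((g⁻¹ : (Module.End k M)ˣ) : Module.End k M) * a *
        (g : Module.End k M) * x * (((g⁻¹ : (Module.End k M)ˣ) : Module.End k M) * a *
        (g : Module.End k M))) * ((g⁻¹ : (Module.End k M)ˣ) : Module.End k M) := by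
    simp only [mul_assoc, reassoc hinv, one_mul, hinv, mul_one]
  rw [h2, h1, mul_zero, zero_mul]

theorem half_mem_AA {x : Module.End k M} (h : (2 : k) • x ∈ AA G) : x ∈ AA G := by
  have := smul_mem_AA h (2 : k)⁻¹
  rwa [smul_smul, inv_mul_cancel₀ Good.two, one_smul] at this

theorem half_mem_TT {x : Module.End k M} (h : (2 : k) • x ∈ TT G) : x ∈ TT G := by
  have := TT_smul (2 : k)⁻¹ h
  rwa [smul_smul, inv_mul_cancel₀ Good.two, one_smul] at this

/-- For `t ∈ AA ∩ TT`, `a ∈ AAd`: `tat` and `[t,a]` lie in `AA`. -/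
theorem tat_mem {t a : Module.End k M} (ht : t ∈ AA G) (hT : t ∈ TT G) (ha : a ∈ AAd G) :
    t * a * t ∈ AA G ∧ t * a - a * t ∈ AA G := by
  have htt := ht.1
  have haa := ha.1.1
  have hata : a * (t * a) = 0 := by rw [← mul_assoc]; exact hT a ha
  have hata' : ∀ z, a * (t * (a * z)) = 0 := fun z => by
    have := congrArg (fun x => x * z) hata
    simpa only [mul_assoc, zero_mul] using this
  have hs : ∀ s : k, s • (t * a - a * t) - (s * s) • (t * a * t) ∈ AA G := by
    intro s
    have h1 := conj_mem_AA ha.1 (ht.2 s)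
    rw [Quad7.conj_formula htt] at h1
    have h2 := sub_mem_AA h1 ha.1
      (by simp only [mul_add, add_mul, mul_sub, sub_mul, mul_assoc, smul_mul_assoc, mul_smul_comm,
            haa, hata, hata', reassoc haa, zero_mul, mul_zero, smul_zero, sub_zero, add_zero,
            smul_sub, sub_self])
      (by simp only [mul_add, add_mul, mul_sub, sub_mul, mul_assoc, smul_mul_assoc, mul_smul_comm,
            haa, hata, hata', mul_zero, smul_zero, sub_zero, add_zero, smul_sub, sub_self,
            reassoc haa, zero_mul])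
    convert h2 using 1
    abel
  have h1 := hs 1
  have h2 := hs (-1)
  have e1 : ((1 : k) • (t * a - a * t) - ((1 : k) * 1) • (t * a * t)) *
      ((-1 : k) • (t * a - a * t) - ((-1 : k) * -1) • (t * a * t)) = 0 := by
    simp only [mul_add, add_mul, mul_sub, sub_mul, mul_assoc, smul_mul_assoc, mul_smul_comm,
      haa, htt, hata, hata', mul_zero, smul_zero, sub_zero, add_zero, smul_sub, sub_self,
      reassoc haa, reassoc htt, zero_mul, zero_sub, neg_zero, smul_neg, one_smul, mul_one,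
      one_mul]
  have e2 : ((-1 : k) • (t * a - a * t) - ((-1 : k) * -1) • (t * a * t)) *
      ((1 : k) • (t * a - a * t) - ((1 : k) * 1) • (t * a * t)) = 0 := by
    simp only [mul_add, add_mul, mul_sub, sub_mul, mul_assoc, smul_mul_assoc, mul_smul_comm,
      haa, htt, hata, hata', mul_zero, smul_zero, sub_zero, add_zero, smul_sub, sub_self,
      reassoc haa, reassoc htt, zero_mul, zero_sub, neg_zero, smul_neg, one_smul, mul_one,
      one_mul]
  constructor
  · have h3 := add_mem_AA h1 h2 e1 e2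
    have h4 := neg_mem_AA h3
    apply half_mem_AA
    convert h4 using 1
    module
  · have h3 := sub_mem_AA h1 h2 e1 e2
    apply half_mem_AA
    convert h3 using 1
    module

theorem bracket_TT {t a : Module.End k M} (hT : t ∈ TT G) (ha : a ∈ AAd G) :
    t * a - a * t ∈ TT G := by
  have h1 := TT_conj hT (AA_mem ha.1)
  rw [val_tv ha.1.1, val_inv_tv ha.1.1] at h1
  have h2 := TT_sub hT h1
  convert h2 using 1
  have := hT a ha
  rw [mul_assoc] at this
  simp only [mul_add, add_mul, mul_sub, sub_mul, one_mul, mul_one, mul_assoc, this]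
  abel

theorem tat_TT {t a : Module.End k M} (ht : t ∈ AA G) (hT : t ∈ TT G) (ha : a ∈ AAd G) :
    t * a * t ∈ TT G := by
  have h1 := bracket_TT hT ha
  have h2 := TT_conj h1 (AA_mem ht)
  rw [val_tv ht.1, val_inv_tv ht.1] at h2
  have h3 := TT_sub h1 h2
  apply half_mem_TT
  convert h3 using 1
  have htt := ht.1
  simp only [mul_add, add_mul, mul_sub, sub_mul, one_mul, mul_one, mul_assoc, htt, reassoc htt,
    mul_zero, zero_mul]
  module

theorem not_AAd_TT (hG : Cfsg.IsIrreducibleFor G) {x : Module.End k M} (hx : x ∈ AAd G)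
    (hT : x ∈ TT G) : False := by
  obtain ⟨g, hg, ho⟩ := exists_opp hG hx
  have h2 := conj_mem_AAd hx hg
  apply (opp_iff hx h2).1 ho
  refine nilp_symm ⟨2, ?_⟩
  rw [pow_two, ← mul_assoc, hT _ h2, zero_mul]

theorem tat_zero (hG : Cfsg.IsIrreducibleFor G) {t a : Module.End k M} (ht : t ∈ AA G)
    (hT : t ∈ TT G) (ha : a ∈ AAd G) : t * a * t = 0 := by
  by_contra hne
  refine not_AAd_TT hG ?_ (tat_TT ht hT ha)
  exact AAd_of_rk_le ha (tat_mem ht hT ha).1 hne (rk_mid t a t)

/-- the group `1 + k x` -/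
def line (x : Module.End k M) (hx : x * x = 0) : Subgroup (LinearMap.GeneralLinearGroup k M) where
  carrier := {g | ∃ s : k, g = tv (s • x)}
  one_mem' := ⟨0, by rw [zero_smul, tv_zero]⟩
  mul_mem' := by
    rintro _ _ ⟨s, rfl⟩ ⟨r, rfl⟩
    refine ⟨s + r, ?_⟩
    rw [add_smul, tv_add (smul_sq s hx) (smul_sq r hx)]
    · rw [smul_mul_smul_comm, hx, smul_zero]
    · rw [smul_mul_smul_comm, hx, smul_zero]
  inv_mem' := by
    rintro _ ⟨s, rfl⟩
    exact ⟨-s, by rw [inv_tv (smul_sq s hx), neg_smul]⟩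

theorem conj_smul (g : LinearMap.GeneralLinearGroup k M) (s : k) (x : Module.End k M) :
    (g : Module.End k M) * (s • x) * ((g⁻¹ : (Module.End k M)ˣ) : Module.End k M) =
      s • ((g : Module.End k M) * x * ((g⁻¹ : (Module.End k M)ˣ) : Module.End k M)) := by
  rw [mul_smul_comm, smul_mul_assoc]

theorem conj_conj (g h : LinearMap.GeneralLinearGroup k M) (x : Module.End k M) :
    (g : Module.End k M) * ((h : Module.End k M) * x *
      ((h⁻¹ : (Module.End k M)ˣ) : Module.End k M)) *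
      ((g⁻¹ : (Module.End k M)ˣ) : Module.End k M) =
    ((g * h : (Module.End k M)ˣ) : Module.End k M) * x *
      (((g * h)⁻¹ : (Module.End k M)ˣ) : Module.End k M) := by
  rw [mul_inv_rev, Units.val_mul, Units.val_mul]
  simp only [mul_assoc]

/-- If `e ∈ AA G` and `e · geg⁻¹ · e = 0` for all `g ∈ G` then `e = 0`. -/
theorem zero_of_orth (hG : Cfsg.IsIrreducibleFor G) {e : Module.End k M} (he : e ∈ AA G)
    (h : ∀ g ∈ G, e * ((g : Module.End k M) * e * ((g⁻¹ : (Module.End k M)ˣ) : Module.End k M)) *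
      e = 0) : e = 0 := by
  let W : Set (Subgroup (LinearMap.GeneralLinearGroup k M)) :=
    {A | ∃ g ∈ G, A = line _ (conj_sq g he.1)}
  have hW : Cfsg.IsUnipotentOn (jn W) := by
    apply baer_suzuki
    · rintro _ ⟨g, hg, rfl⟩ _ ⟨g', hg', rfl⟩
      have h1 : Cfsg.IsUnipotentOn (pairGroup k
          ((g : Module.End k M) * e * ((g⁻¹ : (Module.End k M)ˣ) : Module.End k M))
          ((g' : Module.End k M) * e * ((g'⁻¹ : (Module.End k M)ˣ) : Module.End k M))) := by
        apply unip_pair (conj_sq g he.1) (conj_sq g' he.1)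
        refine ⟨2, ?_⟩
        have h2 := h (g⁻¹ * g') (mul_mem (inv_mem hg) hg')
        have h3 : (g : Module.End k M) * e * ((g⁻¹ : (Module.End k M)ˣ) : Module.End k M) *
            ((g' : Module.End k M) * e * ((g'⁻¹ : (Module.End k M)ˣ) : Module.End k M)) *
            ((g : Module.End k M) * e * ((g⁻¹ : (Module.End k M)ˣ) : Module.End k M)) =
            (g : Module.End k M) * (e * (((g⁻¹ * g' : (Module.End k M)ˣ) : Module.End k M) * e *
              (((g⁻¹ * g')⁻¹ : (Module.End k M)ˣ) : Module.End k M)) * e) *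
              ((g⁻¹ : (Module.End k M)ˣ) : Module.End k M) := by
          rw [mul_inv_rev, inv_inv, Units.val_mul, Units.val_mul]
          simp only [mul_assoc]
        rw [pow_two, ← mul_assoc, h3, h2, mul_zero, zero_mul, zero_mul]
      refine mono ?_ h1
      apply sup_le
      · rintro _ ⟨s, rfl⟩; exact left_mem _ _ s
      · rintro _ ⟨s, rfl⟩; exact right_mem _ _ s
    · rintro _ ⟨g, hg, rfl⟩ x hx _ ⟨g', hg', rfl⟩
      have hxG : x ∈ G := by
        obtain ⟨s, rfl⟩ := hx
        exact (conj_mem_AA he hg).2 s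
      refine ⟨x * g', mul_mem hxG hg', ?_⟩
      ext y
      rw [Unip.mem_conjBy]
      constructor
      · rintro ⟨s, hs⟩
        refine ⟨s, ?_⟩
        have : y = x * (x⁻¹ * y * x) * x⁻¹ := by group
        rw [this, hs, conj_tv x (smul_sq s (conj_sq g' he.1)), conj_smul, conj_conj]
      · rintro ⟨s, rfl⟩
        refine ⟨s, ?_⟩
        rw [← conj_conj, ← conj_smul, ← conj_tv x (smul_sq s (conj_sq g' he.1))]
        group
  have hN : ∀ g ∈ G, ∀ h ∈ jn W, g * h * g⁻¹ ∈ jn W := by
    intro g hg h hh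
    refine jn_induction (P := fun h => g * h * g⁻¹ ∈ jn W) ?_ ?_ ?_ hh
    · rintro _ ⟨g', hg', rfl⟩ _ ⟨s, rfl⟩
      apply le_jn (D := W) (A := line _ (conj_sq (g * g') he.1)) ⟨g * g', mul_mem hg hg', rfl⟩
      exact ⟨s, by rw [conj_tv g (smul_sq s (conj_sq g' he.1)), conj_smul, conj_conj]⟩
    · simp
    · intro x y hx hy
      have : g * (x * y) * g⁻¹ = (g * x * g⁻¹) * (g * y * g⁻¹) := by group
      rw [this]; exact mul_mem hx hy
  have hbot := normal_unip_trivial hG hN hW
  have h1 : (tv ((1 : k) • (((1 : LinearMap.GeneralLinearGroup k M) : Module.End k M) * e *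
      (((1 : LinearMap.GeneralLinearGroup k M)⁻¹ : (Module.End k M)ˣ) : Module.End k M))) :
      LinearMap.GeneralLinearGroup k M) ∈ jn W :=
    le_jn (D := W) (A := line _ (conj_sq 1 he.1)) ⟨1, one_mem _, rfl⟩ ⟨1, rfl⟩
  rw [hbot, Subgroup.mem_bot, one_smul, inv_one, Units.val_one, one_mul, mul_one] at h1
  exact (tv_eq_one_iff he.1).1 h1

/-- Elements of `AA ∩ TT` centralize `AAd`. -/
theorem comm_of_TT (hG : Cfsg.IsIrreducibleFor G) {t a : Module.End k M} (ht : t ∈ AA G)
    (hT : t ∈ TT G) (ha : a ∈ AAd G) : t * a = a * t := by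
  rw [← sub_eq_zero]
  have he := (tat_mem ht hT ha).2
  have heT := bracket_TT hT ha
  apply zero_of_orth hG he
  intro g hg
  -- `e = a₁ - a`
  have h1 := conj_mem_AAd ha (AA_mem ht)
  have h2 := conj_mem_AAd h1 hg
  have h3 := conj_mem_AAd ha hg
  have h4 := tat_zero hG he heT h2
  have h5 := tat_zero hG he heT h3
  have e1 : t * a - a * t = ((tv t : (Module.End k M)ˣ) : Module.End k M) * a *
      (((tv t)⁻¹ : (Module.End k M)ˣ) : Module.End k M) - a := by
    have h6 := tat_zero hG ht hT ha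
    rw [mul_assoc] at h6
    rw [val_tv ht.1, val_inv_tv ht.1]
    simp only [mul_add, add_mul, mul_sub, sub_mul, one_mul, mul_one, mul_assoc, h6]
    abel
  have e2 : (g : Module.End k M) * (t * a - a * t) *
      ((g⁻¹ : (Module.End k M)ˣ) : Module.End k M) =
      (g : Module.End k M) * (((tv t : (Module.End k M)ˣ) : Module.End k M) * a *
      (((tv t)⁻¹ : (Module.End k M)ˣ) : Module.End k M)) *
      ((g⁻¹ : (Module.End k M)ˣ) : Module.End k M) -
      (g : Module.End k M) * a * ((g⁻¹ : (Module.End k M)ˣ) : Module.End k M) := by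
    rw [e1, mul_sub, sub_mul]
  rw [e2, mul_sub (t * a - a * t), sub_mul _ _ (t * a - a * t), h4, h5, sub_zero]

/-- Decomposition of quadratic elements. -/
theorem decomp (hG : Cfsg.IsIrreducibleFor G) (P : LinearMap.GeneralLinearGroup k M → Prop)
    (h1 : ∀ a ∈ AAd G, P (tv a)) (h2 : ∀ t ∈ AA G, t ∈ TT G → P (tv t))
    (h3 : ∀ x y, P x → P y → P (x * y)) : ∀ t ∈ AA G, P (tv t) := by
  have key : ∀ n : ℕ, ∀ t ∈ AA G, rk t ≤ n → P (tv t) := by
    intro n
    induction n with
    | zero =>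
      intro t ht hr
      have : t = 0 := by
        by_contra h
        have := rk_pos h
        omega
      subst this
      exact h2 0 ht (fun a _ => by simp)
    | succ n ih =>
      intro t ht hr
      by_cases hT : t ∈ TT G
      · exact h2 t ht hT
      · have : ∃ a ∈ AAd G, ¬ IsNilpotent (a * t) := by
          by_contra hcon
          push Not at hcon
          exact hT fun a ha => claim ha ht (hcon a ha)
        obtain ⟨a, ha, hn⟩ := this
        obtain ⟨t₁, e1, e2, e3, e4, e5, e6⟩ := split ha ht hn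
        have e7 : (tv t : LinearMap.GeneralLinearGroup k M) = tv t₁ * tv (t - t₁) := by
          rw [← tv_add e1.1.1 e2.1 e3 e4]; congr 1; abel
        rw [e7]
        exact h3 _ _ (h1 t₁ e1) (ih _ e2 (by omega))
  intro t ht
  exact key _ t ht le_rfl

theorem tv_comm_of {x y : Module.End k M} (hx : x * x = 0) (hy : y * y = 0) (h : x * y = y * x) :
    (tv x : LinearMap.GeneralLinearGroup k M) * tv y = tv y * tv x := by
  ext1
  rw [Units.val_mul, Units.val_mul, val_tv hx, val_tv hy]
  simp only [mul_add, add_mul, one_mul, mul_one, h]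
  abel

theorem TT_centralizes (hG : Cfsg.IsIrreducibleFor G) {t : Module.End k M} (ht : t ∈ AA G)
    (hT : t ∈ TT G) : (tv t : LinearMap.GeneralLinearGroup k M) ∈ Subgroup.centralizer
      ((⨆ A ∈ Cfsg.quadraticRootSubgroups G, A : Subgroup (LinearMap.GeneralLinearGroup k M)) :
        Set (LinearMap.GeneralLinearGroup k M)) := by
  have : (⨆ A ∈ Cfsg.quadraticRootSubgroups G, A : Subgroup (LinearMap.GeneralLinearGroup k M)) ≤
      Subgroup.centralizer {(tv t : LinearMap.GeneralLinearGroup k M)} := by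
    apply iSup₂_le
    intro A hA
    obtain ⟨a, ha, rfl⟩ := mem_root_iff.1 hA
    rintro _ ⟨b, hb, rfl⟩
    rw [Subgroup.mem_centralizer_singleton_iff]
    by_cases hb0 : b = 0
    · subst hb0; rw [tv_zero]; simp
    · have hB := mem_AAd_of_EE ha hb hb0
      exact tv_comm_of hb.1.1 ht.1 (comm_of_TT hG ht hT hB).symm
  rw [Subgroup.mem_centralizer_iff]
  intro h hh
  have := Subgroup.mem_centralizer_singleton_iff.1 (this hh)
  exact this

end main

end H86.Quad16
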