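import Cfsg.Agent.Lib.H86.Quad16

/-!
Quadratic pairs: the connectivity components of `Σ`.
-/

set_option autoImplicit false
set_option linter.unusedSimpArgs false
set_option linter.unusedVariables false
set_option linter.style.haveILetI false
set_option linter.unusedSectionVars false
open H86.Quad1 H86.FinSL H86.Quad2 H86.Quad3 H86.Quad4 H86.Quad5 H86.Quad6 H86.Quad7 H86.Quad8
open H86.Quad9 H86.Quad10 H86.Quad11 H86.Quad12 H86.Quad13 H86.Quad14 H86.Quad15 H86.Quad16
open H86.Unip Polynomial
open scoped commutatorElement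

namespace H86.Quad17

universe u v

section main
variable {k : Type u} [Field k] [Good k] {M : Type v} [AddCommGroup M] [Module k M]
  [FiniteDimensional k M]
variable {G : Subgroup (LinearMap.GeneralLinearGroup k M)}

/-- adjacency -/
def Adj (G : Subgroup (LinearMap.GeneralLinearGroup k M)) (a b : Module.End k M) : Prop :=
  a ∈ AAd G ∧ b ∈ AAd G ∧ Opp a b

/-- connectedness -/
def Con (G : Subgroup (LinearMap.GeneralLinearGroup k M)) (a b : Module.End k M) : Prop :=
  Relation.ReflTransGen (Adj G) a b

theorem Adj.symm {a b : Module.End k M} (h : Adj G a b) : Adj G b a := ⟨h.2.1, h.1, h.2.2.symm⟩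

theorem Con.symm {a b : Module.End k M} (h : Con G a b) : Con G b a := by
  induction h with
  | refl => exact Relation.ReflTransGen.refl
  | tail _ h ih => exact Relation.ReflTransGen.head h.symm ih

theorem conj_fix {e b : Module.End k M} (h1 : b * e = 0) (h2 : e * b = 0) (hb : b * b = 0)
    (r : k) : ((tv (r • b) : (Module.End k M)ˣ) : Module.End k M) * e *
      (((tv (r • b))⁻¹ : (Module.End k M)ˣ) : Module.End k M) = e := by
  rw [val_tv (smul_sq r hb), val_inv_tv (smul_sq r hb)]
  rw [add_mul, one_mul, smul_mul_assoc, h1, smul_zero, add_zero, mul_sub, mul_one,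
    mul_smul_comm, h2, smul_zero, sub_zero]

theorem Con.trans {a b c : Module.End k M} (h : Con G a b) (h' : Con G b c) : Con G a c :=
  Relation.ReflTransGen.trans h h'

theorem Con.refl (a : Module.End k M) : Con G a a := Relation.ReflTransGen.refl

theorem con_of_opp {a b : Module.End k M} (ha : a ∈ AAd G) (hb : b ∈ AAd G) (h : Opp a b) :
    Con G a b := Relation.ReflTransGen.single ⟨ha, hb, h⟩

theorem Con.mem {a b : Module.End k M} (h : Con G a b) (ha : a ∈ AAd G) : b ∈ AAd G := by
  induction h with
  | refl => exact ha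
  | tail _ h _ => exact h.2.1

theorem opp_conj (g : LinearMap.GeneralLinearGroup k M) {x y : Module.End k M} (h : Opp x y) :
    Opp ((g : Module.End k M) * x * ((g⁻¹ : (Module.End k M)ˣ) : Module.End k M))
      ((g : Module.End k M) * y * ((g⁻¹ : (Module.End k M)ˣ) : Module.End k M)) := by
  unfold Opp
  rw [range_conj, ker_conj, range_conj, ker_conj]
  exact ⟨Submodule.disjoint_map (unit_inj g) h.1, Submodule.disjoint_map (unit_inj g) h.2⟩

theorem Con.conj {a b : Module.End k M} (h : Con G a b)
    {g : LinearMap.GeneralLinearGroup k M} (hg : g ∈ G) :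
    Con G ((g : Module.End k M) * a * ((g⁻¹ : (Module.End k M)ˣ) : Module.End k M))
      ((g : Module.End k M) * b * ((g⁻¹ : (Module.End k M)ˣ) : Module.End k M)) := by
  induction h with
  | refl => exact Con.refl _
  | tail _ h ih =>
    exact ih.trans (con_of_opp (conj_mem_AAd h.1 hg) (conj_mem_AAd h.2.1 hg) (opp_conj g h.2.2))

theorem con_EE (hG : Cfsg.IsIrreducibleFor G) {a b : Module.End k M} (ha : a ∈ AAd G)
    (hb : b ∈ EE G a) (hb0 : b ≠ 0) : Con G a b := by
  obtain ⟨g, hg, ho⟩ := exists_opp hG ha
  have h1 := conj_mem_AAd ha hg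
  exact (con_of_opp ha h1 ho).trans (con_of_opp h1 (mem_AAd_of_EE ha hb hb0)
    (ho.congr (EE_range hb hb0) (EE_ker hb hb0) rfl rfl).symm)

/-- The connectivity lemma. -/
theorem conn (hG : Cfsg.IsIrreducibleFor G) {a b : Module.End k M} (h : NP G a b)
    (hne : a * b - b * a ≠ 0) : Con G a (a * b - b * a) := by
  have he := h.e_mem hne
  obtain ⟨g₀, hg₀, hopp⟩ := exists_opp hG he
  obtain ⟨c, hcE, hc0, hip⟩ := exists_ip he (conj_mem_AAd he hg₀) hopp
  have hc := mem_AAd_of_EE (conj_mem_AAd he hg₀) hcE hc0
  have hrel := NP.rel h hne hip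
  by_contra hcon
  have hbb := h.hb.1.1
  -- conjugates of `c` by `1 + r b`
  have key : ∀ r : k, a * (((tv (r • b) : (Module.End k M)ˣ) : Module.End k M) * c *
      (((tv (r • b))⁻¹ : (Module.End k M)ˣ) : Module.End k M)) * a = 0 := by
    intro r
    have hgG := h.hb.1.2 r
    have hc' := conj_mem_AAd hc hgG
    by_contra hne'
    apply hcon
    have ho1 : Opp a (((tv (r • b) : (Module.End k M)ˣ) : Module.End k M) * c *
      (((tv (r • b))⁻¹ : (Module.End k M)ˣ) : Module.End k M)) := by
      by_contra hno
      exact hne' ((np_iff h.ha hc').2 hno).aba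
    have ho2 := opp_conj (tv (r • b)) hip.opp
    have e1 : ((tv (r • b) : (Module.End k M)ˣ) : Module.End k M) * (a * b - b * a) *
      (((tv (r • b))⁻¹ : (Module.End k M)ˣ) : Module.End k M) = a * b - b * a :=
      conj_fix h.be h.eb hbb r
    rw [e1] at ho2
    exact (con_of_opp h.ha hc' ho1).trans (con_of_opp hc' he ho2.symm)
  have k0 := key 0
  have k1 := key 1
  have k2 := key (-1)
  rw [zero_smul, tv_zero, Units.val_one, one_mul, inv_one, Units.val_one, mul_one, mul_assoc] at k0
  rw [val_tv (smul_sq _ hbb), val_inv_tv (smul_sq _ hbb)] at k1 k2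
  simp only [mul_add, add_mul, mul_sub, sub_mul, mul_one, one_mul, smul_mul_assoc, mul_smul_comm,
    mul_assoc, k0, one_smul, neg_smul, zero_add, add_zero, smul_neg, sub_neg_eq_add, neg_neg,
    smul_sub, smul_add, smul_zero, neg_mul, mul_neg] at k1 k2
  -- k1 : abca - (acba + abcba) = 0 etc.
  have h1 : (2 : k) • (a * (b * (c * (b * a)))) = 0 := by
    have := congrArg₂ (· + ·) k1 k2
    simp only [add_zero] at this
    rw [← neg_eq_zero, ← this]
    module
  have h2 : a * (b * (c * (b * a))) = 0 := by
    rcases smul_eq_zero.1 h1 with h3 | h3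
    · exact absurd h3 Good.two
    · exact h3
  have h3 : a * (b * (c * a)) = a * (c * (b * a)) := by
    have h4 : (a * (b * (c * a)) - a * (c * (b * a))) - a * (b * (c * (b * a))) = 0 := by
      rw [← k1]
      module
    rw [h2, sub_zero, sub_eq_zero] at h4
    exact h4
  have hbab : b * (a * b) = 0 := by rw [← mul_assoc]; exact h.bab
  have hab : a * b = 0 := by
    rw [← hrel.r1]
    have := congrArg (fun x => x * b) h3
    simp only [mul_assoc, hbab, mul_zero] at this
    exact this
  have hba : b * a = 0 := by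
    have e1 := hrel.r3
    have e2 := congrArg (fun x => b * x) h3
    have e3 : b * (a * (b * (c * a))) = 0 := by
      have := congrArg (fun x => x * (c * a)) hbab
      simpa only [mul_assoc, zero_mul] using this
    simp only [e3] at e2
    rw [← e2] at e1
    exact (neg_eq_zero.1 e1.symm)
  exact hne (by rw [hab, hba, sub_zero])

theorem comm_of_not_con (hG : Cfsg.IsIrreducibleFor G) {a b : Module.End k M} (ha : a ∈ AAd G)
    (hb : b ∈ AAd G) (h : ¬ Con G a b) : a * b = b * a := by
  by_cases ho : Opp a b
  · exact absurd (con_of_opp ha hb ho) h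
  · have hnp := (np_iff ha hb).2 ho
    by_contra hc
    have hne : a * b - b * a ≠ 0 := sub_ne_zero.2 hc
    apply h
    have h1 := conn hG hnp hne
    have h2 := conn hG hnp.symm (NP.swap hne)
    have h3 : Con G (a * b - b * a) (b * a - a * b) := by
      apply con_EE hG (hnp.e_mem hne) _ (NP.swap hne)
      have h4 : b * a - a * b = -(a * b - b * a) := (neg_sub _ _).symm
      rw [h4]
      exact neg_mem_EE (hnp.e_mem hne) (self_mem_EE (hnp.e_mem hne).1)
    exact (h1.trans h3).trans h2.symm

theorem opp_not_comm {a b : Module.End k M} (ha : a ∈ AAd G) (hb : b ∈ AAd G) (h : Opp a b) :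
    a * b ≠ b * a := by
  intro hc
  apply (opp_iff ha hb).1 h
  exact ⟨2, by rw [pow_two, mul_assoc, ← mul_assoc b a b, ← hc, mul_assoc a b b, hb.1.1, mul_zero,
    mul_zero]⟩

/-- conjugation by `1 + r t` -/
theorem conj_tv_add {t : Module.End k M} (ht : t * t = 0) (r s : k) (x : Module.End k M) :
    ((tv (r • t) : (Module.End k M)ˣ) : Module.End k M) *
      (((tv (s • t) : (Module.End k M)ˣ) : Module.End k M) * x *
      (((tv (s • t))⁻¹ : (Module.End k M)ˣ) : Module.End k M)) *
      (((tv (r • t))⁻¹ : (Module.End k M)ˣ) : Module.End k M) =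
    ((tv ((r + s) • t) : (Module.End k M)ˣ) : Module.End k M) * x *
      (((tv ((r + s) • t))⁻¹ : (Module.End k M)ˣ) : Module.End k M) := by
  have h := conj_conj (tv (r • t)) (tv (s • t)) x
  rw [← tv_add (smul_sq r ht) (smul_sq s ht) (by rw [smul_mul_smul_comm, ht, smul_zero])
    (by rw [smul_mul_smul_comm, ht, smul_zero]), ← add_smul] at h
  exact h

/-- `G` normalizes every component (generators). -/
theorem con_conj_tv (hG : Cfsg.IsIrreducibleFor G) {a t : Module.End k M} (ha : a ∈ AAd G)
    (ht : t ∈ AA G) : Con G a (((tv t : (Module.End k M)ˣ) : Module.End k M) * a *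
      (((tv t)⁻¹ : (Module.End k M)ˣ) : Module.End k M)) := by
  let f : k → Module.End k M := fun r =>
    ((tv (r • t) : (Module.End k M)ˣ) : Module.End k M) * a *
      (((tv (r • t))⁻¹ : (Module.End k M)ˣ) : Module.End k M)
  have hf0 : f 0 = a := by
    show ((tv ((0 : k) • t) : (Module.End k M)ˣ) : Module.End k M) * a *
      (((tv ((0 : k) • t))⁻¹ : (Module.End k M)ˣ) : Module.End k M) = a
    rw [zero_smul, tv_zero, inv_one, Units.val_one, one_mul, mul_one]
  have hadd : ∀ r s, Con G a (f r) → Con G a (f s) → Con G a (f (r + s)) := by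
    intro r s hr hs
    have h1 := hs.conj (ht.2 r)
    have h2 : Con G (f r) (f (r + s)) := by
      have h3 : _ = f (r + s) := conj_tv_add ht.1 r s a
      rw [← h3]; exact h1
    exact hr.trans h2
  have hneg : ∀ r, Con G a (f r) → Con G a (f (-r)) := by
    intro r hr
    have h1 := hr.conj (ht.2 (-r))
    have h3 := conj_tv_add ht.1 (-r) r a
    rw [neg_add_cancel] at h3
    have h4 : Con G (f (-r)) (f 0) := by
      show Con G _ (((tv ((0 : k) • t) : (Module.End k M)ˣ) : Module.End k M) * a *
      (((tv ((0 : k) • t))⁻¹ : (Module.End k M)ˣ) : Module.End k M))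
      rw [← h3]; exact h1
    rw [hf0] at h4
    exact h4.symm
  by_contra hcon
  have h1 : ¬ Con G a (f 1) := by
    intro h; apply hcon
    have : f 1 = ((tv t : (Module.End k M)ˣ) : Module.End k M) * a *
      (((tv t)⁻¹ : (Module.End k M)ˣ) : Module.End k M) := by
      show ((tv ((1 : k) • t) : (Module.End k M)ˣ) : Module.End k M) * a *
        (((tv ((1 : k) • t))⁻¹ : (Module.End k M)ˣ) : Module.End k M) = _
      rw [one_smul]
    rwa [this] at h
  obtain ⟨g, hg, ho⟩ := exists_opp hG ha
  have hx := conj_mem_AAd ha hg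
  set x := (g : Module.End k M) * a * ((g⁻¹ : (Module.End k M)ˣ) : Module.End k M) with hxdef
  have hax := opp_not_comm ha hx ho
  have hcx := con_of_opp ha hx ho
  have htt := ht.1
  -- commutation for bad `r`
  have key : ∀ r, ¬ Con G a (f r) → a * x - x * a = (r * r) • ((t * a * t) * x - x * (t * a * t)) := by
    intro r hr
    have c1 : ∀ r, ¬ Con G a (f r) → f r * x = x * f r := by
      intro r hr
      apply comm_of_not_con hG (conj_mem_AAd ha (ht.2 r)) hx
      intro h
      exact hr (hcx.trans h.symm)
    have e1 := c1 r hr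
    have e2 := c1 (-r) (fun h => hr (by have := hneg _ h; rwa [neg_neg] at this))
    have hf : ∀ r, f r = a + r • (t * a - a * t) - (r * r) • (t * a * t) := fun r =>
      Quad7.conj_formula htt r
    rw [hf] at e1 e2
    simp only [mul_add, add_mul, mul_sub, sub_mul, smul_mul_assoc, mul_smul_comm] at e1 e2
    have e3 : (2 : k) • (a * x - x * a - (r * r) • ((t * a * t) * x - x * (t * a * t))) = 0 := by
      have e4 := congrArg₂ (· + ·) (sub_eq_zero.2 e1) (sub_eq_zero.2 e2)
      simp only [add_zero] at e4
      rw [← e4]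
      module
    rcases smul_eq_zero.1 e3 with h3 | h3
    · exact absurd h3 Good.two
    · exact sub_eq_zero.1 h3
  have k1 := key 1 h1
  rw [mul_one, one_smul] at k1
  -- find another bad `r` with `r² ≠ 1`
  obtain ⟨r, hr, hr2⟩ : ∃ r, ¬ Con G a (f r) ∧ r * r ≠ 1 := by
    obtain ⟨s, hs, hs2⟩ := exists_sq_ne (k := k) Good.two Good.card
    rw [pow_two] at hs2
    by_cases hsc : Con G a (f s)
    · by_cases h3 : (1 + s) * (1 + s) = 1
      · refine ⟨1 - s, fun h => h1 ?_, fun h4 => ?_⟩
        · have := hadd _ _ h hsc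
          rwa [sub_add_cancel] at this
        · have e1 : (2 * 2 : k) * s = 0 := by linear_combination h3 - h4
          rcases mul_eq_zero.1 e1 with h5 | h5
          · rcases mul_eq_zero.1 h5 with h6 | h6
            · exact Good.two h6
            · exact Good.two h6
          · exact hs h5
      · refine ⟨1 + s, fun h => h1 ?_, h3⟩
        have := hadd _ _ h (hneg _ hsc)
        rwa [add_neg_cancel_right] at this
    · exact ⟨s, hsc, hs2⟩
  have k2 := key r hr
  rw [← k1] at k2
  have h5 : (r * r - 1) • (a * x - x * a) = 0 := by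
    rw [sub_smul, one_smul, ← k2, sub_self]
  rcases smul_eq_zero.1 h5 with h6 | h6
  · exact hr2 (sub_eq_zero.1 h6)
  · exact hax (sub_eq_zero.1 h6)

/-- `G` normalizes every component. -/
theorem con_conj (hG : Cfsg.IsQuadraticPair G) {g : LinearMap.GeneralLinearGroup k M}
    (hg : g ∈ G) : ∀ {a : Module.End k M}, a ∈ AAd G →
      Con G a ((g : Module.End k M) * a * ((g⁻¹ : (Module.End k M)ˣ) : Module.End k M)) := by
  have hle : ∀ x ∈ Subgroup.closure (Cfsg.quadraticElements G), x ∈ G := by
    intro x hx; rwa [hG.2] at hx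
  rw [← hG.2] at hg
  induction hg using Subgroup.closure_induction with
  | mem x hx =>
    intro a ha
    obtain ⟨t, ht, -, rfl⟩ := mem_quadratic_iff.1 hx
    exact con_conj_tv hG.1 ha ht
  | one =>
    intro a ha
    rw [inv_one, Units.val_one, one_mul, mul_one]
    exact Con.refl _
  | mul x y hx hy h1 h2 =>
    intro a ha
    rw [← conj_conj]
    exact (h1 ha).trans ((h2 ha).conj (hle x hx))
  | inv x hx h1 =>
    intro a ha
    have h2 := (h1 ha).conj (inv_mem (hle x hx))
    rw [conj_inv_conj'] at h2
    exact h2.symm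

end main

end H86.Quad17
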