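import Cfsg.Agent.Lib.H86.Quad17
import Cfsg.Agent.Lib.H26.Quasisimple

/-!
Quadratic pairs: the groups generated by the components of `Σ` are quasisimple.
-/

set_option autoImplicit false
set_option linter.unusedSimpArgs false
set_option linter.unusedVariables false
set_option linter.style.haveILetI false
set_option linter.unusedSectionVars false
open H86.Quad1 H86.FinSL H86.Quad2 H86.Quad3 H86.Quad4 H86.Quad5 H86.Quad6 H86.Quad7 H86.Quad8
open H86.Quad9 H86.Quad10 H86.Quad11 H86.Quad12 H86.Quad13 H86.Quad14 H86.Quad15 H86.Quad16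
open H86.Quad17 H86.Unip Polynomial
open scoped commutatorElement

namespace H86.Quad18

universe u v

section unip
variable {k : Type u} [Field k] {M : Type v} [AddCommGroup M] [Module k M] [FiniteDimensional k M]

theorem unip_conj {V : Subgroup (LinearMap.GeneralLinearGroup k M)}
    (h : LinearMap.GeneralLinearGroup k M) (hV : Cfsg.IsUnipotentOn V) :
    Cfsg.IsUnipotentOn (Cfsg.conjBy V h) := by
  apply isUnipotentOn_of_fix
  intro W hW hWt
  let W' : Submodule k M := W.map ((h⁻¹ : (Module.End k M)ˣ) : Module.End k M)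
  have hW' : W' ≠ ⊤ := by
    intro h0
    apply hWt
    rw [eq_top_iff]
    intro x _
    have : ((h⁻¹ : (Module.End k M)ˣ) : Module.End k M) x ∈ W' := by rw [h0]; trivial
    obtain ⟨y, hy, hyx⟩ := this
    have := unit_inj h⁻¹ hyx
    rwa [← this]
  obtain ⟨v, hv, hfix⟩ := exists_fix_top hV hW'
  refine ⟨(h : Module.End k M) v, ?_, ?_⟩
  · intro h0
    apply hv
    exact ⟨_, h0, inv_app h v⟩
  · rintro _ ⟨g, hg, rfl⟩
    obtain ⟨w, hw, hwe⟩ := hfix g hg
    have e1 : (((MulAut.conj h).toMonoidHom g : LinearMap.GeneralLinearGroup k M) : M →ₗ[k] M)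
        ((h : Module.End k M) v) = (h : Module.End k M) ((g : M →ₗ[k] M) v) := by
      show ((h * g * h⁻¹ : (Module.End k M)ˣ) : Module.End k M) ((h : Module.End k M) v) = _
      rw [Units.val_mul, Units.val_mul]
      show (h : Module.End k M) ((g : Module.End k M) (((h⁻¹ : (Module.End k M)ˣ) : Module.End k M)
        ((h : Module.End k M) v))) = _
      rw [inv_app]
    rw [e1]
    have e2 : (h : Module.End k M) ((g : M →ₗ[k] M) v) - (h : Module.End k M) v = w := by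
      have e3 : (h : Module.End k M) ((g : M →ₗ[k] M) v) - (h : Module.End k M) v =
          (h : Module.End k M) ((g : M →ₗ[k] M) v - v) := (map_sub (h : Module.End k M) _ _).symm
      rw [e3, ← hwe]
      exact app_inv h w
    rw [e2]; exact hw

theorem unip_normal_closure {V N H : Subgroup (LinearMap.GeneralLinearGroup k M)} (hVN : V ≤ N)
    (hNV : ∀ n ∈ N, ∀ v ∈ V, n * v * n⁻¹ ∈ V) (hNH : N ≤ H)
    (hHN : ∀ h ∈ H, ∀ n ∈ N, h * n * h⁻¹ ∈ N)
    (hV : Cfsg.IsUnipotentOn V) : ∃ V' : Subgroup (LinearMap.GeneralLinearGroup k M),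
      Cfsg.IsUnipotentOn V' ∧ V ≤ V' ∧ V' ≤ N ∧ ∀ h ∈ H, ∀ v ∈ V', h * v * h⁻¹ ∈ V' := by
  let W : Set (Subgroup (LinearMap.GeneralLinearGroup k M)) := {A | ∃ h ∈ H, A = Cfsg.conjBy V h}
  have hWN : ∀ A ∈ W, A ≤ N := by
    rintro _ ⟨h, hh, rfl⟩ _ ⟨v, hv, rfl⟩
    exact hHN h hh v (hVN hv)
  have hNW : ∀ A ∈ W, ∀ n ∈ N, ∀ x ∈ A, n * x * n⁻¹ ∈ A := by
    rintro _ ⟨h, hh, rfl⟩ n hn _ ⟨v, hv, rfl⟩
    rw [mem_conjBy]
    show h⁻¹ * (n * (h * v * h⁻¹) * n⁻¹) * h ∈ V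
    have e : h⁻¹ * (n * (h * v * h⁻¹) * n⁻¹) * h = (h⁻¹ * n * h⁻¹⁻¹) * v * (h⁻¹ * n * h⁻¹⁻¹)⁻¹ := by
      group
    rw [e]
    exact hNV _ (hHN _ (inv_mem hh) _ hn) _ hv
  refine ⟨jn W, ?_, ?_, jn_le hWN, ?_⟩
  · apply baer_suzuki
    · intro A hA B hB
      have hA' : Cfsg.IsUnipotentOn A := by
        obtain ⟨h, -, rfl⟩ := hA; exact unip_conj h hV
      have hB' : Cfsg.IsUnipotentOn B := by
        obtain ⟨h, -, rfl⟩ := hB; exact unip_conj h hV
      apply sup_of_normalizes hA' hB'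
      intro l hl g hg
      have := hNW A hA l⁻¹ (inv_mem (hWN B hB hl)) g hg
      rwa [inv_inv] at this
    · intro B hB g hg A hA
      obtain ⟨h, hh, rfl⟩ := hA
      refine ⟨g * h, mul_mem (hNH (hWN B hB hg)) hh, ?_⟩
      rw [conjBy_mul]
  · apply le_jn
    refine ⟨1, one_mem _, ?_⟩
    ext x; rw [mem_conjBy]; simp
  · intro h hh v hv
    refine jn_induction (P := fun v => h * v * h⁻¹ ∈ jn W) ?_ ?_ ?_ hv
    · rintro _ ⟨h', hh', rfl⟩ g hg
      apply le_jn (D := W) (A := Cfsg.conjBy V (h * h')) ⟨h * h', mul_mem hh hh', rfl⟩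
      rw [conjBy_mul]
      exact ⟨g, hg, rfl⟩
    · simp
    · intro x y hx hy
      have : h * (x * y) * h⁻¹ = (h * x * h⁻¹) * (h * y * h⁻¹) := by group
      rw [this]; exact mul_mem hx hy

/-- A unipotent subgroup normal in `N ⊴ H ⊴ G`, `G` irreducible, is trivial. -/
theorem subnormal_unip_trivial {G V N H : Subgroup (LinearMap.GeneralLinearGroup k M)}
    (hG : Cfsg.IsIrreducibleFor G) (hVN : V ≤ N)
    (hNV : ∀ n ∈ N, ∀ v ∈ V, n * v * n⁻¹ ∈ V) (hNH : N ≤ H)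
    (hHN : ∀ h ∈ H, ∀ n ∈ N, h * n * h⁻¹ ∈ N) (hHG : H ≤ G)
    (hGH : ∀ g ∈ G, ∀ h ∈ H, g * h * g⁻¹ ∈ H)
    (hV : Cfsg.IsUnipotentOn V) : V = ⊥ := by
  obtain ⟨V1, h1, h2, h3, h4⟩ := unip_normal_closure hVN hNV hNH hHN hV
  obtain ⟨V2, i1, i2, i3, i4⟩ := unip_normal_closure (h3.trans hNH) h4 hHG hGH h1
  rw [eq_bot_iff]
  have := normal_unip_trivial hG i4 i1
  rw [← this]
  exact h2.trans i2

end unip

section main
variable {k : Type u} [Field k] [Good k] {M : Type v} [AddCommGroup M] [Module k M]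
  [FiniteDimensional k M]
variable {G : Subgroup (LinearMap.GeneralLinearGroup k M)}

/-- the component of `a` -/
def cmp (G : Subgroup (LinearMap.GeneralLinearGroup k M)) (a : Module.End k M) :
    Set (Subgroup (LinearMap.GeneralLinearGroup k M)) :=
  {A | ∃ (b : Module.End k M) (hb : b ∈ AAd G), Con G a b ∧ A = Esub G b hb}

/-- the group generated by the component of `a` -/
def Hc (G : Subgroup (LinearMap.GeneralLinearGroup k M)) (a : Module.End k M) :
    Subgroup (LinearMap.GeneralLinearGroup k M) := jn (cmp G a)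

theorem cmp_congr {a b : Module.End k M} (h : Con G a b) : cmp G b = cmp G a := by
  ext A
  constructor
  · rintro ⟨c, hc, h1, h2⟩; exact ⟨c, hc, h.trans h1, h2⟩
  · rintro ⟨c, hc, h1, h2⟩; exact ⟨c, hc, h.symm.trans h1, h2⟩

theorem Hc_congr {a b : Module.End k M} (h : Con G a b) : Hc G b = Hc G a := by
  unfold Hc; rw [cmp_congr h]

theorem Hc_le : ∀ {a : Module.End k M}, Hc G a ≤ G := by
  intro a
  apply jn_le
  rintro _ ⟨b, hb, -, rfl⟩
  exact Esub_le hb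

theorem Esub_le_Hc {a b : Module.End k M} (hb : b ∈ AAd G) (h : Con G a b) :
    Esub G b hb ≤ Hc G a := le_jn ⟨b, hb, h, rfl⟩

theorem tv_mem_Hc {a b : Module.End k M} (hb : b ∈ AAd G) (h : Con G a b) :
    (tv b : LinearMap.GeneralLinearGroup k M) ∈ Hc G a :=
  Esub_le_Hc hb h ⟨b, self_mem_EE hb.1, rfl⟩

theorem conj_cmp (hG : Cfsg.IsQuadraticPair G) {a : Module.End k M}
    {A : Subgroup (LinearMap.GeneralLinearGroup k M)} (hA : A ∈ cmp G a)
    {g : LinearMap.GeneralLinearGroup k M} (hg : g ∈ G) : Cfsg.conjBy A g ∈ cmp G a := by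
  obtain ⟨b, hb, h, rfl⟩ := hA
  exact ⟨_, conj_mem_AAd hb hg, h.trans (con_conj hG hg hb), conjBy_Esub hb hg⟩

theorem Hc_normal (hG : Cfsg.IsQuadraticPair G) {a : Module.End k M} :
    ∀ g ∈ G, ∀ x ∈ Hc G a, g * x * g⁻¹ ∈ Hc G a := by
  intro g hg x hx
  refine jn_induction (P := fun v => g * v * g⁻¹ ∈ Hc G a) ?_ ?_ ?_ hx
  · intro A hA y hy
    exact le_jn (conj_cmp hG hA hg) ⟨y, hy, rfl⟩
  · simp
  · intro x y hx hy
    have : g * (x * y) * g⁻¹ = (g * x * g⁻¹) * (g * y * g⁻¹) := by group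
    rw [this]; exact mul_mem hx hy

theorem nU_conj {a b : Module.End k M} (h : IP a b) :
    ((nU a b : (Module.End k M)ˣ) : Module.End k M) * a *
      (((nU a b)⁻¹ : (Module.End k M)ˣ) : Module.End k M) = -b := by
  rw [h.nU_val, h.nU_inv]
  have ha := h.a2
  have hb := h.b2
  have h1 := h.aba
  have h2 := h.bab
  rw [mul_assoc] at h1 h2
  have h3 : ∀ z, a * (b * (a * z)) = a * z := fun z => by
    rw [← mul_assoc b, ← mul_assoc a, h1]
  have h4 : ∀ z, b * (a * (b * z)) = b * z := fun z => by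
    rw [← mul_assoc a, ← mul_assoc b, h2]
  simp only [mul_add, add_mul, mul_sub, sub_mul, mul_one, one_mul, mul_assoc, ha, hb, h1, h2, h3,
    h4, reassoc ha, reassoc hb, mul_zero, zero_mul, sub_zero, add_zero, zero_sub, zero_add]
  abel

/-- The component of `a` is a single class under `Hc G a`. -/
theorem class_con (hG : Cfsg.IsQuadraticPair G) {a b : Module.End k M} (ha : a ∈ AAd G)
    (h : Con G a b) : ∃ g ∈ Hc G a, EE G ((g : Module.End k M) * a *
      ((g⁻¹ : (Module.End k M)ˣ) : Module.End k M)) = EE G b := by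
  induction h with
  | refl => exact ⟨1, one_mem _, by rw [inv_one, Units.val_one, one_mul, mul_one]⟩
  | tail hb hbc ih =>
    rename_i b c
    obtain ⟨g, hg, he⟩ := ih
    obtain ⟨hb1, hc1, ho⟩ := hbc
    obtain ⟨c', hc', hc0, hip⟩ := exists_ip hb1 hc1 ho
    have hC := mem_AAd_of_EE hc1 hc' hc0
    have hconc : Con G a c' := (hb.trans (con_of_opp hb1 hc1 ho)).trans (con_EE hG.1 hc1 hc' hc0)
    have hgG := Hc_le hg
    have hn : nU b c' ∈ Hc G a := by
      unfold nU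
      have h1 := tv_mem_Hc hb1 hb
      have h2 : tv (-c') ∈ Hc G a :=
        Esub_le_Hc hC hconc ⟨_, neg_mem_EE hC (self_mem_EE hC.1), rfl⟩
      exact mul_mem (mul_mem h1 h2) h1
    refine ⟨nU b c' * g, mul_mem hn hg, ?_⟩
    have hgaE : (g : Module.End k M) * a * ((g⁻¹ : (Module.End k M)ˣ) : Module.End k M) ∈ EE G b := by
      rw [← he]; exact self_mem_EE (conj_mem_AA ha.1 hgG)
    have h3 := conj_EE hgaE (Hc_le hn)
    rw [conj_conj, nU_conj hip] at h3
    have h4 : (((nU b c' * g : (Module.End k M)ˣ)) : Module.End k M) * a *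
        (((nU b c' * g)⁻¹ : (Module.End k M)ˣ) : Module.End k M) ≠ 0 :=
      (conj_mem_AAd ha (mul_mem (Hc_le hn) hgG)).2.1
    rw [EE_self h3 h4, neg_EE_eq hC, EE_self hc' hc0]

theorem class_Esub (hG : Cfsg.IsQuadraticPair G) {a b : Module.End k M} (ha : a ∈ AAd G)
    (h : Con G a b) : ∃ g ∈ Hc G a, Esub G b (h.mem ha) = Cfsg.conjBy (Esub G a ha) g := by
  obtain ⟨g, hg, he⟩ := class_con hG ha h
  refine ⟨g, hg, ?_⟩
  rw [conjBy_Esub ha (Hc_le hg)]
  exact (Esub_congr _ _ he).symm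

/-- If `N ⊴ Hc` contains one `E(b)` of the component then `N = Hc`. -/
theorem eq_Hc_of_le (hG : Cfsg.IsQuadraticPair G) {a b : Module.End k M} (hb : b ∈ AAd G)
    (h : Con G a b) {N : Subgroup (LinearMap.GeneralLinearGroup k M)} (hN : N ≤ Hc G a)
    (hNn : ∀ g ∈ Hc G a, ∀ n ∈ N, g * n * g⁻¹ ∈ N) (hle : Esub G b hb ≤ N) : N = Hc G a := by
  apply le_antisymm hN
  apply jn_le
  rintro _ ⟨c, hc, hac, rfl⟩
  obtain ⟨g, hg, he⟩ := class_Esub hG hb (h.symm.trans hac)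
  rw [Hc_congr h] at hg
  rw [he]
  rintro _ ⟨x, hx, rfl⟩
  exact hNn g hg x (hle hx)

/-- Case 1 of the dichotomy. -/
theorem case_opp (hG : Cfsg.IsQuadraticPair G) {a b : Module.End k M} (hb : b ∈ AAd G)
    (h : Con G a b) {N : Subgroup (LinearMap.GeneralLinearGroup k M)} (hN : N ≤ Hc G a)
    (hNn : ∀ g ∈ Hc G a, ∀ n ∈ N, g * n * g⁻¹ ∈ N)
    {n : LinearMap.GeneralLinearGroup k M} (hn : n ∈ N)
    (ho : Opp b ((n : Module.End k M) * b * ((n⁻¹ : (Module.End k M)ˣ) : Module.End k M))) :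
    N = Hc G a := by
  apply eq_Hc_of_le hG hb h hN hNn
  rintro _ ⟨x, hx, rfl⟩
  by_cases hx0 : x = 0
  · rw [hx0, tv_zero]; exact one_mem _
  have hX := mem_AAd_of_EE hb hx hx0
  have hnG := Hc_le (hN hn)
  have hconx : Con G a x := h.trans (con_EE hG.1 hb hx hx0)
  have hY0 := conj_mem_AAd hX hnG
  set y := -((n : Module.End k M) * x * ((n⁻¹ : (Module.End k M)ˣ) : Module.End k M)) with hy
  have hY : y ∈ AAd G := AAd_neg hY0
  have hcony : Con G a y := by
    refine (hconx.trans (con_conj hG hnG hX)).trans (con_EE hG.1 hY0 ?_ hY.2.1)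
    exact neg_mem_EE hY0 (self_mem_EE hY0.1)
  have hoxy : Opp x y := by
    have h1 := ho.ofEE hx hx0 (conj_EE hx hnG) hY0.2.1
    exact h1.congr rfl rfl (LinearMap.range_neg _) (LinearMap.ker_neg _)
  obtain ⟨D⟩ := star Good.two Good.card hX hY.1 ((opp_iff hX hY).1 hoxy)
  haveI : Fact (Irreducible D.F) := ⟨D.irr⟩
  have hr := SD.range_Ψ D (SD.one_t D hX.1 hY)
  have hle : pairGroup k x y ≤ Hc G a := by
    apply pairGroup_le
    · intro s
      exact Esub_le_Hc hX hconx ⟨s • x, smul_mem_EE hX (self_mem_EE hX.1) s, rfl⟩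
    · intro s
      exact Esub_le_Hc hY hcony ⟨s • y, smul_mem_EE hY (self_mem_EE hY.1) s, rfl⟩
  obtain ⟨s, hs, hs2⟩ := exists_sq_ne (k := k) Good.two Good.card
  have hL : ∃ a : AdjoinRoot D.F, a ≠ 0 ∧ a ^ 2 ≠ 1 := by
    refine ⟨algebraMap k _ s, ?_, ?_⟩
    · intro h0
      exact hs ((algebraMap k (AdjoinRoot D.F)).injective (by rw [h0, map_zero]))
    · intro h0
      apply hs2
      apply (algebraMap k (AdjoinRoot D.F)).injective
      rw [map_pow, h0, map_one]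
  have hnorm : (N.comap D.σ.Ψ).Normal := by
    refine ⟨fun m hm g => ?_⟩
    show D.σ.Ψ (g * m * g⁻¹) ∈ N
    rw [map_mul, map_mul, map_inv]
    apply hNn _ _ _ hm
    apply hle
    rw [← hr]
    exact ⟨g, rfl⟩
  have hux : D.σ.Ψ (u (algebraMap k _ 1)) = tv x := by
    rw [SD.Ψ_u_alg D, one_smul]
  have hvy : D.σ.Ψ (v (algebraMap k _ 1 * D.l)) = tv y := by
    rw [SD.Ψ_v_alg D (SD.one_t D hX.1 hY), one_smul]
  have hmem : u (algebraMap k _ 1) * v (algebraMap k _ 1 * (D.l : AdjoinRoot D.F)) ∈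
      N.comap D.σ.Ψ := by
    show D.σ.Ψ _ ∈ N
    rw [map_mul, hux, hvy]
    have e1 : (tv y : LinearMap.GeneralLinearGroup k M) = n * (tv x)⁻¹ * n⁻¹ := by
      rw [inv_tv hX.1.1, conj_tv n (Quad1.neg_sq hX.1.1), hy, mul_neg, neg_mul]
    rw [e1]
    have e2 : (tv x : LinearMap.GeneralLinearGroup k M) * (n * (tv x)⁻¹ * n⁻¹) =
        (tv x * n * (tv x)⁻¹) * n⁻¹ := by group
    rw [e2]
    exact mul_mem (hNn _ (tv_mem_Hc hX hconx) _ hn) (inv_mem hn)
  rcases normal_dichotomy hL _ hnorm with h1 | h1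
  · exfalso
    have h2 := h1 hmem
    rw [Subgroup.mem_center_iff] at h2
    have h3 := comm_u isUnit_one (h2 (u 1))
    have h4 := h3.1
    rw [mulE, u10, u11, v00, v10] at h4
    rw [map_one, one_mul, zero_mul, zero_add, one_mul] at h4
    exact D.l.ne_zero h4
  · have h2 : u (algebraMap k _ 1) ∈ N.comap D.σ.Ψ := by rw [h1]; trivial
    have h3 : D.σ.Ψ (u (algebraMap k _ 1)) ∈ N := h2
    rwa [hux] at h3

/-- Case 2 of the dichotomy. -/
theorem case_comm (hG : Cfsg.IsQuadraticPair G) {a b : Module.End k M} (hb : b ∈ AAd G)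
    (h : Con G a b) {N : Subgroup (LinearMap.GeneralLinearGroup k M)} (hN : N ≤ Hc G a)
    (hNn : ∀ g ∈ Hc G a, ∀ n ∈ N, g * n * g⁻¹ ∈ N)
    {n : LinearMap.GeneralLinearGroup k M} (hn : n ∈ N)
    (hnp : NP G b ((n : Module.End k M) * b * ((n⁻¹ : (Module.End k M)ˣ) : Module.End k M)))
    (hne : b * ((n : Module.End k M) * b * ((n⁻¹ : (Module.End k M)ˣ) : Module.End k M)) -
      ((n : Module.End k M) * b * ((n⁻¹ : (Module.End k M)ˣ) : Module.End k M)) * b ≠ 0) :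
    N = Hc G a := by
  have hnG := Hc_le (hN hn)
  apply eq_Hc_of_le hG (hnp.e_mem hne) (h.trans (conn hG.1 hnp hne)) hN hNn
  rw [← closure_left hG.1 hnp hne (self_mem_EE hb.1) hb.2.1, Subgroup.closure_le]
  rintro _ ⟨f, hf, rfl⟩
  rw [← conjBy_Esub hb hnG] at hf
  obtain ⟨q, hq, rfl⟩ := hf
  show tv b * (n * q * n⁻¹) * (tv b)⁻¹ * (n * q * n⁻¹)⁻¹ ∈ N
  have hcomm : tv b * q = q * tv b := Esub_comm_elem hb ⟨b, self_mem_EE hb.1, rfl⟩ hq
  have hp := tv_mem_Hc hb h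
  have hqH := Esub_le_Hc hb h hq
  set p := (tv b : LinearMap.GeneralLinearGroup k M) with hpdef
  have e : p * (n * q * n⁻¹) * p⁻¹ * (n * q * n⁻¹)⁻¹ =
      (p * n * p⁻¹) * (q * ((p * n * p⁻¹)⁻¹ * n) * q⁻¹) * n⁻¹ := by
    have e1 : p * (n * q * n⁻¹) * p⁻¹ = (p * n * p⁻¹) * (p * q * p⁻¹) * (p * n * p⁻¹)⁻¹ := by
      group
    rw [e1, hcomm]
    group
  rw [e]
  have h1 := hNn p hp n hn
  exact mul_mem (mul_mem h1 (hNn q hqH _ (mul_mem (inv_mem h1) hn))) (inv_mem hn)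

end main

end H86.Quad18
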