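import Cfsg.Agent.Lib.H86.Quad18

/-!
Quadratic pairs: the groups generated by the components of `Σ` are quasisimple; finiteness of the
number of components.
-/

set_option autoImplicit false
set_option linter.unusedSimpArgs false
set_option linter.unusedVariables false
set_option linter.style.haveILetI false
set_option linter.unusedSectionVars false
open H86.Quad1 H86.FinSL H86.Quad2 H86.Quad3 H86.Quad4 H86.Quad5 H86.Quad6 H86.Quad7 H86.Quad8
open H86.Quad9 H86.Quad10 H86.Quad11 H86.Quad12 H86.Quad13 H86.Quad14 H86.Quad15 H86.Quad16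
open H86.Quad17 H86.Quad18 H86.Unip Polynomial
open scoped commutatorElement

namespace H86.Quad19

universe u v

variable {k : Type u} [Field k] [Good k] {M : Type v} [AddCommGroup M] [Module k M]
  [FiniteDimensional k M]
variable {G : Subgroup (LinearMap.GeneralLinearGroup k M)}

/-- Case 3 of the dichotomy. -/
theorem case_central (hG : Cfsg.IsQuadraticPair G) {a b : Module.End k M} (hb : b ∈ AAd G)
    (h : Con G a b) {N : Subgroup (LinearMap.GeneralLinearGroup k M)} (hN : N ≤ Hc G a)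
    (hNn : ∀ g ∈ Hc G a, ∀ n ∈ N, g * n * g⁻¹ ∈ N)
    (hno : ∀ n ∈ N, ¬ Opp b ((n : Module.End k M) * b *
      ((n⁻¹ : (Module.End k M)ˣ) : Module.End k M)))
    (hc : ∀ n ∈ N, b * ((n : Module.End k M) * b * ((n⁻¹ : (Module.End k M)ˣ) : Module.End k M)) =
      ((n : Module.End k M) * b * ((n⁻¹ : (Module.End k M)ˣ) : Module.End k M)) * b) :
    ⁅Esub G b hb, N⁆ = ⊥ := by
  have hNG : N ≤ G := hN.trans Hc_le
  let W : Set (Subgroup (LinearMap.GeneralLinearGroup k M)) :=
    {A | ∃ n, ∃ hn : n ∈ N, A = Esub G _ (conj_mem_AAd hb (hNG hn))}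
  have hnp : ∀ n ∈ N, ∀ n' ∈ N,
      NP G ((n : Module.End k M) * b * ((n⁻¹ : (Module.End k M)ˣ) : Module.End k M))
      ((n' : Module.End k M) * b * ((n'⁻¹ : (Module.End k M)ˣ) : Module.End k M)) := by
    intro n hn n' hn'
    have h1 := conj_mem_AAd hb (hNG hn)
    have h2 := conj_mem_AAd hb (hNG hn')
    rw [np_iff h1 h2]
    intro ho
    have h3 := opp_conj n⁻¹ ho
    rw [conj_inv_conj', conj_conj] at h3
    exact hno _ (mul_mem (inv_mem hn) hn') h3
  have hcomm : ∀ n ∈ N, ∀ n' ∈ N,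
      ((n : Module.End k M) * b * ((n⁻¹ : (Module.End k M)ˣ) : Module.End k M)) *
      ((n' : Module.End k M) * b * ((n'⁻¹ : (Module.End k M)ˣ) : Module.End k M)) =
      ((n' : Module.End k M) * b * ((n'⁻¹ : (Module.End k M)ˣ) : Module.End k M)) *
      ((n : Module.End k M) * b * ((n⁻¹ : (Module.End k M)ˣ) : Module.End k M)) := by
    intro n hn n' hn'
    have h1 := hc _ (mul_mem (inv_mem hn) hn')
    have hinv : (n : Module.End k M) * ((n⁻¹ : (Module.End k M)ˣ) : Module.End k M) = 1 :=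
      Units.mul_inv n
    have hinv' : ((n⁻¹ : (Module.End k M)ˣ) : Module.End k M) * (n : Module.End k M) = 1 :=
      Units.inv_mul n
    have h2 := congrArg (fun x => (n : Module.End k M) * x *
      ((n⁻¹ : (Module.End k M)ˣ) : Module.End k M)) h1
    simp only [mul_inv_rev, inv_inv, Units.val_mul, mul_assoc, reassoc hinv, reassoc hinv',
      one_mul, hinv, mul_one] at h2
    simpa only [mul_assoc] using h2
  have hU : Cfsg.IsUnipotentOn (jn W) := by
    apply baer_suzuki
    · rintro _ ⟨n, hn, rfl⟩ _ ⟨n', hn', rfl⟩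
      exact np_unip (hnp n hn n' hn')
    · rintro _ ⟨n, hn, rfl⟩ g hg _ ⟨n', hn', rfl⟩
      refine ⟨n', hn', ?_⟩
      have h1 := commutator_eq_bot (hnp n hn n' hn') (hcomm n hn n' hn')
      rw [Subgroup.commutator_eq_bot_iff_le_centralizer] at h1
      have h2 := Subgroup.mem_centralizer_iff.1 (h1 hg)
      ext x
      rw [Unip.mem_conjBy]
      constructor
      · intro hx
        have h3 := h2 _ hx
        have : x = g⁻¹ * x * g := by
          have h4 : (g⁻¹ * x * g) * g = g * (g⁻¹ * x * g) := h3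
          calc x = (g * (g⁻¹ * x * g)) * g⁻¹ := by group
            _ = ((g⁻¹ * x * g) * g) * g⁻¹ := by rw [h4]
            _ = _ := by group
        rw [this]; exact hx
      · intro hx
        have h3 := h2 _ hx
        have : g⁻¹ * x * g = x := by rw [mul_assoc, h3]; group
        rw [this]; exact hx
  have h1W : Esub G b hb ≤ jn W := by
    have h0 : ((1 : LinearMap.GeneralLinearGroup k M) : Module.End k M) * b *
      (((1 : LinearMap.GeneralLinearGroup k M)⁻¹ : (Module.End k M)ˣ) : Module.End k M) = b := by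
      rw [inv_one, Units.val_one, one_mul, mul_one]
    have h1 := le_jn (D := W) (A := Esub G _ (conj_mem_AAd hb (hNG (one_mem N))))
      ⟨1, one_mem _, rfl⟩
    refine le_trans (le_of_eq ?_) h1
    apply Esub_congr
    rw [h0]
  have hle : ⁅Esub G b hb, N⁆ ≤ jn W := by
    rw [Subgroup.commutator_le]
    intro x hx n hn
    rw [commutatorElement_def]
    have e : x * n * x⁻¹ * n⁻¹ = x * (n * x⁻¹ * n⁻¹) := by group
    rw [e]
    refine mul_mem (h1W hx) ?_
    apply le_jn (D := W) (A := Esub G _ (conj_mem_AAd hb (hNG hn))) ⟨n, hn, rfl⟩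
    rw [← conjBy_Esub hb (hNG hn)]
    exact ⟨x⁻¹, inv_mem hx, rfl⟩
  have hleN : ⁅Esub G b hb, N⁆ ≤ N := by
    rw [Subgroup.commutator_le]
    intro x hx n hn
    rw [commutatorElement_def]
    exact mul_mem (hNn x (Esub_le_Hc hb h hx) n hn) (inv_mem hn)
  have hNV : ∀ n ∈ N, ∀ v ∈ ⁅Esub G b hb, N⁆, n * v * n⁻¹ ∈ ⁅Esub G b hb, N⁆ := by
    intro n hn v hv
    have : ⁅Esub G b hb, N⁆ ≤ (⁅Esub G b hb, N⁆).comap (MulAut.conj n).toMonoidHom := by
      rw [Subgroup.commutator_le]
      intro x hx m hm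
      show n * ⁅x, m⁆ * n⁻¹ ∈ ⁅Esub G b hb, N⁆
      have e : n * ⁅x, m⁆ * n⁻¹ = ⁅x, n⁆⁻¹ * ⁅x, n * m⁆ := by
        rw [commutatorElement_def, commutatorElement_def, commutatorElement_def]; group
      rw [e]
      exact mul_mem (inv_mem (Subgroup.commutator_mem_commutator hx hn))
        (Subgroup.commutator_mem_commutator hx (mul_mem hn hm))
    exact this hv
  exact subnormal_unip_trivial hG.1 hleN hNV hN hNn Hc_le (Hc_normal hG)
    (Unip.mono hle hU)

/-- The dichotomy for normal subgroups of `Hc`. -/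
theorem dichotomy (hG : Cfsg.IsQuadraticPair G) {a : Module.End k M} (ha : a ∈ AAd G)
    {N : Subgroup (LinearMap.GeneralLinearGroup k M)} (hN : N ≤ Hc G a)
    (hNn : ∀ g ∈ Hc G a, ∀ n ∈ N, g * n * g⁻¹ ∈ N) :
    N = Hc G a ∨ ∀ n ∈ N, ∀ h ∈ Hc G a, n * h = h * n := by
  by_cases hE : N = Hc G a
  · exact Or.inl hE
  right
  have hno : ∀ (b : Module.End k M) (hb : b ∈ AAd G), Con G a b → ∀ n ∈ N,
      ¬ Opp b ((n : Module.End k M) * b * ((n⁻¹ : (Module.End k M)ˣ) : Module.End k M)) :=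
    fun b hb h n hn ho => hE (case_opp hG hb h hN hNn hn ho)
  have hc : ∀ (b : Module.End k M) (hb : b ∈ AAd G), Con G a b → ∀ n ∈ N,
      b * ((n : Module.End k M) * b * ((n⁻¹ : (Module.End k M)ˣ) : Module.End k M)) =
      ((n : Module.End k M) * b * ((n⁻¹ : (Module.End k M)ˣ) : Module.End k M)) * b := by
    intro b hb h n hn
    by_contra hc
    have hnG := Hc_le (hN hn)
    exact hE (case_comm hG hb h hN hNn hn ((np_iff hb (conj_mem_AAd hb hnG)).2 (hno b hb h n hn))
      (sub_ne_zero.2 hc))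
  intro n hn h hh
  refine jn_induction (P := fun h => n * h = h * n) ?_ ?_ ?_ hh
  · rintro _ ⟨b, hb, hab, rfl⟩ g hg
    have h1 := case_central hG hb hab hN hNn (hno b hb hab) (hc b hb hab)
    have h2 : ⁅g, n⁆ ∈ ⁅Esub G b hb, N⁆ := Subgroup.commutator_mem_commutator hg hn
    rw [h1, Subgroup.mem_bot, commutatorElement_eq_one_iff_mul_comm] at h2
    exact h2.symm
  · simp
  · intro x y hx hy
    rw [← mul_assoc, hx, mul_assoc, hy, mul_assoc]

theorem not_nilpotent (hG : Cfsg.IsQuadraticPair G) {a : Module.End k M} (ha : a ∈ AAd G) :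
    ¬ Group.IsNilpotent (Hc G a) := by
  intro hnil
  obtain ⟨g, hg, ho⟩ := exists_opp hG.1 ha
  have hb := conj_mem_AAd ha hg
  set b := (g : Module.End k M) * a * ((g⁻¹ : (Module.End k M)ˣ) : Module.End k M) with hbdef
  obtain ⟨D⟩ := star Good.two Good.card ha hb.1 ((opp_iff ha hb).1 ho)
  haveI : Fact (Irreducible D.F) := ⟨D.irr⟩
  have hr := SD.range_Ψ D (SD.one_t D ha.1 hb)
  have hle : pairGroup k a b ≤ Hc G a := by
    apply pairGroup_le
    · intro s
      exact Esub_le_Hc ha (Quad17.Con.refl a) ⟨s • a, smul_mem_EE ha (self_mem_EE ha.1) s, rfl⟩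
    · intro s
      exact Esub_le_Hc hb (con_of_opp ha hb ho) ⟨s • b, smul_mem_EE hb (self_mem_EE hb.1) s, rfl⟩
  obtain ⟨s, hs, hs2⟩ := exists_sq_ne (k := k) Good.two Good.card
  have hperf : ⁅(⊤ : Subgroup (SL2 (AdjoinRoot D.F))), (⊤ : Subgroup (SL2 (AdjoinRoot D.F)))⁆ = ⊤ := by
    apply perfect
    refine ⟨algebraMap k _ s, ?_, ?_⟩
    · intro h0
      exact hs ((algebraMap k (AdjoinRoot D.F)).injective (by rw [h0, map_zero]))
    · intro h0
      apply hs2
      apply (algebraMap k (AdjoinRoot D.F)).injective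
      rw [map_pow, h0, map_one]
  have hmem : ∀ x, D.σ.Ψ x ∈ Hc G a := fun x => hle (by rw [← hr]; exact ⟨x, rfl⟩)
  let f : SL2 (AdjoinRoot D.F) →* Hc G a := D.σ.Ψ.codRestrict _ hmem
  have hf : Function.Injective f := by
    intro x y hxy
    exact Sys.Ψ_injective D.σ (faith_a D.σ D.inj) (congrArg Subtype.val hxy)
  haveI := hnil
  haveI hsol : Group.IsSolvable (Hc G a) := inferInstance
  have hsol' : Group.IsSolvable (SL2 (AdjoinRoot D.F)) := Group.isSolvable_of_isSolvable_injective hf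
  obtain ⟨n, hn⟩ := hsol'.solvable
  have hds : ∀ n, derivedSeries (SL2 (AdjoinRoot D.F)) n = ⊤ := by
    intro n
    induction n with
    | zero => rfl
    | succ n ih => rw [derivedSeries_succ, ih, hperf]
  rw [hds] at hn
  have h1 : u (1 : AdjoinRoot D.F) ∈ (⊥ : Subgroup (SL2 (AdjoinRoot D.F))) := by
    rw [← hn]; trivial
  rw [Subgroup.mem_bot, ← u_zero] at h1
  exact one_ne_zero (u_inj h1)

theorem quasisimple (hG : Cfsg.IsQuadraticPair G) {a : Module.End k M} (ha : a ∈ AAd G) :
    Cfsg.IsQuasisimple (Hc G a) := by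
  apply H26.Quasisimple.of_forall_normal _ (not_nilpotent hG ha)
  intro N hN
  have hle : N.map (Hc G a).subtype ≤ Hc G a := by
    rintro _ ⟨x, -, rfl⟩; exact x.2
  rcases dichotomy hG ha hle (by
    rintro g hg _ ⟨n, hn, rfl⟩
    exact ⟨⟨g, hg⟩ * n * ⟨g, hg⟩⁻¹, hN.conj_mem n hn _, rfl⟩) with h | h
  · left
    rw [eq_top_iff]
    intro x _
    have : (x : LinearMap.GeneralLinearGroup k M) ∈ N.map (Hc G a).subtype := by
      rw [h]; exact x.2
    obtain ⟨y, hy, hxy⟩ := this
    have : y = x := Subtype.ext hxy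
    rwa [← this]
  · right
    intro x hx
    rw [Subgroup.mem_center_iff]
    intro y
    exact Subtype.ext (h _ ⟨x, hx, rfl⟩ _ y.2).symm

/-- Different components commute. -/
theorem Hc_comm (hG : Cfsg.IsQuadraticPair G) {a b : Module.End k M} (ha : a ∈ AAd G)
    (hb : b ∈ AAd G) (h : ¬ Con G a b) : ⁅Hc G a, Hc G b⁆ = ⊥ := by
  rw [Subgroup.commutator_eq_bot_iff_le_centralizer]
  apply jn_le
  rintro _ ⟨x, hx, hax, rfl⟩
  rw [← Subgroup.commutator_eq_bot_iff_le_centralizer, Subgroup.commutator_comm,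
    Subgroup.commutator_eq_bot_iff_le_centralizer]
  apply jn_le
  rintro _ ⟨y, hy, hby, rfl⟩
  rw [← Subgroup.commutator_eq_bot_iff_le_centralizer]
  have hn : ¬ Con G y x := fun h1 => h (hax.trans (h1.symm.trans hby.symm))
  have hno : ¬ Opp y x := fun ho => hn (con_of_opp hy hx ho)
  exact commutator_eq_bot ((np_iff hy hx).2 hno) (comm_of_not_con hG.1 hy hx hn)

/-- The setoid of components. -/
def st (G : Subgroup (LinearMap.GeneralLinearGroup k M)) : Setoid {a // a ∈ AAd G} where
  r a b := Con G a.1 b.1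
  iseqv := ⟨fun a => Quad17.Con.refl _, fun h => h.symm, fun h h' => h.trans h'⟩

theorem lin_indep (hG : Cfsg.IsIrreducibleFor G) :
    LinearIndependent k (fun q : Quotient (st G) => (q.out.1 : Module.End k M)) := by
  classical
  rw [linearIndependent_iff']
  intro s g hg i hi
  obtain ⟨x, hx, ho⟩ := exists_opp hG i.out.2
  have hxm := conj_mem_AAd i.out.2 hx
  set y := (x : Module.End k M) * i.out.1 * ((x⁻¹ : (Module.End k M)ˣ) : Module.End k M) with hy
  have hiy : Con G i.out.1 y := con_of_opp i.out.2 hxm ho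
  have h1 : (∑ j ∈ s, g j • (j.out.1 : Module.End k M)) * y -
      y * (∑ j ∈ s, g j • (j.out.1 : Module.End k M)) = 0 := by rw [hg]; simp
  rw [Finset.sum_mul, Finset.mul_sum, ← Finset.sum_sub_distrib, Finset.sum_eq_single i] at h1
  · rw [smul_mul_assoc, mul_smul_comm, ← smul_sub] at h1
    rcases smul_eq_zero.1 h1 with h2 | h2
    · exact h2
    · exact absurd (sub_eq_zero.1 h2) (opp_not_comm i.out.2 hxm ho)
  · intro j _ hji
    have hnc : ¬ Con G j.out.1 y := by
      intro h
      apply hji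
      have h3 : Con G j.out.1 i.out.1 := h.trans hiy.symm
      rw [← Quotient.out_eq j, ← Quotient.out_eq i]
      exact Quotient.sound h3
    rw [smul_mul_assoc, mul_smul_comm, comm_of_not_con hG j.out.2 hxm hnc, sub_self]
  · intro h; exact absurd hi h

theorem finite_components (hG : Cfsg.IsIrreducibleFor G) : Finite (Quotient (st G)) := by
  have := (lin_indep hG).finite
  exact this

end H86.Quad19
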