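import Mathlib
import Cfsg.Prelude.Def_RootSubgroups
import Cfsg.Agent.Lib.H86.Quad1

/-!
Quadratic pairs: dictionary between the group elements of `Cfsg.quadraticElements G` and the
square-zero endomorphisms `AA G`; minimal rank elements `AAd G`; the spaces `EE G a`.
-/

set_option autoImplicit false
set_option linter.unusedSimpArgs false
set_option linter.unusedVariables false
set_option linter.style.haveILetI false
set_option linter.unusedSectionVars false
open H86.Quad1

namespace H86.Quad2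

variable {k : Type*} [Field k] {M : Type*} [AddCommGroup M] [Module k M]
variable {G : Subgroup (LinearMap.GeneralLinearGroup k M)}

/-- Square-zero endomorphisms `a` with `1 + k a ⊆ G`. -/
def AA (G : Subgroup (LinearMap.GeneralLinearGroup k M)) : Set (Module.End k M) :=
  {a | a * a = 0 ∧ ∀ s : k, tv (s • a) ∈ G}

theorem AA_sq {a : Module.End k M} (h : a ∈ AA G) : a * a = 0 := h.1

theorem AA_mem {a : Module.End k M} (h : a ∈ AA G) : tv a ∈ G := by
  have := h.2 1; rwa [one_smul] at this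

theorem zero_mem_AA : (0 : Module.End k M) ∈ AA G := by
  refine ⟨by simp, fun s => ?_⟩
  rw [smul_zero, tv_zero]; exact one_mem _

theorem smul_mem_AA {a : Module.End k M} (h : a ∈ AA G) (s : k) : s • a ∈ AA G := by
  refine ⟨smul_sq s h.1, fun r => ?_⟩
  rw [smul_smul]; exact h.2 _

theorem neg_mem_AA {a : Module.End k M} (h : a ∈ AA G) : -a ∈ AA G := by
  have := smul_mem_AA h (-1 : k)
  rwa [neg_one_smul] at this

theorem add_mem_AA {a b : Module.End k M} (ha : a ∈ AA G) (hb : b ∈ AA G) (hab : a * b = 0)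
    (hba : b * a = 0) : a + b ∈ AA G := by
  refine ⟨add_sq ha.1 hb.1 (by rw [hab, hba, add_zero]), fun s => ?_⟩
  rw [smul_add, tv_add (smul_sq s ha.1) (smul_sq s hb.1)]
  · exact mul_mem (ha.2 s) (hb.2 s)
  · rw [smul_mul_smul_comm, hab, smul_zero]
  · rw [smul_mul_smul_comm, hba, smul_zero]

theorem sub_mem_AA {a b : Module.End k M} (ha : a ∈ AA G) (hb : b ∈ AA G) (hab : a * b = 0)
    (hba : b * a = 0) : a - b ∈ AA G := by
  rw [sub_eq_add_neg]
  exact add_mem_AA ha (neg_mem_AA hb) (by rw [mul_neg, hab, neg_zero])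
    (by rw [neg_mul, hba, neg_zero])

theorem conj_mem_AA {a : Module.End k M} (ha : a ∈ AA G)
    {g : LinearMap.GeneralLinearGroup k M} (hg : g ∈ G) :
    (g : Module.End k M) * a * ((g⁻¹ : (Module.End k M)ˣ) : Module.End k M) ∈ AA G := by
  refine ⟨conj_sq g ha.1, fun s => ?_⟩
  have h : s • ((g : Module.End k M) * a * ((g⁻¹ : (Module.End k M)ˣ) : Module.End k M)) =
      (g : Module.End k M) * (s • a) * ((g⁻¹ : (Module.End k M)ˣ) : Module.End k M) := by
    rw [mul_smul_comm, smul_mul_assoc]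
  rw [h, ← conj_tv g (smul_sq s ha.1)]
  exact mul_mem (mul_mem hg (ha.2 s)) (inv_mem hg)

theorem mem_quadratic_iff {σ : LinearMap.GeneralLinearGroup k M} :
    σ ∈ Cfsg.quadraticElements G ↔ ∃ a ∈ AA G, a ≠ 0 ∧ σ = tv a := by
  constructor
  · rintro ⟨h1, ⟨h2, h3⟩, h4⟩
    refine ⟨(σ : Module.End k M) - 1, ⟨h2, fun s => ?_⟩, h3, ?_⟩
    · apply h4
      refine ⟨s, ?_⟩
      rw [val_tv (smul_sq s h2)]
    · ext1
      rw [val_tv h2, add_sub_cancel]
  · rintro ⟨a, ha, ha0, rfl⟩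
    have hv : ((tv a : (Module.End k M)ˣ) : M →ₗ[k] M) - 1 = a := by
      rw [val_tv ha.1, add_sub_cancel_left]
    refine ⟨AA_mem ha, ⟨?_, ?_⟩, ?_⟩
    · rw [hv]; exact ha.1
    · rw [hv]; exact ha0
    · rintro τ ⟨c, hc⟩
      rw [hv] at hc
      have : τ = tv (c • a) := by
        ext1; rw [hc, val_tv (smul_sq c ha.1)]
      rw [this]
      exact ha.2 c

theorem tv_sub_one {a : Module.End k M} (h : a * a = 0) :
    ((tv a : (Module.End k M)ˣ) : M →ₗ[k] M) - 1 = a := by
  rw [val_tv h, add_sub_cancel_left]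

/-- The scalar family of `1 + a`. -/
theorem scalarFamily_tv {a : Module.End k M} (h : a * a = 0) :
    Cfsg.scalarFamily (tv a : LinearMap.GeneralLinearGroup k M) = {g | ∃ s : k, g = tv (s • a)} := by
  ext g
  constructor
  · rintro ⟨c, hc⟩
    rw [tv_sub_one h] at hc
    refine ⟨c, ?_⟩
    ext1; rw [hc, val_tv (smul_sq c h)]
  · rintro ⟨c, rfl⟩
    refine ⟨c, ?_⟩
    rw [tv_sub_one h, val_tv (smul_sq c h)]

/-- The rank of an endomorphism. -/
noncomputable def rk (a : Module.End k M) : ℕ := Module.finrank k (LinearMap.range a)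

theorem commutatorRank_tv {a : Module.End k M} (h : a * a = 0) :
    Cfsg.commutatorRank (tv a : LinearMap.GeneralLinearGroup k M) = rk a := by
  unfold Cfsg.commutatorRank rk
  rw [tv_sub_one h]

/-- The elements of `AA G` of minimal non-zero rank. -/
def AAd (G : Subgroup (LinearMap.GeneralLinearGroup k M)) : Set (Module.End k M) :=
  {a | a ∈ AA G ∧ a ≠ 0 ∧ ∀ b ∈ AA G, b ≠ 0 → rk a ≤ rk b}

theorem mem_minimal_iff {σ : LinearMap.GeneralLinearGroup k M} :
    σ ∈ Cfsg.minimalQuadraticElements G ↔ ∃ a ∈ AAd G, σ = tv a := by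
  constructor
  · rintro ⟨h1, h2⟩
    obtain ⟨a, ha, ha0, rfl⟩ := mem_quadratic_iff.1 h1
    refine ⟨a, ⟨ha, ha0, fun b hb hb0 => ?_⟩, rfl⟩
    have := h2 (tv b) (mem_quadratic_iff.2 ⟨b, hb, hb0, rfl⟩)
    rwa [commutatorRank_tv ha.1, commutatorRank_tv hb.1] at this
  · rintro ⟨a, ⟨ha, ha0, hmin⟩, rfl⟩
    refine ⟨mem_quadratic_iff.2 ⟨a, ha, ha0, rfl⟩, fun τ hτ => ?_⟩
    obtain ⟨b, hb, hb0, rfl⟩ := mem_quadratic_iff.1 hτ
    rw [commutatorRank_tv ha.1, commutatorRank_tv hb.1]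
    exact hmin b hb hb0

theorem AAd_AA {a : Module.End k M} (h : a ∈ AAd G) : a ∈ AA G := h.1
theorem AAd_ne {a : Module.End k M} (h : a ∈ AAd G) : a ≠ 0 := h.2.1
theorem AAd_sq {a : Module.End k M} (h : a ∈ AAd G) : a * a = 0 := h.1.1

theorem inv_app (g : (Module.End k M)ˣ) (x : M) :
    ((g⁻¹ : (Module.End k M)ˣ) : Module.End k M) ((g : Module.End k M) x) = x := by
  have : (((g⁻¹ : (Module.End k M)ˣ) : Module.End k M) * (g : Module.End k M)) x = x := by
    rw [Units.inv_mul]; rfl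
  exact this

theorem app_inv (g : (Module.End k M)ˣ) (x : M) :
    (g : Module.End k M) (((g⁻¹ : (Module.End k M)ˣ) : Module.End k M) x) = x := by
  have : ((g : Module.End k M) * ((g⁻¹ : (Module.End k M)ˣ) : Module.End k M)) x = x := by
    rw [Units.mul_inv]; rfl
  exact this

theorem unit_inj (g : (Module.End k M)ˣ) : Function.Injective (g : Module.End k M) := by
  intro x y h
  have := congrArg ((g⁻¹ : (Module.End k M)ˣ) : Module.End k M) h
  rwa [inv_app, inv_app] at this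

theorem range_conj (g : (Module.End k M)ˣ) (a : Module.End k M) :
    LinearMap.range ((g : Module.End k M) * a * ((g⁻¹ : (Module.End k M)ˣ) : Module.End k M)) =
      (LinearMap.range a).map (g : Module.End k M) := by
  apply le_antisymm
  · rintro _ ⟨x, rfl⟩
    exact ⟨_, ⟨_, rfl⟩, rfl⟩
  · rintro _ ⟨_, ⟨x, rfl⟩, rfl⟩
    refine ⟨(g : Module.End k M) x, ?_⟩
    simp only [Module.End.mul_apply]
    rw [inv_app]

theorem ker_conj (g : (Module.End k M)ˣ) (a : Module.End k M) :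
    LinearMap.ker ((g : Module.End k M) * a * ((g⁻¹ : (Module.End k M)ˣ) : Module.End k M)) =
      (LinearMap.ker a).map (g : Module.End k M) := by
  apply le_antisymm
  · intro x hx
    refine ⟨((g⁻¹ : (Module.End k M)ˣ) : Module.End k M) x, ?_, app_inv g x⟩
    have hx' : (g : Module.End k M) (a (((g⁻¹ : (Module.End k M)ˣ) : Module.End k M) x)) = 0 := hx
    have := unit_inj g (hx'.trans (map_zero _).symm)
    exact this
  · rintro _ ⟨x, hx, rfl⟩
    show (g : Module.End k M) (a (((g⁻¹ : (Module.End k M)ˣ) : Module.End k M)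
      ((g : Module.End k M) x))) = 0
    rw [inv_app, show a x = 0 from hx, map_zero]

theorem finrank_map_unit (g : (Module.End k M)ˣ) (W : Submodule k M) :
    Module.finrank k (W.map (g : Module.End k M)) = Module.finrank k W :=
  (Submodule.equivMapOfInjective _ (unit_inj g) W).finrank_eq.symm

theorem rk_conj (g : (Module.End k M)ˣ) (a : Module.End k M) :
    rk ((g : Module.End k M) * a * ((g⁻¹ : (Module.End k M)ˣ) : Module.End k M)) = rk a := by
  unfold rk
  rw [range_conj, finrank_map_unit]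

theorem conj_eq_zero {g : (Module.End k M)ˣ} {a : Module.End k M}
    (h : (g : Module.End k M) * a * ((g⁻¹ : (Module.End k M)ˣ) : Module.End k M) = 0) : a = 0 := by
  have : a = ((g⁻¹ : (Module.End k M)ˣ) : Module.End k M) * ((g : Module.End k M) * a *
      ((g⁻¹ : (Module.End k M)ˣ) : Module.End k M)) * (g : Module.End k M) := by
    simp only [mul_assoc, Units.inv_mul, mul_one]
    rw [← mul_assoc, Units.inv_mul, one_mul]
  rw [this, h, mul_zero, zero_mul]

theorem conj_mem_AAd {a : Module.End k M} (ha : a ∈ AAd G)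
    {g : LinearMap.GeneralLinearGroup k M} (hg : g ∈ G) :
    (g : Module.End k M) * a * ((g⁻¹ : (Module.End k M)ˣ) : Module.End k M) ∈ AAd G := by
  refine ⟨conj_mem_AA ha.1 hg, fun h => ha.2.1 (conj_eq_zero h), fun b hb hb0 => ?_⟩
  rw [rk_conj]
  exact ha.2.2 b hb hb0

/-- The space `𝔢(a)`: zero and the elements of `AA G` with the kernel and image of `a`. -/
def EE (G : Subgroup (LinearMap.GeneralLinearGroup k M)) (a : Module.End k M) :
    Set (Module.End k M) :=
  {b | b ∈ AA G ∧ (b = 0 ∨ (LinearMap.ker b = LinearMap.ker a ∧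
    LinearMap.range b = LinearMap.range a))}

theorem self_mem_EE {a : Module.End k M} (ha : a ∈ AA G) : a ∈ EE G a := ⟨ha, Or.inr ⟨rfl, rfl⟩⟩

theorem zero_mem_EE {a : Module.End k M} : (0 : Module.End k M) ∈ EE G a :=
  ⟨zero_mem_AA, Or.inl rfl⟩

theorem range_le_of_EE {a b : Module.End k M} (hb : b ∈ EE G a) :
    LinearMap.range b ≤ LinearMap.range a := by
  rcases hb.2 with rfl | h
  · simp
  · exact h.2.le

theorem ker_le_of_EE {a b : Module.End k M} (hb : b ∈ EE G a) :
    LinearMap.ker a ≤ LinearMap.ker b := by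
  rcases hb.2 with rfl | h
  · simp
  · exact h.1.ge

theorem mul_eq_zero_iff (a b : Module.End k M) :
    a * b = 0 ↔ LinearMap.range b ≤ LinearMap.ker a := by
  rw [LinearMap.range_le_ker_iff]; rfl

theorem range_le_ker {a : Module.End k M} (h : a * a = 0) :
    LinearMap.range a ≤ LinearMap.ker a := (mul_eq_zero_iff a a).1 h

theorem EE_mul {a b c : Module.End k M} (ha : a * a = 0) (hb : b ∈ EE G a) (hc : c ∈ EE G a) :
    b * c = 0 := by
  rw [mul_eq_zero_iff]
  exact (range_le_of_EE hc).trans ((range_le_ker ha).trans (ker_le_of_EE hb))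

theorem EE_of_mem_EE {a b : Module.End k M} (hb : b ∈ EE G a) (hb0 : b ≠ 0) :
    EE G b = EE G a := by
  rcases hb.2 with h | h
  · exact absurd h hb0
  · unfold EE; rw [h.1, h.2]

variable [FiniteDimensional k M]

/-- An element of `AA G` with image contained in that of `a ∈ AAd G` and kernel containing that
of `a` lies in `EE G a`. -/
theorem mem_EE_of_le {a b : Module.End k M} (ha : a ∈ AAd G) (hb : b ∈ AA G)
    (h1 : LinearMap.range b ≤ LinearMap.range a) (h2 : LinearMap.ker a ≤ LinearMap.ker b) :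
    b ∈ EE G a := by
  refine ⟨hb, ?_⟩
  by_cases hb0 : b = 0
  · exact Or.inl hb0
  · right
    have hle := ha.2.2 b hb hb0
    have hr : LinearMap.range b = LinearMap.range a := Submodule.eq_of_le_of_finrank_le h1 hle
    refine ⟨?_, hr⟩
    have e1 := LinearMap.finrank_range_add_finrank_ker a
    have e2 := LinearMap.finrank_range_add_finrank_ker b
    symm
    apply Submodule.eq_of_le_of_finrank_le h2
    rw [hr] at e2
    omega

theorem mem_AAd_of_EE {a b : Module.End k M} (ha : a ∈ AAd G) (hb : b ∈ EE G a) (hb0 : b ≠ 0) :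
    b ∈ AAd G := by
  refine ⟨hb.1, hb0, fun c hc hc0 => ?_⟩
  have : rk b = rk a := by
    unfold rk
    rcases hb.2 with h | h
    · exact absurd h hb0
    · rw [h.2]
  rw [this]
  exact ha.2.2 c hc hc0

theorem add_mem_EE {a b c : Module.End k M} (ha : a ∈ AAd G) (hb : b ∈ EE G a)
    (hc : c ∈ EE G a) : b + c ∈ EE G a := by
  apply mem_EE_of_le ha
  · exact add_mem_AA hb.1 hc.1 (EE_mul ha.1.1 hb hc) (EE_mul ha.1.1 hc hb)
  · rintro _ ⟨x, rfl⟩
    exact add_mem (range_le_of_EE hb ⟨x, rfl⟩) (range_le_of_EE hc ⟨x, rfl⟩)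
  · intro x hx
    show b x + c x = 0
    rw [show b x = 0 from ker_le_of_EE hb hx, show c x = 0 from ker_le_of_EE hc hx, add_zero]

theorem smul_mem_EE {a b : Module.End k M} (ha : a ∈ AAd G) (hb : b ∈ EE G a) (s : k) :
    s • b ∈ EE G a := by
  apply mem_EE_of_le ha (smul_mem_AA hb.1 s)
  · rintro _ ⟨x, rfl⟩
    exact Submodule.smul_mem _ s (range_le_of_EE hb ⟨x, rfl⟩)
  · intro x hx
    show s • b x = 0
    rw [show b x = 0 from ker_le_of_EE hb hx, smul_zero]

theorem neg_mem_EE {a b : Module.End k M} (ha : a ∈ AAd G) (hb : b ∈ EE G a) :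
    -b ∈ EE G a := by
  have := smul_mem_EE ha hb (-1 : k)
  rwa [neg_one_smul] at this

theorem sub_mem_EE {a b c : Module.End k M} (ha : a ∈ AAd G) (hb : b ∈ EE G a)
    (hc : c ∈ EE G a) : b - c ∈ EE G a := by
  rw [sub_eq_add_neg]
  exact add_mem_EE ha hb (neg_mem_EE ha hc)

/-- `𝔢(a)` as a submodule of `End M`. -/
def eS (G : Subgroup (LinearMap.GeneralLinearGroup k M)) (a : Module.End k M) (ha : a ∈ AAd G) :
    Submodule k (Module.End k M) where
  carrier := EE G a
  zero_mem' := zero_mem_EE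
  add_mem' := fun hb hc => add_mem_EE ha hb hc
  smul_mem' := fun s _ hb => smul_mem_EE ha hb s

theorem tv_mul_EE {a b c : Module.End k M} (ha : a ∈ AAd G) (hb : b ∈ EE G a)
    (hc : c ∈ EE G a) : tv b * tv c = tv (b + c) :=
  (tv_add hb.1.1 hc.1.1 (EE_mul ha.1.1 hb hc) (EE_mul ha.1.1 hc hb)).symm

/-- The subgroup `E(1 + a)` as `{1 + b : b ∈ 𝔢(a)}`. -/
def Esub (G : Subgroup (LinearMap.GeneralLinearGroup k M)) (a : Module.End k M) (ha : a ∈ AAd G) :
    Subgroup (LinearMap.GeneralLinearGroup k M) where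
  carrier := {g | ∃ b ∈ EE G a, g = tv b}
  mul_mem' := by
    rintro _ _ ⟨b, hb, rfl⟩ ⟨c, hc, rfl⟩
    exact ⟨b + c, add_mem_EE ha hb hc, tv_mul_EE ha hb hc⟩
  one_mem' := ⟨0, zero_mem_EE, tv_zero.symm⟩
  inv_mem' := by
    rintro _ ⟨b, hb, rfl⟩
    exact ⟨-b, neg_mem_EE ha hb, inv_tv hb.1.1⟩

theorem sameActionClass_eq {a : Module.End k M} (ha : a ∈ AAd G) :
    Cfsg.sameActionClass G (tv a) = {g | ∃ b ∈ EE G a, b ≠ 0 ∧ g = tv b} := by
  ext τ
  constructor
  · rintro ⟨h1, h2, h3⟩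
    obtain ⟨b, hb, rfl⟩ := mem_minimal_iff.1 h1
    rw [tv_sub_one hb.1.1, tv_sub_one ha.1.1] at h2 h3
    exact ⟨b, ⟨hb.1, Or.inr ⟨h2, h3⟩⟩, hb.2.1, rfl⟩
  · rintro ⟨b, hb, hb0, rfl⟩
    have hbd := mem_AAd_of_EE ha hb hb0
    refine ⟨mem_minimal_iff.2 ⟨b, hbd, rfl⟩, ?_, ?_⟩
    · rw [tv_sub_one hb.1.1, tv_sub_one ha.1.1]
      rcases hb.2 with h | h
      · exact absurd h hb0
      · exact h.1
    · rw [tv_sub_one hb.1.1, tv_sub_one ha.1.1]
      rcases hb.2 with h | h
      · exact absurd h hb0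
      · exact h.2

theorem sameActionSubgroup_eq {a : Module.End k M} (ha : a ∈ AAd G) :
    Cfsg.sameActionSubgroup G (tv a) = Esub G a ha := by
  unfold Cfsg.sameActionSubgroup
  rw [sameActionClass_eq ha]
  apply le_antisymm
  · rw [Subgroup.closure_le]
    rintro _ ⟨b, hb, -, rfl⟩
    exact ⟨b, hb, rfl⟩
  · rintro _ ⟨b, hb, rfl⟩
    by_cases hb0 : b = 0
    · rw [hb0, tv_zero]; exact one_mem _
    · exact Subgroup.subset_closure ⟨b, hb, hb0, rfl⟩

theorem mem_Esub {a : Module.End k M} {ha : a ∈ AAd G} {g : LinearMap.GeneralLinearGroup k M} :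
    g ∈ Esub G a ha ↔ ∃ b ∈ EE G a, g = tv b := Iff.rfl

theorem mem_root_iff {A : Subgroup (LinearMap.GeneralLinearGroup k M)} :
    A ∈ Cfsg.quadraticRootSubgroups G ↔ ∃ (a : Module.End k M) (ha : a ∈ AAd G),
      A = Esub G a ha := by
  constructor
  · rintro ⟨σ, hσ, rfl⟩
    obtain ⟨a, ha, rfl⟩ := mem_minimal_iff.1 hσ
    exact ⟨a, ha, sameActionSubgroup_eq ha⟩
  · rintro ⟨a, ha, rfl⟩
    exact ⟨tv a, mem_minimal_iff.2 ⟨a, ha, rfl⟩, (sameActionSubgroup_eq ha).symm⟩

theorem Esub_comm {a : Module.End k M} (ha : a ∈ AAd G) : IsMulCommutative (Esub G a ha) := by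
  refine ⟨⟨?_⟩⟩
  rintro ⟨_, ⟨b, hb, rfl⟩⟩ ⟨_, ⟨c, hc, rfl⟩⟩
  apply Subtype.ext
  show tv b * tv c = tv c * tv b
  rw [tv_mul_EE ha hb hc, tv_mul_EE ha hc hb, add_comm]

theorem tv_pow {a : Module.End k M} (ha : a * a = 0) (n : ℕ) : tv a ^ n = tv ((n : k) • a) := by
  induction n with
  | zero => simp
  | succ n ih =>
    rw [pow_succ, ih, ← tv_add (smul_sq _ ha) ha (by rw [smul_mul_assoc, ha, smul_zero])
      (by rw [mul_smul_comm, ha, smul_zero])]
    congr 1
    push_cast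
    rw [add_smul, one_smul]

end H86.Quad2
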