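import Cfsg.Agent.Lib.H86.Quad19

/-!
Quadratic pairs: every component of `Σ` is a class of abstract root subgroups of the group it
generates.
-/

set_option autoImplicit false
set_option linter.unusedSimpArgs false
set_option linter.unusedVariables false
set_option linter.style.haveILetI false
set_option linter.unusedSectionVars false
open H86.Quad1 H86.FinSL H86.Quad2 H86.Quad3 H86.Quad4 H86.Quad5 H86.Quad6 H86.Quad7 H86.Quad8
open H86.Quad9 H86.Quad10 H86.Quad11 H86.Quad12 H86.Quad13 H86.Quad14 H86.Quad15 H86.Quad16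
open H86.Quad17 H86.Quad18 H86.Quad19 H86.Unip Polynomial
open scoped commutatorElement

namespace H86.Quad20

universe u v

variable {k : Type u} [Field k] [Good k] {M : Type v} [AddCommGroup M] [Module k M]
  [FiniteDimensional k M]
variable {G : Subgroup (LinearMap.GeneralLinearGroup k M)}

theorem con_of_Esub_eq (hG : Cfsg.IsIrreducibleFor G) {b c : Module.End k M} {hb : b ∈ AAd G}
    {hc : c ∈ AAd G} (h : Esub G b hb = Esub G c hc) : Con G b c := by
  have h1 := EE_of_Esub h
  have h2 : c ∈ EE G b := by rw [h1]; exact self_mem_EE hc.1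
  exact con_EE hG hb h2 hc.2.1

theorem trichotomy_cmp (hG : Cfsg.IsQuadraticPair G) {a : Module.End k M} (ha : a ∈ AAd G)
    {A B : Subgroup (LinearMap.GeneralLinearGroup k M)}
    (hA : A ∈ cmp G a) (hB : B ∈ cmp G a) :
    ⁅A, B⁆ = ⊥ ∨ Cfsg.IsRankOnePair A B ∨ Cfsg.RootCommutatorCase (cmp G a) A B := by
  obtain ⟨b, hb, hab, rfl⟩ := hA
  obtain ⟨c, hc, hac, rfl⟩ := hB
  by_cases ho : Opp b c
  · right; left; exact isRankOnePair hb hc ho
  · have h := (np_iff hb hc).2 ho
    by_cases hcc : b * c = c * b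
    · left; exact commutator_eq_bot h hcc
    · right; right
      have hne : b * c - c * b ≠ 0 := sub_ne_zero.2 hcc
      exact root_case hG.1 h hne ⟨_, h.e_mem hne, hab.trans (conn hG.1 h hne), rfl⟩

theorem rootClass (hG : Cfsg.IsQuadraticPair G) {a : Module.End k M} (ha : a ∈ AAd G) :
    Cfsg.IsRootSubgroupClass ((fun A : Subgroup (LinearMap.GeneralLinearGroup k M) =>
      A.subgroupOf (Hc G a)) '' (cmp G a)) := by
  constructor
  · apply H86.RootTransfer.rootSet_of (H := Hc G a) rfl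
    · rintro _ ⟨b, hb, -, rfl⟩; exact Esub_comm hb
    · rintro _ ⟨b, hb, -, rfl⟩; exact Esub_ne_bot hb
    · intro A hA g hg; exact conj_cmp hG hA (Hc_le hg)
    · intro A hA B hB; exact trichotomy_cmp hG ha hA hB
  · refine ⟨⟨_, _, ⟨a, ha, Quad17.Con.refl a, rfl⟩, rfl⟩, ?_⟩
    rintro _ ⟨_, ⟨b, hb, hab, rfl⟩, rfl⟩ _ ⟨_, ⟨c, hc, hac, rfl⟩, rfl⟩
    obtain ⟨g, hg, he⟩ := class_Esub hG hb (hab.symm.trans hac)
    rw [Hc_congr hab] at hg
    refine ⟨⟨g, hg⟩, ?_⟩
    show (Esub G c hc).subgroupOf (Hc G a) = Cfsg.conjBy ((Esub G b hb).subgroupOf (Hc G a)) _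
    rw [H86.RootTransfer.conjBy_subgroupOf, he]

end H86.Quad20
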