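import Cfsg.Agent.Lib.H86.Quad20

/-!
Quadratic pairs: every quadratic element lies in a component group or centralizes `⟨Σ⟩`;
restriction to invariant subspaces.
-/

set_option autoImplicit false
set_option linter.unusedSimpArgs false
set_option linter.unusedVariables false
set_option linter.style.haveILetI false
set_option linter.unusedSectionVars false
open H86.Quad1 H86.FinSL H86.Quad2 H86.Quad3 H86.Quad4 H86.Quad5 H86.Quad6 H86.Quad7 H86.Quad8
open H86.Quad9 H86.Quad10 H86.Quad11 H86.Quad12 H86.Quad13 H86.Quad14 H86.Quad15 H86.Quad16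
open H86.Quad17 H86.Quad18 H86.Quad19 H86.Quad20 H86.Unip Polynomial
open scoped commutatorElement

namespace H86.Quad21

universe u v

section res
variable {k : Type u} [Field k] {M : Type v} [AddCommGroup M] [Module k M]
variable {S : Subgroup (LinearMap.GeneralLinearGroup k M)} {N : Submodule k M}

/-- restriction to an invariant subspace -/
def res (hN : Inv S N) : S →* LinearMap.GeneralLinearGroup k N where
  toFun x := ⟨((x : LinearMap.GeneralLinearGroup k M) : M →ₗ[k] M).restrict (hN x.1 x.2),
    (((x : LinearMap.GeneralLinearGroup k M)⁻¹ : LinearMap.GeneralLinearGroup k M) :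
      M →ₗ[k] M).restrict (hN _ (inv_mem x.2)), by
      ext n
      exact app_inv x.1 n, by
      ext n
      exact inv_app x.1 n⟩
  map_one' := by
    apply Units.ext
    ext n
    rfl
  map_mul' x y := by
    apply Units.ext
    ext n
    rfl

theorem res_app (hN : Inv S N) (x : S) (n : N) :
    (((res hN x : LinearMap.GeneralLinearGroup k N) : N →ₗ[k] N) n : M) =
      ((x : LinearMap.GeneralLinearGroup k M) : M →ₗ[k] M) n := rfl

end res

section main
variable {k : Type u} [Field k] [Good k] {M : Type v} [AddCommGroup M] [Module k M]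
  [FiniteDimensional k M]
variable {G : Subgroup (LinearMap.GeneralLinearGroup k M)}

/-- An endomorphism commuting with `Hc G a` and killing the range of `a` vanishes. -/
theorem zero_of_comm_Hc (hG : Cfsg.IsQuadraticPair G) {a t : Module.End k M} (ha : a ∈ AAd G)
    (hcomm : ∀ g ∈ Hc G a, t * (g : Module.End k M) = (g : Module.End k M) * t)
    (hta : t * a = 0) : t = 0 := by
  -- the sum of the ranges
  let W : Submodule k M := ⨆ c : {c // c ∈ AAd G ∧ Con G a c}, LinearMap.range c.1
  have hinv : ∀ g ∈ G, ∀ w ∈ W, (g : M →ₗ[k] M) w ∈ W := by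
    intro g hg w hw
    have h1 : W.map (g : Module.End k M) ≤ W := by
      rw [Submodule.map_iSup]
      apply iSup_le
      rintro ⟨c, hc, hac⟩
      rw [← range_conj]
      exact le_iSup (fun c : {c // c ∈ AAd G ∧ Con G a c} => LinearMap.range c.1)
        ⟨_, conj_mem_AAd hc hg, hac.trans (con_conj hG hg hc)⟩
    exact h1 ⟨w, hw, rfl⟩
  have hW : W = ⊤ := by
    rcases hG.1.2 W hinv with h | h
    · exfalso
      apply ha.2.1
      rw [← LinearMap.range_eq_bot, eq_bot_iff, ← h]
      exact le_iSup (fun c : {c // c ∈ AAd G ∧ Con G a c} => LinearMap.range c.1)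
        ⟨a, ha, Quad17.Con.refl a⟩
    · exact h
  have hk : W ≤ LinearMap.ker t := by
    apply iSup_le
    rintro ⟨c, hc, hac⟩
    obtain ⟨g, hg, he⟩ := class_con hG ha hac
    have h1 : c ∈ EE G ((g : Module.End k M) * a * ((g⁻¹ : (Module.End k M)ˣ) : Module.End k M)) := by
      rw [he]; exact self_mem_EE hc.1
    rw [EE_range h1 hc.2.1, ← mul_eq_zero_iff, ← mul_assoc, ← mul_assoc, hcomm g hg,
      mul_assoc (g : Module.End k M), hta, mul_zero, zero_mul]
  ext m
  have : m ∈ W := by rw [hW]; trivial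
  exact hk this

theorem comm_of_tv_comm {x : Module.End k M} (hx : x * x = 0)
    {g : LinearMap.GeneralLinearGroup k M} (h : tv x * g = g * tv x) :
    x * (g : Module.End k M) = (g : Module.End k M) * x := by
  have h1 := congrArg Units.val h
  rw [Units.val_mul, Units.val_mul, val_tv hx, add_mul, mul_add, one_mul, mul_one] at h1
  exact add_left_cancel h1

/-- Elements of `AA ∩ TT` commute with the component groups. -/
theorem TT_comm_Hc (hG : Cfsg.IsIrreducibleFor G) {t : Module.End k M} (ht : t ∈ AA G)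
    (hT : t ∈ TT G) {a : Module.End k M} : ∀ g ∈ Hc G a, (tv t : LinearMap.GeneralLinearGroup k M) *
      g = g * tv t := by
  intro g hg
  refine jn_induction (P := fun g => (tv t : LinearMap.GeneralLinearGroup k M) * g = g * tv t)
    ?_ ?_ ?_ hg
  · rintro _ ⟨b, hb, hab, rfl⟩ _ ⟨x, hx, rfl⟩
    by_cases hx0 : x = 0
    · rw [hx0, tv_zero]; simp
    · exact tv_comm_of ht.1 hx.1.1 (comm_of_TT hG ht hT (mem_AAd_of_EE hb hx hx0))
  · simp
  · intro x y hx hy
    rw [← mul_assoc, hx, mul_assoc, hy, mul_assoc]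

/-- Every quadratic element lies in a component group or in `TT`. -/
theorem dicho (hG : Cfsg.IsQuadraticPair G) : ∀ t ∈ AA G, t ∈ TT G ∨
    ∃ a ∈ AAd G, (tv t : LinearMap.GeneralLinearGroup k M) ∈ Hc G a := by
  have key : ∀ n : ℕ, ∀ t ∈ AA G, rk t ≤ n → t ∈ TT G ∨
      ∃ a ∈ AAd G, (tv t : LinearMap.GeneralLinearGroup k M) ∈ Hc G a := by
    intro n
    induction n with
    | zero =>
      intro t ht hr
      have : t = 0 := by
        by_contra h
        have := rk_pos h
        omega
      subst this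
      left; intro a ha; simp
    | succ n ih =>
      intro t ht hr
      by_cases hT : t ∈ TT G
      · exact Or.inl hT
      · right
        have : ∃ a ∈ AAd G, ¬ IsNilpotent (a * t) := by
          by_contra hcon
          push Not at hcon
          exact hT fun a ha => claim ha ht (hcon a ha)
        obtain ⟨a, ha, hn⟩ := this
        obtain ⟨t₁, e1, e2, e3, e4, e5, e6⟩ := split ha ht hn
        have e7 : (tv t : LinearMap.GeneralLinearGroup k M) = tv t₁ * tv (t - t₁) := by
          rw [← tv_add e1.1.1 e2.1 e3 e4]; congr 1; abel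
        have hz : (∀ g ∈ Hc G t₁, (tv (t - t₁) : LinearMap.GeneralLinearGroup k M) * g =
            g * tv (t - t₁)) → ∃ a ∈ AAd G, (tv t : LinearMap.GeneralLinearGroup k M) ∈ Hc G a := by
          intro h
          have h0 := zero_of_comm_Hc hG e1 (t := t - t₁)
            (fun g hg => comm_of_tv_comm e2.1 (h g hg)) e4
          refine ⟨t₁, e1, ?_⟩
          rw [e7, h0, tv_zero, mul_one]
          exact tv_mem_Hc e1 (Quad17.Con.refl _)
        rcases ih (t - t₁) e2 (by omega) with h | ⟨b, hb, h⟩
        · exact hz (TT_comm_Hc hG.1 e2 h)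
        · by_cases hc : Con G t₁ b
          · refine ⟨t₁, e1, ?_⟩
            rw [e7]
            refine mul_mem (tv_mem_Hc e1 (Quad17.Con.refl _)) ?_
            rw [← Hc_congr hc]; exact h
          · apply hz
            intro g hg
            have h1 := Hc_comm hG e1 hb hc
            rw [Subgroup.commutator_eq_bot_iff_le_centralizer] at h1
            exact Subgroup.mem_centralizer_iff.1 (h1 hg) _ h
  intro t ht
  exact key _ t ht le_rfl

/-- The group generated by the quadratic elements centralizing `⟨Σ⟩`. -/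
def Gt (G : Subgroup (LinearMap.GeneralLinearGroup k M)) :
    Subgroup (LinearMap.GeneralLinearGroup k M) :=
  Subgroup.closure {g | ∃ t ∈ AA G, t ∈ TT G ∧ g = tv t}

theorem Gt_le : Gt G ≤ G := by
  unfold Gt
  rw [Subgroup.closure_le]
  rintro _ ⟨t, ht, -, rfl⟩
  exact AA_mem ht

theorem Gt_comm (hG : Cfsg.IsIrreducibleFor G) {a : Module.End k M} {x g : LinearMap.GeneralLinearGroup k M}
    (hx : x ∈ Gt G) (hg : g ∈ Hc G a) : x * g = g * x := by
  have : Gt G ≤ Subgroup.centralizer {g} := by
    unfold Gt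
    rw [Subgroup.closure_le]
    rintro _ ⟨t, ht, hT, rfl⟩
    rw [SetLike.mem_coe, Subgroup.mem_centralizer_singleton_iff]
    exact TT_comm_Hc hG ht hT g hg
  exact Subgroup.mem_centralizer_singleton_iff.1 (this hx)

/-- The join of all the component groups. -/
def G0 (G : Subgroup (LinearMap.GeneralLinearGroup k M)) :
    Subgroup (LinearMap.GeneralLinearGroup k M) := ⨆ a : {a // a ∈ AAd G}, Hc G a.1

theorem Hc_le_G0 {a : Module.End k M} (ha : a ∈ AAd G) : Hc G a ≤ G0 G :=
  le_iSup (fun a : {a // a ∈ AAd G} => Hc G a.1) ⟨a, ha⟩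

theorem G0_le : G0 G ≤ G := iSup_le fun _ => Hc_le

theorem Gt_comm_G0 (hG : Cfsg.IsIrreducibleFor G) {x g : LinearMap.GeneralLinearGroup k M}
    (hx : x ∈ Gt G) (hg : g ∈ G0 G) : x * g = g * x := by
  have : G0 G ≤ Subgroup.centralizer {x} := by
    apply iSup_le
    rintro ⟨a, ha⟩ g hg
    rw [Subgroup.mem_centralizer_singleton_iff]
    exact (Gt_comm hG hx hg).symm
  exact (Subgroup.mem_centralizer_singleton_iff.1 (this hg)).symm

theorem le_sup (hG : Cfsg.IsQuadraticPair G) : G ≤ G0 G ⊔ Gt G := by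
  conv_lhs => rw [← hG.2]
  rw [Subgroup.closure_le]
  intro g hg
  obtain ⟨t, ht, -, rfl⟩ := mem_quadratic_iff.1 hg
  rcases dicho hG t ht with h | ⟨a, ha, h⟩
  · exact Subgroup.mem_sup_right (Subgroup.subset_closure ⟨t, ht, h, rfl⟩)
  · exact Subgroup.mem_sup_left (Hc_le_G0 ha h)

/-- Minimal invariant subspaces exist. -/
theorem exists_minimal (S : Subgroup (LinearMap.GeneralLinearGroup k M)) (hM : ∃ m : M, m ≠ 0) :
    ∃ N : Submodule k M, Inv S N ∧ N ≠ ⊥ ∧ ∀ W ≤ N, Inv S W → W = ⊥ ∨ W = N := by
  have hex : ∃ N : Submodule k M, Inv S N ∧ N ≠ ⊥ := by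
    obtain ⟨m, hm⟩ := hM
    refine ⟨⊤, inv_top S, fun h => hm ?_⟩
    have : m ∈ (⊤ : Submodule k M) := trivial
    rw [h] at this
    exact (Submodule.mem_bot k).1 this
  obtain ⟨N, hN, hmin⟩ := WellFounded.has_min (wellFounded_lt (α := Submodule k M))
    {N | Inv S N ∧ N ≠ ⊥} hex
  refine ⟨N, hN.1, hN.2, fun W hW hinv => ?_⟩
  by_cases h0 : W = ⊥
  · exact Or.inl h0
  · right
    by_contra hne
    exact hmin W ⟨hinv, h0⟩ (lt_of_le_of_ne hW hne)

end main

end H86.Quad21
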