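import Cfsg.Agent.Lib.H86.Quad21

/-!
Quadratic pairs: reduction of the centralizing part to a smaller space; the central product
decomposition.
-/

set_option autoImplicit false
set_option linter.unusedSimpArgs false
set_option linter.unusedVariables false
set_option linter.style.haveILetI false
set_option linter.unusedSectionVars false
open H86.Quad1 H86.FinSL H86.Quad2 H86.Quad3 H86.Quad4 H86.Quad5 H86.Quad6 H86.Quad7 H86.Quad8
open H86.Quad9 H86.Quad10 H86.Quad11 H86.Quad12 H86.Quad13 H86.Quad14 H86.Quad15 H86.Quad16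
open H86.Quad17 H86.Quad18 H86.Quad19 H86.Quad20 H86.Quad21 H86.Unip Polynomial
open scoped commutatorElement

namespace H86.Quad22

universe u v

variable {k : Type u} [Field k] [Good k] {M : Type v} [AddCommGroup M] [Module k M]
  [FiniteDimensional k M]
variable {G : Subgroup (LinearMap.GeneralLinearGroup k M)} {N : Submodule k M}

/-- `M` is spanned by the `G0`-translates of `N`. -/
theorem span_top (hG : Cfsg.IsQuadraticPair G) (hN : Inv (Gt G) N) (hN0 : N ≠ ⊥) :
    (⨆ g : G0 G, N.map ((g : LinearMap.GeneralLinearGroup k M) : Module.End k M)) = ⊤ := by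
  set W : Submodule k M := ⨆ g : G0 G, N.map ((g : LinearMap.GeneralLinearGroup k M) : Module.End k M)
    with hW
  let T : Subgroup (LinearMap.GeneralLinearGroup k M) :=
    { carrier := {g | W.map (g : Module.End k M) ≤ W ∧
        W.map ((g⁻¹ : (Module.End k M)ˣ) : Module.End k M) ≤ W}
      one_mem' := by
        constructor
        · rintro _ ⟨w, hw, rfl⟩; exact hw
        · rintro _ ⟨w, hw, rfl⟩
          rw [inv_one]; exact hw
      mul_mem' := by
        rintro a b ⟨ha, ha'⟩ ⟨hb, hb'⟩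
        constructor
        · rintro _ ⟨w, hw, rfl⟩
          exact ha ⟨_, hb ⟨w, hw, rfl⟩, rfl⟩
        · rintro _ ⟨w, hw, rfl⟩
          rw [mul_inv_rev]
          exact hb' ⟨_, ha' ⟨w, hw, rfl⟩, rfl⟩
      inv_mem' := by
        rintro a ⟨ha, ha'⟩
        exact ⟨ha', by rw [inv_inv]; exact ha⟩ }
  have h0 : ∀ g ∈ G0 G, W.map (g : Module.End k M) ≤ W := by
    intro g hg
    rw [hW, Submodule.map_iSup]
    apply iSup_le
    intro h
    have h1 : (N.map ((h : LinearMap.GeneralLinearGroup k M) : Module.End k M)).map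
        (g : Module.End k M) = N.map (((⟨g, hg⟩ * h : G0 G) : LinearMap.GeneralLinearGroup k M) :
          Module.End k M) := by
      rw [← Submodule.map_comp]; rfl
    rw [h1]
    exact le_iSup (fun g : G0 G => N.map ((g : LinearMap.GeneralLinearGroup k M) : Module.End k M))
      (⟨g, hg⟩ * h)
  have h1 : ∀ x ∈ Gt G, W.map (x : Module.End k M) ≤ W := by
    intro x hx
    rw [hW, Submodule.map_iSup]
    apply iSup_le
    intro h
    refine le_trans ?_ (le_iSup (fun g : G0 G => N.map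
      ((g : LinearMap.GeneralLinearGroup k M) : Module.End k M)) h)
    rintro _ ⟨_, ⟨n, hn, rfl⟩, rfl⟩
    refine ⟨(x : Module.End k M) n, hN x hx n hn, ?_⟩
    have h2 := congrArg Units.val (Gt_comm_G0 hG.1 hx h.2)
    exact (congrArg (fun f : Module.End k M => f n) h2).symm
  have hle : G ≤ T := by
    refine (le_sup hG).trans (sup_le ?_ ?_)
    · intro g hg; exact ⟨h0 g hg, h0 _ (inv_mem hg)⟩
    · intro g hg; exact ⟨h1 g hg, h1 _ (inv_mem hg)⟩
  rcases hG.1.2 W (fun g hg w hw => (hle hg).1 ⟨w, hw, rfl⟩) with h | h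
  · exfalso
    apply hN0
    rw [eq_bot_iff, ← h]
    refine le_trans ?_ (le_iSup (fun g : G0 G => N.map
      ((g : LinearMap.GeneralLinearGroup k M) : Module.End k M)) 1)
    intro n hn
    exact ⟨n, hn, rfl⟩
  · exact h

/-- Two endomorphisms agreeing on the translates of `N` are equal. -/
theorem ext_of_span (hG : Cfsg.IsQuadraticPair G) (hN : Inv (Gt G) N) (hN0 : N ≠ ⊥)
    {f f' : Module.End k M} (h : ∀ g ∈ G0 G, ∀ n ∈ N, f ((g : Module.End k M) n) =
      f' ((g : Module.End k M) n)) : f = f' := by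
  rw [← sub_eq_zero]
  have h1 : (⨆ g : G0 G, N.map ((g : LinearMap.GeneralLinearGroup k M) : Module.End k M)) ≤
      LinearMap.ker (f - f') := by
    apply iSup_le
    rintro g _ ⟨n, hn, rfl⟩
    show f _ - f' _ = 0
    rw [h g g.2 n hn, sub_self]
  rw [span_top hG hN hN0] at h1
  ext m
  exact h1 trivial

theorem comm_app (hG : Cfsg.IsQuadraticPair G) {x g : LinearMap.GeneralLinearGroup k M}
    (hx : x ∈ Gt G) (hg : g ∈ G0 G) (m : M) :
    (x : Module.End k M) ((g : Module.End k M) m) = (g : Module.End k M) ((x : Module.End k M) m) := by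
  have h2 := congrArg Units.val (Gt_comm_G0 hG.1 hx hg)
  exact congrArg (fun f : Module.End k M => f m) h2

theorem res_injective (hG : Cfsg.IsQuadraticPair G) (hN : Inv (Gt G) N) (hN0 : N ≠ ⊥) :
    Function.Injective (res hN) := by
  intro x y hxy
  apply Subtype.ext
  apply Units.ext
  apply ext_of_span hG hN hN0
  intro g hg n hn
  rw [comm_app hG x.2 hg, comm_app hG y.2 hg]
  congr 1
  have := congrArg (fun f : LinearMap.GeneralLinearGroup k N => (((f : N →ₗ[k] N) ⟨n, hn⟩ : N) : M)) hxy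
  exact this

/-- Restriction of transvections. -/
theorem res_tv (hN : Inv (Gt G) N) {t : Module.End k M} (ht : t * t = 0)
    (hmem : (tv t : LinearMap.GeneralLinearGroup k M) ∈ Gt G) :
    ∃ t' : Module.End k N, (∀ n : N, ((t' n : N) : M) = t n) ∧ t' * t' = 0 ∧
      res hN ⟨tv t, hmem⟩ = tv t' := by
  have hinv : ∀ n ∈ N, t n ∈ N := by
    intro n hn
    have h1 := hN _ hmem n hn
    have h2 : ((tv t : LinearMap.GeneralLinearGroup k M) : M →ₗ[k] M) n = n + t n := tv_app ht n
    rw [h2] at h1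
    have := N.sub_mem h1 hn
    rwa [add_sub_cancel_left] at this
  let t' : Module.End k N := t.restrict hinv
  have h1 : ∀ n : N, ((t' n : N) : M) = t n := fun n => rfl
  have h2 : t' * t' = 0 := by
    ext n
    show t (t n) = 0
    exact sq_app ht _
  refine ⟨t', h1, h2, ?_⟩
  apply Units.ext
  apply LinearMap.ext
  intro n
  apply Subtype.ext
  have h3 : ((tv t' : (Module.End k N)ˣ) : Module.End k N) = 1 + t' := val_tv h2
  have h4 : (((tv t' : (Module.End k N)ˣ) : Module.End k N) n : N) = n + t' n := by rw [h3]; rfl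
  show ((tv t : LinearMap.GeneralLinearGroup k M) : M →ₗ[k] M) (n : M) =
    (((tv t' : (Module.End k N)ˣ) : Module.End k N) n : N)
  rw [h4, tv_app ht]
  rfl

theorem smul_TT_mem {t : Module.End k M} (ht : t ∈ AA G) (hT : t ∈ TT G) (s : k) :
    (tv (s • t) : LinearMap.GeneralLinearGroup k M) ∈ Gt G :=
  Subgroup.subset_closure ⟨s • t, smul_mem_AA ht s, TT_smul s hT, rfl⟩

/-- restriction of an element of `AA ∩ TT`. -/
theorem restrict_AA (hN : Inv (Gt G) N) {t : Module.End k M} (ht : t ∈ AA G) (hT : t ∈ TT G) :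
    ∃ t' ∈ AA (res hN).range, (∀ n : N, ((t' n : N) : M) = t n) ∧
      ∀ hmem, res hN ⟨tv t, hmem⟩ = tv t' := by
  have hmem1 : (tv t : LinearMap.GeneralLinearGroup k M) ∈ Gt G := by
    have := smul_TT_mem ht hT (1 : k)
    rwa [one_smul] at this
  obtain ⟨t', h1, h2, h3⟩ := res_tv hN ht.1 hmem1
  refine ⟨t', ⟨h2, fun s => ?_⟩, h1, fun hmem => h3⟩
  have hmems := smul_TT_mem ht hT s
  obtain ⟨t'', i1, i2, i3⟩ := res_tv hN (smul_sq s ht.1) hmems
  have : t'' = s • t' := by
    ext n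
    rw [i1]
    show s • t n = s • ((t' n : N) : M)
    rw [h1]
  rw [← this]
  exact ⟨_, i3⟩

/-- lifting an element of `AA` of the restriction. -/
theorem lift_AA (hG : Cfsg.IsQuadraticPair G) (hN : Inv (Gt G) N) (hN0 : N ≠ ⊥)
    {t' : Module.End k N} (ht' : t' ∈ AA (res hN).range) :
    ∃ t ∈ AA G, t ∈ TT G ∧ (∀ n : N, ((t' n : N) : M) = t n) := by
  choose g hg using ht'.2
  set t : Module.End k M := (((g 1 : Gt G) : LinearMap.GeneralLinearGroup k M) : Module.End k M) - 1
    with htdef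
  -- action of `g s` on `N`
  have hgs : ∀ (s : k) (n : N), ((((g s : Gt G) : LinearMap.GeneralLinearGroup k M) : Module.End k M)
      (n : M)) = n + s • ((t' n : N) : M) := by
    intro s n
    have h1 := congrArg (fun f : LinearMap.GeneralLinearGroup k N => (((f : N →ₗ[k] N) n : N) : M))
      (hg s)
    have h2 : ((tv (s • t') : (Module.End k N)ˣ) : Module.End k N) = 1 + s • t' :=
      val_tv (smul_sq s ht'.1)
    have h3 : (((tv (s • t') : (Module.End k N)ˣ) : Module.End k N) n : N) = n + s • t' n := by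
      rw [h2]; rfl
    have h4 : ((((tv (s • t') : (Module.End k N)ˣ) : Module.End k N) n : N) : M) =
        n + s • ((t' n : N) : M) := by rw [h3]; rfl
    rw [← h4]
    exact h1
  have htn : ∀ n : N, t n = ((t' n : N) : M) := by
    intro n
    rw [htdef]
    show (((g 1 : Gt G) : LinearMap.GeneralLinearGroup k M) : Module.End k M) (n : M) - n = _
    rw [hgs, one_smul, add_sub_cancel_left]
  have htg : ∀ h ∈ G0 G, ∀ m : M, t ((h : Module.End k M) m) = (h : Module.End k M) (t m) := by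
    intro h hh m
    rw [htdef]
    show (((g 1 : Gt G) : LinearMap.GeneralLinearGroup k M) : Module.End k M)
      ((h : Module.End k M) m) - (h : Module.End k M) m = (h : Module.End k M)
      ((((g 1 : Gt G) : LinearMap.GeneralLinearGroup k M) : Module.End k M) m - m)
    rw [comm_app hG (g 1).2 hh, map_sub]
  have htt : t * t = 0 := by
    apply ext_of_span hG hN hN0
    intro h hh n hn
    show t (t ((h : Module.End k M) n)) = 0
    rw [htg h hh, htg h hh]
    have h1 := htn ⟨n, hn⟩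
    have h2 := htn (t' ⟨n, hn⟩)
    rw [h1, h2]
    have h3 : t' (t' ⟨n, hn⟩) = 0 := sq_app ht'.1 _
    rw [h3]; simp
  have htv : ∀ s : k, tv (s • t) = ((g s : Gt G) : LinearMap.GeneralLinearGroup k M) := by
    intro s
    apply Units.ext
    apply ext_of_span hG hN hN0
    intro h hh n hn
    rw [val_tv (smul_sq s htt), comm_app hG (g s).2 hh]
    show (h : Module.End k M) n + s • t ((h : Module.End k M) n) = _
    rw [htg h hh, hgs s ⟨n, hn⟩, map_add, map_smul]
    congr 2
    exact congrArg _ (htn ⟨n, hn⟩)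
  have hAA : t ∈ AA G := ⟨htt, fun s => by rw [htv s]; exact Gt_le (g s).2⟩
  refine ⟨t, hAA, ?_, fun n => (htn n).symm⟩
  intro a ha
  have h1 : t * a = a * t := by
    have h2 : tv t = ((g 1 : Gt G) : LinearMap.GeneralLinearGroup k M) := by
      have := htv 1; rwa [one_smul] at this
    have h3 := Gt_comm_G0 hG.1 (g 1).2 (Hc_le_G0 ha (tv_mem_Hc ha (Quad17.Con.refl a)))
    rw [← h2] at h3
    have h4 := comm_of_tv_comm htt h3
    rw [val_tv ha.1.1, mul_add, add_mul, mul_one, one_mul] at h4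
    exact add_left_cancel h4
  rw [← h1, mul_assoc, ha.1.1, mul_zero]

/-- the pulled back subgroup -/
def pull (hN : Inv (Gt G) N) (K : Subgroup (LinearMap.GeneralLinearGroup k N)) :
    Subgroup (LinearMap.GeneralLinearGroup k M) := (K.comap (res hN)).map (Gt G).subtype

theorem mem_pull {hN : Inv (Gt G) N} {K : Subgroup (LinearMap.GeneralLinearGroup k N)}
    {x : LinearMap.GeneralLinearGroup k M} :
    x ∈ pull hN K ↔ ∃ hx : x ∈ Gt G, res hN ⟨x, hx⟩ ∈ K := by
  constructor
  · rintro ⟨y, hy, rfl⟩; exact ⟨y.2, hy⟩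
  · rintro ⟨hx, h⟩; exact ⟨⟨x, hx⟩, h, rfl⟩

/-- The restricted pair is a quadratic pair. -/
theorem res_quadratic (hG : Cfsg.IsQuadraticPair G) (hN : Inv (Gt G) N) (hN0 : N ≠ ⊥)
    (hmin : ∀ W ≤ N, Inv (Gt G) W → W = ⊥ ∨ W = N) :
    Cfsg.IsQuadraticPair (res hN).range := by
  refine ⟨⟨?_, ?_⟩, ?_⟩
  · obtain ⟨n, hn, hn0⟩ := Submodule.exists_mem_ne_zero_of_ne_bot hN0
    exact ⟨⟨n, hn⟩, fun h => hn0 (congrArg Subtype.val h)⟩
  · intro W hW
    have hle : W.map N.subtype ≤ N := by rintro _ ⟨w, -, rfl⟩; exact w.2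
    rcases hmin _ hle (by
      rintro x hx _ ⟨w, hw, rfl⟩
      exact ⟨_, hW (res hN ⟨x, hx⟩) ⟨_, rfl⟩ w hw, rfl⟩) with h | h
    · left
      rw [eq_bot_iff]
      intro w hw
      have : (w : M) ∈ W.map N.subtype := ⟨w, hw, rfl⟩
      rw [h] at this
      exact (Submodule.mem_bot k).2 (Subtype.ext ((Submodule.mem_bot k).1 this))
    · right
      rw [eq_top_iff]
      intro w _
      have : (w : M) ∈ W.map N.subtype := by rw [h]; exact w.2
      obtain ⟨w', hw', he⟩ := this
      have : w' = w := Subtype.ext he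
      rwa [← this]
  · apply le_antisymm
    · rw [Subgroup.closure_le]
      intro x hx; exact hx.1
    · -- generators
      have h1 : Gt G ≤ pull hN (Subgroup.closure (Cfsg.quadraticElements (res hN).range)) := by
        conv_lhs => unfold Gt
        rw [Subgroup.closure_le]
        rintro _ ⟨t, ht, hT, rfl⟩
        obtain ⟨t', h1, h2, h3⟩ := restrict_AA hN ht hT
        have hmem : (tv t : LinearMap.GeneralLinearGroup k M) ∈ Gt G := by
          have := smul_TT_mem ht hT (1 : k); rwa [one_smul] at this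
        refine mem_pull.2 ⟨hmem, ?_⟩
        rw [h3]
        by_cases h0 : t' = 0
        · rw [h0, tv_zero]; exact one_mem _
        · exact Subgroup.subset_closure (mem_quadratic_iff.2 ⟨t', h1, h0, rfl⟩)
      rintro _ ⟨x, rfl⟩
      obtain ⟨hx, h2⟩ := mem_pull.1 (h1 x.2)
      exact h2

theorem finrank_lt (hG : Cfsg.IsQuadraticPair G) {a : Module.End k M} (ha : a ∈ AAd G)
    (hN : Inv (Gt G) N) (hN0 : N ≠ ⊥)
    (hmin : ∀ W ≤ N, Inv (Gt G) W → W = ⊥ ∨ W = N) :
    Module.finrank k N < Module.finrank k M := by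
  apply Submodule.finrank_lt
  intro htop
  subst htop
  rcases hmin (LinearMap.ker a) le_top (by
    intro x hx w hw
    have h1 : (tv a : LinearMap.GeneralLinearGroup k M) * x = x * tv a :=
      (Gt_comm hG.1 hx (tv_mem_Hc ha (Quad17.Con.refl a))).symm
    have h2 := comm_of_tv_comm ha.1.1 h1
    have h3 : a ((x : Module.End k M) w) = (x : Module.End k M) (a w) :=
      congrArg (fun f : Module.End k M => f w) h2
    show a ((x : Module.End k M) w) = 0
    rw [h3, show a w = 0 from hw, map_zero]) with h | h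
  · apply ha.2.1
    ext m
    have : a m ∈ LinearMap.ker a := sq_app ha.1.1 m
    rw [h] at this
    exact (Submodule.mem_bot k).1 this
  · apply ha.2.1
    ext m
    have : m ∈ LinearMap.ker a := by rw [h]; trivial
    exact this

/-- The conclusion of the decomposition theorem, with a finite set of subgroups. -/
def Dec (G : Subgroup (LinearMap.GeneralLinearGroup k M)) : Prop :=
  ∃ F : Set (Subgroup (LinearMap.GeneralLinearGroup k M)), F.Finite ∧
    (∀ K ∈ F, K ≤ G ∧ (∀ g ∈ G, ∀ x ∈ K, g * x * g⁻¹ ∈ K) ∧ Cfsg.IsQuasisimple K ∧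
      Subgroup.closure (Cfsg.quadraticElements G ∩ (K : Set _)) = K) ∧
    (∀ K ∈ F, ∀ L ∈ F, K ≠ L → ⁅K, L⁆ = ⊥) ∧
    ∀ x ∈ Cfsg.quadraticElements G, ∃ K ∈ F, x ∈ K

theorem pull_normal (hG : Cfsg.IsQuadraticPair G) (hN : Inv (Gt G) N)
    {K : Subgroup (LinearMap.GeneralLinearGroup k N)}
    (hK : ∀ g ∈ (res hN).range, ∀ x ∈ K, g * x * g⁻¹ ∈ K) :
    ∀ g ∈ G, ∀ x ∈ pull hN K, g * x * g⁻¹ ∈ pull hN K := by
  have hle : G ≤ Subgroup.normalizer (pull hN K : Set (LinearMap.GeneralLinearGroup k M)) := by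
    refine (le_sup hG).trans (sup_le ?_ ?_)
    · refine le_trans ?_ (Subgroup.centralizer_le_normalizer _)
      intro g hg
      rw [Subgroup.mem_centralizer_iff]
      intro x hx
      obtain ⟨hx', -⟩ := mem_pull.1 hx
      exact Gt_comm_G0 hG.1 hx' hg
    · intro g hg
      rw [Subgroup.mem_normalizer_iff]
      have key : ∀ g ∈ Gt G, ∀ x ∈ pull hN K, g * x * g⁻¹ ∈ pull hN K := by
        intro g hg x hx
        obtain ⟨hx', h⟩ := mem_pull.1 hx
        refine mem_pull.2 ⟨mul_mem (mul_mem hg hx') (inv_mem hg), ?_⟩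
        have : (⟨g * x * g⁻¹, mul_mem (mul_mem hg hx') (inv_mem hg)⟩ : Gt G) =
          ⟨g, hg⟩ * ⟨x, hx'⟩ * ⟨g, hg⟩⁻¹ := rfl
        rw [this, map_mul, map_mul, map_inv]
        exact hK _ ⟨_, rfl⟩ _ h
      intro x
      refine ⟨key g hg x, fun h => ?_⟩
      have := key g⁻¹ (inv_mem hg) _ h
      have e : g⁻¹ * (g * x * g⁻¹) * g⁻¹⁻¹ = x := by group
      rwa [e] at this
  intro g hg x hx
  exact (Subgroup.mem_normalizer_iff.1 (hle hg) x).1 hx

theorem pull_map (hN : Inv (Gt G) N) {K : Subgroup (LinearMap.GeneralLinearGroup k N)}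
    (hK : K ≤ (res hN).range) : (K.comap (res hN)).map (res hN) = K := by
  rw [Subgroup.map_comap_eq, inf_eq_right.2 hK]

theorem pull_quasisimple (hG : Cfsg.IsQuadraticPair G) (hN : Inv (Gt G) N) (hN0 : N ≠ ⊥)
    {K : Subgroup (LinearMap.GeneralLinearGroup k N)} (hK : K ≤ (res hN).range)
    (h : Cfsg.IsQuasisimple K) : Cfsg.IsQuasisimple (pull hN K) := by
  have e1 : (K.comap (res hN)) ≃* (pull hN K) :=
    (K.comap (res hN)).equivMapOfInjective _ (Gt G).subtype_injective
  have e2 : (K.comap (res hN)) ≃* ((K.comap (res hN)).map (res hN)) :=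
    (K.comap (res hN)).equivMapOfInjective _ (res_injective hG hN hN0)
  rw [pull_map hN hK] at e2
  exact H26.Quasisimple.of_mulEquiv (e2.symm.trans e1) h

theorem pull_closure (hG : Cfsg.IsQuadraticPair G) (hN : Inv (Gt G) N) (hN0 : N ≠ ⊥)
    {K : Subgroup (LinearMap.GeneralLinearGroup k N)} (hK : K ≤ (res hN).range)
    (h : Subgroup.closure (Cfsg.quadraticElements (res hN).range ∩ (K : Set _)) = K) :
    Subgroup.closure (Cfsg.quadraticElements G ∩ (pull hN K : Set _)) = pull hN K := by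
  apply le_antisymm
  · rw [Subgroup.closure_le]; intro x hx; exact hx.2
  · have hC : Subgroup.closure (Cfsg.quadraticElements G ∩ (pull hN K : Set _)) ≤ Gt G := by
      rw [Subgroup.closure_le]; intro x hx; exact (mem_pull.1 hx.2).1
    set C := Subgroup.closure (Cfsg.quadraticElements G ∩ (pull hN K : Set _)) with hCdef
    have h1 : K ≤ (C.subgroupOf (Gt G)).map (res hN) := by
      rw [← h, Subgroup.closure_le]
      rintro y ⟨hy, hyK⟩
      obtain ⟨t', ht', ht0, rfl⟩ := mem_quadratic_iff.1 hy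
      obtain ⟨t, ht, hT, he⟩ := lift_AA hG hN hN0 ht'
      have hmem : (tv t : LinearMap.GeneralLinearGroup k M) ∈ Gt G := by
        have := smul_TT_mem ht hT (1 : k); rwa [one_smul] at this
      obtain ⟨t'', i1, i2, i3⟩ := res_tv hN ht.1 hmem
      have : t'' = t' := by
        ext n; rw [i1, he]
      rw [this] at i3
      refine ⟨⟨tv t, hmem⟩, ?_, i3⟩
      show tv t ∈ C
      apply Subgroup.subset_closure
      refine ⟨mem_quadratic_iff.2 ⟨t, ht, ?_, rfl⟩, mem_pull.2 ⟨hmem, by rw [i3]; exact hyK⟩⟩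
      rintro rfl
      apply ht0
      ext n
      rw [he]; rfl
    intro x hx
    obtain ⟨hx', hxK⟩ := mem_pull.1 hx
    obtain ⟨y, hy, hyx⟩ := h1 hxK
    have := res_injective hG hN hN0 hyx
    rw [this] at hy
    exact hy

theorem pull_comm (hG : Cfsg.IsQuadraticPair G) (hN : Inv (Gt G) N) (hN0 : N ≠ ⊥)
    {K L : Subgroup (LinearMap.GeneralLinearGroup k N)} (h : ⁅K, L⁆ = ⊥) :
    ⁅pull hN K, pull hN L⁆ = ⊥ := by
  rw [eq_bot_iff, Subgroup.commutator_le]
  intro x hx y hy
  obtain ⟨hx', hxK⟩ := mem_pull.1 hx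
  obtain ⟨hy', hyL⟩ := mem_pull.1 hy
  rw [Subgroup.mem_bot]
  have h1 : ⁅res hN ⟨x, hx'⟩, res hN ⟨y, hy'⟩⁆ = 1 := by
    have := Subgroup.commutator_mem_commutator hxK hyL
    rwa [h, Subgroup.mem_bot] at this
  rw [← map_commutatorElement, ← map_one (res hN)] at h1
  have := res_injective hG hN hN0 h1
  exact congrArg Subtype.val this

theorem Hc_closure {a : Module.End k M} :
    Subgroup.closure (Cfsg.quadraticElements G ∩ (Hc G a : Set _)) = Hc G a := by
  apply le_antisymm
  · rw [Subgroup.closure_le]; intro x hx; exact hx.2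
  · apply jn_le
    rintro _ ⟨b, hb, hab, rfl⟩ _ ⟨x, hx, rfl⟩
    by_cases hx0 : x = 0
    · rw [hx0, tv_zero]; exact one_mem _
    · exact Subgroup.subset_closure ⟨mem_quadratic_iff.2 ⟨x, hx.1, hx0, rfl⟩,
        Esub_le_Hc hb hab ⟨x, hx, rfl⟩⟩

/-- The induction step. -/
theorem dec_step (hG : Cfsg.IsQuadraticPair G) (hN : Inv (Gt G) N) (hN0 : N ≠ ⊥)
    (hdec : Dec (res hN).range) : Dec G := by
  obtain ⟨F', hF', h1, h2, h3⟩ := hdec
  haveI := finite_components hG.1
  refine ⟨Set.range (fun q : Quotient (st G) => Hc G q.out.1) ∪ (pull hN) '' F',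
    (Set.finite_range _).union (hF'.image _), ?_, ?_, ?_⟩
  · rintro K (⟨q, rfl⟩ | ⟨K, hK, rfl⟩)
    · exact ⟨Hc_le, Hc_normal hG, quasisimple hG q.out.2, Hc_closure⟩
    · obtain ⟨i1, i2, i3, i4⟩ := h1 K hK
      refine ⟨?_, pull_normal hG hN i2, pull_quasisimple hG hN hN0 i1 i3,
        pull_closure hG hN hN0 i1 i4⟩
      intro x hx
      exact Gt_le (mem_pull.1 hx).1
  · rintro K (⟨q, rfl⟩ | ⟨K, hK, rfl⟩) L (⟨q', rfl⟩ | ⟨L, hL, rfl⟩) hne
    · apply Hc_comm hG q.out.2 q'.out.2
      intro h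
      exact hne (Hc_congr h).symm
    · rw [eq_bot_iff, Subgroup.commutator_le]
      intro x hx y hy
      rw [Subgroup.mem_bot, commutatorElement_eq_one_iff_mul_comm]
      exact (Gt_comm hG.1 (mem_pull.1 hy).1 hx).symm
    · rw [eq_bot_iff, Subgroup.commutator_le]
      intro x hx y hy
      rw [Subgroup.mem_bot, commutatorElement_eq_one_iff_mul_comm]
      exact Gt_comm hG.1 (mem_pull.1 hx).1 hy
    · apply pull_comm hG hN hN0
      apply h2 K hK L hL
      rintro rfl
      exact hne rfl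
  · intro x hx
    obtain ⟨t, ht, ht0, rfl⟩ := mem_quadratic_iff.1 hx
    rcases dicho hG t ht with h | ⟨a, ha, h⟩
    · obtain ⟨t', i1, i2, i3⟩ := restrict_AA hN ht h
      have hmem : (tv t : LinearMap.GeneralLinearGroup k M) ∈ Gt G := by
        have := smul_TT_mem ht h (1 : k); rwa [one_smul] at this
      have ht'0 : t' ≠ 0 := by
        rintro rfl
        have h4 := i3 hmem
        rw [tv_zero, ← map_one (res hN)] at h4
        have h5 := congrArg Subtype.val (res_injective hG hN hN0 h4)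
        exact tv_ne_one ht.1 ht0 h5
      obtain ⟨K, hK, hxK⟩ := h3 (tv t') (mem_quadratic_iff.2 ⟨t', i1, ht'0, rfl⟩)
      refine ⟨_, Or.inr ⟨K, hK, rfl⟩, mem_pull.2 ⟨hmem, ?_⟩⟩
      rw [i3]; exact hxK
    · refine ⟨_, Or.inl ⟨Quotient.mk (st G) ⟨a, ha⟩, rfl⟩, ?_⟩
      have h4 : Con G (Quotient.mk (st G) ⟨a, ha⟩).out.1 a := Quotient.mk_out (s := st G) ⟨a, ha⟩
      show tv t ∈ Hc G (Quotient.mk (st G) ⟨a, ha⟩).out.1
      rw [← Hc_congr h4]; exact h

theorem dec_of_empty (hG : Cfsg.IsQuadraticPair G) (h : ∀ t ∈ AA G, t = 0) : Dec G := by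
  refine ⟨∅, Set.finite_empty, by simp, by simp, ?_⟩
  intro x hx
  obtain ⟨t, ht, ht0, rfl⟩ := mem_quadratic_iff.1 hx
  exact absurd (h t ht) ht0

theorem exists_AAd (h : ∃ t ∈ AA G, t ≠ 0) : ∃ a, a ∈ AAd G := by
  classical
  obtain ⟨t, ht, ht0⟩ := h
  have hex : ∃ n, ∃ t ∈ AA G, t ≠ 0 ∧ rk t = n := ⟨_, t, ht, ht0, rfl⟩
  obtain ⟨a, ha, ha0, hr⟩ := Nat.find_spec hex
  refine ⟨a, ha, ha0, fun b hb hb0 => ?_⟩
  rw [hr]
  exact Nat.find_min' hex ⟨b, hb, hb0, rfl⟩

end H86.Quad22
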