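import Cfsg.Agent.Lib.H86.Quad22

/-!
Quadratic pairs: the central product decomposition.
-/

set_option autoImplicit false
set_option linter.unusedSimpArgs false
set_option linter.unusedVariables false
set_option linter.style.haveILetI false
set_option linter.unusedSectionVars false
open H86.Quad1 H86.FinSL H86.Quad2 H86.Quad3 H86.Quad4 H86.Quad5 H86.Quad6 H86.Quad7 H86.Quad8
open H86.Quad9 H86.Quad10 H86.Quad11 H86.Quad12 H86.Quad13 H86.Quad14 H86.Quad15 H86.Quad16
open H86.Quad17 H86.Quad18 H86.Quad19 H86.Quad20 H86.Quad21 H86.Quad22 H86.Unip Polynomial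

namespace H86.Quad23

universe u v

theorem dec_all {k : Type u} [Field k] [Good k] : ∀ (n : ℕ) (M : Type v) [AddCommGroup M]
    [Module k M] [FiniteDimensional k M], Module.finrank k M = n →
    ∀ G : Subgroup (LinearMap.GeneralLinearGroup k M), Cfsg.IsQuadraticPair G → Dec G := by
  intro n
  induction n using Nat.strong_induction_on with
  | _ n ih =>
    intro M _ _ _ hn G hG
    by_cases hne : ∀ t ∈ AA G, t = 0
    · exact dec_of_empty hG hne
    · push Not at hne
      obtain ⟨a, ha⟩ := exists_AAd hne
      obtain ⟨N, hN, hN0, hmin⟩ := exists_minimal (Gt G) hG.1.1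
      apply dec_step hG hN hN0
      exact ih _ (by rw [← hn]; exact finrank_lt hG ha hN hN0 hmin) N rfl _
        (res_quadratic hG hN hN0 hmin)

theorem dec {k : Type u} [Field k] [Good k] {M : Type v} [AddCommGroup M]
    [Module k M] [FiniteDimensional k M]
    {G : Subgroup (LinearMap.GeneralLinearGroup k M)} (hG : Cfsg.IsQuadraticPair G) : Dec G :=
  dec_all _ M rfl G hG

end H86.Quad23
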