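import Cfsg.Agent.Lib.H86.FinSL

/-!
Matrix systems: from square-zero elements `a`, `t` of a ring `R` and a (non-unital) homomorphism
`ρ : S → R` commuting with them, with `at + ta` acting as the unit `l` of `S`, we get a
homomorphism `SL₂(S) → Rˣ`.
-/

set_option autoImplicit false
set_option linter.unusedSimpArgs false
set_option linter.unusedVariables false
set_option linter.style.haveILetI false
set_option linter.unusedSectionVars false
open H86.Quad1 H86.FinSL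

namespace H86.Quad3

/-- A matrix system. -/
structure Sys (S R : Type*) [CommRing S] [Ring R] (a t : R) (l : Sˣ) where
  ρ : S → R
  add : ∀ x y, ρ (x + y) = ρ x + ρ y
  mul : ∀ x y, ρ (x * y) = ρ x * ρ y
  ca : ∀ x, a * ρ x = ρ x * a
  ct : ∀ x, t * ρ x = ρ x * t
  cc : ∀ x, ρ x * (a * t + t * a) = ρ (x * (l : S))
  a2 : a * a = 0
  t2 : t * t = 0

variable {S R : Type*} [CommRing S] [Ring R] {a t : R} {l : Sˣ} (σ : Sys S R a t l)

namespace Sys

theorem zero : σ.ρ 0 = 0 := by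
  have := σ.add 0 0
  rw [add_zero] at this
  exact (left_eq_add.1 this)

theorem neg (x : S) : σ.ρ (-x) = -σ.ρ x := by
  have := σ.add x (-x)
  rw [add_neg_cancel, σ.zero] at this
  exact eq_neg_of_add_eq_zero_right this.symm

theorem sub (x y : S) : σ.ρ (x - y) = σ.ρ x - σ.ρ y := by
  rw [sub_eq_add_neg, σ.add, σ.neg, sub_eq_add_neg]

theorem ata (x : S) : σ.ρ x * (a * t * a) = σ.ρ (x * l) * a := by
  rw [← σ.cc, mul_assoc (σ.ρ x), add_mul, mul_assoc t a a, σ.a2, mul_zero, add_zero]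

theorem tat (x : S) : σ.ρ x * (t * a * t) = σ.ρ (x * l) * t := by
  rw [← σ.cc, mul_assoc (σ.ρ x), add_mul, mul_assoc a t t, σ.t2, mul_zero, zero_add]

theorem li (x : S) : ((l⁻¹ : Sˣ) : S) * x * l = x := by
  rw [mul_right_comm, Units.inv_mul, one_mul]

theorem comm (x y : S) : σ.ρ x * σ.ρ y = σ.ρ y * σ.ρ x := by
  rw [← σ.mul, mul_comm, σ.mul]

/-- Matrix unit parts. -/
def A (x : S) : R := σ.ρ ((l⁻¹ : Sˣ) * x) * (a * t)
/-- Matrix unit parts. -/
def B (x : S) : R := σ.ρ x * a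
/-- Matrix unit parts. -/
def C (x : S) : R := σ.ρ ((l⁻¹ : Sˣ) * x) * t
/-- Matrix unit parts. -/
def D (x : S) : R := σ.ρ ((l⁻¹ : Sˣ) * x) * (t * a)

theorem cat (x : S) : (a * t) * σ.ρ x = σ.ρ x * (a * t) := by
  rw [mul_assoc, σ.ct, ← mul_assoc, σ.ca, mul_assoc]

theorem cta (x : S) : (t * a) * σ.ρ x = σ.ρ x * (t * a) := by
  rw [mul_assoc, σ.ca, ← mul_assoc, σ.ct, mul_assoc]

/-- General multiplication rule. -/
theorem gmul {x y : S} {p q r : R} (h : p * σ.ρ y = σ.ρ y * p) (hr : p * q = r) :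
    σ.ρ x * p * (σ.ρ y * q) = σ.ρ (x * y) * r := by
  rw [mul_assoc, ← mul_assoc p, h, mul_assoc (σ.ρ y), ← mul_assoc (σ.ρ x), ← σ.mul, hr]

theorem atat : a * t * (a * t) = a * t * a * t := by simp only [mul_assoc]

theorem AA (x y : S) : σ.A x * σ.A y = σ.A (x * y) := by
  unfold A
  rw [σ.gmul (σ.cat _) rfl, ← mul_assoc (a * t) a t, ← mul_assoc, σ.ata, mul_assoc]
  congr 2
  have := Units.inv_mul l
  linear_combination (((l⁻¹ : Sˣ) : S) * x * y) * this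

theorem AB (x y : S) : σ.A x * σ.B y = σ.B (x * y) := by
  unfold A B
  rw [σ.gmul (σ.cat _) rfl, σ.ata]
  congr 2
  have := Units.inv_mul l
  linear_combination (x * y) * this

theorem AC (x y : S) : σ.A x * σ.C y = 0 := by
  unfold A C
  rw [σ.gmul (σ.cat _) rfl, mul_assoc a t t, σ.t2, mul_zero, mul_zero]

theorem AD (x y : S) : σ.A x * σ.D y = 0 := by
  unfold A D
  rw [σ.gmul (σ.cat _) rfl, mul_assoc a t, ← mul_assoc t t, σ.t2, zero_mul, mul_zero, mul_zero]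

theorem BA (x y : S) : σ.B x * σ.A y = 0 := by
  unfold A B
  rw [σ.gmul (σ.ca _) rfl, ← mul_assoc a a, σ.a2, zero_mul, mul_zero]

theorem BB (x y : S) : σ.B x * σ.B y = 0 := by
  unfold B
  rw [σ.gmul (σ.ca _) rfl, σ.a2, mul_zero]

theorem BC (x y : S) : σ.B x * σ.C y = σ.A (x * y) := by
  unfold A B C
  rw [σ.gmul (σ.ca _) rfl]
  congr 2; ring

theorem BD (x y : S) : σ.B x * σ.D y = σ.B (x * y) := by
  unfold B D
  rw [σ.gmul (σ.ca _) rfl, ← mul_assoc a t a, σ.ata]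
  congr 2
  have := Units.inv_mul l
  linear_combination (x * y) * this

theorem CA (x y : S) : σ.C x * σ.A y = σ.C (x * y) := by
  unfold A C
  rw [σ.gmul (σ.ct _) rfl, ← mul_assoc t a t, σ.tat]
  congr 2
  have := Units.inv_mul l
  linear_combination (((l⁻¹ : Sˣ) : S) * x * y) * this

theorem CB (x y : S) : σ.C x * σ.B y = σ.D (x * y) := by
  unfold B C D
  rw [σ.gmul (σ.ct _) rfl]
  congr 2; ring

theorem CC (x y : S) : σ.C x * σ.C y = 0 := by
  unfold C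
  rw [σ.gmul (σ.ct _) rfl, σ.t2, mul_zero]

theorem CD (x y : S) : σ.C x * σ.D y = 0 := by
  unfold C D
  rw [σ.gmul (σ.ct _) rfl, ← mul_assoc t t, σ.t2, zero_mul, mul_zero]

theorem DA (x y : S) : σ.D x * σ.A y = 0 := by
  unfold A D
  rw [σ.gmul (σ.cta _) rfl, mul_assoc t a, ← mul_assoc a a, σ.a2, zero_mul, mul_zero, mul_zero]

theorem DB (x y : S) : σ.D x * σ.B y = 0 := by
  unfold B D
  rw [σ.gmul (σ.cta _) rfl, mul_assoc t a a, σ.a2, mul_zero, mul_zero]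

theorem DC (x y : S) : σ.D x * σ.C y = σ.C (x * y) := by
  unfold C D
  rw [σ.gmul (σ.cta _) rfl, σ.tat]
  congr 2
  have := Units.inv_mul l
  linear_combination (((l⁻¹ : Sˣ) : S) * x * y) * this

theorem DD (x y : S) : σ.D x * σ.D y = σ.D (x * y) := by
  unfold D
  rw [σ.gmul (σ.cta _) rfl, ← mul_assoc (t * a) t a, ← mul_assoc, σ.tat, mul_assoc]
  congr 2
  have := Units.inv_mul l
  linear_combination (((l⁻¹ : Sˣ) : S) * x * y) * this

theorem Aadd (x y : S) : σ.A (x + y) = σ.A x + σ.A y := by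
  unfold A; rw [mul_add, σ.add, add_mul]
theorem Badd (x y : S) : σ.B (x + y) = σ.B x + σ.B y := by
  unfold B; rw [σ.add, add_mul]
theorem Cadd (x y : S) : σ.C (x + y) = σ.C x + σ.C y := by
  unfold C; rw [mul_add, σ.add, add_mul]
theorem Dadd (x y : S) : σ.D (x + y) = σ.D x + σ.D y := by
  unfold D; rw [mul_add, σ.add, add_mul]

/-- The matrix map. -/
def μ (g : SL2 S) : R := σ.A (g.1 0 0) + σ.B (g.1 0 1) + σ.C (g.1 1 0) + σ.D (g.1 1 1)

theorem μ_mul (g h : SL2 S) : σ.μ (g * h) = σ.μ g * σ.μ h := by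
  unfold μ
  simp only [mulE, Aadd, Badd, Cadd, Dadd, mul_add, add_mul, AA, AB, AC, AD, BA, BB, BC, BD, CA,
    CB, CC, CD, DA, DB, DC, DD, add_zero, zero_add]
  abel

theorem μ_one : σ.μ 1 = σ.ρ 1 := by
  unfold μ A B C D
  simp only [one00, one01, one10, one11, mul_zero, σ.zero, zero_mul, add_zero, mul_one]
  rw [← mul_add, σ.cc, Units.inv_mul]

theorem one_A (x : S) : σ.ρ 1 * σ.A x = σ.A x := by
  unfold A; rw [← mul_assoc, ← σ.mul, one_mul]
theorem one_B (x : S) : σ.ρ 1 * σ.B x = σ.B x := by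
  unfold B; rw [← mul_assoc, ← σ.mul, one_mul]
theorem one_C (x : S) : σ.ρ 1 * σ.C x = σ.C x := by
  unfold C; rw [← mul_assoc, ← σ.mul, one_mul]
theorem one_D (x : S) : σ.ρ 1 * σ.D x = σ.D x := by
  unfold D; rw [← mul_assoc, ← σ.mul, one_mul]

theorem one_μ (g : SL2 S) : σ.ρ 1 * σ.μ g = σ.μ g := by
  unfold μ; simp only [mul_add, one_A, one_B, one_C, one_D]

theorem μ_one' (g : SL2 S) : σ.μ g * σ.ρ 1 = σ.μ g := by
  rw [← σ.μ_one, ← σ.μ_mul, mul_one]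

/-- The map into `R`. -/
def Ψ0 (g : SL2 S) : R := 1 - σ.ρ 1 + σ.μ g

theorem Ψ0_mul (g h : SL2 S) : σ.Ψ0 (g * h) = σ.Ψ0 g * σ.Ψ0 h := by
  have he : σ.ρ 1 * σ.ρ 1 = σ.ρ 1 := by rw [← σ.mul, one_mul]
  unfold Ψ0
  rw [add_mul, mul_add, mul_add, sub_mul, sub_mul, mul_sub, mul_sub, he, one_mul, one_mul, one_mul,
    σ.one_μ, mul_sub, mul_one, σ.μ_one', σ.μ_mul]
  simp

theorem Ψ0_one : σ.Ψ0 1 = 1 := by
  unfold Ψ0; rw [σ.μ_one, sub_add_cancel]

/-- The homomorphism `SL₂(S) → Rˣ`. -/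
def Ψ : SL2 S →* Rˣ where
  toFun g := ⟨σ.Ψ0 g, σ.Ψ0 g⁻¹, by rw [← σ.Ψ0_mul, mul_inv_cancel, σ.Ψ0_one],
    by rw [← σ.Ψ0_mul, inv_mul_cancel, σ.Ψ0_one]⟩
  map_one' := by ext; exact σ.Ψ0_one
  map_mul' g h := by ext; exact σ.Ψ0_mul g h

theorem Ψ_val (g : SL2 S) : ((σ.Ψ g : Rˣ) : R) = 1 - σ.ρ 1 + σ.μ g := rfl

theorem sqa (x : S) : (σ.ρ x * a) * (σ.ρ x * a) = 0 := σ.BB x x

theorem sqt (x : S) : (σ.ρ x * t) * (σ.ρ x * t) = 0 := by
  rw [σ.gmul (σ.ct _) rfl, σ.t2, mul_zero]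

theorem Ψ_u (x : S) : σ.Ψ (u x) = tv (σ.ρ x * a) := by
  ext
  rw [σ.Ψ_val, val_tv (σ.sqa x)]
  unfold μ
  rw [u00, u01, u10, u11]
  have h1 := σ.μ_one
  unfold μ at h1
  simp only [one00, one01, one10, one11] at h1
  have hB : σ.B 0 = 0 := by unfold B; rw [σ.zero, zero_mul]
  have hC : σ.C 0 = 0 := by unfold C; rw [mul_zero, σ.zero, zero_mul]
  rw [hB, add_zero, hC, add_zero] at h1
  rw [hC, ← h1]
  unfold B
  abel

theorem Ψ_v (x : S) : σ.Ψ (v x) = tv (σ.ρ ((l⁻¹ : Sˣ) * x) * t) := by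
  ext
  rw [σ.Ψ_val, val_tv (σ.sqt _)]
  unfold μ
  rw [v00, v01, v10, v11]
  have h1 := σ.μ_one
  unfold μ at h1
  simp only [one00, one01, one10, one11] at h1
  have hB : σ.B 0 = 0 := by unfold B; rw [σ.zero, zero_mul]
  have hC : σ.C 0 = 0 := by unfold C; rw [mul_zero, σ.zero, zero_mul]
  rw [hB, add_zero, hC, add_zero] at h1
  rw [hB, ← h1]
  unfold C
  abel

/-- `ρ 1` commutes with the image. -/
theorem one_comm (g : SL2 S) : σ.ρ 1 * ((σ.Ψ g : Rˣ) : R) = ((σ.Ψ g : Rˣ) : R) * σ.ρ 1 := by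
  rw [σ.Ψ_val, mul_add, add_mul, σ.one_μ, σ.μ_one', mul_sub, sub_mul, mul_one, one_mul]

/-- Injectivity of `Ψ`. -/
theorem Ψ_injective (h : ∀ x, σ.ρ x * a = 0 → x = 0) : Function.Injective σ.Ψ := by
  rw [injective_iff_map_eq_one]
  intro g hg
  have h1 : σ.Ψ0 g = 1 := congrArg Units.val hg
  have h2 : σ.μ g = σ.ρ 1 := by
    have : σ.Ψ0 g = σ.Ψ0 1 := by rw [h1, σ.Ψ0_one]
    unfold Ψ0 at this
    rw [σ.μ_one] at this
    exact add_left_cancel this
  -- a ρ-coefficient vanishes if all its matrix unit multiples do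
  have hA : ∀ x, σ.A x = 0 → x = 0 := by
    intro x hx
    have h3 : σ.A x * σ.B 1 = 0 := by rw [hx, zero_mul]
    rw [σ.AB, mul_one] at h3
    exact h x h3
  have hD : ∀ x, σ.D x = 0 → x = 0 := by
    intro x hx
    have h3 : σ.B 1 * σ.D x = 0 := by rw [hx, mul_zero]
    rw [σ.BD, one_mul] at h3
    exact h x h3
  have h4 : σ.A 1 * σ.μ g = σ.A 1 * σ.ρ 1 := by rw [h2]
  have h5 : σ.μ g * σ.A 1 = σ.ρ 1 * σ.A 1 := by rw [h2]
  have h6 : σ.A 1 * σ.ρ 1 = σ.A 1 := by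
    unfold A; rw [mul_assoc, σ.cat, ← mul_assoc, ← σ.mul, mul_one]
  rw [h6] at h4
  rw [σ.one_A] at h5
  unfold μ at h4 h5
  simp only [mul_add, add_mul, AA, AB, AC, AD, BA, BB, BC, BD, CA,
    CB, CC, CD, DA, DB, DC, DD, add_zero, zero_add, one_mul, mul_one] at h4 h5
  -- h4 : A g00 + B g01 = A 1 ; h5 : A g00 + C g10 = A 1
  have h7 : σ.B (g.1 0 1) = 0 := by
    have := congrArg (fun z => z * σ.D 1) h4
    simp only [add_mul, AD, BD, mul_one, zero_add] at this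
    exact this
  have h8 : g.1 0 1 = 0 := h _ h7
  have h9 : σ.C (g.1 1 0) = 0 := by
    have := congrArg (fun z => σ.D 1 * z) h5
    simp only [mul_add, DA, DC, one_mul, zero_add] at this
    exact this
  have h10 : g.1 1 0 = 0 := by
    apply hD
    have : σ.C (g.1 1 0) * σ.B 1 = 0 := by rw [h9, zero_mul]
    rwa [σ.CB, mul_one] at this
  have h11 : g.1 0 0 = 1 := by
    have e : σ.A (g.1 0 0 - 1) = 0 := by
      have : σ.A (g.1 0 0 - 1) + σ.A 1 = σ.A (g.1 0 0) := by rw [← σ.Aadd, sub_add_cancel]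
      rw [h7, add_zero] at h4
      rw [h4] at this
      exact add_eq_right.1 this
    exact sub_eq_zero.1 (hA _ e)
  have h12 := det2 g
  rw [h8, h11, zero_mul, sub_zero, one_mul] at h12
  exact ext2 h11 h8 h10 h12

end Sys

end H86.Quad3
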