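import Cfsg.Agent.Lib.H86.Quad2
import Cfsg.Agent.Lib.H86.Quad3
import Cfsg.Agent.Lib.H86.Unip

/-!
Quadratic pairs, the fundamental dichotomy: if `a` has minimal rank, `t ∈ AA G` and `at` is not
nilpotent then there is a field `L = k(λ)` acting and `SL₂(L)` inside `⟨1 + ka, 1 + kt⟩`.
-/

set_option autoImplicit false
set_option linter.unusedSimpArgs false
set_option linter.unusedVariables false
set_option linter.style.haveILetI false
set_option linter.unusedSectionVars false
open H86.Quad1 H86.FinSL H86.Quad2 H86.Quad3 H86.Unip Polynomial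

namespace H86.Quad4

section unip
variable {k : Type*} [Field k] {M : Type*} [AddCommGroup M] [Module k M] [FiniteDimensional k M]

theorem inv_of_tv {H : Subgroup (LinearMap.GeneralLinearGroup k M)} {W : Submodule k M}
    (hW : Inv H W) {a : Module.End k M} (ha : a * a = 0) (h : tv a ∈ H) {w : M} (hw : w ∈ W) :
    a w ∈ W := by
  have := hW _ h w hw
  rw [show ((tv a : (Module.End k M)ˣ) : M →ₗ[k] M) = 1 + a from val_tv ha] at this
  have h2 := W.sub_mem this hw
  simpa using h2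

/-- The group generated by `1 + a_i` for a set of square-zero elements is unipotent if `W`-fixed
vectors can be found. -/
theorem unip_closure {X : Set (Module.End k M)} (hX : ∀ x ∈ X, x * x = 0)
    (h : ∀ W : Submodule k M, (∀ x ∈ X, ∀ w ∈ W, x w ∈ W) → W ≠ ⊤ →
      ∃ v, v ∉ W ∧ ∀ x ∈ X, x v ∈ W) :
    Cfsg.IsUnipotentOn (Subgroup.closure ((fun x => (tv x : LinearMap.GeneralLinearGroup k M)) '' X)) := by
  apply isUnipotentOn_of_fix
  intro W hW hWt
  obtain ⟨v, hv, hfix⟩ := h W (fun x hx w hw => inv_of_tv hW (hX x hx)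
    (Subgroup.subset_closure ⟨x, hx, rfl⟩) hw) hWt
  refine ⟨v, hv, fun g hg => ?_⟩
  apply sub_mem_of_closure hW _ hg
  rintro _ ⟨x, hx, rfl⟩
  show ((tv x : (Module.End k M)ˣ) : M →ₗ[k] M) v - v ∈ W
  rw [val_tv (hX x hx)]
  have : (1 + x : Module.End k M) v - v = x v := by simp
  rw [this]
  exact hfix x hx

theorem pairGroup_eq_closure (a t : Module.End k M) :
    pairGroup k a t = Subgroup.closure ((fun x => (tv x : LinearMap.GeneralLinearGroup k M)) ''
      ({x | ∃ s : k, x = s • a} ∪ {x | ∃ s : k, x = s • t})) := by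
  unfold pairGroup
  congr 1
  ext g
  constructor
  · rintro (⟨s, rfl⟩ | ⟨s, rfl⟩)
    · exact ⟨_, Or.inl ⟨s, rfl⟩, rfl⟩
    · exact ⟨_, Or.inr ⟨s, rfl⟩, rfl⟩
  · rintro ⟨_, (⟨s, rfl⟩ | ⟨s, rfl⟩), rfl⟩
    · exact Or.inl ⟨s, rfl⟩
    · exact Or.inr ⟨s, rfl⟩

theorem pow_mul_c {a t : Module.End k M} (ha : a * a = 0) (ht : t * t = 0) (j : ℕ) :
    (a * t) ^ (j + 1) = (a * t + t * a) ^ j * (a * t) := by
  induction j with
  | zero => simp
  | succ j ih =>
    have e : (a * t + t * a) * (a * t) = (a * t) * (a * t) := by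
      rw [add_mul, mul_assoc t a, ← mul_assoc a a, ha, zero_mul, mul_zero, add_zero]
    calc (a * t) ^ (j + 1 + 1) = (a * t + t * a) ^ j * ((a * t) * (a * t)) := by
          rw [pow_succ, ih, mul_assoc]
      _ = (a * t + t * a) ^ (j + 1) * (a * t) := by rw [← e, pow_succ, mul_assoc]

/-- If `at` is nilpotent then so is `c = at + ta`. -/
theorem c_nilpotent {a t : Module.End k M} (ha : a * a = 0) (ht : t * t = 0)
    (hn : IsNilpotent (a * t)) : IsNilpotent (a * t + t * a) := by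
  obtain ⟨n, hn⟩ := hn
  refine ⟨n + 2, ?_⟩
  have h1 : (a * t + t * a) ^ n * (a * t) = 0 := by
    rw [← pow_mul_c ha ht, pow_succ, hn, zero_mul]
  have h2 : (a * t + t * a) ^ (n + 1) * (t * a) = 0 := by
    have hc : (a * t + t * a) * (t * a) = t * (a * t) * a := by
      rw [add_mul, ← mul_assoc (a * t), mul_assoc a t t, ht]; simp [mul_assoc]
    have hct : (a * t + t * a) ^ n * t = t * (a * t + t * a) ^ n := by
      have : Commute (a * t + t * a) t := comm_right ht
      exact (this.pow_left n).eq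
    rw [pow_succ, mul_assoc, hc, ← mul_assoc, ← mul_assoc, hct, mul_assoc t, h1, mul_zero, zero_mul]
  rw [pow_succ (a * t + t * a) (n + 1), mul_add, h2, add_zero, pow_succ', mul_assoc, h1, mul_zero]

/-- If `at` is nilpotent the pair group is unipotent. -/
theorem unip_pair {a t : Module.End k M} (ha : a * a = 0) (ht : t * t = 0)
    (hn : IsNilpotent (a * t)) : Cfsg.IsUnipotentOn (pairGroup k a t) := by
  rw [pairGroup_eq_closure]
  apply unip_closure
  · rintro x (⟨s, rfl⟩ | ⟨s, rfl⟩)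
    · exact smul_sq s ha
    · exact smul_sq s ht
  · intro W hW hWt
    have hWa : ∀ w ∈ W, a w ∈ W := by
      intro w hw
      have := hW a (Or.inl ⟨1, (one_smul k a).symm⟩) w hw
      exact this
    have hWt' : ∀ w ∈ W, t w ∈ W := by
      intro w hw
      have := hW t (Or.inr ⟨1, (one_smul k t).symm⟩) w hw
      exact this
    set c := a * t + t * a with hc
    obtain ⟨N, hN⟩ := c_nilpotent ha ht hn
    obtain ⟨x, hx⟩ : ∃ x, x ∉ W := by
      by_contra hcon
      push Not at hcon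
      exact hWt (eq_top_iff.2 fun x _ => hcon x)
    -- maximal power of `c` not mapping `x` into `W`
    obtain ⟨y, hy, hcy⟩ : ∃ y, y ∉ W ∧ c y ∈ W := by
      classical
      have hex : ∃ m, (c ^ m) x ∈ W := ⟨N, by rw [← hc] at hN; rw [hN]; exact W.zero_mem⟩
      have hs := Nat.find_spec hex
      have hpos : Nat.find hex ≠ 0 := by
        intro h0
        rw [h0] at hs
        exact hx (by simpa using hs)
      obtain ⟨m, hm⟩ := Nat.exists_eq_succ_of_ne_zero hpos
      rw [hm] at hs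
      refine ⟨(c ^ m) x, Nat.find_min hex (by omega), ?_⟩
      have : c ((c ^ m) x) = (c ^ (m + 1)) x := by
        rw [pow_succ']; rfl
      rw [this]; exact hs
    have fin : ∀ v, v ∉ W → a v ∈ W → t v ∈ W → ∃ v, v ∉ W ∧
        ∀ x ∈ ({x | ∃ s : k, x = s • a} ∪ {x | ∃ s : k, x = s • t} : Set (Module.End k M)),
          x v ∈ W := by
      intro v hv h1 h2
      refine ⟨v, hv, ?_⟩
      rintro x (⟨s, rfl⟩ | ⟨s, rfl⟩)
      · exact W.smul_mem s h1
      · exact W.smul_mem s h2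
    have haa : ∀ z, a (a z) = 0 := fun z => by
      have := congrArg (fun f : Module.End k M => f z) ha; exact this
    have htt : ∀ z, t (t z) = 0 := fun z => by
      have := congrArg (fun f : Module.End k M => f z) ht; exact this
    by_cases h1 : a y ∈ W
    · by_cases h2 : t y ∈ W
      · exact fin y hy h1 h2
      · by_cases h3 : a (t y) ∈ W
        · exact fin (t y) h2 h3 (by rw [htt]; exact W.zero_mem)
        · refine fin (a (t y)) h3 (by rw [haa]; exact W.zero_mem) ?_
          have : t (a (t y)) = t (c y) := by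
            rw [hc, LinearMap.add_apply, map_add]
            show t (a (t y)) = t (a (t y)) + t (t (a y))
            rw [htt, add_zero]
          rw [this]; exact hWt' _ hcy
    · by_cases h3 : t (a y) ∈ W
      · exact fin (a y) h1 (by rw [haa]; exact W.zero_mem) h3
      · refine fin (t (a y)) h3 ?_ (by rw [htt]; exact W.zero_mem)
        have : a (t (a y)) = a (c y) := by
          rw [hc, LinearMap.add_apply, map_add]
          show a (t (a y)) = a (a (t y)) + a (t (a y))
          rw [haa, zero_add]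
        rw [this]; exact hWa _ hcy

theorem ds_eq_bot_of_unip {H : Subgroup (LinearMap.GeneralLinearGroup k M)}
    (h : Cfsg.IsUnipotentOn H) : ∃ N, ds H N = ⊥ := by
  have hnil := isNilpotent_of_isUnipotentOn h
  have hsol : Group.IsSolvable H := inferInstance
  obtain ⟨N, hN⟩ := hsol.solvable
  refine ⟨N, ?_⟩
  have key : ∀ n, (derivedSeries H n).map H.subtype = ds H n := by
    intro n
    induction n with
    | zero =>
      rw [derivedSeries_zero]
      show (⊤ : Subgroup H).map H.subtype = H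
      rw [← MonoidHom.range_eq_map, Subgroup.range_subtype]
    | succ n ih => rw [derivedSeries_succ, Subgroup.map_commutator, ih]; rfl
  rw [← key, hN, Subgroup.map_bot]

end unip

section sys
universe u v
variable {k : Type u} [Field k] {M : Type v} [AddCommGroup M] [Module k M] [FiniteDimensional k M]

/-- The system attached to a non-nilpotent pair. -/
theorem exists_sys {a t : Module.End k M} (ha : a * a = 0) (ht : t * t = 0)
    (hn : ¬ IsNilpotent (a * t)) :
    ∃ (F : k[X]) (l : (AdjoinRoot F)ˣ) (σ : Sys (AdjoinRoot F) (Module.End k M) a t l),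
      F ≠ 0 ∧ ¬ IsUnit F ∧ (l : AdjoinRoot F) = AdjoinRoot.root F ∧
      (∀ P, σ.ρ (AdjoinRoot.mk F P) = aeval (a * t + t * a) P * σ.ρ 1) ∧
      (∀ x, σ.ρ x = 0 → x = 0) ∧ IsNilpotent ((a * t + t * a) * (1 - σ.ρ 1)) ∧
      (∃ e : k[X], σ.ρ 1 = aeval (a * t + t * a) e) := by
  classical
  set c := a * t + t * a with hc
  have ca : Commute c a := comm_left ha
  have ct : Commute c t := comm_right ht
  have hint : IsIntegral k c := Algebra.IsIntegral.isIntegral c
  set Φ := minpoly k c with hΦ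
  have hΦ0 : Φ ≠ 0 := minpoly.ne_zero hint
  have hΦc : aeval c Φ = 0 := minpoly.aeval k c
  obtain ⟨F, hF, hXF⟩ := exists_eq_pow_rootMultiplicity_mul_and_not_dvd Φ hΦ0 0
  rw [C_0, sub_zero] at hF hXF
  set j := rootMultiplicity 0 Φ with hj
  have hF0 : F ≠ 0 := by
    rintro rfl
    rw [mul_zero] at hF; exact hΦ0 hF
  have hcop1 : IsCoprime X F := (Polynomial.irreducible_X.coprime_iff_not_dvd).2 hXF
  have hcop : IsCoprime (X ^ j) F := hcop1.pow_left
  have hFu : ¬ IsUnit F := by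
    intro hu
    obtain ⟨r, hr, rfl⟩ := Polynomial.isUnit_iff.1 hu
    rw [hF, map_mul, map_pow, aeval_X, aeval_C] at hΦc
    have h1 : c ^ j = 0 := by
      have hr0 : r ≠ 0 := hr.ne_zero
      have := congrArg (fun z => r⁻¹ • z) hΦc
      simp only [Algebra.algebraMap_eq_smul_one, mul_smul_comm, mul_one, smul_smul,
        inv_mul_cancel₀ hr0, one_smul, smul_zero] at this
      exact this
    apply hn
    refine ⟨j + 1, ?_⟩
    rw [pow_mul_c ha ht, ← hc, h1, zero_mul]
  obtain ⟨p, q, hpq⟩ := hcop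
  obtain ⟨p', q', hpq'⟩ := hcop1
  set e : k[X] := p * X ^ j with he
  set ε : Module.End k M := aeval c e with hε
  -- `F(c) ε = 0`
  have hFε : aeval c F * ε = 0 := by
    rw [hε, ← map_mul]
    have : F * e = p * Φ := by rw [he, hF]; ring
    rw [this, map_mul, hΦc, mul_zero]
  have hdvd : ∀ P : k[X], F ∣ P → aeval c P * ε = 0 := by
    rintro P ⟨Q, rfl⟩
    rw [map_mul, aeval_comm' c F Q, mul_assoc, hFε, mul_zero]
  have h1e : aeval c (1 - e) * ε = 0 := by
    apply hdvd
    refine ⟨q, ?_⟩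
    have : 1 - e = q * F := by rw [he]; linear_combination -hpq
    rw [this]; ring
  have hεε : ε * ε = ε := by
    rw [map_sub, map_one, sub_mul, one_mul, sub_eq_zero] at h1e
    exact h1e.symm
  -- the map `ρ`
  have hsurj : Function.Surjective (AdjoinRoot.mk F) := AdjoinRoot.mk_surjective
  let rep : AdjoinRoot F → k[X] := fun y => Function.surjInv hsurj y
  have hrep : ∀ y, AdjoinRoot.mk F (rep y) = y := Function.surjInv_eq hsurj
  let ρ : AdjoinRoot F → Module.End k M := fun y => aeval c (rep y) * ε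
  have hρ : ∀ P, ρ (AdjoinRoot.mk F P) = aeval c P * ε := by
    intro P
    have h1 : AdjoinRoot.mk F (rep (AdjoinRoot.mk F P)) = AdjoinRoot.mk F P := hrep _
    have h2 : F ∣ rep (AdjoinRoot.mk F P) - P := (AdjoinRoot.mk_eq_mk).1 h1
    have h3 := hdvd _ h2
    rw [map_sub, sub_mul, sub_eq_zero] at h3
    exact h3
  have hρ1 : ρ 1 = ε := by
    have := hρ 1
    rwa [map_one, map_one, one_mul] at this
  have hroot : IsUnit (AdjoinRoot.root F) := by
    have h1 := congrArg (AdjoinRoot.mk F) hpq'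
    rw [map_add, map_mul, map_mul, AdjoinRoot.mk_self, mul_zero, add_zero, map_one,
      AdjoinRoot.mk_X] at h1
    exact IsUnit.of_mul_eq_one_right _ h1
  obtain ⟨l, hl⟩ := hroot
  have hεa : ∀ {b : Module.End k M}, Commute c b → ∀ P : k[X], b * (aeval c P * ε) =
      (aeval c P * ε) * b := by
    intro b hb P
    have h1 : aeval c P * b = b * aeval c P := aeval_comm hb.eq P
    have h2 : ε * b = b * ε := aeval_comm hb.eq e
    rw [← mul_assoc, ← h1, mul_assoc, ← h2, mul_assoc]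
  let σ : Sys (AdjoinRoot F) (Module.End k M) a t l :=
    { ρ := ρ
      add := by
        intro x y
        obtain ⟨P, rfl⟩ := hsurj x
        obtain ⟨Q, rfl⟩ := hsurj y
        rw [← map_add, hρ, hρ, hρ, map_add, add_mul]
      mul := by
        intro x y
        obtain ⟨P, rfl⟩ := hsurj x
        obtain ⟨Q, rfl⟩ := hsurj y
        rw [← map_mul, hρ, hρ, hρ, map_mul]
        have h1 : aeval c Q * ε = ε * aeval c Q := aeval_comm' c Q e
        calc aeval c P * aeval c Q * ε = aeval c P * (aeval c Q * (ε * ε)) := by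
              rw [hεε, mul_assoc]
          _ = aeval c P * ((aeval c Q * ε) * ε) := by rw [mul_assoc (aeval c Q)]
          _ = aeval c P * ((ε * aeval c Q) * ε) := by rw [h1]
          _ = aeval c P * ε * (aeval c Q * ε) := by simp only [mul_assoc]
      ca := by
        intro x
        obtain ⟨P, rfl⟩ := hsurj x
        rw [hρ]; exact hεa ca P
      ct := by
        intro x
        obtain ⟨P, rfl⟩ := hsurj x
        rw [hρ]; exact hεa ct P
      cc := by
        intro x
        obtain ⟨P, rfl⟩ := hsurj x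
        rw [hl, ← AdjoinRoot.mk_X, ← map_mul, hρ, hρ, map_mul, aeval_X, ← hc]
        have : ε * c = c * ε := by
          have := aeval_comm' c e X
          rwa [aeval_X] at this
        rw [mul_assoc, this, mul_assoc]
      a2 := ha
      t2 := ht }
  refine ⟨F, l, σ, hF0, hFu, hl, ?_, ?_, ?_, e, hρ1⟩
  · intro P
    show ρ _ = _ * ρ 1
    rw [hρ, hρ1]
  · intro x hx
    obtain ⟨P, rfl⟩ := hsurj x
    have h1 : aeval c (P * e) = 0 := by
      rw [map_mul]; rw [← hρ]; exact hx
    have h2 : Φ ∣ P * e := minpoly.dvd k c h1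
    have h3 : F ∣ P * e := (Dvd.intro_left _ hF.symm).trans h2
    have h4 : F ∣ P := by
      have : P = P * e + (P * q) * F := by rw [he]; linear_combination -P * hpq
      rw [this]
      exact dvd_add h3 (Dvd.intro_left _ rfl)
    exact AdjoinRoot.mk_eq_zero.2 h4
  · refine ⟨j + 1, ?_⟩
    show (c * (1 - ρ 1)) ^ (j + 1) = 0
    rw [hρ1]
    have hcomm : Commute c (1 - ε) := by
      have : Commute c ε := by
        have := aeval_comm' c X e
        rw [aeval_X] at this
        exact this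
      exact (Commute.one_right c).sub_right this
    rw [hcomm.mul_pow]
    have h1 : c ^ j * (1 - ε) = 0 := by
      have h2 : aeval c (X ^ j * (1 - e)) = c ^ j * (1 - ε) := by
        rw [map_mul, map_pow, aeval_X, map_sub, map_one]
      rw [← h2]
      have : X ^ j * (1 - e) = q * Φ := by rw [he, hF]; linear_combination (-X ^ j) * hpq
      rw [this, map_mul, hΦc, mul_zero]
    rw [pow_succ', pow_succ' (1 - ε), mul_assoc c, ← mul_assoc (c ^ j), h1, zero_mul, mul_zero]

variable {G : Subgroup (LinearMap.GeneralLinearGroup k M)}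

theorem faith_a {S : Type*} [CommRing S] {a t : Module.End k M} {l : Sˣ}
    (σ : Sys S (Module.End k M) a t l) (h : ∀ x, σ.ρ x = 0 → x = 0) (x : S)
    (hx : σ.ρ x * a = 0) : x = 0 := by
  have h1 : σ.ρ (x * l) = 0 := by
    rw [← σ.cc, mul_add, ← mul_assoc, hx, zero_mul, zero_add, ← mul_assoc, ← σ.ct, mul_assoc, hx,
      mul_zero]
  have h2 := h _ h1
  exact (l.isUnit.mul_left_eq_zero).1 h2

theorem faith_t {S : Type*} [CommRing S] {a t : Module.End k M} {l : Sˣ}
    (σ : Sys S (Module.End k M) a t l) (h : ∀ x, σ.ρ x = 0 → x = 0) (x : S)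
    (hx : σ.ρ x * t = 0) : x = 0 := by
  have h1 : σ.ρ (x * l) = 0 := by
    rw [← σ.cc, mul_add, ← mul_assoc, ← mul_assoc, hx, zero_mul, add_zero, ← σ.ca, mul_assoc, hx,
      mul_zero]
  have h2 := h _ h1
  exact (l.isUnit.mul_left_eq_zero).1 h2

theorem unit_of_mem {S : Type*} [CommRing S] [IsArtinianRing S] {a t : Module.End k M} {l : Sˣ}
    (σ : Sys S (Module.End k M) a t l) (hf : ∀ x, σ.ρ x * a = 0 → x = 0) (ha : a ∈ AAd G)
    {x : S} (hx : σ.ρ x * a ∈ AA G) : x = 0 ∨ IsUnit x := by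
  by_cases hx0 : x = 0
  · exact Or.inl hx0
  · right
    by_contra hnu
    have hnz : x ∉ nonZeroDivisors S := fun h => hnu (IsArtinianRing.isUnit_of_mem_nonZeroDivisors h)
    rw [mem_nonZeroDivisors_iff_right] at hnz
    push Not at hnz
    obtain ⟨y, hyx, hy0⟩ := hnz
    have hne : σ.ρ x * a ≠ 0 := fun h => hx0 (hf x h)
    have hEE : σ.ρ x * a ∈ EE G a := by
      apply mem_EE_of_le ha hx
      · rw [← σ.ca]
        rintro _ ⟨m, rfl⟩
        exact ⟨_, rfl⟩
      · intro m hm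
        show σ.ρ x (a m) = 0
        rw [show a m = 0 from hm, map_zero]
    have hr : LinearMap.range (σ.ρ x * a) = LinearMap.range a := by
      rcases hEE.2 with h | h
      · exact absurd h hne
      · exact h.2
    apply hy0
    apply hf
    ext m
    have : a m ∈ LinearMap.range (σ.ρ x * a) := by rw [hr]; exact ⟨m, rfl⟩
    obtain ⟨m', hm'⟩ := this
    show σ.ρ y (a m) = 0
    rw [← hm']
    show (σ.ρ y * σ.ρ x) (a m') = 0
    rw [← σ.mul, hyx, σ.zero]; rfl

theorem one_a {S : Type*} [CommRing S] [Nontrivial S] {a t : Module.End k M} {l : Sˣ}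
    (σ : Sys S (Module.End k M) a t l) (hf : ∀ x, σ.ρ x * a = 0 → x = 0) (ha : a ∈ AAd G)
    (hx : σ.ρ 1 * a ∈ AA G) : σ.ρ 1 * a = a := by
  have hne : σ.ρ 1 * a ≠ 0 := fun h => one_ne_zero (hf 1 h)
  have hEE : σ.ρ 1 * a ∈ EE G a := by
    apply mem_EE_of_le ha hx
    · rw [← σ.ca]
      rintro _ ⟨m, rfl⟩
      exact ⟨_, rfl⟩
    · intro m hm
      show σ.ρ 1 (a m) = 0
      rw [show a m = 0 from hm, map_zero]
  have hr : LinearMap.range (σ.ρ 1 * a) = LinearMap.range a := by
    rcases hEE.2 with h | h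
    · exact absurd h hne
    · exact h.2
  ext m
  have : a m ∈ LinearMap.range (σ.ρ 1 * a) := by rw [hr]; exact ⟨m, rfl⟩
  obtain ⟨m', hm'⟩ := this
  show σ.ρ 1 (a m) = a m
  rw [← hm']
  show (σ.ρ 1 * σ.ρ 1) (a m') = (σ.ρ 1 * a) m'
  rw [← σ.mul, one_mul]; rfl

theorem irreducible_of {F : k[X]} (hF0 : F ≠ 0) (hFu : ¬ IsUnit F)
    (h : ∀ x : AdjoinRoot F, x = 0 ∨ IsUnit x) : Irreducible F := by
  refine ⟨hFu, ?_⟩
  have key : ∀ A B : k[X], F = A * B → F ∣ B → IsUnit A := by
    rintro A B hAB ⟨C', hC⟩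
    have : F * (A * C') = F * 1 := by
      calc F * (A * C') = A * (F * C') := by ring
        _ = F * 1 := by rw [← hC, ← hAB, mul_one]
    exact IsUnit.of_mul_eq_one _ (mul_left_cancel₀ hF0 this)
  intro A B hAB
  rcases h (AdjoinRoot.mk F A) with h1 | h1
  · right
    exact key B A (by rw [hAB, mul_comm]) (AdjoinRoot.mk_eq_zero.1 h1)
  · left
    apply key A B hAB
    rw [← AdjoinRoot.mk_eq_zero]
    have h2 : AdjoinRoot.mk F A * AdjoinRoot.mk F B = 0 := by
      rw [← map_mul, ← hAB, AdjoinRoot.mk_self]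
    exact (h1.mul_right_eq_zero).1 h2

/-- Units commuting with `ε`. -/
def cen (ε : Module.End k M) : Subgroup (Module.End k M)ˣ where
  carrier := {g | ε * (g : Module.End k M) = (g : Module.End k M) * ε}
  one_mem' := by simp
  mul_mem' := by
    intro g h hg hh
    show ε * ((g * h : (Module.End k M)ˣ) : Module.End k M) = _
    have hg' : ε * (g : Module.End k M) = (g : Module.End k M) * ε := hg
    have hh' : ε * (h : Module.End k M) = (h : Module.End k M) * ε := hh
    rw [Units.val_mul, ← mul_assoc, hg', mul_assoc, hh', mul_assoc]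
  inv_mem' := by
    intro g hg
    exact (Commute.units_inv_right (show Commute ε (g : Module.End k M) from hg)).eq

theorem mem_cen {ε : Module.End k M} {g : (Module.End k M)ˣ} :
    g ∈ cen ε ↔ ε * (g : Module.End k M) = (g : Module.End k M) * ε := Iff.rfl

/-- Projection of a unit commuting with the idempotent `ε`. -/
def prj (ε : Module.End k M) (hε : ε * ε = ε) : cen ε →* (Module.End k M)ˣ where
  toFun g := ⟨ε * (g.1 : Module.End k M) + (1 - ε),
    ε * ((g.1⁻¹ : (Module.End k M)ˣ) : Module.End k M) + (1 - ε), by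
      have h1 : ε * (g.1 : Module.End k M) = (g.1 : Module.End k M) * ε := g.2
      have h2 : (g.1 : Module.End k M) * ((g.1⁻¹ : (Module.End k M)ˣ) : Module.End k M) = 1 :=
        Units.mul_inv _
      have h3 : ε * (1 - ε) = 0 := by rw [mul_sub, mul_one, hε, sub_self]
      have h4 : (1 - ε) * ε = 0 := by rw [sub_mul, one_mul, hε, sub_self]
      have h5 : (1 - ε) * (1 - ε) = 1 - ε := by rw [mul_sub, mul_one, h4, sub_zero]
      calc (ε * (g.1 : Module.End k M) + (1 - ε)) *
            (ε * ((g.1⁻¹ : (Module.End k M)ˣ) : Module.End k M) + (1 - ε))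
          = ((g.1 : Module.End k M) * ε * ε * ((g.1⁻¹ : (Module.End k M)ˣ) : Module.End k M)) +
            (g.1 : Module.End k M) * (ε * (1 - ε)) +
            ((1 - ε) * ε) * ((g.1⁻¹ : (Module.End k M)ˣ) : Module.End k M) +
            (1 - ε) * (1 - ε) := by rw [h1]; noncomm_ring
        _ = 1 := by
          rw [h3, h4, h5, mul_assoc _ ε ε, hε, ← h1, mul_assoc, h2, mul_one, mul_zero, zero_mul]
          abel,
    by
      have h1 : ε * (g.1 : Module.End k M) = (g.1 : Module.End k M) * ε := g.2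
      have h2 : ((g.1⁻¹ : (Module.End k M)ˣ) : Module.End k M) * (g.1 : Module.End k M) = 1 :=
        Units.inv_mul _
      have h3 : ε * (1 - ε) = 0 := by rw [mul_sub, mul_one, hε, sub_self]
      have h4 : (1 - ε) * ε = 0 := by rw [sub_mul, one_mul, hε, sub_self]
      have h5 : (1 - ε) * (1 - ε) = 1 - ε := by rw [mul_sub, mul_one, h4, sub_zero]
      calc (ε * ((g.1⁻¹ : (Module.End k M)ˣ) : Module.End k M) + (1 - ε)) *
            (ε * (g.1 : Module.End k M) + (1 - ε))
          = ε * ((g.1⁻¹ : (Module.End k M)ˣ) : Module.End k M) * (ε * (g.1 : Module.End k M)) +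
            ε * (((g.1⁻¹ : (Module.End k M)ˣ) : Module.End k M) * (1 - ε)) +
            ((1 - ε) * ε) * (g.1 : Module.End k M) +
            (1 - ε) * (1 - ε) := by noncomm_ring
        _ = 1 := by
          have h6 : ε * ((g.1⁻¹ : (Module.End k M)ˣ) : Module.End k M) =
              ((g.1⁻¹ : (Module.End k M)ˣ) : Module.End k M) * ε := (cen ε).inv_mem g.2
          rw [h1, h4, h5, ← mul_assoc ε _ (1 - ε), h6, mul_assoc _ ε (1 - ε), h3, mul_assoc _ ε,
            ← mul_assoc ε (g.1 : Module.End k M), h1, mul_assoc (g.1 : Module.End k M), hε,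
            ← mul_assoc, h2, one_mul, mul_zero, zero_mul]
          abel⟩
  map_one' := by
    ext1
    show ε * 1 + (1 - ε) = 1
    rw [mul_one]; abel
  map_mul' g h := by
    ext1
    show ε * ((g.1 * h.1 : (Module.End k M)ˣ) : Module.End k M) + (1 - ε) =
      (ε * (g.1 : Module.End k M) + (1 - ε)) * (ε * (h.1 : Module.End k M) + (1 - ε))
    have h1 : ε * (g.1 : Module.End k M) = (g.1 : Module.End k M) * ε := g.2
    have h3 : ε * (1 - ε) = 0 := by rw [mul_sub, mul_one, hε, sub_self]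
    have h4 : (1 - ε) * ε = 0 := by rw [sub_mul, one_mul, hε, sub_self]
    have h5 : (1 - ε) * (1 - ε) = 1 - ε := by rw [mul_sub, mul_one, h4, sub_zero]
    symm
    calc (ε * (g.1 : Module.End k M) + (1 - ε)) * (ε * (h.1 : Module.End k M) + (1 - ε))
        = (g.1 : Module.End k M) * (ε * ε) * (h.1 : Module.End k M) +
          (g.1 : Module.End k M) * (ε * (1 - ε)) + ((1 - ε) * ε) * (h.1 : Module.End k M) +
          (1 - ε) * (1 - ε) := by rw [h1]; noncomm_ring
      _ = _ := by rw [h3, h4, h5, hε, ← h1, Units.val_mul, mul_zero, zero_mul, add_zero, add_zero,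
          mul_assoc]

/-- The data attached to a pair `a ∈ AAd G`, `t ∈ AA G` with `at` not nilpotent. -/
structure SD (a t : Module.End k M) where
  /-- the polynomial -/
  F : k[X]
  /-- the unit -/
  l : (AdjoinRoot F)ˣ
  /-- the system -/
  σ : Sys (AdjoinRoot F) (Module.End k M) a t l
  irr : Irreducible F
  hl : (l : AdjoinRoot F) = AdjoinRoot.root F
  hρ : ∀ P, σ.ρ (AdjoinRoot.mk F P) = aeval (a * t + t * a) P * σ.ρ 1
  inj : ∀ x, σ.ρ x = 0 → x = 0
  nil : IsNilpotent ((a * t + t * a) * (1 - σ.ρ 1))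
  mem_a : ∀ x, tv (σ.ρ x * a) ∈ pairGroup k a t
  mem_t : ∀ x, tv (σ.ρ x * t) ∈ pairGroup k a t
  one_a : σ.ρ 1 * a = a

theorem pairGroup_le_G {a t : Module.End k M} (ha : a ∈ AA G) (ht : t ∈ AA G) :
    pairGroup k a t ≤ G := pairGroup_le ha.2 ht.2

theorem smul_ρ {a t : Module.End k M} {F : k[X]} {l : (AdjoinRoot F)ˣ}
    (σ : Sys (AdjoinRoot F) (Module.End k M) a t l)
    (hρ : ∀ P, σ.ρ (AdjoinRoot.mk F P) = aeval (a * t + t * a) P * σ.ρ 1) (s : k)
    (x : AdjoinRoot F) : σ.ρ (algebraMap k (AdjoinRoot F) s * x) = s • σ.ρ x := by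
  have h1 : σ.ρ (algebraMap k (AdjoinRoot F) s) = s • σ.ρ 1 := by
    have := hρ (C s)
    rw [AdjoinRoot.mk_C, aeval_C, Algebra.algebraMap_eq_smul_one, smul_mul_assoc, one_mul] at this
    exact this
  rw [σ.mul, h1, smul_mul_assoc, ← σ.mul, one_mul]

theorem star_infinite [Infinite k] (h2 : (2 : k) ≠ 0) {a t : Module.End k M} (ha : a ∈ AAd G)
    (ht : t ∈ AA G) (hn : ¬ IsNilpotent (a * t)) : Nonempty (SD a t) := by
  obtain ⟨F, l, σ, hF0, hFu, hl, hρ, hinj, hnil, e, he⟩ := exists_sys ha.1.1 ht.1 hn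
  have hint : IsIntegral k (a * t + t * a) := Algebra.IsIntegral.isIntegral _
  have hint' : IsIntegral k (t * a + a * t) := Algebra.IsIntegral.isIntegral _
  have hmem_a : ∀ x, tv (σ.ρ x * a) ∈ pairGroup k a t := by
    intro x
    obtain ⟨P, rfl⟩ := AdjoinRoot.mk_surjective x
    have := lemmaG h2 ha.1.1 ht.1 hint (P * e)
    rwa [map_mul, ← he, ← hρ] at this
  have hmem_t : ∀ x, tv (σ.ρ x * t) ∈ pairGroup k a t := by
    intro x
    obtain ⟨P, rfl⟩ := AdjoinRoot.mk_surjective x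
    have := lemmaG h2 ht.1 ha.1.1 hint' (P * e)
    rw [add_comm (t * a), map_mul, ← he, ← hρ, pairGroup_comm] at this
    exact this
  have hfa := faith_a σ hinj
  haveI : Module.Finite k (AdjoinRoot F) := (AdjoinRoot.powerBasis hF0).finite
  haveI : IsArtinianRing (AdjoinRoot F) := IsArtinianRing.of_finite k _
  haveI : Nontrivial (AdjoinRoot F) :=
    Ideal.Quotient.nontrivial_iff.mpr (by rwa [Ne, Ideal.span_singleton_eq_top])
  have hAA : ∀ x, σ.ρ x * a ∈ AA G := by
    intro x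
    refine ⟨σ.sqa x, fun s => ?_⟩
    rw [← smul_mul_assoc, ← smul_ρ σ hρ]
    exact pairGroup_le_G ha.1 ht (hmem_a _)
  exact ⟨⟨F, l, σ, irreducible_of hF0 hFu fun x => unit_of_mem σ hfa ha (hAA x), hl, hρ, hinj,
    hnil, hmem_a, hmem_t, one_a σ hfa ha (hAA 1)⟩⟩

theorem star_finite [Finite k] (h2 : (2 : k) ≠ 0) (h3 : Nat.card k ≠ 3) {a t : Module.End k M}
    (ha : a ∈ AAd G) (ht : t ∈ AA G) (hn : ¬ IsNilpotent (a * t)) : Nonempty (SD a t) := by
  obtain ⟨F, l, σ, hF0, hFu, hl, hρ, hinj, hnil, e, he⟩ := exists_sys ha.1.1 ht.1 hn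
  have hfa := faith_a σ hinj
  haveI : Module.Finite k (AdjoinRoot F) := (AdjoinRoot.powerBasis hF0).finite
  haveI : IsArtinianRing (AdjoinRoot F) := IsArtinianRing.of_finite k _
  haveI : Finite (AdjoinRoot F) := Module.finite_of_finite k
  haveI : Nontrivial (AdjoinRoot F) :=
    Ideal.Quotient.nontrivial_iff.mpr (by rwa [Ne, Ideal.span_singleton_eq_top])
  set ε := σ.ρ 1 with hε
  have hεε : ε * ε = ε := by rw [hε, ← σ.mul, one_mul]
  have h1ε : (1 - ε) * (1 - ε) = 1 - ε := by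
    rw [mul_sub, mul_one, sub_mul, one_mul, hεε]; simp
  have ha2 := ha.1.1
  have ht2 := ht.1
  have hεa : ε * a = a * ε := (σ.ca 1).symm
  have hεt : ε * t = t * ε := (σ.ct 1).symm
  have h1εa : (1 - ε) * a = a * (1 - ε) := by rw [sub_mul, mul_sub, hεa]; simp
  have h1εt : (1 - ε) * t = t * (1 - ε) := by rw [sub_mul, mul_sub, hεt]; simp
  have hz1 : ε * (1 - ε) = 0 := by rw [mul_sub, mul_one, hεε, sub_self]
  have hz2 : (1 - ε) * ε = 0 := by rw [sub_mul, one_mul, hεε, sub_self]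
  -- square-zero elements
  have sqm : ∀ {δ b : Module.End k M}, δ * δ = δ → δ * b = b * δ → b * b = 0 →
      (δ * b) * (δ * b) = 0 := by
    intro δ b h1 h2 h3
    rw [h2, mul_assoc, ← mul_assoc δ b, h2, mul_assoc b δ δ, h1, ← mul_assoc, h3, zero_mul]
  have sa1 := sqm hεε hεa ha2
  have st1 := sqm hεε hεt ht2
  have sa0 := sqm h1ε h1εa ha2
  have st0 := sqm h1ε h1εt ht2
  set H := pairGroup k a t with hH
  set H1 := pairGroup k (ε * a) (ε * t) with hH1
  set H0 := pairGroup k ((1 - ε) * a) ((1 - ε) * t) with hH0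
  -- the part with nilpotent `c` is unipotent
  obtain ⟨N, hN⟩ : ∃ N, ds H0 N = ⊥ := by
    apply ds_eq_bot_of_unip
    apply unip_pair sa0 st0
    obtain ⟨m, hm⟩ := hnil
    refine ⟨m + 1, ?_⟩
    rw [pow_mul_c sa0 st0]
    have e1 : (1 - ε) * a * ((1 - ε) * t) + (1 - ε) * t * ((1 - ε) * a) =
        (a * t + t * a) * (1 - ε) := by
      have e2 : (1 - ε) * a * ((1 - ε) * t) = a * t * (1 - ε) := by
        rw [h1εa, mul_assoc, ← mul_assoc (1 - ε), h1ε, h1εt, mul_assoc]
      have e3 : (1 - ε) * t * ((1 - ε) * a) = t * a * (1 - ε) := by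
        rw [h1εt, mul_assoc, ← mul_assoc (1 - ε), h1ε, h1εa, mul_assoc]
      rw [e2, e3, add_mul]
    rw [e1, hm, zero_mul]
  -- generators in the centralizer of `ε`
  have cen_tv : ∀ {b : Module.End k M}, b * b = 0 → ε * b = b * ε → ∀ s : k,
      (tv (s • b) : (Module.End k M)ˣ) ∈ cen ε := by
    intro b hb hεb s
    rw [mem_cen, val_tv (smul_sq s hb), mul_add, add_mul, mul_one, one_mul, mul_smul_comm, hεb,
      smul_mul_assoc]
  let K : Subgroup (cen ε) := Subgroup.closure
    ({g | ∃ s : k, g = ⟨tv (s • a), cen_tv ha2 hεa s⟩} ∪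
     {g | ∃ s : k, g = ⟨tv (s • t), cen_tv ht2 hεt s⟩})
  have hK : K.map (cen ε).subtype = H := by
    rw [MonoidHom.map_closure, hH, pairGroup]
    congr 1
    ext g
    constructor
    · rintro ⟨_, (⟨s, rfl⟩ | ⟨s, rfl⟩), rfl⟩
      · exact Or.inl ⟨s, rfl⟩
      · exact Or.inr ⟨s, rfl⟩
    · rintro (⟨s, rfl⟩ | ⟨s, rfl⟩)
      · exact ⟨_, Or.inl ⟨s, rfl⟩, rfl⟩
      · exact ⟨_, Or.inr ⟨s, rfl⟩, rfl⟩
  -- projections of generators
  have prj_tv : ∀ {δ : Module.End k M} (hδ : δ * δ = δ) {b : Module.End k M} (hb : b * b = 0)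
      (hδb : δ * b = b * δ) (s : k) (h : (tv (s • b) : (Module.End k M)ˣ) ∈ cen δ),
      prj δ hδ ⟨tv (s • b), h⟩ = tv (s • (δ * b)) := by
    intro δ hδ b hb hδb s h
    ext1
    show δ * ((tv (s • b) : (Module.End k M)ˣ) : Module.End k M) + (1 - δ) = _
    rw [val_tv (smul_sq s hb), val_tv (smul_sq s (sqm hδ hδb hb)), mul_add, mul_one, mul_smul_comm]
    abel
  have hcen : ∀ g : (Module.End k M)ˣ, g ∈ cen ε → g ∈ cen (1 - ε) := by
    intro g hg
    rw [mem_cen] at hg ⊢
    rw [sub_mul, mul_sub, hg]; simp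
  let ι0 : cen ε →* cen (1 - ε) := Subgroup.inclusion hcen
  let π1 := prj ε hεε
  let π0 := (prj (1 - ε) h1ε).comp ι0
  have hK1 : K.map π1 = H1 := by
    rw [MonoidHom.map_closure, hH1, pairGroup]
    congr 1
    ext g
    constructor
    · rintro ⟨_, (⟨s, rfl⟩ | ⟨s, rfl⟩), rfl⟩
      · exact Or.inl ⟨s, prj_tv hεε ha2 hεa s _⟩
      · exact Or.inr ⟨s, prj_tv hεε ht2 hεt s _⟩
    · rintro (⟨s, rfl⟩ | ⟨s, rfl⟩)
      · exact ⟨_, Or.inl ⟨s, rfl⟩, prj_tv hεε ha2 hεa s _⟩
      · exact ⟨_, Or.inr ⟨s, rfl⟩, prj_tv hεε ht2 hεt s _⟩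
  have hK0 : K.map π0 = H0 := by
    rw [MonoidHom.map_closure, hH0, pairGroup]
    congr 1
    ext g
    constructor
    · rintro ⟨_, (⟨s, rfl⟩ | ⟨s, rfl⟩), rfl⟩
      · exact Or.inl ⟨s, prj_tv h1ε ha2 h1εa s _⟩
      · exact Or.inr ⟨s, prj_tv h1ε ht2 h1εt s _⟩
    · rintro (⟨s, rfl⟩ | ⟨s, rfl⟩)
      · exact ⟨_, Or.inl ⟨s, rfl⟩, prj_tv h1ε ha2 h1εa s _⟩
      · exact ⟨_, Or.inr ⟨s, rfl⟩, prj_tv h1ε ht2 h1εt s _⟩
  have hsplit : ∀ g : cen ε, π0 g = 1 → π1 g = (g : (Module.End k M)ˣ) := by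
    intro g hg
    have h1 : (1 - ε) * ((g : (Module.End k M)ˣ) : Module.End k M) + (1 - (1 - ε)) = 1 :=
      congrArg Units.val hg
    ext1
    show ε * ((g : (Module.End k M)ˣ) : Module.End k M) + (1 - ε) = _
    have h3 : (1 - ε) * ((g : (Module.End k M)ˣ) : Module.End k M) = 1 - ε := by
      have : (1 - ε) * ((g : (Module.End k M)ˣ) : Module.End k M) =
          ((1 - ε) * ((g : (Module.End k M)ˣ) : Module.End k M) + (1 - (1 - ε))) - ε := by abel
      rw [this, h1]
    rw [← h3, ← add_mul]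
    simp
  -- the derived groups agree
  have hds : ds H1 N ≤ ds H N := by
    rw [← hK1, ← ds_map, ← hK, ← ds_map]
    rintro _ ⟨g, hg, rfl⟩
    refine ⟨g, hg, ?_⟩
    have h0 : π0 g ∈ ds H0 N := by
      rw [← hK0, ← ds_map]; exact ⟨g, hg, rfl⟩
    rw [hN, Subgroup.mem_bot] at h0
    exact (hsplit g h0).symm
  -- `H1` is the image of `HH`
  have hH1Ψ : (HH k (l : AdjoinRoot F)).map σ.Ψ = H1 := by
    have e1 : ∀ s : k, σ.Ψ (u (algebraMap k (AdjoinRoot F) s)) = tv (s • (ε * a)) := by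
      intro s
      rw [σ.Ψ_u]
      congr 1
      have := smul_ρ σ hρ s 1
      rw [mul_one] at this
      rw [this, smul_mul_assoc]
    have e2 : ∀ s : k, σ.Ψ (v (algebraMap k (AdjoinRoot F) s * l)) = tv (s • (ε * t)) := by
      intro s
      rw [σ.Ψ_v]
      congr 1
      have h5 : ((l⁻¹ : (AdjoinRoot F)ˣ) : AdjoinRoot F) * (algebraMap k (AdjoinRoot F) s * l) =
          algebraMap k (AdjoinRoot F) s * 1 := by
        rw [mul_comm, mul_assoc, Units.mul_inv]
      rw [h5, smul_ρ σ hρ s 1, smul_mul_assoc]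
    unfold HH
    rw [MonoidHom.map_closure, hH1, pairGroup]
    congr 1
    ext g
    constructor
    · rintro ⟨_, (⟨s, rfl⟩ | ⟨s, rfl⟩), rfl⟩
      · exact Or.inl ⟨s, e1 s⟩
      · exact Or.inr ⟨s, e2 s⟩
    · rintro (⟨s, rfl⟩ | ⟨s, rfl⟩)
      · exact ⟨_, Or.inl ⟨s, rfl⟩, e1 s⟩
      · exact ⟨_, Or.inr ⟨s, rfl⟩, e2 s⟩
  have hin : ∀ g ∈ ds (HH k (l : AdjoinRoot F)) N, σ.Ψ g ∈ H := by
    intro g hg
    apply ds_le H N
    apply hds
    rw [← hH1Ψ, ← ds_map]
    exact ⟨g, hg, rfl⟩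
  have hgen : ∀ y : AdjoinRoot F, ∃ x : k[X], aeval (l : AdjoinRoot F) x = y := by
    intro y
    obtain ⟨P, rfl⟩ := AdjoinRoot.mk_surjective y
    exact ⟨P, by rw [hl, AdjoinRoot.aeval_eq]⟩
  have hmin : ∀ x : AdjoinRoot F, u x ∈ ds (HH k (l : AdjoinRoot F)) N → x = 0 ∨ IsUnit x := by
    intro x hx
    apply unit_of_mem σ hfa ha
    refine ⟨σ.sqa x, fun s => ?_⟩
    rw [← smul_mul_assoc, ← smul_ρ σ hρ, ← σ.Ψ_u]
    apply pairGroup_le_G ha.1 ht
    apply hin
    by_cases hs : s = 0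
    · rw [hs, map_zero, zero_mul, u_zero]; exact one_mem _
    · rw [← ds_invariant (dil_HH_eq hs (l : AdjoinRoot F)) N]
      refine ⟨u x, hx, ?_⟩
      rw [dil_u]; rfl
  have hmain := main_ds h2 h3 l hgen N hmin
  have hmem_a : ∀ x, tv (σ.ρ x * a) ∈ pairGroup k a t := by
    intro x
    rw [← σ.Ψ_u]
    exact hin _ (hmain x).1
  have hmem_t : ∀ x, tv (σ.ρ x * t) ∈ pairGroup k a t := by
    intro x
    have h5 := hin _ (hmain ((l : AdjoinRoot F) * x)).2.1
    rw [σ.Ψ_v, ← mul_assoc, Units.inv_mul, one_mul] at h5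
    exact h5
  have hAA : ∀ x, σ.ρ x * a ∈ AA G := by
    intro x
    refine ⟨σ.sqa x, fun s => ?_⟩
    rw [← smul_mul_assoc, ← smul_ρ σ hρ]
    exact pairGroup_le_G ha.1 ht (hmem_a _)
  exact ⟨⟨F, l, σ, irreducible_of hF0 hFu fun x => (hmain x).2.2, hl, hρ, hinj,
    hnil, hmem_a, hmem_t, one_a σ hfa ha (hAA 1)⟩⟩

/-- **The fundamental dichotomy.** -/
theorem star (h2 : (2 : k) ≠ 0) (h3 : Nat.card k ≠ 3) {a t : Module.End k M}
    (ha : a ∈ AAd G) (ht : t ∈ AA G) (hn : ¬ IsNilpotent (a * t)) : Nonempty (SD a t) := by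
  rcases finite_or_infinite k with hk | hk
  · exact star_finite h2 h3 ha ht hn
  · exact star_infinite h2 ha ht hn

end sys

end H86.Quad4
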