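import Cfsg.Agent.Lib.H86.Quad4

/-!
Quadratic pairs: non-nilpotent pairs `a, b ∈ AAd G`: the group `⟨1 + ka, 1 + kb⟩ ≅ SL₂(L)`,
inverse pairs, the decomposition of `M`.
-/

set_option autoImplicit false
set_option linter.unusedSimpArgs false
set_option linter.unusedVariables false
set_option linter.style.haveILetI false
set_option linter.unusedSectionVars false
open H86.Quad1 H86.FinSL H86.Quad2 H86.Quad3 H86.Quad4 H86.Unip Polynomial

namespace H86.Quad5

universe u v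
variable {k : Type u} [Field k] {M : Type v} [AddCommGroup M] [Module k M] [FiniteDimensional k M]
variable {G : Subgroup (LinearMap.GeneralLinearGroup k M)}

/-- scalar multiples of elements of the pair group data stay in `AA G`. -/
theorem SD.AA_a {a t : Module.End k M} (D : SD a t) (ha : a ∈ AA G) (ht : t ∈ AA G)
    (x : AdjoinRoot D.F) : D.σ.ρ x * a ∈ AA G := by
  refine ⟨D.σ.sqa x, fun s => ?_⟩
  rw [← smul_mul_assoc, ← smul_ρ D.σ D.hρ]
  exact pairGroup_le_G ha ht (D.mem_a _)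

theorem SD.AA_t {a t : Module.End k M} (D : SD a t) (ha : a ∈ AA G) (ht : t ∈ AA G)
    (x : AdjoinRoot D.F) : D.σ.ρ x * t ∈ AA G := by
  refine ⟨D.σ.sqt x, fun s => ?_⟩
  rw [← smul_mul_assoc, ← smul_ρ D.σ D.hρ]
  exact pairGroup_le_G ha ht (D.mem_t _)

theorem SD.nontrivial {a t : Module.End k M} (D : SD a t) : Nontrivial (AdjoinRoot D.F) :=
  Ideal.Quotient.nontrivial_iff.mpr (by
    rw [Ne, Ideal.span_singleton_eq_top]; exact D.irr.not_isUnit)

theorem SD.one_t {a t : Module.End k M} (D : SD a t) (ha : a ∈ AA G) (ht : t ∈ AAd G) :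
    D.σ.ρ 1 * t = t := by
  haveI := SD.nontrivial D
  have hne : D.σ.ρ 1 * t ≠ 0 := fun h => one_ne_zero (faith_t D.σ D.inj 1 h)
  have hEE : D.σ.ρ 1 * t ∈ EE G t := by
    apply mem_EE_of_le ht (SD.AA_t D ha ht.1 1)
    · rw [← D.σ.ct]
      rintro _ ⟨m, rfl⟩
      exact ⟨_, rfl⟩
    · intro m hm
      show D.σ.ρ 1 (t m) = 0
      rw [show t m = 0 from hm, map_zero]
  have hr : LinearMap.range (D.σ.ρ 1 * t) = LinearMap.range t := by
    rcases hEE.2 with h | h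
    · exact absurd h hne
    · exact h.2
  ext m
  have : t m ∈ LinearMap.range (D.σ.ρ 1 * t) := by rw [hr]; exact ⟨m, rfl⟩
  obtain ⟨m', hm'⟩ := this
  show D.σ.ρ 1 (t m) = t m
  rw [← hm']
  show (D.σ.ρ 1 * D.σ.ρ 1) (t m') = (D.σ.ρ 1 * t) m'
  rw [← D.σ.mul, one_mul]; rfl

theorem SD.Ψ_u_alg {a t : Module.End k M} (D : SD a t) (s : k) :
    D.σ.Ψ (u (algebraMap k _ s)) = tv (s • a) := by
  rw [D.σ.Ψ_u]
  congr 1
  have := smul_ρ D.σ D.hρ s 1
  rw [mul_one] at this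
  rw [this, smul_mul_assoc, D.one_a]

theorem SD.Ψ_v_alg {a t : Module.End k M} (D : SD a t) (ht : D.σ.ρ 1 * t = t) (s : k) :
    D.σ.Ψ (v (algebraMap k _ s * D.l)) = tv (s • t) := by
  rw [D.σ.Ψ_v]
  congr 1
  have h5 : ((D.l⁻¹ : (AdjoinRoot D.F)ˣ) : AdjoinRoot D.F) *
      (algebraMap k (AdjoinRoot D.F) s * D.l) = algebraMap k (AdjoinRoot D.F) s * 1 := by
    rw [mul_comm, mul_assoc, Units.mul_inv]
  rw [h5, smul_ρ D.σ D.hρ s 1, smul_mul_assoc, ht]

theorem SD.range_Ψ {a t : Module.End k M} (D : SD a t) (ht : D.σ.ρ 1 * t = t) :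
    D.σ.Ψ.range = pairGroup k a t := by
  haveI : Fact (Irreducible D.F) := ⟨D.irr⟩
  apply le_antisymm
  · have htop : (pairGroup k a t).comap D.σ.Ψ = ⊤ := by
      refine FinSL.eq_top_of (L := AdjoinRoot D.F) ?_ ?_
      · intro b
        show D.σ.Ψ (u b) ∈ pairGroup k a t
        rw [D.σ.Ψ_u]; exact D.mem_a b
      · intro b
        show D.σ.Ψ (v b) ∈ pairGroup k a t
        rw [D.σ.Ψ_v]; exact D.mem_t _
    rintro _ ⟨g, rfl⟩
    have : g ∈ (pairGroup k a t).comap D.σ.Ψ := by rw [htop]; exact Subgroup.mem_top _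
    exact this
  · apply pairGroup_le
    · intro s; exact ⟨_, SD.Ψ_u_alg D s⟩
    · intro s; exact ⟨_, SD.Ψ_v_alg D ht s⟩

end H86.Quad5
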