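import Cfsg.Agent.Lib.H86.Quad5

/-!
Quadratic pairs: inverse pairs `aba = a`, `bab = b`, the opposite relation on `AAd G`, the
elements `n(a)`.
-/

set_option autoImplicit false
set_option linter.unusedSimpArgs false
set_option linter.unusedVariables false
set_option linter.style.haveILetI false
set_option linter.unusedSectionVars false
open H86.Quad1 H86.FinSL H86.Quad2 H86.Quad3 H86.Quad4 H86.Quad5 H86.Unip Polynomial

namespace H86.Quad6

universe u v

/-- The standing hypothesis on the field. -/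
class Good (k : Type*) [Field k] : Prop where
  two : (2 : k) ≠ 0
  card : Nat.card k ≠ 3

theorem good_of {k : Type*} [Field k] (hk2 : ringChar k ≠ 2) (hk3 : Nat.card k ≠ 3) : Good k := by
  refine ⟨?_, hk3⟩
  intro h
  apply hk2
  have hdvd : ringChar k ∣ 2 := (ringChar.spec k 2).1 (by exact_mod_cast h)
  rcases (Nat.dvd_prime Nat.prime_two).1 hdvd with h1 | h1
  · exact absurd h1 (CharP.ringChar_ne_one)
  · exact h1

section ip
variable {k : Type u} [Field k] {M : Type v} [AddCommGroup M] [Module k M]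

/-- `a` and `b` are mutually inverse. -/
structure IP (a b : Module.End k M) : Prop where
  a2 : a * a = 0
  b2 : b * b = 0
  aba : a * b * a = a
  bab : b * a * b = b

theorem IP.symm {a b : Module.End k M} (h : IP a b) : IP b a := ⟨h.b2, h.a2, h.bab, h.aba⟩

theorem IP.neg {a b : Module.End k M} (h : IP a b) : IP (-a) (-b) :=
  ⟨by rw [neg_mul_neg, h.a2], by rw [neg_mul_neg, h.b2], by rw [neg_mul_neg, mul_neg, h.aba],
    by rw [neg_mul_neg, mul_neg, h.bab]⟩

variable {a b : Module.End k M}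

theorem sq_app {a : Module.End k M} (h : a * a = 0) (x : M) : a (a x) = 0 := by
  have := congrArg (fun f : Module.End k M => f x) h
  exact this

theorem IP.aba_app (h : IP a b) (x : M) : a (b (a x)) = a x := by
  have := congrArg (fun f : Module.End k M => f x) h.aba
  exact this

theorem IP.bab_app (h : IP a b) (x : M) : b (a (b x)) = b x := by
  have := congrArg (fun f : Module.End k M => f x) h.bab
  exact this

theorem IP.disj (h : IP a b) : Disjoint (LinearMap.range a) (LinearMap.ker b) := by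
  rw [Submodule.disjoint_def]
  rintro _ ⟨y, rfl⟩ hy
  rw [← h.aba_app y, show b (a y) = 0 from hy, map_zero]

theorem IP.codisj (h : IP a b) : LinearMap.range a ⊔ LinearMap.ker b = ⊤ := by
  rw [eq_top_iff]
  intro m _
  have e : m = a (b m) + (m - a (b m)) := by abel
  rw [e]
  refine Submodule.add_mem_sup ⟨_, rfl⟩ ?_
  show b (m - a (b m)) = 0
  rw [map_sub, h.bab_app, sub_self]

/-- `ab` is the identity on the range of `a`. -/
theorem IP.ab_range (h : IP a b) {x : M} (hx : x ∈ LinearMap.range a) : a (b x) = x := by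
  obtain ⟨y, rfl⟩ := hx
  exact h.aba_app y

theorem IP.pp (h : IP a b) : (a * b) * (a * b) = a * b := by
  rw [← mul_assoc, h.aba]

theorem IP.pq (h : IP a b) : (a * b) * (b * a) = 0 := by
  rw [mul_assoc, ← mul_assoc b b, h.b2, zero_mul, mul_zero]

theorem IP.qp (h : IP a b) : (b * a) * (a * b) = 0 := h.symm.pq

/-- `M = C_M(X) ⊕ [M, X]`. -/
theorem IP.isCompl (h : IP a b) : IsCompl (LinearMap.ker a ⊓ LinearMap.ker b)
    (LinearMap.range a ⊔ LinearMap.range b) := by
  constructor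
  · rw [Submodule.disjoint_def]
    rintro x ⟨hxa, hxb⟩ hx
    obtain ⟨y, ⟨y', rfl⟩, z, ⟨z', rfl⟩, rfl⟩ := Submodule.mem_sup.1 hx
    have h1 : a (a y' + b z') = 0 := hxa
    have h2 : b (a y' + b z') = 0 := hxb
    rw [map_add, sq_app h.a2, zero_add] at h1
    rw [map_add, sq_app h.b2, add_zero] at h2
    rw [← h.aba_app y', h2, map_zero, ← h.bab_app z', h1, map_zero, add_zero]
  · rw [codisjoint_iff, eq_top_iff]
    intro m _
    have e : m = (m - a (b m) - b (a m)) + (a (b m) + b (a m)) := by abel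
    rw [e]
    refine Submodule.add_mem_sup ⟨?_, ?_⟩ (Submodule.add_mem_sup ⟨_, rfl⟩ ⟨_, rfl⟩)
    · show a (m - a (b m) - b (a m)) = 0
      rw [map_sub, map_sub, sq_app h.a2, h.aba_app]; abel
    · show b (m - a (b m) - b (a m)) = 0
      rw [map_sub, map_sub, sq_app h.b2, h.bab_app]; abel

/-- The element `n(a) = (1 + a)(1 - b)(1 + a)`. -/
noncomputable def nU (a b : Module.End k M) : LinearMap.GeneralLinearGroup k M :=
  tv a * tv (-b) * tv a

theorem IP.nU_val (h : IP a b) :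
    ((nU a b : (Module.End k M)ˣ) : Module.End k M) = 1 - a * b - b * a + a - b := by
  have ha := h.a2
  have hb := h.b2
  have h3 : a * (b * a) = a := by rw [← mul_assoc]; exact h.aba
  unfold nU
  rw [Units.val_mul, Units.val_mul, val_tv h.a2, val_tv (Quad1.neg_sq h.b2)]
  simp only [mul_add, add_mul, mul_neg, neg_mul, mul_one, one_mul, mul_assoc, ha, h3, mul_zero]
  abel

theorem IP.nU_inv (h : IP a b) :
    (((nU a b)⁻¹ : (Module.End k M)ˣ) : Module.End k M) = 1 - a * b - b * a - a + b := by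
  have e : (nU a b)⁻¹ = nU (-a) (-b) := by
    unfold nU
    rw [mul_inv_rev, mul_inv_rev, inv_tv h.a2, inv_tv (Quad1.neg_sq h.b2), mul_assoc]
  rw [e, h.neg.nU_val, neg_mul_neg, neg_mul_neg]
  abel

theorem IP.ne_zero (h : IP a b) (ha : a ≠ 0) : b ≠ 0 := by
  rintro rfl
  apply ha
  have := h.aba
  rwa [mul_zero, zero_mul, eq_comm] at this

/-- The opposite relation. -/
def Opp (a b : Module.End k M) : Prop :=
  Disjoint (LinearMap.range a) (LinearMap.ker b) ∧ Disjoint (LinearMap.range b) (LinearMap.ker a)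

theorem Opp.symm {a b : Module.End k M} (h : Opp a b) : Opp b a := ⟨h.2, h.1⟩

theorem IP.opp (h : IP a b) : Opp a b := ⟨h.disj, h.symm.disj⟩

theorem not_nilpotent_of_opp {a b : Module.End k M} (h : Opp a b) (ha : a ≠ 0) :
    ¬ IsNilpotent (a * b) := by
  have key : ∀ n y, ((a * b) ^ n) (a y) = 0 → a y = 0 := by
    intro n
    induction n with
    | zero => intro y hy; simpa using hy
    | succ n ih =>
      intro y hy
      rw [pow_succ] at hy
      have h1 : a (b (a y)) = 0 := ih (b (a y)) hy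
      have h2 : b (a y) = 0 := Submodule.disjoint_def.1 h.2 _ ⟨_, rfl⟩ h1
      exact Submodule.disjoint_def.1 h.1 _ ⟨_, rfl⟩ h2
  rintro ⟨n, hn⟩
  apply ha
  ext y
  exact key n y (by rw [hn]; rfl)

theorem Opp.congr {a b a' b' : Module.End k M} (h : Opp a b)
    (h1 : LinearMap.range a' = LinearMap.range a) (h2 : LinearMap.ker a' = LinearMap.ker a)
    (h3 : LinearMap.range b' = LinearMap.range b) (h4 : LinearMap.ker b' = LinearMap.ker b) :
    Opp a' b' := by
  unfold Opp; rw [h1, h2, h3, h4]; exact h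

end ip

section main
variable {k : Type u} [Field k] [Good k] {M : Type v} [AddCommGroup M] [Module k M]
  [FiniteDimensional k M]
variable {G : Subgroup (LinearMap.GeneralLinearGroup k M)}

/-- A non-nilpotent pair contains an inverse pair. -/
theorem exists_inv' {a b : Module.End k M} (ha : a ∈ AAd G) (hb : b ∈ AA G)
    (hn : ¬ IsNilpotent (a * b)) : ∃ b' ∈ AA G, IP a b' ∧
      LinearMap.range b' ≤ LinearMap.range b ∧ LinearMap.ker b ≤ LinearMap.ker b' := by
  obtain ⟨D⟩ := star Good.two Good.card ha hb hn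
  have e : D.σ.ρ ((D.l⁻¹ : (AdjoinRoot D.F)ˣ)) * b * a * (D.σ.ρ ((D.l⁻¹ : (AdjoinRoot D.F)ˣ)) * b) =
      D.σ.ρ ((D.l⁻¹ : (AdjoinRoot D.F)ˣ)) * b := by
    have h1 : D.σ.ρ ((D.l⁻¹ : (AdjoinRoot D.F)ˣ)) * b * a * (D.σ.ρ ((D.l⁻¹ : (AdjoinRoot D.F)ˣ)) * b) =
        D.σ.ρ ((D.l⁻¹ : (AdjoinRoot D.F)ˣ)) * (D.σ.ρ ((D.l⁻¹ : (AdjoinRoot D.F)ˣ)) * (b * a * b)) := by
      rw [mul_assoc (D.σ.ρ _) b a, mul_assoc (D.σ.ρ _) (b * a), ← mul_assoc (b * a) (D.σ.ρ _) b,
        D.σ.cta, mul_assoc (D.σ.ρ _) (b * a) b]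
    rw [h1, D.σ.tat, ← mul_assoc, ← D.σ.mul, ]
    congr 2
    rw [Units.inv_mul, mul_one]
  refine ⟨D.σ.ρ ((D.l⁻¹ : (AdjoinRoot D.F)ˣ)) * b, SD.AA_t D ha.1 hb _,
    ⟨ha.1.1, D.σ.sqt _, ?_, e⟩, ?_, ?_⟩
  · rw [← mul_assoc, D.σ.ca, mul_assoc, mul_assoc, ← mul_assoc a, D.σ.ata, Units.inv_mul, D.one_a]
  · rw [← D.σ.ct]
    rintro _ ⟨m, rfl⟩
    exact ⟨_, rfl⟩
  · intro m hm
    show D.σ.ρ _ (b m) = 0
    rw [show b m = 0 from hm, map_zero]

theorem exists_inv {a b : Module.End k M} (ha : a ∈ AAd G) (hb : b ∈ AAd G)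
    (hn : ¬ IsNilpotent (a * b)) : ∃ b' ∈ EE G b, b' ≠ 0 ∧ IP a b' := by
  obtain ⟨b', h1, h2, h3, h4⟩ := exists_inv' ha hb.1 hn
  exact ⟨b', mem_EE_of_le hb h1 h3 h4, h2.ne_zero ha.2.1, h2⟩

theorem EE_range {a b : Module.End k M} (hb : b ∈ EE G a) (h : b ≠ 0) :
    LinearMap.range b = LinearMap.range a := by
  rcases hb.2 with h1 | h1
  · exact absurd h1 h
  · exact h1.2

theorem EE_ker {a b : Module.End k M} (hb : b ∈ EE G a) (h : b ≠ 0) :
    LinearMap.ker b = LinearMap.ker a := by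
  rcases hb.2 with h1 | h1
  · exact absurd h1 h
  · exact h1.1

theorem opp_iff {a b : Module.End k M} (ha : a ∈ AAd G) (hb : b ∈ AAd G) :
    Opp a b ↔ ¬ IsNilpotent (a * b) := by
  constructor
  · intro h; exact not_nilpotent_of_opp h ha.2.1
  · intro h
    obtain ⟨b', h1, h2, h3⟩ := exists_inv ha hb h
    exact h3.opp.congr rfl rfl (EE_range h1 h2).symm (EE_ker h1 h2).symm

theorem exists_ip {a b : Module.End k M} (ha : a ∈ AAd G) (hb : b ∈ AAd G)
    (h : Opp a b) : ∃ b' ∈ EE G b, b' ≠ 0 ∧ IP a b' :=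
  exists_inv ha hb ((opp_iff ha hb).1 h)

theorem EE_self {a b : Module.End k M} (hb : b ∈ EE G a) (hb0 : b ≠ 0) :
    EE G b = EE G a := EE_of_mem_EE hb hb0

theorem Opp.ofEE {a b a' b' : Module.End k M} (h : Opp a b) (ha : a' ∈ EE G a) (ha0 : a' ≠ 0)
    (hb : b' ∈ EE G b) (hb0 : b' ≠ 0) : Opp a' b' :=
  h.congr (EE_range ha ha0) (EE_ker ha ha0) (EE_range hb hb0) (EE_ker hb hb0)

theorem nU_mem {a b : Module.End k M} (ha : a ∈ AA G) (hb : b ∈ AA G) : nU a b ∈ G :=
  mul_mem (mul_mem (AA_mem ha) (AA_mem (neg_mem_AA hb))) (AA_mem ha)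

end main

end H86.Quad6
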