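import Cfsg.Agent.Lib.H86.Quad6

/-!
Quadratic pairs: nilpotent pairs. If `a ∈ AAd G`, `b ∈ AA G` and `ab` is nilpotent then `aba = 0`.
The structure of non-commuting nilpotent pairs.
-/

set_option autoImplicit false
set_option linter.unusedSimpArgs false
set_option linter.unusedVariables false
set_option linter.style.haveILetI false
set_option linter.unusedSectionVars false
open H86.Quad1 H86.FinSL H86.Quad2 H86.Quad3 H86.Quad4 H86.Quad5 H86.Quad6 H86.Unip Polynomial

namespace H86.Quad7

universe u v

section alg
variable {R : Type*} [Ring R]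

/-- commutator of transvections -/
theorem comm_tv {x y : R} (hx : x * x = 0) (hy : y * y = 0) (hxy : x * y * x = 0)
    (hyx : y * x * y = 0) :
    (x * y - y * x) * (x * y - y * x) = 0 ∧
      tv x * tv y * (tv x)⁻¹ * (tv y)⁻¹ = tv (x * y - y * x) := by
  have h3 : x * (y * x) = 0 := by rw [← mul_assoc]; exact hxy
  have h4 : y * (x * y) = 0 := by rw [← mul_assoc]; exact hyx
  have hs : (x * y - y * x) * (x * y - y * x) = 0 := by
    simp only [mul_sub, sub_mul, mul_assoc, h3, h4, mul_zero, reassoc hx, reassoc hy, hx, hy,
      zero_mul, sub_zero]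
  refine ⟨hs, ?_⟩
  ext
  rw [Units.val_mul, Units.val_mul, Units.val_mul, val_tv hx, val_tv hy, val_inv_tv hx,
    val_inv_tv hy, val_tv hs]
  simp only [mul_add, add_mul, mul_sub, sub_mul, mul_one, one_mul, mul_assoc, hx, hy, h3, h4,
    mul_zero, reassoc hx, reassoc hy, zero_mul]
  abel

end alg

section main
variable {k : Type u} [Field k] [Good k] {M : Type v} [AddCommGroup M] [Module k M]
  [FiniteDimensional k M]
variable {G : Subgroup (LinearMap.GeneralLinearGroup k M)}

theorem comm_mem_AA {x y : Module.End k M} (hx : x ∈ AA G) (hy : y ∈ AA G)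
    (hxy : x * y * x = 0) (hyx : y * x * y = 0) : x * y - y * x ∈ AA G := by
  refine ⟨(comm_tv hx.1 hy.1 hxy hyx).1, fun s => ?_⟩
  have h1 := comm_tv (smul_sq s hx.1) hy.1 (by
    rw [smul_mul_assoc, smul_mul_assoc, mul_smul_comm, hxy, smul_zero, smul_zero])
    (by rw [mul_smul_comm, smul_mul_assoc, hyx, smul_zero])
  have h2 : (s • x) * y - y * (s • x) = s • (x * y - y * x) := by
    rw [smul_mul_assoc, mul_smul_comm, smul_sub]
  rw [h2] at h1
  rw [← h1.2]
  exact mul_mem (mul_mem (mul_mem (hx.2 s) (AA_mem hy)) (inv_mem (hx.2 s))) (inv_mem (AA_mem hy))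

/-- conjugation of `a` by `1 + s b`. -/
theorem conj_formula {a b : Module.End k M} (hb : b * b = 0) (s : k) :
    ((tv (s • b) : (Module.End k M)ˣ) : Module.End k M) * a *
      (((tv (s • b))⁻¹ : (Module.End k M)ˣ) : Module.End k M) =
      a + s • (b * a - a * b) - (s * s) • (b * a * b) := by
  rw [val_tv (smul_sq s hb), val_inv_tv (smul_sq s hb)]
  simp only [mul_add, add_mul, mul_sub, sub_mul, mul_one, one_mul, mul_assoc, smul_mul_assoc,
    mul_smul_comm]
  module

/-- The base case of the claim: if `ababa = 0` then `aba = 0`. -/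
theorem claim_base {a b : Module.End k M} (ha : a ∈ AAd G) (hb : b ∈ AA G)
    (h : a * b * a * b * a = 0) : a * b * a = 0 := by
  by_contra hne
  have haa := ha.1.1
  have hbb := hb.1
  have h' : a * (b * (a * (b * a))) = 0 := by
    have := h; simpa only [mul_assoc] using this
  -- the conjugates
  have hy : ∀ s : k, a + s • (b * a - a * b) - (s * s) • (b * a * b) ∈ AA G := by
    intro s
    rw [← conj_formula hbb s]
    exact conj_mem_AA ha.1 (hb.2 s)
  have key : ∀ s : k, (2 * s) • (a * b * a) -
      (s * s) • (a * b * a * b - b * a * b * a) ∈ AA G := by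
    intro s
    have h1 := comm_mem_AA ha.1 (hy s)
      (by
        simp only [mul_add, add_mul, mul_sub, sub_mul, mul_assoc, smul_mul_assoc, mul_smul_comm,
          haa, hbb, reassoc haa, reassoc hbb, h', mul_zero, zero_mul, smul_zero, sub_zero,
          add_zero, smul_sub, sub_self])
      (by
        have h'' : ∀ z, a * (b * (a * (b * (a * z)))) = 0 := by
          intro z
          calc a * (b * (a * (b * (a * z)))) = (a * (b * (a * (b * a)))) * z := by
                simp only [mul_assoc]
            _ = 0 := by rw [h', zero_mul]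
        simp only [mul_add, add_mul, mul_sub, sub_mul, mul_assoc, smul_mul_assoc, mul_smul_comm,
          haa, hbb, reassoc haa, reassoc hbb, h', h'', mul_zero, zero_mul, smul_zero, sub_zero,
          add_zero, smul_sub, sub_self, smul_add, zero_sub, smul_neg, zero_add, neg_zero, neg_mul,
          mul_neg])
    have e : a * (a + s • (b * a - a * b) - (s * s) • (b * a * b)) -
        (a + s • (b * a - a * b) - (s * s) • (b * a * b)) * a =
        (2 * s) • (a * b * a) - (s * s) • (a * b * a * b - b * a * b * a) := by
      simp only [mul_add, add_mul, mul_sub, sub_mul, mul_assoc, smul_mul_assoc, mul_smul_comm,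
        haa, hbb, reassoc haa, reassoc hbb, mul_zero, zero_mul, smul_zero, sub_zero,
        add_zero, smul_sub, sub_self, zero_add]
      module
    rw [e] at h1
    exact h1
  have h1 := key 1
  have h2 := key (-1)
  have e3 : ((2 * 1 : k) • (a * b * a) - ((1 : k) * 1) • (a * b * a * b - b * a * b * a)) -
      ((2 * (-1) : k) • (a * b * a) - ((-1 : k) * -1) • (a * b * a * b - b * a * b * a)) =
      (4 : k) • (a * b * a) := by module
  have h'' : ∀ z, a * (b * (a * (b * (a * z)))) = 0 := by
    intro z
    calc a * (b * (a * (b * (a * z)))) = (a * (b * (a * (b * a)))) * z := by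
          simp only [mul_assoc]
      _ = 0 := by rw [h', zero_mul]
  have h3 : (4 : k) • (a * b * a) ∈ AA G := by
    rw [← e3]
    apply sub_mem_AA h1 h2
    · simp only [mul_add, add_mul, mul_sub, sub_mul, mul_assoc, smul_mul_assoc, mul_smul_comm,
          haa, hbb, reassoc haa, reassoc hbb, h', h'', mul_zero, zero_mul, smul_zero, sub_zero,
          add_zero, smul_sub, sub_self, smul_add, zero_sub, smul_neg, zero_add, neg_zero]
    · simp only [mul_add, add_mul, mul_sub, sub_mul, mul_assoc, smul_mul_assoc, mul_smul_comm,
          haa, hbb, reassoc haa, reassoc hbb, h', h'', mul_zero, zero_mul, smul_zero, sub_zero,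
          add_zero, smul_sub, sub_self, smul_add, zero_sub, smul_neg, zero_add, neg_zero]
  have h4 : (4 : k) ≠ 0 := by
    have : (4 : k) = 2 * 2 := by norm_num
    rw [this]
    exact mul_ne_zero Good.two Good.two
  have h5 : a * b * a ∈ AA G := by
    have := smul_mem_AA h3 (4 : k)⁻¹
    rwa [smul_smul, inv_mul_cancel₀ h4, one_smul] at this
  have h6 : a * b * a ∈ EE G a := by
    apply mem_EE_of_le ha h5
    · rintro _ ⟨m, rfl⟩
      exact ⟨_, rfl⟩
    · intro m hm
      show a (b (a m)) = 0
      rw [show a m = 0 from hm, map_zero, map_zero]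
  have hr := EE_range h6 hne
  -- then `ababa ≠ 0`
  apply hne
  have h7 : ∀ m, a (b (a m)) = 0 := by
    intro m
    have : a (b (a m)) ∈ LinearMap.range (a * b * a) := ⟨m, rfl⟩
    have h8 : a m ∈ LinearMap.range (a * b * a) := by rw [hr]; exact ⟨m, rfl⟩
    obtain ⟨m', hm'⟩ := h8
    rw [← hm']
    have := congrArg (fun f : Module.End k M => f m') h
    exact this
  ext m
  exact h7 m

/-- The claim. -/
theorem claim {a b : Module.End k M} (ha : a ∈ AAd G) (hb : b ∈ AA G)
    (hn : IsNilpotent (a * b)) : a * b * a = 0 := by
  have key : ∀ j : ℕ, ∀ b ∈ AA G, (a * b) ^ j * a = 0 → a * b * a = 0 := by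
    intro j
    induction j using Nat.strong_induction_on with
    | _ j ih =>
      intro b hb h
      by_cases hj : j ≤ 2
      · interval_cases j
        · rw [pow_zero, one_mul] at h
          rw [h, mul_zero]
        · rwa [pow_one] at h
        · apply claim_base ha hb
          rw [← h, pow_two]
          simp only [mul_assoc]
      · push Not at hj
        -- replace `b` by a conjugate of `a`
        have haa := ha.1.1
        have hbb := hb.1
        set y := a + (1 : k) • (b * a - a * b) - ((1 : k) * 1) • (b * a * b) with hy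
        have hyA : y ∈ AA G := by
          rw [hy, ← conj_formula hbb 1]
          exact conj_mem_AA ha.1 (hb.2 1)
        have e1 : a * y * a = -(a * b * a * b * a) := by
          rw [hy]
          simp only [mul_add, add_mul, mul_sub, sub_mul, mul_assoc, smul_mul_assoc, mul_smul_comm,
            haa, hbb, reassoc haa, reassoc hbb, mul_zero, zero_mul, smul_zero, sub_zero,
            add_zero, smul_sub, sub_self, zero_add, mul_one, one_smul, zero_sub]
        have e2 : ∀ i, (a * y) ^ i * a = (-1) ^ i • ((a * b) ^ (2 * i) * a) := by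
          intro i
          induction i with
          | zero => simp
          | succ i ihi =>
            have e3 : a * b * a * b * a = (a * b) ^ 2 * a := by
              rw [pow_two]; simp only [mul_assoc]
            rw [pow_succ, mul_assoc, e1, e3, mul_neg, pow_two, ← mul_assoc, ← mul_assoc]
            have e4 : (a * y) ^ i * (a * b) * (a * b) * a = ((a * y) ^ i * a) * (b * a * b * a) := by
              simp only [mul_assoc]
            have e5 : (a * b) ^ (2 * (i + 1)) * a = ((a * b) ^ (2 * i) * a) * (b * a * b * a) := by
              rw [mul_add, pow_add, mul_one, pow_two]; simp only [mul_assoc]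
            rw [e4, ihi, e5, pow_succ, smul_mul_assoc, mul_neg_one, neg_smul]
        set i := (j + 1) / 2 with hi
        have hij : i < j := by omega
        have hji : j ≤ 2 * i := by omega
        have h2i : (a * b) ^ (2 * i) * a = 0 := by
          obtain ⟨d, hd⟩ := Nat.exists_eq_add_of_le hji
          rw [hd, add_comm, pow_add, mul_assoc, h, mul_zero]
        have h3 := ih i hij y hyA (by rw [e2, h2i, smul_zero])
        rw [e1, neg_eq_zero] at h3
        exact claim_base ha hb h3
  obtain ⟨n, hn⟩ := hn
  exact key n b hb (by rw [hn, zero_mul])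

theorem nilp_symm {a b : Module.End k M} (h : IsNilpotent (a * b)) : IsNilpotent (b * a) := by
  obtain ⟨n, hn⟩ := h
  refine ⟨n + 1, ?_⟩
  have e : ∀ n, (b * a) ^ (n + 1) = b * (a * b) ^ n * a := by
    intro n
    induction n with
    | zero => simp
    | succ n ih => rw [pow_succ, ih, pow_succ]; simp only [mul_assoc]
  rw [e, hn, mul_zero, zero_mul]

end main

end H86.Quad7
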