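import Cfsg.Agent.Lib.H86.Quad7

/-!
Quadratic pairs: the structure of non-commuting nilpotent pairs in `AAd G`.
-/

set_option autoImplicit false
set_option linter.unusedSimpArgs false
set_option linter.unusedVariables false
set_option linter.style.haveILetI false
set_option linter.unusedSectionVars false
open H86.Quad1 H86.FinSL H86.Quad2 H86.Quad3 H86.Quad4 H86.Quad5 H86.Quad6 H86.Quad7 H86.Unip
open Polynomial

namespace H86.Quad8

universe u v

section lin
variable {k : Type u} [Field k] {M : Type v} [AddCommGroup M] [Module k M] [FiniteDimensional k M]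

theorem range_mul (a b : Module.End k M) :
    LinearMap.range (a * b) = (LinearMap.range b).map a := by
  rw [Module.End.mul_eq_comp, LinearMap.range_comp]

theorem rk_mul_add (a b : Module.End k M) :
    rk (a * b) + Module.finrank k (LinearMap.range b ⊓ LinearMap.ker a : Submodule k M) = rk b := by
  have h := LinearMap.finrank_range_add_finrank_ker (a.domRestrict (LinearMap.range b))
  have h1 : LinearMap.range (a.domRestrict (LinearMap.range b)) = LinearMap.range (a * b) := by
    rw [range_mul, LinearMap.domRestrict, LinearMap.range_comp, Submodule.range_subtype]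
  have h2 : Module.finrank k (LinearMap.ker (a.domRestrict (LinearMap.range b))) =
      Module.finrank k (LinearMap.range b ⊓ LinearMap.ker a : Submodule k M) := by
    have h3 : (LinearMap.ker (a.domRestrict (LinearMap.range b))).map
        (LinearMap.range b).subtype = LinearMap.range b ⊓ LinearMap.ker a := by
      rw [LinearMap.domRestrict, LinearMap.ker_comp, Submodule.map_comap_subtype]
    rw [← h3]
    exact (Submodule.equivMapOfInjective _ (LinearMap.range b).injective_subtype _).finrank_eq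
  rw [h1, h2] at h
  exact h

end lin

section main
variable {k : Type u} [Field k] [Good k] {M : Type v} [AddCommGroup M] [Module k M]
  [FiniteDimensional k M]
variable {G : Subgroup (LinearMap.GeneralLinearGroup k M)}

/-- A nilpotent pair. -/
structure NP (G : Subgroup (LinearMap.GeneralLinearGroup k M)) (a b : Module.End k M) : Prop where
  ha : a ∈ AAd G
  hb : b ∈ AAd G
  aba : a * b * a = 0
  bab : b * a * b = 0

theorem rk_eq {a b : Module.End k M} (ha : a ∈ AAd G) (hb : b ∈ AAd G) : rk a = rk b :=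
  le_antisymm (ha.2.2 b hb.1 hb.2.1) (hb.2.2 a ha.1 ha.2.1)

theorem rk_pos {a : Module.End k M} (ha : a ≠ 0) : 0 < rk a := by
  rw [Nat.pos_iff_ne_zero]
  intro h
  apply ha
  unfold rk at h
  rw [Submodule.finrank_eq_zero, LinearMap.range_eq_bot] at h
  exact h

theorem NP.symm {a b : Module.End k M} (h : NP G a b) : NP G b a := ⟨h.hb, h.ha, h.bab, h.aba⟩

theorem np_of_nilpotent {a b : Module.End k M} (ha : a ∈ AAd G) (hb : b ∈ AAd G)
    (hn : IsNilpotent (a * b)) : NP G a b :=
  ⟨ha, hb, claim ha hb.1 hn, claim hb ha.1 (nilp_symm hn)⟩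

theorem NP.nil {a b : Module.End k M} (h : NP G a b) : IsNilpotent (a * b) :=
  ⟨2, by rw [pow_two, ← mul_assoc, h.aba, zero_mul]⟩

theorem np_iff {a b : Module.End k M} (ha : a ∈ AAd G) (hb : b ∈ AAd G) :
    NP G a b ↔ ¬ Opp a b := by
  rw [opp_iff ha hb, not_not]
  exact ⟨fun h => h.nil, np_of_nilpotent ha hb⟩

theorem NP.ofEE {a b a' b' : Module.End k M} (h : NP G a b) (ha' : a' ∈ EE G a) (ha0 : a' ≠ 0)
    (hb' : b' ∈ EE G b) (hb0 : b' ≠ 0) : NP G a' b' := by
  have h1 := mem_AAd_of_EE h.ha ha' ha0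
  have h2 := mem_AAd_of_EE h.hb hb' hb0
  rw [np_iff h1 h2]
  intro h3
  apply (np_iff h.ha h.hb).1 h
  exact h3.congr (EE_range ha' ha0).symm (EE_ker ha' ha0).symm (EE_range hb' hb0).symm
    (EE_ker hb' hb0).symm

theorem NP.comm_mem {a b : Module.End k M} (h : NP G a b) : a * b - b * a ∈ AA G :=
  comm_mem_AA h.ha.1 h.hb.1 h.aba h.bab

theorem NP.range_ab {a b : Module.End k M} (h : NP G a b) :
    LinearMap.range (a * b) ≤ LinearMap.range a ⊓ LinearMap.ker b := by
  rintro _ ⟨m, rfl⟩
  refine ⟨⟨_, rfl⟩, ?_⟩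
  have := congrArg (fun f : Module.End k M => f m) h.bab
  exact this

theorem NP.rk_le {a b : Module.End k M} (h : NP G a b) : rk (a * b) + rk (b * a) ≤ rk a := by
  have h1 := rk_mul_add a b
  have h2 : rk (b * a) ≤ Module.finrank k (LinearMap.range b ⊓ LinearMap.ker a : Submodule k M) :=
    Submodule.finrank_mono h.symm.range_ab
  have h3 := rk_eq h.ha h.hb
  omega

theorem range_comm_le (a b : Module.End k M) : LinearMap.range (a * b - b * a) ≤
    LinearMap.range (a * b) ⊔ LinearMap.range (b * a) := by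
  rintro _ ⟨m, rfl⟩
  rw [LinearMap.sub_apply, sub_eq_add_neg]
  exact Submodule.add_mem_sup ⟨m, rfl⟩ (Submodule.neg_mem _ ⟨m, rfl⟩)

/-- All the rank information on a non-commuting nilpotent pair. -/
theorem NP.info {a b : Module.End k M} (h : NP G a b) (hne : a * b - b * a ≠ 0) :
    a * b - b * a ∈ AAd G ∧ rk (a * b) + rk (b * a) = rk a ∧
      LinearMap.range (a * b) = LinearMap.range a ⊓ LinearMap.ker b ∧
      LinearMap.range (b * a) = LinearMap.range b ⊓ LinearMap.ker a ∧
      LinearMap.range (a * b - b * a) = LinearMap.range (a * b) ⊔ LinearMap.range (b * a) ∧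
      Disjoint (LinearMap.range (a * b)) (LinearMap.range (b * a)) := by
  have h1 := rk_mul_add a b
  have h1' := rk_mul_add b a
  have h2 : rk (b * a) ≤ Module.finrank k (LinearMap.range b ⊓ LinearMap.ker a : Submodule k M) :=
    Submodule.finrank_mono h.symm.range_ab
  have h2' : rk (a * b) ≤ Module.finrank k (LinearMap.range a ⊓ LinearMap.ker b : Submodule k M) :=
    Submodule.finrank_mono h.range_ab
  have h3 := rk_eq h.ha h.hb
  have h4 : rk a ≤ rk (a * b - b * a) := h.ha.2.2 _ h.comm_mem hne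
  have h5 : rk (a * b - b * a) ≤
      Module.finrank k (LinearMap.range (a * b) ⊔ LinearMap.range (b * a) : Submodule k M) :=
    Submodule.finrank_mono (range_comm_le a b)
  have h6 := Submodule.finrank_sup_add_finrank_inf_eq (LinearMap.range (a * b))
    (LinearMap.range (b * a))
  change _ = rk (a * b) + rk (b * a) at h6
  have h7 := h.rk_le
  refine ⟨⟨h.comm_mem, hne, fun c hc hc0 => ?_⟩, by omega, ?_, ?_, ?_, ?_⟩
  · have := h.ha.2.2 c hc hc0
    omega
  · apply Submodule.eq_of_le_of_finrank_eq h.range_ab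
    change rk (a * b) = _
    omega
  · apply Submodule.eq_of_le_of_finrank_eq h.symm.range_ab
    change rk (b * a) = _
    omega
  · apply Submodule.eq_of_le_of_finrank_eq (range_comm_le a b)
    change rk (a * b - b * a) = _
    omega
  · rw [disjoint_iff, ← Submodule.finrank_eq_zero (R := k)]
    omega

theorem NP.e_mem {a b : Module.End k M} (h : NP G a b) (hne : a * b - b * a ≠ 0) :
    a * b - b * a ∈ AAd G := (h.info hne).1

/-- The kernel of the commutator. -/
theorem NP.ker_comm {a b : Module.End k M} (h : NP G a b) (hne : a * b - b * a ≠ 0) :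
    LinearMap.ker (a * b - b * a) = (LinearMap.range a ⊔ LinearMap.ker b) ⊓
      (LinearMap.range b ⊔ LinearMap.ker a) := by
  obtain ⟨-, -, h1, h2, -, h3⟩ := h.info hne
  have key : ∀ {a b : Module.End k M}, LinearMap.range (b * a) = LinearMap.range b ⊓ LinearMap.ker a →
      ∀ m, a (b m) = 0 → m ∈ LinearMap.range a ⊔ LinearMap.ker b := by
    intro a b h m hm
    have : b m ∈ LinearMap.range (b * a) := by rw [h]; exact ⟨⟨m, rfl⟩, hm⟩
    obtain ⟨m', hm'⟩ := this
    have e : m = a m' + (m - a m') := by abel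
    rw [e]
    refine Submodule.add_mem_sup ⟨_, rfl⟩ ?_
    show b (m - a m') = 0
    rw [map_sub, ← hm']
    exact sub_self _
  apply le_antisymm
  · intro m hm
    have h4 : a (b m) - b (a m) = 0 := hm
    rw [sub_eq_zero] at h4
    have h5 : a (b m) = 0 := Submodule.disjoint_def.1 h3 _ ⟨m, rfl⟩ (by rw [h4]; exact ⟨m, rfl⟩)
    exact ⟨key h2 m h5, key h1 m (by rw [← h4, h5])⟩
  · have key2 : ∀ {a b : Module.End k M}, a * b * a = 0 → ∀ m ∈ LinearMap.range a ⊔ LinearMap.ker b,
        a (b m) = 0 := by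
      intro a b hab m hm
      obtain ⟨_, ⟨y, rfl⟩, z, hz, rfl⟩ := Submodule.mem_sup.1 hm
      rw [map_add, show b z = 0 from hz, add_zero]
      have := congrArg (fun f : Module.End k M => f y) hab
      exact this
    rintro m ⟨hm1, hm2⟩
    show a (b m) - b (a m) = 0
    rw [key2 h.aba m hm1, key2 h.bab m hm2, sub_zero]

theorem NP.ae {a b : Module.End k M} (h : NP G a b) : a * (a * b - b * a) = 0 := by
  rw [mul_sub, ← mul_assoc, h.ha.1.1, zero_mul, ← mul_assoc, h.aba, sub_zero]

theorem NP.ea {a b : Module.End k M} (h : NP G a b) : (a * b - b * a) * a = 0 := by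
  rw [sub_mul, h.aba, mul_assoc, h.ha.1.1, mul_zero, sub_zero]

theorem NP.be {a b : Module.End k M} (h : NP G a b) : b * (a * b - b * a) = 0 := by
  rw [mul_sub, ← mul_assoc b b, h.hb.1.1, zero_mul, ← mul_assoc, h.bab, sub_zero]

theorem NP.eb {a b : Module.End k M} (h : NP G a b) : (a * b - b * a) * b = 0 := by
  rw [sub_mul, h.bab, mul_assoc, h.hb.1.1, mul_zero, sub_zero]

theorem NP.a_ker {a b : Module.End k M} (h : NP G a b) (hne : a * b - b * a ≠ 0) {m : M}
    (hm : m ∈ LinearMap.ker (a * b - b * a)) : a m ∈ LinearMap.range (a * b - b * a) := by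
  rw [h.ker_comm hne] at hm
  rw [(h.info hne).2.2.2.2.1]
  apply Submodule.mem_sup_left
  obtain ⟨_, ⟨y, rfl⟩, z, hz, rfl⟩ := Submodule.mem_sup.1 hm.2
  rw [map_add, show a z = 0 from hz, add_zero]
  exact ⟨y, rfl⟩

theorem NP.comm_EE {a b a' b' : Module.End k M} (h : NP G a b) (hne : a * b - b * a ≠ 0)
    (ha' : a' ∈ EE G a) (hb' : b' ∈ EE G b) : a' * b' - b' * a' ∈ EE G (a * b - b * a) := by
  by_cases ha0 : a' = 0
  · subst ha0; simp only [zero_mul, mul_zero, sub_zero]; exact zero_mem_EE
  by_cases hb0 : b' = 0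
  · subst hb0; simp only [zero_mul, mul_zero, sub_zero]; exact zero_mem_EE
  have h' := h.ofEE ha' ha0 hb' hb0
  apply mem_EE_of_le (h.e_mem hne) h'.comm_mem
  · refine (range_comm_le a' b').trans ?_
    rw [(h.info hne).2.2.2.2.1, (h.info hne).2.2.1, (h.info hne).2.2.2.1]
    apply sup_le_sup
    · rw [← EE_range ha' ha0, ← EE_ker hb' hb0]; exact h'.range_ab
    · rw [← EE_range hb' hb0, ← EE_ker ha' ha0]; exact h'.symm.range_ab
  · rw [h.ker_comm hne]
    rintro m ⟨hm1, hm2⟩
    have key2 : ∀ {a b : Module.End k M}, a * b * a = 0 → ∀ m ∈ LinearMap.range a ⊔ LinearMap.ker b,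
        a (b m) = 0 := by
      intro a b hab m hm
      obtain ⟨_, ⟨y, rfl⟩, z, hz, rfl⟩ := Submodule.mem_sup.1 hm
      rw [map_add, show b z = 0 from hz, add_zero]
      have := congrArg (fun f : Module.End k M => f y) hab
      exact this
    show a' (b' m) - b' (a' m) = 0
    rw [key2 h'.aba m (by rwa [EE_range ha' ha0, EE_ker hb' hb0]),
      key2 h'.bab m (by rwa [EE_range hb' hb0, EE_ker ha' ha0]), sub_zero]

theorem NP.comm_ne {a b a' b' : Module.End k M} (h : NP G a b) (hne : a * b - b * a ≠ 0)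
    (ha' : a' ∈ EE G a) (ha0 : a' ≠ 0) (hb' : b' ∈ EE G b) (hb0 : b' ≠ 0) :
    a' * b' - b' * a' ≠ 0 := by
  intro h0
  have h' := h.ofEE ha' ha0 hb' hb0
  obtain ⟨-, h1, h2, h3, -, h4⟩ := h.info hne
  have e1 := rk_mul_add a b
  have e2 := rk_mul_add b a
  have e3 := rk_mul_add a' b'
  have e4 := rk_mul_add b' a'
  rw [EE_range hb' hb0, EE_ker ha' ha0] at e3
  rw [EE_range ha' ha0, EE_ker hb' hb0] at e4
  have e5 := rk_eq h.ha h.hb
  have e6 := rk_eq h.ha h'.ha
  have e7 := rk_eq h.ha h'.hb
  have h5 := h'.range_ab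
  have h6 := h'.symm.range_ab
  rw [EE_range ha' ha0, EE_ker hb' hb0, ← h2] at h5
  rw [EE_range hb' hb0, EE_ker ha' ha0, ← h3] at h6
  rw [← sub_eq_zero.1 h0] at h6
  have h7 : LinearMap.range (a' * b') = ⊥ := by
    rw [eq_bot_iff]
    exact h4.le_bot.trans' (le_inf h5 h6)
  have h8 : a' * b' = 0 := LinearMap.range_eq_bot.1 h7
  have h9 : b' * a' = 0 := by rw [← sub_eq_zero.1 h0, h8]
  have r1 : rk (a' * b') = 0 := by rw [h8]; unfold rk; simp
  have r2 : rk (b' * a') = 0 := by rw [h9]; unfold rk; simp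
  have := rk_pos h.ha.2.1
  omega

theorem NP.swap {a b : Module.End k M} (hne : a * b - b * a ≠ 0) : b * a - a * b ≠ 0 := by
  intro h; apply hne; rw [← neg_sub, h, neg_zero]

/-- the dichotomy for commuting: if one non-zero pair commutes, all do. -/
theorem NP.all_comm {a b a' b' : Module.End k M} (h : NP G a b) (hc : a * b = b * a)
    (ha' : a' ∈ EE G a) (hb' : b' ∈ EE G b) : a' * b' = b' * a' := by
  by_cases ha0 : a' = 0
  · subst ha0; simp
  by_cases hb0 : b' = 0
  · subst hb0; simp
  by_contra hne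
  have h' := h.ofEE ha' ha0 hb' hb0
  have := h'.comm_ne (sub_ne_zero.2 hne) (a' := a) (b' := b)
    (by rw [EE_self ha' ha0]; exact self_mem_EE h.ha.1) h.ha.2.1
    (by rw [EE_self hb' hb0]; exact self_mem_EE h.hb.1) h.hb.2.1
  exact this (sub_eq_zero.2 hc)

end main

end H86.Quad8
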