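import Cfsg.Agent.Lib.H86.Quad8

/-!
Quadratic pairs: fixed and commutator spaces, conjugation of the groups `E(σ)`, special rank one
groups.
-/

set_option autoImplicit false
set_option linter.unusedSimpArgs false
set_option linter.unusedVariables false
set_option linter.style.haveILetI false
set_option linter.unusedSectionVars false
open H86.Quad1 H86.FinSL H86.Quad2 H86.Quad3 H86.Quad4 H86.Quad5 H86.Quad6 H86.Quad7 H86.Quad8
open H86.Unip Polynomial

namespace H86.Quad9

universe u v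

section lin
variable {k : Type u} [Field k] {M : Type v} [AddCommGroup M] [Module k M]

theorem mem_fixed {H : Subgroup (LinearMap.GeneralLinearGroup k M)} {m : M} :
    m ∈ Cfsg.fixedSubmodule H ↔ ∀ g ∈ H, (g : M →ₗ[k] M) m = m := by
  unfold Cfsg.fixedSubmodule
  rw [Submodule.mem_iInf]
  constructor
  · intro h g hg
    have := (Submodule.mem_iInf _).1 (h g) hg
    have h2 : (g : M →ₗ[k] M) m - m = 0 := this
    exact sub_eq_zero.1 h2
  · intro h g
    rw [Submodule.mem_iInf]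
    intro hg
    show (g : M →ₗ[k] M) m - m = 0
    rw [h g hg, sub_self]

theorem comm_le_iff {H : Subgroup (LinearMap.GeneralLinearGroup k M)} {W : Submodule k M} :
    Cfsg.commutatorSubmodule H ≤ W ↔ ∀ g ∈ H, ∀ m, (g : M →ₗ[k] M) m - m ∈ W := by
  unfold Cfsg.commutatorSubmodule
  rw [iSup₂_le_iff]
  constructor
  · intro h g hg m
    exact h g hg ⟨m, rfl⟩
  · rintro h g hg _ ⟨m, rfl⟩
    exact h g hg m

theorem sub_mem_comm {H : Subgroup (LinearMap.GeneralLinearGroup k M)}
    {g : LinearMap.GeneralLinearGroup k M} (hg : g ∈ H) (m : M) :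
    (g : M →ₗ[k] M) m - m ∈ Cfsg.commutatorSubmodule H := comm_le_iff.1 le_rfl g hg m

/-- stabilizer subgroup of a vector -/
def stab (m : M) : Subgroup (LinearMap.GeneralLinearGroup k M) where
  carrier := {g | (g : M →ₗ[k] M) m = m}
  mul_mem' := by
    intro g h hg hh
    show ((g * h : LinearMap.GeneralLinearGroup k M) : M →ₗ[k] M) m = m
    rw [Units.val_mul]
    show (g : M →ₗ[k] M) ((h : M →ₗ[k] M) m) = m
    rw [show (h : M →ₗ[k] M) m = m from hh, show (g : M →ₗ[k] M) m = m from hg]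
  one_mem' := by show ((1 : LinearMap.GeneralLinearGroup k M) : M →ₗ[k] M) m = m; rfl
  inv_mem' := by
    intro g hg
    show ((g⁻¹ : LinearMap.GeneralLinearGroup k M) : M →ₗ[k] M) m = m
    have h1 := inv_app g m
    rw [show (g : Module.End k M) m = m from hg] at h1
    exact h1

/-- the subgroup of elements with `(g - 1) M ≤ W` -/
def moves (W : Submodule k M) : Subgroup (LinearMap.GeneralLinearGroup k M) where
  carrier := {g | ∀ m, (g : M →ₗ[k] M) m - m ∈ W}
  mul_mem' := by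
    intro g h hg hh m
    have e : ((g * h : LinearMap.GeneralLinearGroup k M) : M →ₗ[k] M) m - m =
        ((g : M →ₗ[k] M) ((h : M →ₗ[k] M) m) - (h : M →ₗ[k] M) m) + ((h : M →ₗ[k] M) m - m) := by
      rw [Units.val_mul]
      show (g : M →ₗ[k] M) ((h : M →ₗ[k] M) m) - m = _
      abel
    rw [e]
    exact W.add_mem (hg _) (hh _)
  one_mem' := by intro m; show m - m ∈ W; simp
  inv_mem' := by
    intro g hg m
    have h1 := hg (((g⁻¹ : LinearMap.GeneralLinearGroup k M) : M →ₗ[k] M) m)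
    have h2 := app_inv g m
    have e : ((g⁻¹ : LinearMap.GeneralLinearGroup k M) : M →ₗ[k] M) m - m =
        -((g : M →ₗ[k] M) (((g⁻¹ : LinearMap.GeneralLinearGroup k M) : M →ₗ[k] M) m) -
          ((g⁻¹ : LinearMap.GeneralLinearGroup k M) : M →ₗ[k] M) m) := by
      have h3 : (g : M →ₗ[k] M) (((g⁻¹ : LinearMap.GeneralLinearGroup k M) : M →ₗ[k] M) m) = m := h2
      rw [h3]; abel
    rw [e]
    exact W.neg_mem h1

theorem fixed_sup (H K : Subgroup (LinearMap.GeneralLinearGroup k M)) :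
    Cfsg.fixedSubmodule (H ⊔ K) = Cfsg.fixedSubmodule H ⊓ Cfsg.fixedSubmodule K := by
  ext m
  rw [Submodule.mem_inf, mem_fixed, mem_fixed, mem_fixed]
  constructor
  · intro h
    exact ⟨fun g hg => h g (Subgroup.mem_sup_left hg), fun g hg => h g (Subgroup.mem_sup_right hg)⟩
  · rintro ⟨h1, h2⟩ g hg
    have : H ⊔ K ≤ stab m := sup_le h1 h2
    exact this hg

theorem commutator_sup (H K : Subgroup (LinearMap.GeneralLinearGroup k M)) :
    Cfsg.commutatorSubmodule (H ⊔ K) =
      Cfsg.commutatorSubmodule H ⊔ Cfsg.commutatorSubmodule K := by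
  apply le_antisymm
  · rw [comm_le_iff]
    intro g hg
    have : H ⊔ K ≤ moves (Cfsg.commutatorSubmodule H ⊔ Cfsg.commutatorSubmodule K) :=
      sup_le (fun g hg m => Submodule.mem_sup_left (sub_mem_comm hg m))
        (fun g hg m => Submodule.mem_sup_right (sub_mem_comm hg m))
    exact this hg
  · apply sup_le
    · rw [comm_le_iff]; intro g hg m; exact sub_mem_comm (Subgroup.mem_sup_left hg) m
    · rw [comm_le_iff]; intro g hg m; exact sub_mem_comm (Subgroup.mem_sup_right hg) m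

end lin

section main
variable {k : Type u} [Field k] {M : Type v} [AddCommGroup M] [Module k M]
  [FiniteDimensional k M]
variable {G : Subgroup (LinearMap.GeneralLinearGroup k M)}

theorem tv_app {a : Module.End k M} (ha : a * a = 0) (m : M) :
    ((tv a : LinearMap.GeneralLinearGroup k M) : M →ₗ[k] M) m = m + a m := by
  have : ((tv a : (Module.End k M)ˣ) : Module.End k M) = 1 + a := val_tv ha
  show ((tv a : (Module.End k M)ˣ) : Module.End k M) m = m + a m
  rw [this]; rfl

theorem fixed_Esub {a : Module.End k M} (ha : a ∈ AAd G) :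
    Cfsg.fixedSubmodule (Esub G a ha) = LinearMap.ker a := by
  ext m
  rw [mem_fixed]
  constructor
  · intro h
    have h1 := h (tv a) ⟨a, self_mem_EE ha.1, rfl⟩
    rw [tv_app ha.1.1] at h1
    exact add_eq_left.1 h1
  · rintro hm _ ⟨b, hb, rfl⟩
    rw [tv_app hb.1.1, show b m = 0 from ker_le_of_EE hb hm, add_zero]

theorem commutator_Esub {a : Module.End k M} (ha : a ∈ AAd G) :
    Cfsg.commutatorSubmodule (Esub G a ha) = LinearMap.range a := by
  apply le_antisymm
  · rw [comm_le_iff]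
    rintro _ ⟨b, hb, rfl⟩ m
    rw [tv_app hb.1.1, add_sub_cancel_left]
    exact range_le_of_EE hb ⟨m, rfl⟩
  · rintro _ ⟨m, rfl⟩
    have h1 := sub_mem_comm (H := Esub G a ha) (g := tv a) ⟨a, self_mem_EE ha.1, rfl⟩ m
    rwa [tv_app ha.1.1, add_sub_cancel_left] at h1

theorem Esub_congr {a b : Module.End k M} (ha : a ∈ AAd G) (hb : b ∈ AAd G)
    (h : EE G a = EE G b) : Esub G a ha = Esub G b hb := by
  ext g
  rw [mem_Esub, mem_Esub, h]

theorem EE_of_Esub {a b : Module.End k M} {ha : a ∈ AAd G} {hb : b ∈ AAd G}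
    (h : Esub G a ha = Esub G b hb) : EE G a = EE G b := by
  have key : ∀ {a b : Module.End k M} {ha : a ∈ AAd G} {hb : b ∈ AAd G},
      Esub G a ha = Esub G b hb → EE G a ⊆ EE G b := by
    intro a b ha hb h x hx
    have : (tv x : LinearMap.GeneralLinearGroup k M) ∈ Esub G b hb := by
      rw [← h]; exact ⟨x, hx, rfl⟩
    obtain ⟨y, hy, hxy⟩ := this
    rw [tv_inj hx.1.1 hy.1.1 hxy]; exact hy
  exact Set.Subset.antisymm (key h) (key h.symm)

theorem conj_EE {a b : Module.End k M} (hb : b ∈ EE G a)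
    {g : LinearMap.GeneralLinearGroup k M} (hg : g ∈ G) :
    (g : Module.End k M) * b * ((g⁻¹ : (Module.End k M)ˣ) : Module.End k M) ∈
      EE G ((g : Module.End k M) * a * ((g⁻¹ : (Module.End k M)ˣ) : Module.End k M)) := by
  refine ⟨conj_mem_AA hb.1 hg, ?_⟩
  rcases hb.2 with rfl | ⟨h1, h2⟩
  · left; rw [mul_zero, zero_mul]
  · right
    rw [ker_conj, ker_conj, range_conj, range_conj, h1, h2]
    exact ⟨rfl, rfl⟩

theorem conj_inv_conj (g : LinearMap.GeneralLinearGroup k M) (a : Module.End k M) :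
    (g : Module.End k M) * (((g⁻¹ : (Module.End k M)ˣ) : Module.End k M) * a *
      (((g⁻¹)⁻¹ : (Module.End k M)ˣ) : Module.End k M)) *
      ((g⁻¹ : (Module.End k M)ˣ) : Module.End k M) = a := by
  rw [inv_inv]
  calc _ = ((g : Module.End k M) * ((g⁻¹ : (Module.End k M)ˣ) : Module.End k M)) * a *
      ((g : Module.End k M) * ((g⁻¹ : (Module.End k M)ˣ) : Module.End k M)) := by
        simp only [mul_assoc]
    _ = a := by
      have : (g : Module.End k M) * ((g⁻¹ : (Module.End k M)ˣ) : Module.End k M) = 1 := Units.mul_inv g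
      rw [this, one_mul, mul_one]

theorem conj_inv_conj' (g : LinearMap.GeneralLinearGroup k M) (a : Module.End k M) :
    ((g⁻¹ : (Module.End k M)ˣ) : Module.End k M) * ((g : Module.End k M) * a *
      ((g⁻¹ : (Module.End k M)ˣ) : Module.End k M)) *
      (((g⁻¹)⁻¹ : (Module.End k M)ˣ) : Module.End k M) = a := by
  have := conj_inv_conj g⁻¹ a
  rw [inv_inv g] at this ⊢
  exact this

/-- Conjugates of the groups `E(σ)`. -/
theorem conjBy_Esub {a : Module.End k M} (ha : a ∈ AAd G)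
    {g : LinearMap.GeneralLinearGroup k M} (hg : g ∈ G) :
    Cfsg.conjBy (Esub G a ha) g = Esub G _ (conj_mem_AAd ha hg) := by
  ext x
  constructor
  · rintro ⟨_, ⟨b, hb, rfl⟩, rfl⟩
    exact ⟨_, conj_EE hb hg, conj_tv g hb.1.1⟩
  · rintro ⟨b, hb, rfl⟩
    have h1 := conj_EE hb (inv_mem hg)
    rw [conj_inv_conj'] at h1
    refine ⟨_, ⟨_, h1, rfl⟩, ?_⟩
    show g * tv _ * g⁻¹ = _
    rw [conj_tv g h1.1.1, conj_inv_conj]

theorem neg_EE_eq {a : Module.End k M} (ha : a ∈ AAd G) : EE G (-a) = EE G a := by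
  apply EE_of_mem_EE (neg_mem_EE ha (self_mem_EE ha.1))
  exact neg_ne_zero.2 ha.2.1

theorem AAd_neg {a : Module.End k M} (ha : a ∈ AAd G) : -a ∈ AAd G :=
  mem_AAd_of_EE ha (neg_mem_EE ha (self_mem_EE ha.1)) (neg_ne_zero.2 ha.2.1)

/-- key conjugation identity -/
theorem ip_conj {a b : Module.End k M} (h : IP a b) :
    (((tv b)⁻¹ : (Module.End k M)ˣ) : Module.End k M) * a *
      ((((tv b)⁻¹)⁻¹ : (Module.End k M)ˣ) : Module.End k M) =
    -((((tv a)⁻¹ : (Module.End k M)ˣ) : Module.End k M) * b *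
      ((((tv a)⁻¹)⁻¹ : (Module.End k M)ˣ) : Module.End k M)) := by
  rw [inv_inv, inv_inv, val_inv_tv h.b2, val_inv_tv h.a2, val_tv h.b2, val_tv h.a2]
  have h1 := h.aba
  have h2 := h.bab
  rw [mul_assoc] at h1 h2
  simp only [mul_add, add_mul, mul_sub, sub_mul, mul_one, one_mul, mul_assoc, h1, h2]
  abel

theorem rankOne_conj {a b : Module.End k M} (ha : a ∈ AAd G) (hb : b ∈ AAd G) (h : IP a b) :
    Cfsg.conjBy (Esub G a ha) (tv b)⁻¹ = Cfsg.conjBy (Esub G b hb) (tv a)⁻¹ := by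
  rw [conjBy_Esub ha (inv_mem (AA_mem hb.1)), conjBy_Esub hb (inv_mem (AA_mem ha.1))]
  apply Esub_congr
  rw [ip_conj h]
  exact neg_EE_eq (conj_mem_AAd hb (inv_mem (AA_mem ha.1)))

variable [Good k]

theorem rankOneCondition {a b : Module.End k M} (ha : a ∈ AAd G) (hb : b ∈ AAd G)
    (h : Opp a b) : Cfsg.RankOneCondition (Esub G a ha) (Esub G b hb) := by
  rintro _ ⟨a', ha', rfl⟩ hne
  have ha0 : a' ≠ 0 := by rintro rfl; exact hne tv_zero
  have hA := mem_AAd_of_EE ha ha' ha0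
  obtain ⟨b', hb', hb0, hip⟩ := exists_ip hA hb (h.ofEE ha' ha0 (self_mem_EE hb.1) hb.2.1)
  have hB := mem_AAd_of_EE hb hb' hb0
  refine ⟨tv b', ⟨b', hb', rfl⟩, tv_ne_one hip.b2 hb0, ?_⟩
  rw [Esub_congr ha hA (EE_self ha' ha0).symm, Esub_congr hb hB (EE_self hb' hb0).symm]
  exact rankOne_conj hA hB hip

theorem Esub_ne {a b : Module.End k M} (ha : a ∈ AAd G) (hb : b ∈ AAd G)
    (h : Opp a b) : Esub G a ha ≠ Esub G b hb := by
  intro he
  have h1 := EE_of_Esub he
  have h2 : a ∈ EE G b := by rw [← h1]; exact self_mem_EE ha.1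
  have h3 := EE_ker h2 ha.2.1
  have h4 := h.1
  rw [← h3] at h4
  apply ha.2.1
  ext m
  exact Submodule.disjoint_def.1 h4 (a m) ⟨m, rfl⟩ (sq_app ha.1.1 m)

theorem Esub_nilpotent {a : Module.End k M} (ha : a ∈ AAd G) :
    Group.IsNilpotent (Esub G a ha) := by
  letI : CommGroup (Esub G a ha) :=
    { (inferInstance : Group (Esub G a ha)) with
      mul_comm := fun x y => (Esub_comm ha).is_comm.comm x y }
  exact CommGroup.isNilpotent

theorem isRankOnePair {a b : Module.End k M} (ha : a ∈ AAd G) (hb : b ∈ AAd G)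
    (h : Opp a b) : Cfsg.IsRankOnePair (Esub G a ha) (Esub G b hb) := by
  exact ⟨Esub_ne ha hb h, Esub_nilpotent ha, Esub_nilpotent hb,
    rankOneCondition ha hb h, rankOneCondition hb ha h.symm⟩

/-- Equality of conjugates forces an inverse pair. -/
theorem ip_of_conj {a b a' b' : Module.End k M} (ha : a ∈ AAd G) (hb : b ∈ AAd G)
    (h : Opp a b) (ha' : a' ∈ EE G a) (hb' : b' ∈ EE G b)
    (he : Cfsg.conjBy (Esub G a ha) (tv b')⁻¹ = Cfsg.conjBy (Esub G b hb) (tv a')⁻¹) :
    IP a' b' := by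
  have hd : Disjoint (LinearMap.range a) (LinearMap.range b) :=
    h.1.mono_right (range_le_ker hb.1.1)
  rw [conjBy_Esub ha (inv_mem (AA_mem hb'.1)), conjBy_Esub hb (inv_mem (AA_mem ha'.1))] at he
  have h1 := EE_of_Esub he
  have hr : (LinearMap.range a).map (((tv b')⁻¹ : (Module.End k M)ˣ) : Module.End k M) =
      (LinearMap.range b).map (((tv a')⁻¹ : (Module.End k M)ˣ) : Module.End k M) := by
    rw [← range_conj, ← range_conj]
    apply EE_range
    · rw [← h1]; exact self_mem_EE (conj_mem_AA ha.1 (inv_mem (AA_mem hb'.1)))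
    · exact (conj_mem_AAd ha (inv_mem (AA_mem hb'.1))).2.1
  rw [val_inv_tv ha'.1.1, val_inv_tv hb'.1.1] at hr
  refine ⟨ha'.1.1, hb'.1.1, ?_, ?_⟩
  · ext m
    have hv : a' m ∈ LinearMap.range a := range_le_of_EE ha' ⟨m, rfl⟩
    have h2 : (1 - b' : Module.End k M) (a' m) ∈ (LinearMap.range b).map (1 - a' : Module.End k M) := by
      rw [← hr]; exact ⟨_, hv, rfl⟩
    obtain ⟨w, hw, hw2⟩ := h2
    have h3 : w - a' w = a' m - b' (a' m) := hw2
    have h4 : a' m + a' w = w + b' (a' m) := by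
      have : a' m + a' w = (a' m - b' (a' m)) + (a' w + b' (a' m)) := by abel
      rw [this, ← h3]; abel
    have h5 : a' m + a' w = 0 := Submodule.disjoint_def.1 hd _
      (Submodule.add_mem _ hv (range_le_of_EE ha' ⟨w, rfl⟩))
      (by rw [h4]; exact Submodule.add_mem _ hw (range_le_of_EE hb' ⟨_, rfl⟩))
    have h6 : w = -b' (a' m) := by
      rw [h5] at h4; exact eq_neg_of_add_eq_zero_left h4.symm
    show a' (b' (a' m)) = a' m
    rw [h6, map_neg, ← sub_eq_add_neg, sub_eq_zero] at h5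
    exact h5.symm
  · ext m
    have hv : b' m ∈ LinearMap.range b := range_le_of_EE hb' ⟨m, rfl⟩
    have h2 : (1 - a' : Module.End k M) (b' m) ∈ (LinearMap.range a).map (1 - b' : Module.End k M) := by
      rw [hr]; exact ⟨_, hv, rfl⟩
    obtain ⟨w, hw, hw2⟩ := h2
    have h3 : w - b' w = b' m - a' (b' m) := hw2
    have h4 : b' m + b' w = w + a' (b' m) := by
      have : b' m + b' w = (b' m - a' (b' m)) + (b' w + a' (b' m)) := by abel
      rw [this, ← h3]; abel
    have h5 : b' m + b' w = 0 := Submodule.disjoint_def.1 hd _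
      (by rw [h4]; exact Submodule.add_mem _ hw (range_le_of_EE ha' ⟨_, rfl⟩))
      (Submodule.add_mem _ hv (range_le_of_EE hb' ⟨w, rfl⟩))
    have h6 : w = -a' (b' m) := by
      rw [h5] at h4; exact eq_neg_of_add_eq_zero_left h4.symm
    show b' (a' (b' m)) = b' m
    rw [h6, map_neg, ← sub_eq_add_neg, sub_eq_zero] at h5
    exact h5.symm

theorem isSpecialRankOnePair {a b : Module.End k M} (ha : a ∈ AAd G) (hb : b ∈ AAd G)
    (h : Opp a b) : Cfsg.IsSpecialRankOnePair (Esub G a ha) (Esub G b hb) := by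
  refine ⟨isRankOnePair ha hb h, ?_⟩
  rintro _ ⟨a', ha', rfl⟩ hne _ ⟨b', hb', rfl⟩ hne' he
  have hip := ip_of_conj ha hb h ha' hb' he
  have h1 := hip.aba
  have h2 := hip.bab
  rw [mul_assoc] at h1 h2
  ext1
  rw [Units.val_mul, Units.val_mul, Units.val_mul, Units.val_mul, val_inv_tv hip.a2,
    val_inv_tv hip.b2, val_tv hip.a2, val_tv hip.b2]
  simp only [mul_add, add_mul, mul_sub, sub_mul, mul_one, one_mul, mul_assoc, h1, h2, hip.a2,
    hip.b2, mul_zero]
  abel

/-- three-fold products vanish in the nilpotent case -/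
theorem np_aba {a b a₁ a₂ b' : Module.End k M} (h : NP G a b) (h1 : a₁ ∈ EE G a)
    (h2 : a₂ ∈ EE G a) (hb : b' ∈ EE G b) : a₁ * b' * a₂ = 0 := by
  by_cases h10 : a₁ = 0
  · rw [h10, zero_mul, zero_mul]
  by_cases h20 : a₂ = 0
  · rw [h20, mul_zero]
  by_cases hb0 : b' = 0
  · rw [hb0, mul_zero, zero_mul]
  have h' := h.ofEE h1 h10 hb hb0
  ext m
  have h3 : a₂ m ∈ LinearMap.range a₁ := by
    rw [EE_range h1 h10, ← EE_range h2 h20]; exact ⟨m, rfl⟩
  obtain ⟨m', hm'⟩ := h3
  show a₁ (b' (a₂ m)) = 0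
  rw [← hm']
  have := congrArg (fun f : Module.End k M => f m') h'.aba
  exact this

theorem Esub_sup_eq {a b : Module.End k M} (ha : a ∈ AAd G) (hb : b ∈ AAd G) :
    Esub G a ha ⊔ Esub G b hb = Subgroup.closure
      ((fun x => (tv x : LinearMap.GeneralLinearGroup k M)) '' (EE G a ∪ EE G b)) := by
  apply le_antisymm
  · apply sup_le
    · rintro _ ⟨x, hx, rfl⟩
      exact Subgroup.subset_closure ⟨x, Or.inl hx, rfl⟩
    · rintro _ ⟨x, hx, rfl⟩
      exact Subgroup.subset_closure ⟨x, Or.inr hx, rfl⟩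
  · rw [Subgroup.closure_le]
    rintro _ ⟨x, hx | hx, rfl⟩
    · exact Subgroup.mem_sup_left ⟨x, hx, rfl⟩
    · exact Subgroup.mem_sup_right ⟨x, hx, rfl⟩

theorem np_unip {a b : Module.End k M} (h : NP G a b) :
    Cfsg.IsUnipotentOn (Esub G a h.ha ⊔ Esub G b h.hb) := by
  rw [Esub_sup_eq]
  apply unip_closure
  · rintro x (hx | hx)
    · exact hx.1.1
    · exact hx.1.1
  · intro W hW hWt
    obtain ⟨v, hv⟩ : ∃ x, x ∉ W := by
      by_contra hcon
      push Not at hcon
      exact hWt (eq_top_iff.2 fun x _ => hcon x)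
    have key : ∀ {a b : Module.End k M}, NP G a b → (∀ x ∈ EE G a ∪ EE G b, ∀ w ∈ W, x w ∈ W) →
        ∀ a₁ ∈ EE G a, a₁ v ∉ W → ∃ v, v ∉ W ∧ ∀ x ∈ EE G a ∪ EE G b, x v ∈ W := by
      intro a b h hW a₁ ha₁ hv1
      by_cases h2 : ∀ b' ∈ EE G b, b' (a₁ v) ∈ W
      · refine ⟨a₁ v, hv1, ?_⟩
        rintro x (hx | hx)
        · have := congrArg (fun f : Module.End k M => f v) (EE_mul h.ha.1.1 hx ha₁)
          have h3 : x (a₁ v) = 0 := this
          rw [h3]; exact W.zero_mem
        · exact h2 x hx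
      · push Not at h2
        obtain ⟨b', hb', hv2⟩ := h2
        refine ⟨b' (a₁ v), hv2, ?_⟩
        rintro x (hx | hx)
        · have := congrArg (fun f : Module.End k M => f v) (np_aba h hx ha₁ hb')
          have h3 : x (b' (a₁ v)) = 0 := this
          rw [h3]; exact W.zero_mem
        · have := congrArg (fun f : Module.End k M => f (a₁ v)) (EE_mul h.hb.1.1 hx hb')
          have h3 : x (b' (a₁ v)) = 0 := this
          rw [h3]; exact W.zero_mem
    by_cases h1 : ∀ x ∈ EE G a ∪ EE G b, x v ∈ W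
    · exact ⟨v, hv, h1⟩
    · push Not at h1
      obtain ⟨x, hx | hx, hxv⟩ := h1
      · exact key h hW x hx hxv
      · obtain ⟨v', h3, h4⟩ := key h.symm (fun x hx => hW x hx.symm) x hx hxv
        exact ⟨v', h3, fun x hx => h4 x hx.symm⟩

end main

end H86.Quad9
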