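import Mathlib

set_option autoImplicit false

/-! The graph of a rank three action with different subdegrees. -/

namespace H86.Rank3

open MulAction Finset

set_option linter.unusedSectionVars false

variable {G : Type*} [Group G] {Ω : Type*} [Fintype Ω] [MulAction G Ω]

/-- the orbital of `(a, b)` -/
def R (G : Type*) [Group G] {Ω : Type*} [MulAction G Ω] (a b : Ω) (x y : Ω) : Prop := ∃ g : G, g • a = x ∧ g • b = y

theorem R_smul {a b x y : Ω} (h : R G a b x y) (g : G) : R G a b (g • x) (g • y) := by
  obtain ⟨k, rfl, rfl⟩ := h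
  exact ⟨g * k, mul_smul _ _ _, mul_smul _ _ _⟩

theorem R_smul_iff {a b x y : Ω} (g : G) : R G a b (g • x) (g • y) ↔ R G a b x y := by
  constructor
  · intro h
    have := R_smul h g⁻¹
    rwa [inv_smul_smul, inv_smul_smul] at this
  · intro h; exact R_smul h g

theorem R_self {a b : Ω} : R G a b a b := ⟨1, one_smul _ _, one_smul _ _⟩

theorem R_base {a b y : Ω} : R G a b a y ↔ y ∈ orbit (stabilizer G a) b := by
  constructor
  · rintro ⟨g, h1, rfl⟩
    exact ⟨⟨g, h1⟩, rfl⟩
  · rintro ⟨⟨g, h1⟩, rfl⟩
    exact ⟨g, h1, rfl⟩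

variable [IsPretransitive G Ω]

theorem card_out (a b x : Ω) : {y | R G a b x y}.ncard = (orbit (stabilizer G a) b).ncard := by
  obtain ⟨g, rfl⟩ := exists_smul_eq G a x
  have : {y | R G a b (g • a) y} = (fun y => g • y) '' (orbit (stabilizer G a) b) := by
    ext y
    rw [Set.mem_setOf_eq, Set.mem_image]
    constructor
    · intro h
      refine ⟨g⁻¹ • y, ?_, smul_inv_smul _ _⟩
      rw [← R_base, ← R_smul_iff g, smul_inv_smul]
      exact h
    · rintro ⟨z, hz, rfl⟩
      rw [← R_base] at hz
      exact R_smul hz g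
  rw [this, Set.ncard_image_of_injective _ (MulAction.injective g)]

theorem card_in (a b y : Ω) : {x | R G a b x y}.ncard = (orbit (stabilizer G a) b).ncard := by
  classical
  have hconst : ∀ z : Ω, {x | R G a b x z}.ncard = {x | R G a b x y}.ncard := by
    intro z
    obtain ⟨g, rfl⟩ := exists_smul_eq G y z
    have : {x | R G a b x (g • y)} = (fun x => g • x) '' {x | R G a b x y} := by
      ext x
      rw [Set.mem_setOf_eq, Set.mem_image]
      constructor
      · intro h
        refine ⟨g⁻¹ • x, ?_, smul_inv_smul _ _⟩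
        rw [Set.mem_setOf_eq, ← R_smul_iff g, smul_inv_smul]
        exact h
      · rintro ⟨z, hz, rfl⟩
        exact R_smul hz g
    rw [this, Set.ncard_image_of_injective _ (MulAction.injective g)]
  have e1 : ∀ x, {y | R G a b x y}.ncard = (univ.filter fun y => R G a b x y).card := by
    intro x
    rw [Set.ncard_eq_toFinset_card', Set.toFinset_setOf]
  have e2 : ∀ y, {x | R G a b x y}.ncard = (univ.filter fun x => R G a b x y).card := by
    intro x
    rw [Set.ncard_eq_toFinset_card', Set.toFinset_setOf]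
  have e3 : ∑ x : Ω, (univ.filter fun y => R G a b x y).card = ∑ y : Ω, (univ.filter fun x => R G a b x y).card := by
    simp only [Finset.card_filter]
    exact Finset.sum_comm
  simp only [← e1, ← e2, hconst, card_out, Finset.sum_const, smul_eq_mul] at e3
  have h0 : 0 < (univ : Finset Ω).card := Finset.card_pos.2 ⟨a, mem_univ _⟩
  exact (Nat.eq_of_mul_eq_mul_left h0 e3).symm

section
variable {a b c : Ω} {n k l : ℕ} (hn : Fintype.card Ω = n) (hb : (orbit (stabilizer G a) b).ncard = k)
  (hc : (orbit (stabilizer G a) c).ncard = l) (hkl : n = 1 + k + l) (h1k : 1 < k) (hk : k < l)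
include hn hb hc hkl h1k hk

theorem orb_a : orbit (stabilizer G a) a = {a} := by
  ext y
  rw [mem_orbit_iff, Set.mem_singleton_iff]
  constructor
  · rintro ⟨g, rfl⟩; exact g.2
  · rintro rfl; exact ⟨1, one_smul _ _⟩

theorem three (y : Ω) : y = a ∨ y ∈ orbit (stabilizer G a) b ∨ y ∈ orbit (stabilizer G a) c := by
  by_contra h
  push Not at h
  have d1 : Disjoint (orbit (stabilizer G a) b) (orbit (stabilizer G a) c) := by
    rcases orbit.eq_or_disjoint (G := stabilizer G a) b c with h1 | h1
    · rw [h1, hc] at hb; omega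
    · exact h1
  have d2 : a ∉ orbit (stabilizer G a) b := by
    intro h1
    have := orbit_eq_iff.2 h1
    rw [orb_a hn hb hc hkl h1k hk] at this
    rw [← this, Set.ncard_singleton] at hb
    omega
  have d3 : a ∉ orbit (stabilizer G a) c := by
    intro h1
    have := orbit_eq_iff.2 h1
    rw [orb_a hn hb hc hkl h1k hk] at this
    rw [← this, Set.ncard_singleton] at hc
    omega
  have h2 : (insert y (insert a (orbit (stabilizer G a) b ∪ orbit (stabilizer G a) c))).ncard ≤ n := by
    rw [← hn, ← Nat.card_eq_fintype_card, ← Set.ncard_univ]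
    exact Set.ncard_le_ncard (Set.subset_univ _)
  rw [Set.ncard_insert_of_notMem, Set.ncard_insert_of_notMem, Set.ncard_union_eq d1, hb, hc] at h2
  · omega
  · rintro (h3 | h3)
    · exact d2 h3
    · exact d3 h3
  · rw [Set.mem_insert_iff, Set.mem_union]
    push Not
    exact h

theorem not_a_b : a ∉ orbit (stabilizer G a) b := by
  intro h1
  have := orbit_eq_iff.2 h1
  rw [orb_a hn hb hc hkl h1k hk] at this
  rw [← this, Set.ncard_singleton] at hb
  omega

theorem R_symm {x y : Ω} (h : R G a b x y) : R G a b y x := by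
  -- the in-neighbours of `a`
  have hT := card_in (G := G) a b a
  rw [hb] at hT
  have hinv : ∀ g : stabilizer G a, ∀ x, R G a b x a → R G a b (g • x) a := by
    intro g x hx
    have := R_smul hx g.1
    rwa [g.2] at this
  have hTc : ¬ R G a b c a := by
    intro h1
    have : orbit (stabilizer G a) c ⊆ {x | R G a b x a} := by
      rintro _ ⟨g, rfl⟩
      exact hinv g c h1
    have h2 := Set.ncard_le_ncard this
    rw [hT, hc] at h2
    omega
  have hTa : ¬ R G a b a a := by
    rw [R_base]
    exact not_a_b hn hb hc hkl h1k hk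
  have hsub : {x | R G a b x a} ⊆ orbit (stabilizer G a) b := by
    intro z hz
    rcases three hn hb hc hkl h1k hk z with rfl | h1 | h1
    · exact absurd hz hTa
    · exact h1
    · exfalso
      obtain ⟨g, hg⟩ := h1
      apply hTc
      have := hinv g⁻¹ z hz
      rwa [← hg, inv_smul_smul] at this
  have heq : {x | R G a b x a} = orbit (stabilizer G a) b :=
    Set.eq_of_subset_of_ncard_le hsub (by rw [hT, hb])
  have hba : R G a b b a := by
    have : b ∈ {x | R G a b x a} := by rw [heq]; exact mem_orbit_self _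
    exact this
  obtain ⟨g, rfl, rfl⟩ := h
  exact R_smul hba g

/-- the rank three graph -/
theorem exists_srg : ∃ Γ : SimpleGraph Ω, (∀ (g : G) x y, Γ.Adj (g • x) (g • y) ↔ Γ.Adj x y) ∧
    ∃ (hd : DecidableRel Γ.Adj) (s t : ℕ), Γ.IsSRGWith n k s t ∧ s < k ∧ t ≤ k := by
  classical
  have hac : a ≠ c := by
    rintro rfl
    rw [orb_a hn hb hc hkl h1k hk, Set.ncard_singleton] at hc
    omega
  have hRac : ¬ R G a b a c := by
    rw [R_base]
    intro h
    have := orbit_eq_iff.2 h
    rw [← this, hc] at hb
    omega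
  let Γ : SimpleGraph Ω :=
    { Adj := R G a b
      symm := ⟨fun x y h => R_symm hn hb hc hkl h1k hk h⟩
      loopless := ⟨fun x h => by
        obtain ⟨g, h1, h2⟩ := h
        have : a = b := by rw [← h2] at h1; exact MulAction.injective g h1
        exact not_a_b hn hb hc hkl h1k hk (by rw [← this]; exact mem_orbit_self _)⟩ }
  have hadj : ∀ x y, Γ.Adj x y ↔ R G a b x y := fun x y => Iff.rfl
  have hinv : ∀ (g : G) x y, Γ.Adj (g • x) (g • y) ↔ Γ.Adj x y := fun g x y => R_smul_iff g
  have hcn : ∀ (g : G) x y, Fintype.card (Γ.commonNeighbors (g • x) (g • y)) = Fintype.card (Γ.commonNeighbors x y) := by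
    intro g x y
    refine (Fintype.card_congr ?_).symm
    refine ⟨fun z => ⟨g • z.1, ?_⟩, fun z => ⟨g⁻¹ • z.1, ?_⟩, fun z => Subtype.ext (inv_smul_smul _ _),
      fun z => Subtype.ext (smul_inv_smul _ _)⟩
    · rw [SimpleGraph.mem_commonNeighbors, hinv, hinv]
      exact z.2
    · have := z.2
      rw [SimpleGraph.mem_commonNeighbors] at this ⊢
      rw [← hinv g x, ← hinv g y, smul_inv_smul]
      exact this
  have hdeg : ∀ x, Γ.degree x = k := by
    intro x
    rw [← SimpleGraph.card_neighborSet_eq_degree, ← hb, ← card_out (G := G) a b x, ← Nat.card_eq_fintype_card]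
    rfl
  refine ⟨Γ, hinv, inferInstance, Fintype.card (Γ.commonNeighbors a b), Fintype.card (Γ.commonNeighbors a c),
    ⟨hn, hdeg, ?_, ?_⟩, ?_, ?_⟩
  · intro x y hxy
    obtain ⟨g, rfl, rfl⟩ := hxy
    exact hcn g a b
  · intro x y hxy hn'
    obtain ⟨g, rfl⟩ := exists_smul_eq G a x
    obtain ⟨z, rfl⟩ : ∃ z, g • z = y := ⟨g⁻¹ • y, smul_inv_smul _ _⟩
    rw [hinv] at hn'
    rw [hcn]
    rcases three hn hb hc hkl h1k hk z with rfl | h1 | h1
    · exact absurd rfl hxy
    · exact absurd (R_base.2 h1) hn'
    · obtain ⟨h, hh⟩ := h1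
      have h3 : h.1 • c = z := hh
      have h4 : h.1 • a = a := h.2
      have h5 := hcn h.1 a c
      simp only [h3, h4] at h5
      exact h5
  · rw [← hdeg a]
    exact SimpleGraph.Adj.card_commonNeighbors_lt_degree (G := Γ) (R_self : R G a b a b)
  · rw [← hdeg a]
    exact Γ.card_commonNeighbors_le_degree_left a c

end

end H86.Rank3
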