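import Cfsg.Agent.Lib.H98.Dickson
import Cfsg.Agent.Lib.H86.Quad1

/-!
`SL₂(k(l))` is generated by `up c`, `lo (c l)`, `c ∈ k` (char ≠ 2, `|k| ≠ 3`).
-/

set_option autoImplicit false
set_option linter.unusedSimpArgs false
set_option linter.unusedVariables false
set_option linter.style.haveILetI false
open Polynomial Matrix H98.DicksonField H86.Quad1
open scoped H98.Moebius

namespace H86.SLTwoGen

section basic
variable {L : Type*} [Field L]

theorem up_add (b c : L) : up (b + c) = up b * up c := by
  ext i j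
  rw [Matrix.SpecialLinearGroup.coe_mul, coe_up, coe_up, coe_up]
  fin_cases i <;> fin_cases j <;> simp [Matrix.mul_apply, Fin.sum_univ_two, add_comm]

theorem lo_add (b c : L) : lo (b + c) = lo b * lo c := by
  ext i j
  rw [Matrix.SpecialLinearGroup.coe_mul, coe_lo, coe_lo, coe_lo]
  fin_cases i <;> fin_cases j <;> simp [Matrix.mul_apply, Fin.sum_univ_two, add_comm]

theorem up_zero : up (0 : L) = 1 := by
  ext i j
  rw [coe_up, Matrix.SpecialLinearGroup.coe_one]
  fin_cases i <;> fin_cases j <;> simp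

theorem lo_zero : lo (0 : L) = 1 := by
  ext i j
  rw [coe_lo, Matrix.SpecialLinearGroup.coe_one]
  fin_cases i <;> fin_cases j <;> simp

theorem up_inj {b c : L} (h : up b = up c) : b = c := by
  have := congrArg (fun g : Matrix.SpecialLinearGroup (Fin 2) L => (g : Matrix (Fin 2) (Fin 2) L) 0 1) h
  simpa [coe_up] using this

theorem lo_inj {b c : L} (h : lo b = lo c) : b = c := by
  have := congrArg (fun g : Matrix.SpecialLinearGroup (Fin 2) L => (g : Matrix (Fin 2) (Fin 2) L) 1 0) h
  simpa [coe_lo] using this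

/-- If all `up b`, `lo b` lie in `X` then `X = ⊤`. -/
theorem eq_top_of {X : Subgroup (Matrix.SpecialLinearGroup (Fin 2) L)} (h1 : ∀ b, up b ∈ X)
    (h2 : ∀ b, lo b ∈ X) : X = ⊤ := by
  rw [eq_top_iff]
  intro M _
  exact sl_induction (MonoidHom.id _) X h1 h2 M

end basic

variable {k L : Type*} [Field k] [Field L] [Algebra k L]

/-- The group generated by `up c`, `lo (c l)`, `c ∈ k`. -/
def gen (k : Type*) {L : Type*} [Field k] [Field L] [Algebra k L] (l : L) :
    Subgroup (Matrix.SpecialLinearGroup (Fin 2) L) :=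
  Subgroup.closure ({g | ∃ c : k, g = up (algebraMap k L c)} ∪
    {g | ∃ c : k, g = lo (algebraMap k L c * l)})

theorem up_mem (l : L) (c : k) : up (algebraMap k L c) ∈ gen k l :=
  Subgroup.subset_closure (Or.inl ⟨c, rfl⟩)

theorem lo_mem (l : L) (c : k) : lo (algebraMap k L c * l) ∈ gen k l :=
  Subgroup.subset_closure (Or.inr ⟨c, rfl⟩)

/-- Infinite case. -/
theorem gen_eq_top_of_infinite [Infinite k] (h2 : (2 : k) ≠ 0) {l : L} (hl : IsIntegral k l)
    (hl0 : l ≠ 0) (htop : ∀ y : L, ∃ x : k[X], aeval l x = y) : gen k l = ⊤ := by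
  let a : Matrix (Fin 2) (Fin 2) L := !![0, 1; 0, 0]
  let t : Matrix (Fin 2) (Fin 2) L := !![0, 0; l, 0]
  have ha : a * a = 0 := by
    ext i j; fin_cases i <;> fin_cases j <;> simp [a, Matrix.mul_apply, Fin.sum_univ_two]
  have ht : t * t = 0 := by
    ext i j; fin_cases i <;> fin_cases j <;> simp [t, Matrix.mul_apply, Fin.sum_univ_two]
  have hc : a * t + t * a = algebraMap L (Matrix (Fin 2) (Fin 2) L) l := by
    ext i j; fin_cases i <;> fin_cases j <;>
      simp [a, t, Matrix.mul_apply, Fin.sum_univ_two, Matrix.algebraMap_matrix_apply]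
  let φ : L →ₐ[k] Matrix (Fin 2) (Fin 2) L :=
    (Algebra.ofId L (Matrix (Fin 2) (Fin 2) L)).restrictScalars k
  have hφ : ∀ y : L, φ y = algebraMap L (Matrix (Fin 2) (Fin 2) L) y := fun y => rfl
  have hev : ∀ x : k[X], aeval (a * t + t * a) x = algebraMap L (Matrix (Fin 2) (Fin 2) L)
      (aeval l x) := by
    intro x
    rw [hc, ← hφ, ← hφ, aeval_algHom_apply]
  have hint : IsIntegral k (a * t + t * a) := by
    rw [hc, ← hφ]
    exact hl.map φ
  have hup : ∀ y : L, tv (algebraMap L (Matrix (Fin 2) (Fin 2) L) y * a) =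
      Matrix.SpecialLinearGroup.toGL (up y) := by
    intro y
    apply Units.ext
    rw [val_tv]
    · show _ = ((up y : Matrix.SpecialLinearGroup (Fin 2) L) : Matrix (Fin 2) (Fin 2) L)
      rw [coe_up]
      ext i j; fin_cases i <;> fin_cases j <;>
        simp [a, Matrix.mul_apply, Fin.sum_univ_two, Matrix.algebraMap_matrix_apply]
    · ext i j; fin_cases i <;> fin_cases j <;>
        simp [a, Matrix.mul_apply, Fin.sum_univ_two, Matrix.algebraMap_matrix_apply]
  have hlo : ∀ y : L, tv (algebraMap L (Matrix (Fin 2) (Fin 2) L) y * t) =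
      Matrix.SpecialLinearGroup.toGL (lo (y * l)) := by
    intro y
    apply Units.ext
    rw [val_tv]
    · show _ = ((lo (y * l) : Matrix.SpecialLinearGroup (Fin 2) L) : Matrix (Fin 2) (Fin 2) L)
      rw [coe_lo]
      ext i j; fin_cases i <;> fin_cases j <;>
        simp [t, Matrix.mul_apply, Fin.sum_univ_two, Matrix.algebraMap_matrix_apply]
    · ext i j; fin_cases i <;> fin_cases j <;>
        simp [t, Matrix.mul_apply, Fin.sum_univ_two, Matrix.algebraMap_matrix_apply]
  have hle : pairGroup k a t ≤ (gen k l).map Matrix.SpecialLinearGroup.toGL := by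
    apply pairGroup_le
    · intro s
      have : s • a = algebraMap L (Matrix (Fin 2) (Fin 2) L) (algebraMap k L s) * a := by
        rw [Algebra.smul_def]; rfl
      rw [this, hup]
      exact ⟨_, up_mem l s, rfl⟩
    · intro s
      have : s • t = algebraMap L (Matrix (Fin 2) (Fin 2) L) (algebraMap k L s) * t := by
        rw [Algebra.smul_def]; rfl
      rw [this, hlo]
      exact ⟨_, lo_mem l s, rfl⟩
  apply eq_top_of
  · intro b
    obtain ⟨x, rfl⟩ := htop b
    have h := hle (lemmaG h2 ha ht hint x)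
    rw [hev, hup] at h
    obtain ⟨g, hg, e⟩ := h
    rwa [← Matrix.SpecialLinearGroup.toGL_injective e]
  · intro b
    obtain ⟨x, hx⟩ := htop (b / l)
    have h := hle (by
      have := lemmaG h2 ht ha (by rw [add_comm]; exact hint) x
      rw [pairGroup_comm, add_comm] at this
      exact this)
    rw [hev, hx, hlo, div_mul_cancel₀ _ hl0] at h
    obtain ⟨g, hg, e⟩ := h
    rwa [← Matrix.SpecialLinearGroup.toGL_injective e]

theorem toPGL_up [DecidableEq L] (b : L) : Matrix.SpecialLinearGroup.toPGL (up b) = H98.Moebius.aff (1 : Lˣ) b := by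
  rw [H98.Moebius.aff]
  show ProjGenLinGroup.mk (Matrix.SpecialLinearGroup.toGL (up b)) = _
  congr 1
  apply Units.ext
  rw [H98.Moebius.coe_affGL]
  ext i j
  fin_cases i <;> fin_cases j <;> simp [coe_up]

theorem toPGL_lo (b : L) : Matrix.SpecialLinearGroup.toPGL (lo b) = low b := rfl

theorem up_pow (b : L) (n : ℕ) : up b ^ n = up (n * b) := by
  induction n with
  | zero => simp [up_zero]
  | succ n ih => rw [pow_succ, ih, ← up_add]; congr 1; push_cast; ring

theorem lo_pow (b : L) (n : ℕ) : lo b ^ n = lo (n * b) := by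
  induction n with
  | zero => simp [lo_zero]
  | succ n ih => rw [pow_succ, ih, ← lo_add]; congr 1; push_cast; ring

theorem aff_one_inj {b c : L} (h : H98.Moebius.aff (1 : Lˣ) b = H98.Moebius.aff (1 : Lˣ) c) :
    b = c := by
  classical
  exact (H98.Moebius.aff_inj h).2

/-- A finite subset of traces: if the conjugate of the image of `X` lies in the image of
`PGL₂(K)` then products of two unipotent elements have trace in `K`. -/
theorem trace_mem {K : Subfield L} (h2 : (2 : L) ≠ 0) (h : GL (Fin 2) L)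
    {g₁ g₂ : Matrix.SpecialLinearGroup (Fin 2) L}
    (t1 : (g₁ : Matrix (Fin 2) (Fin 2) L).trace = 2) (t2 : (g₂ : Matrix (Fin 2) (Fin 2) L).trace = 2)
    (m1 : ProjGenLinGroup.mk h * Matrix.SpecialLinearGroup.toPGL g₁ * (ProjGenLinGroup.mk h)⁻¹ ∈
      (ProjGenLinGroup.map K.subtype : ProjGenLinGroup (Fin 2) K →* ProjGenLinGroup (Fin 2) L).range)
    (m2 : ProjGenLinGroup.mk h * Matrix.SpecialLinearGroup.toPGL g₂ * (ProjGenLinGroup.mk h)⁻¹ ∈
      (ProjGenLinGroup.map K.subtype : ProjGenLinGroup (Fin 2) K →* ProjGenLinGroup (Fin 2) L).range) :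
    ((g₁ * g₂ : Matrix.SpecialLinearGroup (Fin 2) L) : Matrix (Fin 2) (Fin 2) L).trace ∈ K := by
  have key : ∀ g : Matrix.SpecialLinearGroup (Fin 2) L,
      (g : Matrix (Fin 2) (Fin 2) L).trace = 2 →
      ProjGenLinGroup.mk h * Matrix.SpecialLinearGroup.toPGL g * (ProjGenLinGroup.mk h)⁻¹ ∈
      (ProjGenLinGroup.map K.subtype : ProjGenLinGroup (Fin 2) K →* ProjGenLinGroup (Fin 2) L).range →
      ∃ m : Matrix (Fin 2) (Fin 2) K, ((h * Matrix.SpecialLinearGroup.toGL g * h⁻¹ : GL (Fin 2) L) :
        Matrix (Fin 2) (Fin 2) L) = m.map K.subtype := by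
    intro g ht hm
    obtain ⟨y, hy⟩ := hm
    induction y using Matrix.ProjGenLinGroup.induction_on with | mk y =>
    have hy' : ProjGenLinGroup.mk (Matrix.GeneralLinearGroup.map K.subtype y) =
        ProjGenLinGroup.mk (h * Matrix.SpecialLinearGroup.toGL g * h⁻¹) := by
      rw [map_mul, map_mul, map_inv]; exact hy
    rw [ProjGenLinGroup.mk_eq_mk_iff] at hy'
    obtain ⟨u, hu⟩ := hy'
    have hmat : (Matrix.GeneralLinearGroup.map K.subtype y : Matrix (Fin 2) (Fin 2) L) *
        Matrix.scalar (Fin 2) (u : L) = ((h * Matrix.SpecialLinearGroup.toGL g * h⁻¹ : GL (Fin 2) L) :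
        Matrix (Fin 2) (Fin 2) L) := by
      rw [← hu]; rfl
    have htr : ((h * Matrix.SpecialLinearGroup.toGL g * h⁻¹ : GL (Fin 2) L) :
        Matrix (Fin 2) (Fin 2) L).trace = 2 := by
      rw [Units.val_mul, Units.val_mul, Matrix.trace_mul_comm, ← mul_assoc, ← Units.val_mul,
        inv_mul_cancel, Units.val_one, one_mul]
      exact ht
    have hmap : (Matrix.GeneralLinearGroup.map K.subtype y : Matrix (Fin 2) (Fin 2) L) =
        (y : Matrix (Fin 2) (Fin 2) K).map K.subtype := rfl
    have hms : ∀ A : Matrix (Fin 2) (Fin 2) L, A * Matrix.scalar (Fin 2) (u : L) = (u : L) • A := by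
      intro A
      ext i j; fin_cases i <;> fin_cases j <;>
        simp [Matrix.mul_apply, Fin.sum_univ_two, mul_comm]
    rw [hms, hmap] at hmat
    rw [← hmat, Matrix.trace_smul] at htr
    have htK : ((y : Matrix (Fin 2) (Fin 2) K).map K.subtype).trace =
        ((y : Matrix (Fin 2) (Fin 2) K).trace : L) := by
      simp [Matrix.trace, Fin.sum_univ_two]
    rw [htK, smul_eq_mul] at htr
    have hne : ((y : Matrix (Fin 2) (Fin 2) K).trace : L) ≠ 0 := by
      intro h0; rw [h0, mul_zero] at htr; exact h2 htr.symm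
    have huK : (u : L) ∈ K := by
      have : (u : L) = 2 / ((y : Matrix (Fin 2) (Fin 2) K).trace : L) := by
        rw [eq_div_iff hne, htr]
      rw [this]
      exact K.div_mem (by have := K.add_mem K.one_mem K.one_mem; rwa [one_add_one_eq_two] at this)
        (SetLike.coe_mem _)
    refine ⟨(⟨u, huK⟩ : K) • (y : Matrix (Fin 2) (Fin 2) K), ?_⟩
    rw [← hmat]
    ext i j
    simp
  obtain ⟨A, hA⟩ := key g₁ t1 m1
  obtain ⟨B, hB⟩ := key g₂ t2 m2
  have e : ((g₁ * g₂ : Matrix.SpecialLinearGroup (Fin 2) L) : Matrix (Fin 2) (Fin 2) L).trace =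
      ((A * B).trace : K) := by
    have e1 : ((h * Matrix.SpecialLinearGroup.toGL (g₁ * g₂) * h⁻¹ : GL (Fin 2) L) :
        Matrix (Fin 2) (Fin 2) L).trace =
        ((g₁ * g₂ : Matrix.SpecialLinearGroup (Fin 2) L) : Matrix (Fin 2) (Fin 2) L).trace := by
      rw [Units.val_mul, Units.val_mul, Matrix.trace_mul_comm, ← mul_assoc, ← Units.val_mul,
        inv_mul_cancel, Units.val_one, one_mul]
      rfl
    have e2 : h * Matrix.SpecialLinearGroup.toGL (g₁ * g₂) * h⁻¹ =
        (h * Matrix.SpecialLinearGroup.toGL g₁ * h⁻¹) *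
          (h * Matrix.SpecialLinearGroup.toGL g₂ * h⁻¹) := by
      rw [map_mul]; group
    rw [← e1, e2, Units.val_mul, hA, hB, ← Matrix.map_mul]
    simp [Matrix.trace, Fin.sum_univ_two]
  rw [e]
  exact SetLike.coe_mem _

/-- Finite case. -/
theorem gen_eq_top_of_finite [Finite L] (h2 : (2 : L) ≠ 0) (h3 : Nat.card k ≠ 3) {l : L}
    (hl0 : l ≠ 0) (htop : ∀ K : Subfield L, (∀ c : k, algebraMap k L c ∈ K) → l ∈ K → K = ⊤) :
    gen k l = ⊤ := by
  classical
  haveI : Finite k := Finite.of_injective _ (algebraMap k L).injective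
  obtain ⟨p, hpc⟩ := CharP.exists L
  haveI := hpc
  haveI hp : Fact p.Prime := ⟨(CharP.char_is_prime_or_zero L p).resolve_right (by
    rintro rfl
    haveI := CharP.charP_to_charZero L
    exact not_injective_infinite_finite (Nat.cast : ℕ → L) Nat.cast_injective)⟩
  have hp2 : p ≠ 2 := by
    rintro rfl
    exact h2 (by exact_mod_cast CharP.cast_eq_zero L 2)
  haveI : CharP k p := (RingHom.charP_iff (algebraMap k L) (algebraMap k L).injective p).2 hpc
  set X := gen k l with hX
  set Γ : Subgroup (ProjGenLinGroup (Fin 2) L) := X.map Matrix.SpecialLinearGroup.toPGL with hΓ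
  have hupΓ : ∀ c : k, H98.Moebius.aff (1 : Lˣ) (algebraMap k L c) ∈ Γ := fun c => by
    rw [← toPGL_up]; exact ⟨_, up_mem l c, rfl⟩
  have hloΓ : ∀ c : k, low (algebraMap k L c * l) ∈ Γ := fun c => by
    rw [← toPGL_lo]; exact ⟨_, lo_mem l c, rfl⟩
  -- an embedding of the additive group of `k`
  have haff : ∀ b c : L, H98.Moebius.aff (1 : Lˣ) (b + c) =
      H98.Moebius.aff (1 : Lˣ) b * H98.Moebius.aff (1 : Lˣ) c := by
    intro b c; rw [H98.Moebius.aff_mul]; congr 1 <;> simp [add_comm]
  let ι : Multiplicative k →* Γ :=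
    { toFun := fun c => ⟨H98.Moebius.aff (1 : Lˣ) (algebraMap k L c.toAdd), hupΓ _⟩
      map_one' := by
        apply Subtype.ext
        show H98.Moebius.aff (1 : Lˣ) (algebraMap k L 0) = 1
        rw [map_zero, H98.Moebius.aff_one]
      map_mul' := by
        intro b c
        apply Subtype.ext
        show H98.Moebius.aff (1 : Lˣ) (algebraMap k L (b.toAdd + c.toAdd)) = _
        rw [map_add, haff]; rfl }
  have hι : Function.Injective ι := by
    intro b c hbc
    have h := congrArg Subtype.val hbc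
    have := aff_one_inj h
    exact Multiplicative.toAdd.injective ((algebraMap k L).injective this)
  have hkdvd : Nat.card k ∣ Nat.card Γ := by
    rw [← Nat.card_congr (Multiplicative.toAdd (α := k))]
    exact Subgroup.card_dvd_of_injective ι hι
  have hpk : p ∣ Nat.card k := by
    haveI := Fintype.ofFinite k
    obtain ⟨n, -, hn⟩ := FiniteField.card k p
    rw [Nat.card_eq_fintype_card, hn]
    exact dvd_pow_self p n.pos.ne'
  have hpΓ : p ∣ Nat.card Γ := hpk.trans hkdvd
  haveI : Finite (ProjGenLinGroup (Fin 2) L) :=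
    Finite.of_surjective _ (ProjGenLinGroup.mk_surjective (n := Fin 2) (R := L))
  rcases H98.Dickson.dickson_pgl p Γ.subtype Γ.subtype_injective with
    h | h | h | h | h | h | ⟨P, K, h, hcard, h_1⟩
  · exact absurd hpΓ h.1
  · obtain ⟨c, -, -, hc, -⟩ := h
    exact absurd (hc hpΓ) hp2
  · obtain ⟨-, x₀, hx₀, -⟩ := h
    have hx1 : H98.Moebius.aff (1 : Lˣ) (algebraMap k L 1) • x₀ = x₀ := hx₀ ⟨_, hupΓ 1⟩
    rw [map_one] at hx1
    have hx2 : low (algebraMap k L 1 * l) • x₀ = x₀ := hx₀ ⟨_, hloΓ 1⟩
    rw [map_one, one_mul] at hx2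
    have hfix := H98.Moebius.fixedBy_aff_one (1 : L) one_ne_zero
    have : x₀ ∈ MulAction.fixedBy (OnePoint L) (H98.Moebius.aff (1 : Lˣ) (1 : L)) := hx1
    rw [hfix, Set.mem_singleton_iff] at this
    subst this
    have hx2' : low l • (OnePoint.infty : OnePoint L) = OnePoint.infty := hx2
    rw [low_smul_infty l hl0] at hx2'
    exact absurd hx2' (OnePoint.coe_ne_infty _)
  · exact absurd hpΓ h.1
  · exact absurd hpΓ h.1
  · -- `A₅`
    obtain ⟨hp3, hc60, -⟩ := h
    have hp3' := hp3 hpΓ
    subst hp3'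
    haveI := Fintype.ofFinite k
    obtain ⟨n, -, hn⟩ := FiniteField.card k 3
    rw [hc60, Nat.card_eq_fintype_card, hn] at hkdvd
    have hn1 : (n : ℕ) ≠ 1 := by
      intro h1
      apply h3
      rw [Nat.card_eq_fintype_card, hn, h1, pow_one]
    have hn2 : 2 ≤ (n : ℕ) := by have := n.pos; omega
    have h9 : 3 ^ 2 ∣ 60 := (pow_dvd_pow 3 hn2).trans hkdvd
    norm_num at h9
  · -- main case
    obtain ⟨h', rfl⟩ := ProjGenLinGroup.mk_surjective h
    have hrange : Γ.subtype.range = Γ := Subgroup.range_subtype Γ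
    rw [hrange] at h_1
    have hpsl : (H98.DicksonPGL.pslHom K.subtype).range ≤ (ProjGenLinGroup.map K.subtype :
          ProjGenLinGroup (Fin 2) K →* ProjGenLinGroup (Fin 2) L).range := by
      rintro _ ⟨x, rfl⟩
      exact ⟨ProjectiveSpecialLinearGroup.toPGL x, rfl⟩
    have hcase : (Γ.map (MulAut.conj (ProjGenLinGroup.mk h')).toMonoidHom) ≤
        (ProjGenLinGroup.map K.subtype :
          ProjGenLinGroup (Fin 2) K →* ProjGenLinGroup (Fin 2) L).range := by
      rcases h_1 with h_1 | h_1
      · exact h_1.le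
      · exact h_1.2.le.trans hpsl
    have hcase2 : (H98.DicksonPGL.pslHom K.subtype).range ≤
        (Γ.map (MulAut.conj (ProjGenLinGroup.mk h')).toMonoidHom) := by
      rcases h_1 with h_1 | h_1
      · exact hpsl.trans h_1.ge
      · exact h_1.2.ge
    have hmemK : ∀ d : k, algebraMap k L d * l ∈ K := by
      intro d
      have hup1 : (up (algebraMap k L 1) : Matrix (Fin 2) (Fin 2) L).trace = 2 := by
        rw [coe_up, Matrix.trace_fin_two]; norm_num
      have hlo1 : (lo (algebraMap k L d * l) : Matrix (Fin 2) (Fin 2) L).trace = 2 := by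
        rw [coe_lo, Matrix.trace_fin_two]; norm_num
      have := trace_mem (K := K) h2 h' hup1 hlo1
        (hcase ⟨_, ⟨_, up_mem l 1, rfl⟩, rfl⟩) (hcase ⟨_, ⟨_, lo_mem l d, rfl⟩, rfl⟩)
      have e : ((up (algebraMap k L 1) * lo (algebraMap k L d * l) :
          Matrix.SpecialLinearGroup (Fin 2) L) : Matrix (Fin 2) (Fin 2) L).trace =
          1 + 1 + algebraMap k L d * l := by
        rw [Matrix.SpecialLinearGroup.coe_mul, coe_up, coe_lo, Matrix.trace_fin_two]
        simp [Matrix.mul_apply, Fin.sum_univ_two]; ring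
      rw [e] at this
      have h4 := K.sub_mem this (K.add_mem K.one_mem K.one_mem)
      rwa [add_sub_cancel_left] at h4
    have hlK : l ∈ K := by have := hmemK 1; rwa [map_one, one_mul] at this
    have hkK : ∀ d : k, algebraMap k L d ∈ K := by
      intro d
      have := K.mul_mem (hmemK d) (K.inv_mem hlK)
      rwa [mul_assoc, mul_inv_cancel₀ hl0, mul_one] at this
    have hKtop := htop K hkK hlK
    subst hKtop
    -- all of `PSL₂(L)` is in `Γ`
    have hall : ∀ g : Matrix.SpecialLinearGroup (Fin 2) L, Matrix.SpecialLinearGroup.toPGL g ∈ Γ := by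
      intro g
      have hdet : ((h' * Matrix.SpecialLinearGroup.toGL g * h'⁻¹ : GL (Fin 2) L) :
          Matrix (Fin 2) (Fin 2) L).det = 1 := by
        rw [← Matrix.GeneralLinearGroup.val_det_apply, map_mul, map_mul, map_inv,
          mul_comm, inv_mul_cancel_left]
        exact g.2
      let g' : Matrix.SpecialLinearGroup (Fin 2) (⊤ : Subfield L) :=
        ⟨((h' * Matrix.SpecialLinearGroup.toGL g * h'⁻¹ : GL (Fin 2) L) :
          Matrix (Fin 2) (Fin 2) L).map (fun x => ⟨x, Subfield.mem_top x⟩), by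
            apply (⊤ : Subfield L).subtype.injective
            rw [map_one, RingHom.map_det]
            exact hdet⟩
      have hg' : H98.DicksonPGL.pslHom (⊤ : Subfield L).subtype (QuotientGroup.mk g') =
          ProjGenLinGroup.mk (h' * Matrix.SpecialLinearGroup.toGL g * h'⁻¹) := by
        rw [H98.DicksonPGL.pslHom, MonoidHom.comp_apply]
        show ProjGenLinGroup.map _ (ProjGenLinGroup.mk (Matrix.SpecialLinearGroup.toGL g')) = _
        rw [ProjGenLinGroup.map_mk]
        congr 1
        apply Units.ext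
        ext i j
        rfl
      obtain ⟨y, hy, e⟩ := hcase2 ⟨_, hg'⟩
      have e' : ProjGenLinGroup.mk h' * y * (ProjGenLinGroup.mk h')⁻¹ =
          ProjGenLinGroup.mk (h' * Matrix.SpecialLinearGroup.toGL g * h'⁻¹) := e
      rw [map_mul, map_mul, map_inv] at e'
      have e'' : y = ProjGenLinGroup.mk (Matrix.SpecialLinearGroup.toGL g) :=
        mul_left_cancel (mul_right_cancel e')
      rw [e''] at hy
      exact hy
    -- squares of elements
    have hsq : ∀ g : Matrix.SpecialLinearGroup (Fin 2) L, g * g ∈ X := by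
      intro g
      obtain ⟨x, hx, e⟩ := hall g
      rw [MonoidHom.comp_apply, MonoidHom.comp_apply] at e
      rw [ProjGenLinGroup.mk_eq_mk_iff] at e
      obtain ⟨u, hu⟩ := e
      have hmat : (x : Matrix (Fin 2) (Fin 2) L) * Matrix.scalar (Fin 2) (u : L) =
          (g : Matrix (Fin 2) (Fin 2) L) := congrArg Units.val hu
      have hms : ∀ A : Matrix (Fin 2) (Fin 2) L, A * Matrix.scalar (Fin 2) (u : L) = (u : L) • A := by
        intro A
        ext i j; fin_cases i <;> fin_cases j <;>
          simp [Matrix.mul_apply, Fin.sum_univ_two, mul_comm]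
      rw [hms] at hmat
      have hu2 : (u : L) * u = 1 := by
        have h5 := congrArg Matrix.det hmat
        rw [Matrix.det_smul, g.2, x.2] at h5
        simpa [pow_two] using h5
      have : g * g = x * x := by
        ext i j
        rw [Matrix.SpecialLinearGroup.coe_mul, Matrix.SpecialLinearGroup.coe_mul, ← hmat,
          smul_mul_smul_comm, hu2, one_smul]
      rw [this]
      exact mul_mem hx hx
    haveI : NeZero (2 : L) := ⟨h2⟩
    apply eq_top_of
    · intro b
      have := hsq (up (b / 2))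
      rwa [← up_add, add_halves] at this
    · intro b
      have := hsq (lo (b / 2))
      rwa [← lo_add, add_halves] at this

/-- **Generation.** For `l ≠ 0` algebraic over `k` (char ≠ 2, `|k| ≠ 3`) with `L = k[l]`, the
elements `up c`, `lo (c l)` (`c ∈ k`) generate `SL₂(L)`. -/
theorem gen_eq_top (h2 : (2 : k) ≠ 0) (h3 : Nat.card k ≠ 3) {l : L} (hl : IsIntegral k l)
    (hl0 : l ≠ 0) (htop : ∀ y : L, ∃ x : k[X], aeval l x = y) : gen k l = ⊤ := by
  rcases finite_or_infinite k with hk | hk
  · have h2L : (2 : L) ≠ 0 := by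
      intro h
      apply h2
      apply (algebraMap k L).injective
      rw [map_ofNat, map_zero, h]
    haveI : Finite L := by
      have hfd : FiniteDimensional k L := by
        have : (⊤ : Submodule k L) = Subalgebra.toSubmodule (Algebra.adjoin k {l}) := by
          symm
          rw [eq_top_iff]
          intro y _
          obtain ⟨x, rfl⟩ := htop y
          exact Polynomial.aeval_mem_adjoin_singleton k l
        have h1 := hl.fg_adjoin_singleton
        rw [← this] at h1
        exact ⟨h1⟩
      exact Module.finite_of_finite k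
    refine gen_eq_top_of_finite h2L h3 hl0 ?_
    intro K hK hlK
    rw [eq_top_iff]
    intro y _
    obtain ⟨x, rfl⟩ := htop y
    rw [aeval_eq_sum_range]
    refine K.sum_mem fun i _ => ?_
    rw [Algebra.smul_def]
    exact K.mul_mem (hK _) (K.pow_mem hlK _)
  · exact gen_eq_top_of_infinite h2 hl hl0 htop

end H86.SLTwoGen
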