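import Mathlib

set_option autoImplicit false

/-! Strongly regular graphs with parameters (77, 16, 0, 4): the form `22 I - 11 A + 2 J`, the lines of five points. -/

namespace H86.SRG77

open Finset

variable {V : Type*} [Fintype V] [DecidableEq V] (G : SimpleGraph V) [DecidableRel G.Adj]

/-- basic data of a strongly regular graph with parameters (77, 16, 0, 4) -/
structure Dat : Prop where
  card : Fintype.card V = 77
  deg : ∀ v, (univ.filter fun u => G.Adj v u).card = 16
  tri : ∀ u v w, G.Adj u v → G.Adj u w → ¬ G.Adj v w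
  four : ∀ v w, v ≠ w → ¬ G.Adj v w → (univ.filter fun u => G.Adj v u ∧ G.Adj w u).card = 4

omit [DecidableEq V] in
theorem dat_of_srg (h : G.IsSRGWith 77 16 0 4) : Dat G := by
  classical
  refine ⟨h.card, ?_, ?_, ?_⟩
  · intro v
    have := h.regular v
    rw [← SimpleGraph.card_neighborFinset_eq_degree] at this
    rw [← this]
    congr 1
    ext u
    simp
  · intro u v w huv huw hvw
    have := h.of_adj v w hvw
    rw [Fintype.card_eq_zero_iff] at this
    exact this.false ⟨u, by
      rw [SimpleGraph.mem_commonNeighbors]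
      exact ⟨huv.symm, huw.symm⟩⟩
  · intro v w hvw hn
    have := h.of_not_adj hvw hn
    rw [← this, ← Set.toFinset_card]
    congr 1
    ext u
    simp [SimpleGraph.mem_commonNeighbors]

def a (v w : V) : ℤ := if G.Adj v w then 1 else 0

def d (v : V) (S : Finset V) : ℤ := ∑ s ∈ S, a G v s

def M (v w : V) : ℤ := 22 * (if v = w then 1 else 0) - 11 * a G v w + 2

def CN (x y : V) : Finset V := univ.filter fun u => G.Adj x u ∧ G.Adj y u

def Es (S : Finset V) (w : V) : ℤ := ∑ s ∈ S, M G s w

def m (S T : Finset V) : ℤ := ∑ s ∈ S, ∑ t ∈ T, M G s t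

/-- cocliques -/
def Co (S : Finset V) : Prop := ∀ s ∈ S, ∀ t ∈ S, ¬ G.Adj s t

variable {G}

set_option linter.unusedSectionVars false

theorem a_comm (v w : V) : a G v w = a G w v := by
  unfold a; simp only [G.adj_comm v w]

theorem a_one {v w : V} (h : G.Adj v w) : a G v w = 1 := by unfold a; rw [if_pos h]
theorem a_zero {v w : V} (h : ¬ G.Adj v w) : a G v w = 0 := by unfold a; rw [if_neg h]

theorem M_comm (v w : V) : M G v w = M G w v := by
  unfold M; rw [a_comm]
  by_cases h : v = w
  · subst h; rfl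
  · rw [if_neg h, if_neg (fun e => h e.symm)]

theorem d_eq_card (v : V) (S : Finset V) : d G v S = ((S.filter fun s => G.Adj v s).card : ℤ) := by
  unfold d a
  rw [Finset.card_filter]
  push_cast
  rfl

theorem d_nonneg (v : V) (S : Finset V) : 0 ≤ d G v S := by
  rw [d_eq_card]; positivity

theorem d_le (v : V) (S : Finset V) : d G v S ≤ S.card := by
  rw [d_eq_card]; exact_mod_cast Finset.card_filter_le _ _

theorem d_zero {v : V} {S : Finset V} (h : ∀ s ∈ S, ¬ G.Adj v s) : d G v S = 0 := by
  unfold d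
  exact Finset.sum_eq_zero fun s hs => a_zero (h s hs)

theorem d_zero_iff {v : V} {S : Finset V} : d G v S = 0 ↔ ∀ s ∈ S, ¬ G.Adj v s := by
  refine ⟨fun h s hs hv => ?_, d_zero⟩
  rw [d_eq_card] at h
  have h' : (S.filter fun s => G.Adj v s).card = 0 := by exact_mod_cast h
  rw [Finset.card_eq_zero] at h'
  have : s ∈ S.filter fun s => G.Adj v s := Finset.mem_filter.2 ⟨hs, hv⟩
  rw [h'] at this
  exact absurd this (Finset.notMem_empty _)

theorem d_full {v : V} {S : Finset V} (h : ∀ s ∈ S, G.Adj v s) : d G v S = S.card := by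
  unfold d
  rw [Finset.sum_congr rfl (fun s hs => a_one (h s hs))]
  simp

theorem d_union {v : V} {S T : Finset V} (h : Disjoint S T) : d G v (S ∪ T) = d G v S + d G v T := by
  unfold d; exact Finset.sum_union h

theorem Es_eq (S : Finset V) (w : V) :
    Es G S w = 22 * (if w ∈ S then 1 else 0) - 11 * d G w S + 2 * S.card := by
  unfold Es
  have h1 : ∀ s ∈ S, M G s w = 22 * (if s = w then 1 else 0) - 11 * a G w s + 2 := by
    intro s _
    unfold M
    rw [a_comm w s]
  rw [Finset.sum_congr rfl h1, Finset.sum_add_distrib, Finset.sum_sub_distrib, ← Finset.mul_sum,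
    ← Finset.mul_sum, Finset.sum_ite_eq']
  unfold d
  simp
  ring

theorem Es_union {S T : Finset V} (h : Disjoint S T) (w : V) : Es G (S ∪ T) w = Es G S w + Es G T w := by
  unfold Es; exact Finset.sum_union h

theorem m_eq (S T : Finset V) : m G S T = ∑ s ∈ S, Es G T s := by
  unfold m Es
  refine Finset.sum_congr rfl fun s _ => Finset.sum_congr rfl fun t _ => M_comm _ _

theorem m_self {S : Finset V} (h : Co G S) : m G S S = 22 * S.card + 2 * (S.card : ℤ) ^ 2 := by
  rw [m_eq]
  have h1 : ∀ s ∈ S, Es G S s = 22 + 2 * (S.card : ℤ) := by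
    intro s hs
    rw [Es_eq, if_pos hs, d_zero (fun t ht => h s hs t ht)]
    ring
  rw [Finset.sum_congr rfl h1, Finset.sum_const, nsmul_eq_mul]
  ring

theorem m_const {S T : Finset V} {k : ℤ} (h : ∀ s ∈ S, s ∉ T) (hk : ∀ s ∈ S, d G s T = k) :
    m G S T = (2 * (T.card : ℤ) - 11 * k) * S.card := by
  rw [m_eq]
  have h1 : ∀ s ∈ S, Es G T s = 2 * (T.card : ℤ) - 11 * k := by
    intro s hs
    rw [Es_eq, if_neg (h s hs), hk s hs]
    ring
  rw [Finset.sum_congr rfl h1, Finset.sum_const, nsmul_eq_mul]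
  ring

section
variable (hG : Dat G)
include hG

theorem sum_a (v : V) : ∑ u, a G v u = 16 := by
  have := d_eq_card (G := G) v univ
  unfold d at this
  rw [this, hG.deg]
  rfl

theorem sum_aa (s t : V) : ∑ u, a G u s * a G u t = 12 * (if s = t then 1 else 0) - 4 * a G s t + 4 := by
  have h1 : ∀ u ∈ (univ : Finset V), a G u s * a G u t = if G.Adj s u ∧ G.Adj t u then 1 else 0 := by
    intro u _
    rw [a_comm u s, a_comm u t]
    unfold a
    by_cases hs : G.Adj s u <;> by_cases ht : G.Adj t u <;> simp [hs, ht]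
  rw [Finset.sum_congr rfl h1]
  have h2 : ∑ u : V, (if G.Adj s u ∧ G.Adj t u then (1 : ℤ) else 0) =
      ((univ.filter fun u => G.Adj s u ∧ G.Adj t u).card : ℤ) := by
    rw [Finset.card_filter]; push_cast; rfl
  rw [h2]
  by_cases hst : s = t
  · subst hst
    rw [if_pos rfl, a_zero (G.loopless.irrefl s)]
    have : (univ.filter fun u => G.Adj s u ∧ G.Adj s u) = univ.filter fun u => G.Adj s u := by
      ext u; simp
    rw [this, hG.deg]
    norm_num
  · rw [if_neg hst]
    by_cases hA : G.Adj s t
    · rw [a_one hA]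
      have : (univ.filter fun u => G.Adj s u ∧ G.Adj t u) = ∅ := by
        ext u
        simp only [mem_filter, mem_univ, true_and, notMem_empty, iff_false]
        rintro ⟨h3, h4⟩
        exact hG.tri u s t h3.symm h4.symm hA
      rw [this]
      simp
    · rw [a_zero hA, hG.four s t hst hA]
      norm_num

theorem sum_M (w : V) : ∑ u, M G u w = 0 := by
  have h := Es_eq (G := G) univ w
  have h1 : d G w univ = 16 := sum_a hG w
  rw [h1, if_pos (mem_univ _), Finset.card_univ, hG.card] at h
  unfold Es at h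
  rw [h]; norm_num

theorem sum_MM (v w : V) : ∑ u, M G v u * M G w u = 88 * M G v w := by
  have h1 : ∀ u ∈ (univ : Finset V), M G v u * M G w u =
      22 * (if v = u then M G w u else 0) - 11 * (a G u v * M G w u) + 2 * M G u w := by
    intro u _
    rw [M_comm u w]
    have : M G v u = 22 * (if v = u then 1 else 0) - 11 * a G u v + 2 := by
      unfold M; rw [a_comm u v]
    rw [this]
    by_cases h : v = u
    · rw [if_pos h, if_pos h]; ring
    · rw [if_neg h, if_neg h]; ring
  rw [Finset.sum_congr rfl h1, Finset.sum_add_distrib, Finset.sum_sub_distrib, ← Finset.mul_sum,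
    ← Finset.mul_sum, ← Finset.mul_sum, Finset.sum_ite_eq, if_pos (mem_univ _), sum_M hG]
  have h2 : ∀ u ∈ (univ : Finset V), a G u v * M G w u =
      22 * (if w = u then a G u v else 0) - 11 * (a G u v * a G u w) + 2 * a G v u := by
    intro u _
    unfold M
    rw [a_comm w u, a_comm v u]
    by_cases h : w = u
    · rw [if_pos h, if_pos h]; ring
    · rw [if_neg h, if_neg h]; ring
  rw [Finset.sum_congr rfl h2, Finset.sum_add_distrib, Finset.sum_sub_distrib, ← Finset.mul_sum,
    ← Finset.mul_sum, ← Finset.mul_sum, Finset.sum_ite_eq, if_pos (mem_univ _), sum_a hG, sum_aa hG,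
    M_comm w v, a_comm w v]
  unfold M
  ring

theorem sum_EsEs (S T : Finset V) : ∑ w, Es G S w * Es G T w = 88 * m G S T := by
  unfold Es m
  have h1 : ∀ w ∈ (univ : Finset V), (∑ s ∈ S, M G s w) * (∑ t ∈ T, M G t w) =
      ∑ s ∈ S, ∑ t ∈ T, M G s w * M G t w := by
    intro w _
    rw [Finset.sum_mul_sum]
  rw [Finset.sum_congr rfl h1, Finset.sum_comm, Finset.mul_sum]
  refine Finset.sum_congr rfl fun s _ => ?_
  rw [Finset.sum_comm, Finset.mul_sum]
  exact Finset.sum_congr rfl fun t _ => sum_MM hG s t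

theorem sum_sq (S T U : Finset V) (p q r : ℤ) :
    ∑ w, (p * Es G S w + q * Es G T w + r * Es G U w) ^ 2 =
      88 * (p ^ 2 * m G S S + q ^ 2 * m G T T + r ^ 2 * m G U U + 2 * p * q * m G S T +
        2 * p * r * m G S U + 2 * q * r * m G T U) := by
  have h1 : ∀ w ∈ (univ : Finset V), (p * Es G S w + q * Es G T w + r * Es G U w) ^ 2 =
      p ^ 2 * (Es G S w * Es G S w) + q ^ 2 * (Es G T w * Es G T w) + r ^ 2 * (Es G U w * Es G U w) +
      2 * p * q * (Es G S w * Es G T w) + 2 * p * r * (Es G S w * Es G U w) +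
      2 * q * r * (Es G T w * Es G U w) := by
    intro w _; ring
  rw [Finset.sum_congr rfl h1]
  simp only [Finset.sum_add_distrib, ← Finset.mul_sum, sum_EsEs hG]
  ring

theorem psd (S T U : Finset V) (p q r : ℤ) :
    0 ≤ p ^ 2 * m G S S + q ^ 2 * m G T T + r ^ 2 * m G U U + 2 * p * q * m G S T +
        2 * p * r * m G S U + 2 * q * r * m G T U := by
  have h := sum_sq hG S T U p q r
  have h0 : 0 ≤ ∑ w, (p * Es G S w + q * Es G T w + r * Es G U w) ^ 2 :=
    Finset.sum_nonneg fun w _ => sq_nonneg _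
  omega

theorem ker (S T U : Finset V) (p q r : ℤ)
    (h : p ^ 2 * m G S S + q ^ 2 * m G T T + r ^ 2 * m G U U + 2 * p * q * m G S T +
        2 * p * r * m G S U + 2 * q * r * m G T U = 0) (w : V) :
    p * Es G S w + q * Es G T w + r * Es G U w = 0 := by
  have h1 := sum_sq hG S T U p q r
  rw [h, mul_zero, Finset.sum_eq_zero_iff_of_nonneg (fun w _ => sq_nonneg _)] at h1
  exact pow_eq_zero_iff (two_ne_zero) |>.1 (h1 w (mem_univ _))

theorem sum_d (S : Finset V) : ∑ v, d G v S = 16 * S.card := by
  unfold d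
  rw [Finset.sum_comm]
  have : ∀ s ∈ S, ∑ v, a G v s = 16 := by
    intro s _
    rw [← sum_a hG s]
    exact Finset.sum_congr rfl fun v _ => a_comm _ _
  rw [Finset.sum_congr rfl this, Finset.sum_const, nsmul_eq_mul]
  ring

theorem sum_d_sq {S : Finset V} (hS : Co G S) : ∑ v, (d G v S) ^ 2 = 12 * S.card + 4 * (S.card : ℤ) ^ 2 := by
  have h1 : ∀ v ∈ (univ : Finset V), (d G v S) ^ 2 = ∑ s ∈ S, ∑ t ∈ S, a G v s * a G v t := by
    intro v _
    unfold d
    rw [sq, Finset.sum_mul_sum]
  rw [Finset.sum_congr rfl h1, Finset.sum_comm]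
  have h2 : ∀ s ∈ S, ∑ v : V, ∑ t ∈ S, a G v s * a G v t = 12 + 4 * (S.card : ℤ) := by
    intro s hs
    rw [Finset.sum_comm]
    have h3 : ∀ t ∈ S, ∑ v, a G v s * a G v t = 12 * (if s = t then 1 else 0) + 4 := by
      intro t ht
      rw [sum_aa hG, a_zero (hS s hs t ht)]
      ring
    rw [Finset.sum_congr rfl h3, Finset.sum_add_distrib, ← Finset.mul_sum, Finset.sum_ite_eq,
      if_pos hs, Finset.sum_const, nsmul_eq_mul]
    ring
  rw [Finset.sum_congr rfl h2, Finset.sum_const, nsmul_eq_mul]
  ring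

/-- two points sharing a neighbour are not adjacent -/
theorem not_adj_of {u v w : V} (h1 : G.Adj v u) (h2 : G.Adj w u) : ¬ G.Adj v w :=
  hG.tri u v w h1.symm h2.symm

theorem share {X : Finset V} (hX : X.card = 3) {v w : V} (hv : 2 ≤ d G v X) (hw : 2 ≤ d G w X) :
    ¬ G.Adj v w := by
  rw [d_eq_card] at hv hw
  have hv' : 2 ≤ (X.filter fun s => G.Adj v s).card := by exact_mod_cast hv
  have hw' : 2 ≤ (X.filter fun s => G.Adj w s).card := by exact_mod_cast hw
  have h1 := Finset.card_union_add_card_inter (X.filter fun s => G.Adj v s) (X.filter fun s => G.Adj w s)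
  have h2 : ((X.filter fun s => G.Adj v s) ∪ (X.filter fun s => G.Adj w s)).card ≤ 3 := by
    rw [← hX]
    exact Finset.card_le_card (Finset.union_subset (Finset.filter_subset _ _) (Finset.filter_subset _ _))
  have h3 : 0 < ((X.filter fun s => G.Adj v s) ∩ (X.filter fun s => G.Adj w s)).card := by omega
  obtain ⟨x, hx⟩ := Finset.card_pos.1 h3
  rw [Finset.mem_inter, Finset.mem_filter, Finset.mem_filter] at hx
  exact not_adj_of hG hx.1.2 hx.2.2

/-- three mutually nonadjacent points have at most two common neighbours -/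
theorem le_two {X : Finset V} (hX : X.card = 3) (hC : Co G X) :
    (univ.filter fun v => d G v X = 3).card ≤ 2 := by
  set Y := univ.filter fun v => d G v X = 3 with hY
  set W := univ.filter fun v => d G v X = 2 with hW
  have hYm : ∀ v, v ∈ Y ↔ d G v X = 3 := fun v => by rw [hY]; simp
  have hWm : ∀ v, v ∈ W ↔ d G v X = 2 := fun v => by rw [hW]; simp
  have hd0 : ∀ x ∈ X, d G x X = 0 := fun x hx => d_zero (fun t ht => hC x hx t ht)
  have hc : (3 : ℤ) * Y.card + W.card = 12 := by
    have h1 : ∀ v ∈ (univ : Finset V), (d G v X) ^ 2 - d G v X =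
        6 * (if v ∈ Y then 1 else 0) + 2 * (if v ∈ W then 1 else 0) := by
      intro v _
      have h2 := d_nonneg (G := G) v X
      have h3 := d_le (G := G) v X
      rw [hX] at h3
      simp only [hYm, hWm]
      obtain h | h | h | h : d G v X = 0 ∨ d G v X = 1 ∨ d G v X = 2 ∨ d G v X = 3 := by omega
      all_goals rw [h]; norm_num
    have h2 := Finset.sum_congr rfl h1
    rw [Finset.sum_sub_distrib, sum_d_sq hG hC, sum_d hG, hX, Finset.sum_add_distrib, ← Finset.mul_sum,
      ← Finset.mul_sum] at h2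
    simp only [Finset.sum_ite_mem, Finset.univ_inter, Finset.sum_const, nsmul_eq_mul, mul_one] at h2
    push_cast at h2
    omega
  have hYY : Co G Y := fun s hs t ht => share hG hX (by rw [(hYm s).1 hs]; norm_num) (by rw [(hYm t).1 ht]; norm_num)
  have hWW : Co G W := fun s hs t ht => share hG hX (by rw [(hWm s).1 hs]) (by rw [(hWm t).1 ht])
  have hWY : ∀ s ∈ W, ∀ t ∈ Y, ¬ G.Adj s t := fun s hs t ht =>
    share hG hX (by rw [(hWm s).1 hs]) (by rw [(hYm t).1 ht]; norm_num)
  have mXX := m_self hC
  have mYY := m_self hYY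
  have mWW := m_self hWW
  have mYX := m_const (G := G) (S := Y) (T := X) (k := 3)
    (fun s hs hs' => by have := (hYm s).1 hs; rw [hd0 s hs'] at this; norm_num at this)
    (fun s hs => (hYm s).1 hs)
  have mWX := m_const (G := G) (S := W) (T := X) (k := 2)
    (fun s hs hs' => by have := (hWm s).1 hs; rw [hd0 s hs'] at this; norm_num at this)
    (fun s hs => (hWm s).1 hs)
  have mWY := m_const (G := G) (S := W) (T := Y) (k := 0)
    (fun s hs hs' => by have := (hWm s).1 hs; rw [(hYm s).1 hs'] at this; norm_num at this)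
    (fun s hs => d_zero (fun t ht => hWY s hs t ht))
  rw [hX] at mXX mYX mWX
  by_contra hlt
  obtain h3 | h4 : Y.card = 3 ∨ Y.card = 4 := by omega
  · have hw : W.card = 3 := by omega
    have := psd hG W Y X 1 5 5
    rw [mXX, mYY, mWW, mYX, mWX, mWY, h3, hw] at this
    norm_num at this
  · have hw : W.card = 0 := by omega
    have := psd hG W Y X 0 7 9
    rw [mXX, mYY, mWW, mYX, mWX, mWY, h4, hw] at this
    norm_num at this

end

end H86.SRG77
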