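import Cfsg.Agent.Lib.H86.SRG77

set_option autoImplicit false

/-! Strongly regular graphs with parameters (77, 16, 0, 4): lines of five points. -/

namespace H86.SRG77

open Finset

variable {V : Type*} [Fintype V] [DecidableEq V] {G : SimpleGraph V} [DecidableRel G.Adj]

set_option linter.unusedSectionVars false

variable (G) in
def Z (x y : V) : Finset V :=
  univ.filter fun z => z ≠ x ∧ z ≠ y ∧ ¬ G.Adj x z ∧ ¬ G.Adj y z ∧ d G z (CN G x y) = 0

variable (G) in
def L (x y : V) : Finset V := {x, y} ∪ Z G x y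

theorem mem_Z {x y z : V} : z ∈ Z G x y ↔ z ≠ x ∧ z ≠ y ∧ ¬ G.Adj x z ∧ ¬ G.Adj y z ∧ d G z (CN G x y) = 0 := by
  unfold Z; simp

theorem mem_CN {x y z : V} : z ∈ CN G x y ↔ G.Adj x z ∧ G.Adj y z := by
  unfold CN; simp

theorem mem_L {x y z : V} : z ∈ L G x y ↔ z = x ∨ z = y ∨ z ∈ Z G x y := by
  unfold L; simp [or_assoc]

section
variable (hG : Dat G)
include hG

theorem card_CN {x y : V} (h : x ≠ y) (hn : ¬ G.Adj x y) : (CN G x y).card = 4 := hG.four x y h hn

theorem co_CN (x y : V) : Co G (CN G x y) := by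
  intro s hs t ht
  rw [mem_CN] at hs ht
  exact hG.tri x s t hs.1 ht.1

theorem co_pair {x y : V} (hn : ¬ G.Adj x y) : Co G ({x, y} : Finset V) := by
  intro s hs t ht
  simp only [mem_insert, mem_singleton] at hs ht
  rcases hs with rfl | rfl <;> rcases ht with rfl | rfl
  · exact G.loopless.irrefl _
  · exact hn
  · exact fun h => hn h.symm
  · exact G.loopless.irrefl _

theorem d_CN_le {x y z : V} (h : x ≠ y) (hn : ¬ G.Adj x y) (hx : z ≠ x) (hy : z ≠ y) (hxz : ¬ G.Adj x z)
    (hyz : ¬ G.Adj y z) : d G z (CN G x y) ≤ 2 := by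
  have hX : ({x, y, z} : Finset V).card = 3 := by
    rw [Finset.card_eq_three]
    exact ⟨x, y, z, h, hx.symm, hy.symm, rfl⟩
  have hC : Co G ({x, y, z} : Finset V) := by
    intro s hs t ht
    simp only [mem_insert, mem_singleton] at hs ht
    rcases hs with rfl | rfl | rfl <;> rcases ht with rfl | rfl | rfl
    · exact G.loopless.irrefl _
    · exact hn
    · exact hxz
    · exact fun h => hn h.symm
    · exact G.loopless.irrefl _
    · exact hyz
    · exact fun h => hxz h.symm
    · exact fun h => hyz h.symm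
    · exact G.loopless.irrefl _
  have h2 := le_two hG hX hC
  rw [d_eq_card]
  have h3 : ((CN G x y).filter fun s => G.Adj z s) ⊆ (univ.filter fun v => d G v ({x, y, z} : Finset V) = 3) := by
    intro v hv
    rw [mem_filter, mem_CN] at hv
    rw [mem_filter]
    refine ⟨mem_univ _, ?_⟩
    rw [d_full, hX]
    · rfl
    · intro s hs
      simp only [mem_insert, mem_singleton] at hs
      rcases hs with rfl | rfl | rfl
      · exact hv.1.1.symm
      · exact hv.1.2.symm
      · exact hv.2.symm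
  exact_mod_cast (Finset.card_le_card h3).trans h2

theorem d_CN_left {x y : V} (h : x ≠ y) (hn : ¬ G.Adj x y) : d G x (CN G x y) = 4 := by
  rw [d_full, card_CN hG h hn]
  · rfl
  · intro s hs; exact (mem_CN.1 hs).1

theorem d_CN_right {x y : V} (h : x ≠ y) (hn : ¬ G.Adj x y) : d G y (CN G x y) = 4 := by
  rw [d_full, card_CN hG h hn]
  · rfl
  · intro s hs; exact (mem_CN.1 hs).2

theorem card_Z {x y : V} (h : x ≠ y) (hn : ¬ G.Adj x y) : (Z G x y).card = 3 := by
  have h1 : ∀ v ∈ (univ : Finset V), 2 - 3 * d G v (CN G x y) + (d G v (CN G x y)) ^ 2 =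
      6 * (if v = x then 1 else 0) + 6 * (if v = y then 1 else 0) + 2 * (a G v x + a G v y - a G v x * a G v y) +
      2 * (if v ∈ Z G x y then 1 else 0) := by
    intro v _
    by_cases hx : v = x
    · subst hx
      rw [d_CN_left hG h hn, if_pos rfl, if_neg h, a_zero (G.loopless.irrefl v), a_zero hn, if_neg]
      · norm_num
      · intro h'; exact (mem_Z.1 h').1 rfl
    by_cases hy : v = y
    · subst hy
      rw [d_CN_right hG h hn, if_neg hx, if_pos rfl, a_zero (G.loopless.irrefl v), a_zero (fun h' => hn h'.symm), if_neg]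
      · norm_num
      · intro h'; exact (mem_Z.1 h').2.1 rfl
    rw [if_neg hx, if_neg hy]
    by_cases hvx : G.Adj v x
    · have h0 : d G v (CN G x y) = 0 := d_zero fun s hs => hG.tri x v s hvx.symm (mem_CN.1 hs).1
      have hz : v ∉ Z G x y := fun h' => (mem_Z.1 h').2.2.1 hvx.symm
      rw [h0, a_one hvx, if_neg hz]
      ring
    · by_cases hvy : G.Adj v y
      · have h0 : d G v (CN G x y) = 0 := d_zero fun s hs => hG.tri y v s hvy.symm (mem_CN.1 hs).2
        have hz : v ∉ Z G x y := fun h' => (mem_Z.1 h').2.2.2.1 hvy.symm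
        rw [h0, a_one hvy, if_neg hz]
        ring
      · have hvx' : ¬ G.Adj x v := fun h' => hvx h'.symm
        have hvy' : ¬ G.Adj y v := fun h' => hvy h'.symm
        have h2 := d_CN_le hG h hn hx hy hvx' hvy'
        have h3 := d_nonneg (G := G) v (CN G x y)
        rw [a_zero hvx, a_zero hvy]
        by_cases hz : v ∈ Z G x y
        · rw [(mem_Z.1 hz).2.2.2.2, if_pos hz]; norm_num
        · rw [if_neg hz]
          have h4 : d G v (CN G x y) ≠ 0 := fun h0 => hz (mem_Z.2 ⟨hx, hy, hvx', hvy', h0⟩)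
          obtain h5 | h5 : d G v (CN G x y) = 1 ∨ d G v (CN G x y) = 2 := by omega
          all_goals rw [h5]; norm_num
  have h2 := Finset.sum_congr rfl h1
  have hax : ∀ x : V, ∑ v, a G v x = 16 := fun x => by
    rw [← sum_a hG x]; exact Finset.sum_congr rfl fun v _ => a_comm _ _
  rw [Finset.sum_add_distrib, Finset.sum_sub_distrib, ← Finset.mul_sum, sum_d_sq hG (co_CN hG x y), sum_d hG,
    card_CN hG h hn, Finset.sum_add_distrib, Finset.sum_add_distrib, Finset.sum_add_distrib, ← Finset.mul_sum,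
    ← Finset.mul_sum, ← Finset.mul_sum, ← Finset.mul_sum, Finset.sum_sub_distrib, Finset.sum_add_distrib,
    sum_aa hG, hax, hax, a_zero hn, if_neg h, Finset.sum_const, Finset.card_univ, hG.card] at h2
  simp only [Finset.sum_ite_mem, Finset.univ_inter, Finset.sum_const, nsmul_eq_mul, mul_one,
    Finset.sum_ite_eq', mem_univ, if_true] at h2
  push_cast at h2
  omega

theorem m_pair {x y : V} (h : x ≠ y) (hn : ¬ G.Adj x y) : m G {x, y} {x, y} = 52 := by
  rw [m_self (co_pair hG hn), Finset.card_pair h]; norm_num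

theorem m_CN {x y : V} (h : x ≠ y) (hn : ¬ G.Adj x y) : m G (CN G x y) (CN G x y) = 120 := by
  rw [m_self (co_CN hG x y), card_CN hG h hn]; norm_num

theorem m_pair_CN {x y : V} (h : x ≠ y) (hn : ¬ G.Adj x y) : m G {x, y} (CN G x y) = -72 := by
  rw [m_const (k := 4), Finset.card_pair h, card_CN hG h hn]
  · norm_num
  · intro s hs h'
    simp only [mem_insert, mem_singleton] at hs
    rw [mem_CN] at h'
    rcases hs with rfl | rfl
    · exact G.loopless.irrefl _ h'.1
    · exact G.loopless.irrefl _ h'.2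
  · intro s hs
    simp only [mem_insert, mem_singleton] at hs
    rcases hs with rfl | rfl
    · exact d_CN_left hG h hn
    · exact d_CN_right hG h hn

theorem d_Z_pair {x y z : V} (hz : z ∈ Z G x y) : d G z {x, y} = 0 := by
  rw [mem_Z] at hz
  refine d_zero fun s hs => ?_
  simp only [mem_insert, mem_singleton] at hs
  rcases hs with rfl | rfl
  · exact fun h => hz.2.2.1 h.symm
  · exact fun h => hz.2.2.2.1 h.symm

theorem Z_notMem_pair {x y z : V} (hz : z ∈ Z G x y) : z ∉ ({x, y} : Finset V) := by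
  rw [mem_Z] at hz
  simp only [mem_insert, mem_singleton, not_or]
  exact ⟨hz.1, hz.2.1⟩

theorem Z_notMem_CN {x y z : V} (hz : z ∈ Z G x y) : z ∉ CN G x y := by
  rw [mem_Z] at hz
  rw [mem_CN]
  exact fun h => hz.2.2.1 h.1

theorem co_Z {x y : V} (h : x ≠ y) (hn : ¬ G.Adj x y) : Co G (Z G x y) := by
  intro s hs t ht hst
  have hne : s ≠ t := hst.ne
  have hmem : ∀ u ∈ ({s, t} : Finset V), u ∈ Z G x y := by
    intro u hu
    simp only [mem_insert, mem_singleton] at hu
    rcases hu with rfl | rfl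
    · exact hs
    · exact ht
  have m1 : m G {s, t} {s, t} = 30 := by
    unfold m
    rw [Finset.sum_pair hne, Finset.sum_pair hne, Finset.sum_pair hne]
    unfold M
    rw [if_pos rfl, if_pos rfl, if_neg hne, if_neg hne.symm, a_one hst, a_one hst.symm,
      a_zero (G.loopless.irrefl s), a_zero (G.loopless.irrefl t)]
    norm_num
  have m2 := m_const (G := G) (S := {s, t}) (T := {x, y}) (k := 0)
    (fun u hu => Z_notMem_pair hG (hmem u hu)) (fun u hu => d_Z_pair hG (hmem u hu))
  have m3 := m_const (G := G) (S := {s, t}) (T := CN G x y) (k := 0)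
    (fun u hu => Z_notMem_CN hG (hmem u hu)) (fun u hu => (mem_Z.1 (hmem u hu)).2.2.2.2)
  rw [Finset.card_pair h, Finset.card_pair hne] at m2
  rw [card_CN hG h hn, Finset.card_pair hne] at m3
  have := psd hG {s, t} {x, y} (CN G x y) 3 (-6) (-4)
  rw [m1, m2, m3, m_pair hG h hn, m_CN hG h hn, m_pair_CN hG h hn] at this
  norm_num at this

theorem Es_Z {x y : V} (h : x ≠ y) (hn : ¬ G.Adj x y) (w : V) :
    Es G (Z G x y) w = 3 * Es G {x, y} w + 2 * Es G (CN G x y) w := by
  have m1 := m_self (co_Z hG h hn)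
  rw [card_Z hG h hn] at m1
  have m2 := m_const (G := G) (S := Z G x y) (T := {x, y}) (k := 0)
    (fun u hu => Z_notMem_pair hG hu) (fun u hu => d_Z_pair hG hu)
  have m3 := m_const (G := G) (S := Z G x y) (T := CN G x y) (k := 0)
    (fun u hu => Z_notMem_CN hG hu) (fun u hu => (mem_Z.1 hu).2.2.2.2)
  rw [Finset.card_pair h, card_Z hG h hn] at m2
  rw [card_CN hG h hn, card_Z hG h hn] at m3
  have := ker hG (Z G x y) {x, y} (CN G x y) 1 (-3) (-2) (by
    rw [m1, m2, m3, m_pair hG h hn, m_CN hG h hn, m_pair_CN hG h hn]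
    norm_num) w
  linarith

theorem disj_Z (x y : V) : Disjoint ({x, y} : Finset V) (Z G x y) := by
  rw [Finset.disjoint_left]
  intro z hz hz'
  exact Z_notMem_pair hG hz' hz

theorem L_card {x y : V} (h : x ≠ y) (hn : ¬ G.Adj x y) : (L G x y).card = 5 := by
  unfold L
  rw [Finset.card_union_of_disjoint (disj_Z hG x y), Finset.card_pair h, card_Z hG h hn]

theorem L_co {x y : V} (h : x ≠ y) (hn : ¬ G.Adj x y) : Co G (L G x y) := by
  have hxy : ∀ z ∈ L G x y, ¬ G.Adj x z ∧ ¬ G.Adj y z := by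
    intro z hz
    rw [mem_L] at hz
    rcases hz with rfl | rfl | hz
    · exact ⟨G.loopless.irrefl _, fun h' => hn h'.symm⟩
    · exact ⟨hn, G.loopless.irrefl _⟩
    · exact ⟨(mem_Z.1 hz).2.2.1, (mem_Z.1 hz).2.2.2.1⟩
  intro s hs t ht
  rcases mem_L.1 hs with rfl | rfl | hs'
  · exact (hxy t ht).1
  · exact (hxy t ht).2
  rcases mem_L.1 ht with rfl | rfl | ht'
  · exact fun h' => (hxy s hs).1 h'.symm
  · exact fun h' => (hxy s hs).2 h'.symm
  exact co_Z hG h hn s hs' t ht'

theorem L_vec {x y : V} (h : x ≠ y) (hn : ¬ G.Adj x y) (w : V) :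
    Es G (L G x y) w = 4 * Es G {x, y} w + 2 * Es G (CN G x y) w := by
  unfold L
  rw [Es_union (disj_Z hG x y), Es_Z hG h hn]
  ring

theorem L_d {x y v : V} (h : x ≠ y) (hn : ¬ G.Adj x y) (hv : v ∉ L G x y) :
    d G v (L G x y) = 0 ∨ d G v (L G x y) = 2 := by
  have h1 := L_vec hG h hn v
  have hvp : v ∉ ({x, y} : Finset V) := fun h' => hv (by unfold L; exact mem_union_left _ h')
  have hvx : v ≠ x := fun h' => hvp (by rw [h']; simp)
  have hvy : v ≠ y := fun h' => hvp (by rw [h']; simp)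
  rw [Es_eq, Es_eq, Es_eq, if_neg hv, if_neg hvp, L_card hG h hn, card_CN hG h hn, Finset.card_pair h] at h1
  have hp : d G v {x, y} = a G v x + a G v y := by unfold d; rw [Finset.sum_pair h]
  rw [hp] at h1
  push_cast at h1
  by_cases hx : G.Adj v x
  · have h0 : d G v (CN G x y) = 0 := d_zero fun s hs => hG.tri x v s hx.symm (mem_CN.1 hs).1
    by_cases hy : G.Adj v y
    · have hm : v ∈ CN G x y := mem_CN.2 ⟨hx.symm, hy.symm⟩
      rw [a_one hx, a_one hy, h0, if_pos hm] at h1
      right; omega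
    · have hm : v ∉ CN G x y := fun h' => hy (mem_CN.1 h').2.symm
      rw [a_one hx, a_zero hy, h0, if_neg hm] at h1
      right; omega
  · have hm : v ∉ CN G x y := fun h' => hx (mem_CN.1 h').1.symm
    by_cases hy : G.Adj v y
    · have h0 : d G v (CN G x y) = 0 := d_zero fun s hs => hG.tri y v s hy.symm (mem_CN.1 hs).2
      rw [a_zero hx, a_one hy, h0, if_neg hm] at h1
      right; omega
    · have hx' : ¬ G.Adj x v := fun h' => hx h'.symm
      have hy' : ¬ G.Adj y v := fun h' => hy h'.symm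
      have h2 := d_CN_le hG h hn hvx hvy hx' hy'
      have h3 := d_nonneg (G := G) v (CN G x y)
      have h4 : d G v (CN G x y) ≠ 0 := fun h0 => hv (mem_L.2 (Or.inr (Or.inr (mem_Z.2 ⟨hvx, hvy, hx', hy', h0⟩))))
      rw [a_zero hx, a_zero hy, if_neg hm] at h1
      obtain h5 | h5 : d G v (CN G x y) = 1 ∨ d G v (CN G x y) = 2 := by omega
      · rw [h5] at h1; left; omega
      · rw [h5] at h1; right; omega

/-- at most two neighbours on a line -/
theorem L_d_le {x y v : V} (h : x ≠ y) (hn : ¬ G.Adj x y) : d G v (L G x y) ≤ 2 := by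
  by_cases hv : v ∈ L G x y
  · rw [d_zero (fun t ht => L_co hG h hn v hv t ht)]; norm_num
  · rcases L_d hG h hn hv with h1 | h1 <;> rw [h1]; norm_num

theorem L_eq {x y s t : V} (h : x ≠ y) (hn : ¬ G.Adj x y) (hs : s ∈ L G x y) (ht : t ∈ L G x y) (hst : s ≠ t) :
    L G s t = L G x y := by
  have hnst : ¬ G.Adj s t := L_co hG h hn s hs t ht
  symm
  refine Finset.eq_of_subset_of_card_le ?_ (by rw [L_card hG h hn, L_card hG hst hnst])
  intro z hz
  rw [mem_L]
  by_cases h1 : z = s
  · exact Or.inl h1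
  by_cases h2 : z = t
  · exact Or.inr (Or.inl h2)
  refine Or.inr (Or.inr (mem_Z.2 ⟨h1, h2, L_co hG h hn s hs z hz, L_co hG h hn t ht z hz, d_zero ?_⟩))
  intro n hn' hzn
  rw [mem_CN] at hn'
  have h3 := L_d_le (v := n) hG h hn
  rw [d_eq_card] at h3
  have h4 : ({s, t, z} : Finset V) ⊆ (L G x y).filter fun u => G.Adj n u := by
    intro u hu
    simp only [mem_insert, mem_singleton] at hu
    rw [mem_filter]
    rcases hu with rfl | rfl | rfl
    · exact ⟨hs, hn'.1.symm⟩
    · exact ⟨ht, hn'.2.symm⟩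
    · exact ⟨hz, hzn.symm⟩
  have h5 : ({s, t, z} : Finset V).card = 3 := by
    rw [Finset.card_eq_three]
    exact ⟨s, t, z, hst, fun e => h1 e.symm, fun e => h2 e.symm, rfl⟩
  have h6 := Finset.card_le_card h4
  rw [h5] at h6
  have h7 : ((L G x y).filter fun u => G.Adj n u).card ≤ 2 := by exact_mod_cast h3
  omega

theorem left_mem (x y : V) : x ∈ L G x y := mem_L.2 (Or.inl rfl)
theorem right_mem (x y : V) : y ∈ L G x y := mem_L.2 (Or.inr (Or.inl rfl))

/-- two different lines meet in at most one point -/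
theorem L_unique {x y x' y' s t : V} (h : x ≠ y) (hn : ¬ G.Adj x y) (h' : x' ≠ y') (hn' : ¬ G.Adj x' y')
    (hs : s ∈ L G x y) (ht : t ∈ L G x y) (hs' : s ∈ L G x' y') (ht' : t ∈ L G x' y') (hst : s ≠ t) :
    L G x y = L G x' y' := by
  rw [← L_eq hG h hn hs ht hst, ← L_eq hG h' hn' hs' ht' hst]

/-- the key fact about two lines through a point -/
theorem noedge {x b p q : V} (h : x ≠ b) (hn : ¬ G.Adj x b) (h' : p ≠ q) (hn' : ¬ G.Adj p q)
    (hx : x ∈ L G p q) (hb : b ∉ L G p q) (hd : d G b (L G p q) = 0) :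
    ∀ s ∈ L G x b, d G s (L G p q) = 0 := by
  have hk5 := L_card hG h' hn'
  have hl5 := L_card hG h hn
  have hEs : ∀ w, Es G (L G p q) w = 22 * (if w ∈ L G p q then 1 else 0) - 11 * d G w (L G p q) + 10 := by
    intro w; rw [Es_eq, hk5]; norm_num
  -- compute `m (L x b) (L p q)` in two ways
  have e1 : m G (L G x b) (L G p q) = ∑ t ∈ L G p q, Es G (L G x b) t := by
    rw [← m_eq]
    unfold m
    rw [Finset.sum_comm]
    exact Finset.sum_congr rfl fun s _ => Finset.sum_congr rfl fun t _ => M_comm _ _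
  have e2 : ∀ S : Finset V, ∑ t ∈ L G p q, Es G S t = ∑ s ∈ S, Es G (L G p q) s := by
    intro S
    unfold Es
    rw [Finset.sum_comm]
    exact Finset.sum_congr rfl fun s _ => Finset.sum_congr rfl fun t _ => M_comm _ _
  have e3 : m G (L G x b) (L G p q) = 4 * ∑ s ∈ ({x, b} : Finset V), Es G (L G p q) s +
      2 * ∑ s ∈ CN G x b, Es G (L G p q) s := by
    rw [e1, Finset.sum_congr rfl (fun t _ => L_vec hG h hn t), Finset.sum_add_distrib, ← Finset.mul_sum,
      ← Finset.mul_sum, e2, e2]
  have e4 : ∑ s ∈ ({x, b} : Finset V), Es G (L G p q) s = 42 := by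
    rw [Finset.sum_pair h, hEs, hEs, if_pos hx, if_neg hb, hd,
      d_zero (fun t ht => L_co hG h' hn' x hx t ht)]
    norm_num
  have e5 : ∑ s ∈ CN G x b, Es G (L G p q) s = -48 := by
    have : ∀ s ∈ CN G x b, Es G (L G p q) s = -12 := by
      intro s hs
      rw [mem_CN] at hs
      have hs1 : s ∉ L G p q := fun h1 => L_co hG h' hn' x hx s h1 hs.1
      have hs2 : d G s (L G p q) = 2 := by
        rcases L_d hG h' hn' hs1 with h1 | h1
        · exact absurd hs.1.symm (d_zero_iff.1 h1 x hx)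
        · exact h1
      rw [hEs, if_neg hs1, hs2]; norm_num
    rw [Finset.sum_congr rfl this, Finset.sum_const, card_CN hG h hn]
    norm_num
  have e6 : m G (L G x b) (L G p q) = 72 - 11 * ∑ s ∈ L G x b, d G s (L G p q) := by
    rw [m_eq, Finset.sum_congr rfl (fun s _ => hEs s), Finset.sum_add_distrib, Finset.sum_sub_distrib,
      ← Finset.mul_sum, ← Finset.mul_sum, Finset.sum_const, hl5]
    have : ∑ s ∈ L G x b, (if s ∈ L G p q then (1 : ℤ) else 0) = 1 := by
      rw [Finset.sum_eq_single x]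
      · rw [if_pos hx]
      · intro s hs hsx
        rw [if_neg]
        intro hs'
        have := L_unique hG h hn h' hn' hs (left_mem hG x b) hs' hx hsx
        exact hb (this ▸ right_mem hG x b)
      · intro h1; exact absurd (left_mem hG x b) h1
    rw [this]
    norm_num
    ring
  have e7 : ∑ s ∈ L G x b, d G s (L G p q) = 0 := by
    rw [e4, e5, e6] at e3
    omega
  exact (Finset.sum_eq_zero_iff_of_nonneg (fun s _ => d_nonneg s _)).1 e7

end

end H86.SRG77
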