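import Cfsg.Agent.Lib.H86.SRG77B

set_option autoImplicit false

/-! Strongly regular graphs with parameters (77, 16, 0, 4): the 22 cocliques of size 21. -/

namespace H86.SRG77

open Finset

variable {V : Type*} [Fintype V] [DecidableEq V] {G : SimpleGraph V} [DecidableRel G.Adj]

set_option linter.unusedSectionVars false

variable (G) in
def U (v p q : V) : Finset V := (L G p q).biUnion fun x => L G v x

variable (G) in
def Big (C : Finset V) : Prop := C.card = 21 ∧ Co G C

section
variable (hG : Dat G)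
include hG

/-- situation: a point off the line without neighbours on it -/
theorem off_line {v p q : V} (hd : d G v (L G p q) = 0) (hv : v ∉ L G p q) :
    ∀ x ∈ L G p q, v ≠ x ∧ ¬ G.Adj v x := fun x hx =>
  ⟨fun e => hv (e ▸ hx), d_zero_iff.1 hd x hx⟩

theorem L_meet {v p q : V} (h : p ≠ q) (hn : ¬ G.Adj p q) (hd : d G v (L G p q) = 0) (hv : v ∉ L G p q)
    {x y s : V} (hx : x ∈ L G p q) (hy : y ∈ L G p q) (hxy : x ≠ y) (hs : s ∈ L G v x) (hs' : s ∈ L G v y) :
    s = v := by
  by_contra hsv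
  have ox := off_line hG hd hv x hx
  have oy := off_line hG hd hv y hy
  have e := L_unique hG ox.1 ox.2 oy.1 oy.2 (left_mem hG v x) hs (left_mem hG v y) hs' (fun e => hsv e.symm)
  have hxm : x ∈ L G v x := right_mem hG v x
  have hym : y ∈ L G v x := by rw [e]; exact right_mem hG v y
  have e2 := L_unique hG h hn ox.1 ox.2 hx hy hxm hym hxy
  exact hv (by rw [e2]; exact left_mem hG v x)

theorem U_co {v p q : V} (h : p ≠ q) (hn : ¬ G.Adj p q) (hd : d G v (L G p q) = 0) (hv : v ∉ L G p q) :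
    Co G (U G v p q) := by
  -- no edges between the line and the lines through `v`
  have h1 : ∀ x ∈ L G p q, ∀ s ∈ L G v x, d G s (L G p q) = 0 := by
    intro x hx s hs
    have ox := off_line hG hd hv x hx
    have hs' : s ∈ L G x v := by
      rwa [L_eq hG ox.1 ox.2 (right_mem hG v x) (left_mem hG v x) ox.1.symm]
    exact noedge hG ox.1.symm (fun e => ox.2 e.symm) h hn hx hv hd s hs'
  intro s hs t ht
  unfold U at hs ht
  rw [mem_biUnion] at hs ht
  obtain ⟨x, hx, hs⟩ := hs
  obtain ⟨y, hy, ht⟩ := ht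
  have ox := off_line hG hd hv x hx
  have oy := off_line hG hd hv y hy
  by_cases hxy : x = y
  · subst hxy
    exact L_co hG ox.1 ox.2 s hs t ht
  have hyx : y ∉ L G v x := by
    intro hym
    exact oy.1 (L_meet hG h hn hd hv hx hy hxy hym (right_mem hG v y)).symm
  have hdy : d G y (L G v x) = 0 := by
    refine d_zero fun u hu hyu => ?_
    exact d_zero_iff.1 (h1 x hx u hu) y hy hyu.symm
  have h2 := noedge hG oy.1 oy.2 ox.1 ox.2 (left_mem hG v x) hyx hdy
  exact fun e => d_zero_iff.1 (h2 t ht) s hs e.symm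

theorem U_card {v p q : V} (h : p ≠ q) (hn : ¬ G.Adj p q) (hd : d G v (L G p q) = 0) (hv : v ∉ L G p q) :
    (U G v p q).card = 21 := by
  have e : U G v p q = insert v ((L G p q).biUnion fun x => (L G v x).erase v) := by
    ext s
    unfold U
    simp only [mem_biUnion, mem_insert, mem_erase]
    constructor
    · rintro ⟨x, hx, hs⟩
      by_cases hsv : s = v
      · exact Or.inl hsv
      · exact Or.inr ⟨x, hx, hsv, hs⟩
    · rintro (rfl | ⟨x, hx, _, hs⟩)
      · exact ⟨p, left_mem hG p q, left_mem hG _ _⟩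
      · exact ⟨x, hx, hs⟩
  rw [e, Finset.card_insert_of_notMem, Finset.card_biUnion]
  · have : ∀ x ∈ L G p q, ((L G v x).erase v).card = 4 := by
      intro x hx
      have ox := off_line hG hd hv x hx
      rw [Finset.card_erase_of_mem (left_mem hG v x), L_card hG ox.1 ox.2]
    rw [Finset.sum_congr rfl this, Finset.sum_const, L_card hG h hn]
    rfl
  · intro x hx y hy hxy
    change Disjoint _ _
    rw [Finset.disjoint_left]
    intro s hs hs'
    rw [mem_erase] at hs hs'
    exact hs.1 (L_meet hG h hn hd hv hx hy hxy hs.2 hs'.2)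
  · simp

theorem U_big {v p q : V} (h : p ≠ q) (hn : ¬ G.Adj p q) (hd : d G v (L G p q) = 0) (hv : v ∉ L G p q) :
    Big G (U G v p q) := ⟨U_card hG h hn hd hv, U_co hG h hn hd hv⟩

theorem mem_U_self {v p q : V} : v ∈ U G v p q := by
  unfold U
  rw [mem_biUnion]
  exact ⟨p, left_mem hG p q, left_mem hG _ _⟩

theorem L_sub_U {v p q : V} : L G p q ⊆ U G v p q := by
  intro s hs
  unfold U
  rw [mem_biUnion]
  exact ⟨s, hs, right_mem hG _ _⟩

theorem big_d {C : Finset V} (hC : Big G C) {v : V} (hv : v ∉ C) : d G v C = 6 := by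
  have h1 : ∀ w ∈ (univ : Finset V), (d G w C) ^ 2 - 12 * d G w C + 36 =
      (if w ∈ C then 36 else (d G w C - 6) ^ 2) := by
    intro w _
    by_cases hw : w ∈ C
    · rw [if_pos hw, d_zero (fun t ht => hC.2 w hw t ht)]; norm_num
    · rw [if_neg hw]; ring
  have h2 := Finset.sum_congr rfl h1
  rw [Finset.sum_add_distrib, Finset.sum_sub_distrib, ← Finset.mul_sum, sum_d_sq hG hC.2, sum_d hG, hC.1,
    Finset.sum_const, Finset.card_univ, hG.card] at h2
  have h3 : ∀ w ∈ (univ : Finset V), (if w ∈ C then (36 : ℤ) else (d G w C - 6) ^ 2) =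
      36 * (if w ∈ C then 1 else 0) + (if w ∈ C then 0 else (d G w C - 6) ^ 2) := by
    intro w _
    by_cases hw : w ∈ C
    · simp [hw]
    · simp [hw]
  rw [Finset.sum_congr rfl h3, Finset.sum_add_distrib, ← Finset.mul_sum, Finset.sum_ite_mem, Finset.univ_inter,
    Finset.sum_const, hC.1] at h2
  have h4 : ∑ w : V, (if w ∈ C then (0 : ℤ) else (d G w C - 6) ^ 2) = 0 := by
    norm_num at h2
    exact h2
  rw [Finset.sum_eq_zero_iff_of_nonneg] at h4
  · have h5 := h4 v (mem_univ _)
    rw [if_neg hv] at h5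
    have h6 := pow_eq_zero_iff (two_ne_zero) |>.1 h5
    omega
  · intro w _
    by_cases hw : w ∈ C
    · rw [if_pos hw]
    · rw [if_neg hw]; exact sq_nonneg _

theorem big_Es {C : Finset V} (hC : Big G C) (v : V) :
    Es G C v = if v ∈ C then 64 else -24 := by
  by_cases hv : v ∈ C
  · rw [Es_eq, if_pos hv, if_pos hv, hC.1, d_zero (fun t ht => hC.2 v hv t ht)]
    norm_num
  · rw [Es_eq, if_neg hv, if_neg hv, hC.1, big_d hG hC hv]
    norm_num

theorem big_closed {C : Finset V} (hC : Big G C) {x y : V} (h : x ≠ y) (hx : x ∈ C) (hy : y ∈ C) :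
    L G x y ⊆ C := by
  have hn : ¬ G.Adj x y := hC.2 x hx y hy
  have e2 : ∀ S : Finset V, ∑ t ∈ C, Es G S t = ∑ s ∈ S, Es G C s := by
    intro S
    unfold Es
    rw [Finset.sum_comm]
    exact Finset.sum_congr rfl fun s _ => Finset.sum_congr rfl fun t _ => M_comm _ _
  have e1 : ∑ s ∈ L G x y, Es G C s = 4 * ∑ s ∈ ({x, y} : Finset V), Es G C s + 2 * ∑ s ∈ CN G x y, Es G C s := by
    rw [← e2, Finset.sum_congr rfl (fun t _ => L_vec hG h hn t), Finset.sum_add_distrib, ← Finset.mul_sum,
      ← Finset.mul_sum, e2, e2]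
  have e3 : ∑ s ∈ CN G x y, Es G C s = -96 := by
    have : ∀ s ∈ CN G x y, Es G C s = -24 := by
      intro s hs
      rw [big_Es hG hC, if_neg]
      intro hsC
      exact hC.2 x hx s hsC (mem_CN.1 hs).1
    rw [Finset.sum_congr rfl this, Finset.sum_const, card_CN hG h hn]
    norm_num
  rw [e3, Finset.sum_pair h, big_Es hG hC, big_Es hG hC, if_pos hx, if_pos hy] at e1
  have h1 : ∀ s ∈ L G x y, Es G C s = 64 - 88 * (if s ∈ C then 0 else 1) := by
    intro s _
    rw [big_Es hG hC]
    by_cases hs : s ∈ C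
    · simp [hs]
    · simp [hs]
  rw [Finset.sum_congr rfl h1, Finset.sum_sub_distrib, ← Finset.mul_sum, Finset.sum_const, L_card hG h hn] at e1
  have h2 : ∑ s ∈ L G x y, (if s ∈ C then (0 : ℤ) else 1) = 0 := by
    norm_num at e1
    norm_num
    omega
  rw [Finset.sum_eq_zero_iff_of_nonneg] at h2
  · intro s hs
    by_contra hsC
    have := h2 s hs
    rw [if_neg hsC] at this
    norm_num at this
  · intro s _
    split_ifs <;> norm_num

theorem big_eq_U {C : Finset V} (hC : Big G C) {p q v : V} (h : p ≠ q) (hp : p ∈ C) (hq : q ∈ C) (hv : v ∈ C)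
    (hvL : v ∉ L G p q) : d G v (L G p q) = 0 ∧ C = U G v p q := by
  have hn : ¬ G.Adj p q := hC.2 p hp q hq
  have hL : L G p q ⊆ C := big_closed hG hC h hp hq
  have hd : d G v (L G p q) = 0 := d_zero fun s hs => hC.2 v hv s (hL hs)
  refine ⟨hd, ?_⟩
  symm
  refine Finset.eq_of_subset_of_card_le ?_ (by rw [U_card hG h hn hd hvL, hC.1])
  intro s hs
  unfold U at hs
  rw [mem_biUnion] at hs
  obtain ⟨x, hx, hs⟩ := hs
  exact big_closed hG hC (off_line hG hd hvL x hx).1 hv (hL hx) hs

theorem card_off {p q : V} (h : p ≠ q) (hn : ¬ G.Adj p q) :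
    (univ.filter fun v => v ∉ L G p q ∧ d G v (L G p q) = 0).card = 32 := by
  set R := univ.filter fun v => v ∉ L G p q ∧ d G v (L G p q) = 0 with hR
  have hRm : ∀ v, v ∈ R ↔ v ∉ L G p q ∧ d G v (L G p q) = 0 := fun v => by rw [hR]; simp
  have h1 : ∀ v ∈ (univ : Finset V), 2 - d G v (L G p q) = 2 * (if v ∈ L G p q then 1 else 0) +
      2 * (if v ∈ R then 1 else 0) := by
    intro v _
    by_cases hv : v ∈ L G p q
    · have hvR : v ∉ R := fun h' => ((hRm v).1 h').1 hv
      rw [if_pos hv, if_neg hvR, d_zero (fun t ht => L_co hG h hn v hv t ht)]; norm_num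
    · rw [if_neg hv]
      rcases L_d hG h hn hv with h0 | h0
      · rw [if_pos ((hRm v).2 ⟨hv, h0⟩), h0]; norm_num
      · have hvR : v ∉ R := fun h' => by have := ((hRm v).1 h').2; rw [h0] at this; norm_num at this
        rw [if_neg hvR, h0]; norm_num
  have h2 := Finset.sum_congr rfl h1
  rw [Finset.sum_sub_distrib, sum_d hG, L_card hG h hn, Finset.sum_add_distrib, ← Finset.mul_sum, ← Finset.mul_sum,
    Finset.sum_const, Finset.card_univ, hG.card] at h2
  simp only [Finset.sum_ite_mem, Finset.univ_inter, Finset.sum_const, nsmul_eq_mul, mul_one, L_card hG h hn] at h2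
  push_cast at h2
  omega

end

open Classical in
variable (G) in
/-- the cocliques of size 21 -/
noncomputable def Cc : Finset (Finset V) := univ.filter fun C => Big G C

theorem mem_Cc {C : Finset V} : C ∈ Cc G ↔ Big G C := by
  unfold Cc; simp

section
variable (hG : Dat G)
include hG

theorem two {x y : V} (h : x ≠ y) (hn : ¬ G.Adj x y) :
    ((Cc G).filter fun C => x ∈ C ∧ y ∈ C).card = 2 := by
  set D := (Cc G).filter fun C => x ∈ C ∧ y ∈ C with hD
  set R := univ.filter fun v => v ∉ L G x y ∧ d G v (L G x y) = 0 with hR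
  have hRm : ∀ v, v ∈ R ↔ v ∉ L G x y ∧ d G v (L G x y) = 0 := fun v => by rw [hR]; simp
  have hDm : ∀ C, C ∈ D ↔ Big G C ∧ x ∈ C ∧ y ∈ C := fun C => by rw [hD, mem_filter, mem_Cc]
  have hRc : R.card = 32 := card_off hG h hn
  have e : R = D.biUnion fun C => C \ L G x y := by
    ext v
    rw [hRm, mem_biUnion]
    constructor
    · rintro ⟨hv, hd⟩
      refine ⟨U G v x y, (hDm _).2 ⟨U_big hG h hn hd hv, L_sub_U hG (left_mem hG x y), L_sub_U hG (right_mem hG x y)⟩, ?_⟩
      rw [mem_sdiff]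
      exact ⟨mem_U_self hG, hv⟩
    · rintro ⟨C, hC, hv⟩
      rw [hDm] at hC
      rw [mem_sdiff] at hv
      exact ⟨hv.2, (big_eq_U hG hC.1 h hC.2.1 hC.2.2 hv.1 hv.2).1⟩
  rw [e, Finset.card_biUnion] at hRc
  · have : ∀ C ∈ D, (C \ L G x y).card = 16 := by
      intro C hC
      rw [hDm] at hC
      rw [Finset.card_sdiff_of_subset (big_closed hG hC.1 h hC.2.1 hC.2.2), hC.1.1, L_card hG h hn]
    rw [Finset.sum_congr rfl this, Finset.sum_const, smul_eq_mul] at hRc
    omega
  · intro C hC C' hC' hne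
    change Disjoint _ _
    rw [Finset.disjoint_left]
    intro v hv hv'
    rw [mem_sdiff] at hv hv'
    have hC1 := (hDm _).1 hC
    have hC2 := (hDm _).1 hC'
    exact hne ((big_eq_U hG hC1.1 h hC1.2.1 hC1.2.2 hv.1 hv.2).2.trans
      (big_eq_U hG hC2.1 h hC2.2.1 hC2.2.2 hv'.1 hv'.2).2.symm)

theorem zero {x y : V} (hn : G.Adj x y) :
    ((Cc G).filter fun C => x ∈ C ∧ y ∈ C) = ∅ := by
  ext C
  simp only [mem_filter, mem_Cc, notMem_empty, iff_false]
  rintro ⟨hC, hx, hy⟩
  exact hC.2 x hx y hy hn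

theorem six (x : V) : ((Cc G).filter fun C => x ∈ C).card = 6 := by
  set D := (Cc G).filter fun C => x ∈ C with hD
  have hDm : ∀ C, C ∈ D ↔ Big G C ∧ x ∈ C := fun C => by rw [hD, mem_filter, mem_Cc]
  have h1 : ∑ C ∈ D, (C.erase x).card = ∑ y ∈ univ.filter (fun y => x ≠ y ∧ ¬ G.Adj x y),
      ((Cc G).filter fun C => x ∈ C ∧ y ∈ C).card := by
    have h2 : ∀ C ∈ D, (C.erase x).card = ∑ y ∈ univ.filter (fun y => x ≠ y ∧ ¬ G.Adj x y), if y ∈ C then 1 else 0 := by
      intro C hC
      rw [hDm] at hC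
      rw [Finset.sum_ite_mem, Finset.sum_const, smul_eq_mul, mul_one]
      congr 1
      ext y
      simp only [mem_erase, mem_inter, mem_filter, mem_univ, true_and]
      constructor
      · rintro ⟨h1, h2⟩
        exact ⟨⟨fun e => h1 e.symm, hC.1.2 x hC.2 y h2⟩, h2⟩
      · rintro ⟨⟨h1, _⟩, h2⟩
        exact ⟨fun e => h1 e.symm, h2⟩
    rw [Finset.sum_congr rfl h2, Finset.sum_comm]
    refine Finset.sum_congr rfl fun y _ => ?_
    rw [← Finset.card_filter, hD, Finset.filter_filter]
  have h2 : ∀ C ∈ D, (C.erase x).card = 20 := by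
    intro C hC
    rw [hDm] at hC
    rw [Finset.card_erase_of_mem hC.2, hC.1.1]
  have h3 : ∀ y ∈ univ.filter (fun y => x ≠ y ∧ ¬ G.Adj x y), ((Cc G).filter fun C => x ∈ C ∧ y ∈ C).card = 2 := by
    intro y hy
    rw [mem_filter] at hy
    exact two hG hy.2.1 hy.2.2
  rw [Finset.sum_congr rfl h2, Finset.sum_congr rfl h3, Finset.sum_const, Finset.sum_const] at h1
  have h4 : (univ.filter (fun y => x ≠ y ∧ ¬ G.Adj x y)).card = 60 := by
    have h5 := Finset.card_filter_add_card_filter_not (s := (univ : Finset V)) (fun y => G.Adj x y)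
    rw [hG.deg, Finset.card_univ, hG.card] at h5
    have h6 : univ.filter (fun y => ¬ G.Adj x y) = insert x (univ.filter (fun y => x ≠ y ∧ ¬ G.Adj x y)) := by
      ext y
      simp only [mem_filter, mem_univ, true_and, mem_insert]
      constructor
      · intro h
        by_cases e : y = x
        · exact Or.inl e
        · exact Or.inr ⟨fun e' => e e'.symm, h⟩
      · rintro (rfl | h)
        · exact G.loopless.irrefl _
        · exact h.2
    rw [h6, Finset.card_insert_of_notMem] at h5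
    · omega
    · simp
  rw [h4] at h1
  simp only [smul_eq_mul] at h1
  omega

theorem card_Cc : (Cc G).card = 22 := by
  have h1 : ∑ C ∈ Cc G, C.card = ∑ x : V, ((Cc G).filter fun C => x ∈ C).card := by
    have h2 : ∀ C ∈ Cc G, C.card = ∑ x : V, if x ∈ C then 1 else 0 := by
      intro C _
      rw [Finset.sum_ite_mem, Finset.univ_inter, Finset.sum_const, smul_eq_mul, mul_one]
    rw [Finset.sum_congr rfl h2, Finset.sum_comm]
    exact Finset.sum_congr rfl fun x _ => (Finset.card_filter _ _).symm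
  rw [Finset.sum_congr rfl (fun C hC => (mem_Cc.1 hC).1), Finset.sum_congr rfl (fun x _ => six hG x),
    Finset.sum_const, Finset.sum_const, Finset.card_univ, hG.card] at h1
  simp only [smul_eq_mul] at h1
  omega

end

end H86.SRG77
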