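import Cfsg.Agent.Lib.H86.SRG77C
import Cfsg.Prelude.Def_Sporadic_a

set_option autoImplicit false

/-! Strongly regular graphs with parameters (77, 16, 0, 4): the Steiner system S(3, 6, 22). -/

namespace H86.SRG77

open Finset

variable {V : Type*} [Fintype V] [DecidableEq V] {G : SimpleGraph V} [DecidableRel G.Adj]

set_option linter.unusedSectionVars false

variable (G) in
abbrev Pt := ↥(Cc G)

variable (G) in
noncomputable def blk (v : V) : Finset (Pt G) := univ.filter fun C => v ∈ C.1

theorem mem_blk {v : V} {C : Pt G} : C ∈ blk G v ↔ v ∈ C.1 := by unfold blk; simp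

theorem card_filter_pt (P : Finset V → Prop) [DecidablePred P] :
    (univ.filter fun C : Pt G => P C.1).card = ((Cc G).filter P).card := by
  rw [← Finset.card_map ⟨Subtype.val, Subtype.val_injective⟩]
  congr 1
  ext d
  simp only [Finset.mem_map, Finset.mem_filter, Finset.mem_univ, true_and, Function.Embedding.coeFn_mk]
  constructor
  · rintro ⟨b, hb, rfl⟩; exact ⟨b.2, hb⟩
  · rintro ⟨hd, hP⟩; exact ⟨⟨d, hd⟩, hP, rfl⟩

section
variable (hG : Dat G)
include hG

theorem card_Pt : Fintype.card (Pt G) = 22 := by
  rw [Fintype.card_coe]; exact card_Cc hG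

theorem card_blk (v : V) : (blk G v).card = 6 := by
  unfold blk
  rw [card_filter_pt (fun C => v ∈ C)]
  exact six hG v

theorem blk_inter (v w : V) : (blk G v ∩ blk G w).card = ((Cc G).filter fun C => v ∈ C ∧ w ∈ C).card := by
  rw [← card_filter_pt (fun C => v ∈ C ∧ w ∈ C)]
  congr 1
  ext C
  simp [mem_blk]

theorem blk_disj (v w : V) : G.Adj v w ↔ Disjoint (blk G v) (blk G w) := by
  rw [Finset.disjoint_iff_inter_eq_empty, ← Finset.card_eq_zero, blk_inter hG]
  constructor
  · intro h; rw [zero hG h]; rfl
  · intro h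
    by_contra hn
    by_cases e : v = w
    · subst e
      have := six hG v
      simp only [and_self] at h
      omega
    · rw [two hG e hn] at h
      omega

theorem blk_inter_le {v w : V} (h : v ≠ w) : (blk G v ∩ blk G w).card ≤ 2 := by
  rw [blk_inter hG]
  by_cases hn : G.Adj v w
  · rw [zero hG hn]; simp
  · rw [two hG h hn]

theorem blk_inj : Function.Injective (blk G) := by
  intro v w e
  by_contra h
  have := blk_inter_le hG h
  rw [e, Finset.inter_self, card_blk hG] at this
  omega

theorem steiner : Cfsg.IsSteinerSystem 3 6 (Set.range (blk G)) := by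
  refine ⟨?_, ?_⟩
  · rintro b ⟨v, rfl⟩
    exact card_blk hG v
  · -- each triple is in at most one block
    have hle : ∀ s ∈ powersetCard 3 (univ : Finset (Pt G)), (univ.filter fun v => s ⊆ blk G v).card ≤ 1 := by
      intro s hs
      rw [mem_powersetCard] at hs
      rw [Finset.card_le_one]
      intro v hv w hw
      rw [mem_filter] at hv hw
      by_contra h
      have h1 := blk_inter_le hG h
      have h2 := Finset.card_le_card (Finset.subset_inter hv.2 hw.2)
      omega
    have hsum : ∑ s ∈ powersetCard 3 (univ : Finset (Pt G)), (univ.filter fun v => s ⊆ blk G v).card =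
        ∑ s ∈ powersetCard 3 (univ : Finset (Pt G)), 1 := by
      have h1 : ∀ s ∈ powersetCard 3 (univ : Finset (Pt G)), (univ.filter fun v => s ⊆ blk G v).card =
          ∑ v : V, if s ⊆ blk G v then 1 else 0 := fun s _ => Finset.card_filter _ _
      rw [Finset.sum_congr rfl h1, Finset.sum_comm]
      have h2 : ∀ v ∈ (univ : Finset V), ∑ s ∈ powersetCard 3 (univ : Finset (Pt G)), (if s ⊆ blk G v then 1 else 0) = 20 := by
        intro v _
        rw [← Finset.card_filter]
        have : (powersetCard 3 (univ : Finset (Pt G))).filter (fun s => s ⊆ blk G v) = powersetCard 3 (blk G v) := by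
          ext s
          simp only [mem_filter, mem_powersetCard]
          constructor
          · rintro ⟨⟨_, h⟩, h'⟩; exact ⟨h', h⟩
          · rintro ⟨h', h⟩; exact ⟨⟨Finset.subset_univ _, h⟩, h'⟩
        rw [this, Finset.card_powersetCard, card_blk hG]
        rfl
      rw [Finset.sum_congr rfl h2, Finset.sum_const, Finset.sum_const, Finset.card_powersetCard, Finset.card_univ,
        Finset.card_univ, hG.card, card_Pt hG]
      rfl
    intro s hs
    have hmem : s ∈ powersetCard 3 (univ : Finset (Pt G)) := mem_powersetCard.2 ⟨Finset.subset_univ _, hs⟩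
    have h1 := (Finset.sum_eq_sum_iff_of_le hle).1 hsum s hmem
    rw [Finset.card_eq_one] at h1
    obtain ⟨v, hv⟩ := h1
    have hv1 : s ⊆ blk G v := by
      have : v ∈ univ.filter fun v => s ⊆ blk G v := by rw [hv]; simp
      exact (mem_filter.1 this).2
    refine ⟨blk G v, ⟨⟨v, rfl⟩, hv1⟩, ?_⟩
    rintro b ⟨⟨w, rfl⟩, hw⟩
    have : w ∈ univ.filter fun v => s ⊆ blk G v := mem_filter.2 ⟨mem_univ _, hw⟩
    rw [hv, mem_singleton] at this
    rw [this]

end

end H86.SRG77
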