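import Mathlib
import Cfsg.Agent.Lib.H86.Aniso

/-! A class-2 group `D` all of whose squares are central, with exactly four solutions of `x²=1`, all
of them central: the squaring map is an anisotropic quadratic map `D/Z(D) → Z(D)/Z(D)²`. -/

set_option autoImplicit false

namespace H86.ThreeInv

open Subgroup
open scoped IsMulCommutative
open scoped commutatorElement
open H86.Aniso

variable {D : Type*} [Group D]

/-- `Z(D)/Z(D)²` -/
abbrev WW (D : Type*) [Group D] : Type _ := center D ⧸ (powMonoidHom (α := center D) 2).range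

theorem WW_sq (w : WW D) : w * w = 1 := by
  induction w using QuotientGroup.induction_on with
  | H z =>
    rw [← QuotientGroup.mk_mul, QuotientGroup.eq_one_iff]
    exact ⟨z, by rw [powMonoidHom_apply, pow_two]⟩

/-- squares of elements, in `Z(D)/Z(D)²` -/
def sq (hsq : ∀ x : D, x * x ∈ center D) (x : D) : WW D :=
  QuotientGroup.mk (⟨x * x, hsq x⟩ : center D)

theorem sq_mul_center (hsq : ∀ x : D, x * x ∈ center D) (x z : D) (hz : z ∈ center D) :
    sq hsq (x * z) = sq hsq x := by
  unfold sq
  have h : (⟨x * z * (x * z), hsq (x * z)⟩ : center D) = ⟨x * x, hsq x⟩ * (⟨z, hz⟩ * ⟨z, hz⟩) := by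
    apply Subtype.ext
    show x * z * (x * z) = x * x * (z * z)
    have := mem_center_iff.mp hz x
    rw [mul_assoc, ← mul_assoc z, ← this]
    group
  rw [h, QuotientGroup.mk_mul, QuotientGroup.mk_mul, WW_sq, mul_one]

theorem comm_mem (hsq : ∀ x : D, x * x ∈ center D) (x y : D) : ⁅x, y⁆ ∈ center D := by
  have key : ∀ v : D ⧸ center D, v * v = 1 := by
    intro v
    induction v using QuotientGroup.induction_on with
    | H z => rw [← QuotientGroup.mk_mul, QuotientGroup.eq_one_iff]; exact hsq z
  have hinv : ∀ v : D ⧸ center D, v⁻¹ = v := fun v => inv_eq_of_mul_eq_one_left (key v)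
  rw [← QuotientGroup.eq_one_iff, commutatorElement_def, QuotientGroup.mk_mul,
    QuotientGroup.mk_mul, QuotientGroup.mk_mul, QuotientGroup.mk_inv, QuotientGroup.mk_inv,
    hinv, hinv, mul_assoc, key]

/-- the commutator in `Z(D)/Z(D)²` -/
def cc (hsq : ∀ x : D, x * x ∈ center D) (x y : D) : WW D :=
  QuotientGroup.mk (⟨⁅x⁻¹, y⁆, comm_mem hsq _ _⟩ : center D)

theorem sq_mul (hsq : ∀ x : D, x * x ∈ center D) (x y : D) :
    sq hsq (x * y) = sq hsq x * cc hsq x y * sq hsq y := by
  unfold sq cc
  rw [← QuotientGroup.mk_mul, ← QuotientGroup.mk_mul]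
  congr 1
  apply Subtype.ext
  show x * y * (x * y) = x * x * ⁅x⁻¹, y⁆ * (y * y)
  rw [commutatorElement_def]
  group

theorem cc_mul (hsq : ∀ x : D, x * x ∈ center D) (x y w : D) :
    cc hsq x (y * w) = cc hsq x y * cc hsq x w := by
  unfold cc
  rw [← QuotientGroup.mk_mul]
  congr 1
  apply Subtype.ext
  show ⁅x⁻¹, y * w⁆ = ⁅x⁻¹, y⁆ * ⁅x⁻¹, w⁆
  have h : ⁅x⁻¹, y * w⁆ = ⁅x⁻¹, y⁆ * (y * ⁅x⁻¹, w⁆ * y⁻¹) := by
    rw [commutatorElement_def, commutatorElement_def, commutatorElement_def]
    group
  rw [h, mem_center_iff.mp (comm_mem hsq x⁻¹ w) y, mul_inv_cancel_right]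

/-- the squaring map on `D/Z(D)` -/
def qq (hsq : ∀ x : D, x * x ∈ center D) : Additive (D ⧸ center D) → Additive (WW D) :=
  fun v => Additive.ofMul (Quotient.lift (sq hsq) (by
    intro a b hab
    have h : a⁻¹ * b ∈ center D := QuotientGroup.leftRel_apply.mp hab
    have h2 := sq_mul_center hsq a (a⁻¹ * b) h
    rw [mul_inv_cancel_left] at h2
    exact h2.symm) v.toMul)

theorem qq_mk (hsq : ∀ x : D, x * x ∈ center D) (x : D) :
    qq hsq (Additive.ofMul (QuotientGroup.mk x : D ⧸ center D)) = Additive.ofMul (sq hsq x) := rfl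

theorem qq_isQ (hsq : ∀ x : D, x * x ∈ center D) : IsQ (qq hsq) := by
  have key : ∀ x y w : D, qq hsq (Additive.ofMul (QuotientGroup.mk x : D ⧸ center D) +
      (Additive.ofMul (QuotientGroup.mk y : D ⧸ center D) +
        Additive.ofMul (QuotientGroup.mk w : D ⧸ center D))) +
      (qq hsq (Additive.ofMul (QuotientGroup.mk x : D ⧸ center D)) +
      qq hsq (Additive.ofMul (QuotientGroup.mk y : D ⧸ center D) +
        Additive.ofMul (QuotientGroup.mk w : D ⧸ center D))) =
      Additive.ofMul (cc hsq x (y * w)) := by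
    intro x y w
    have h1 : qq hsq (Additive.ofMul (QuotientGroup.mk x : D ⧸ center D) +
      (Additive.ofMul (QuotientGroup.mk y : D ⧸ center D) +
        Additive.ofMul (QuotientGroup.mk w : D ⧸ center D))) =
        Additive.ofMul (sq hsq (x * (y * w))) := rfl
    have h2 : qq hsq (Additive.ofMul (QuotientGroup.mk y : D ⧸ center D) +
        Additive.ofMul (QuotientGroup.mk w : D ⧸ center D)) =
        Additive.ofMul (sq hsq (y * w)) := rfl
    rw [h1, h2, qq_mk, sq_mul hsq x (y * w)]
    rw [← ofMul_mul, ← ofMul_mul]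
    congr 1
    have e : sq hsq x * cc hsq x (y * w) * sq hsq (y * w) * (sq hsq x * sq hsq (y * w)) =
        cc hsq x (y * w) * (sq hsq x * sq hsq x) * (sq hsq (y * w) * sq hsq (y * w)) := by
      rw [mul_comm (sq hsq x) (cc hsq x (y * w))]
      simp only [mul_assoc, mul_left_comm]
    rw [e, WW_sq, WW_sq, mul_one, mul_one]
  have key2 : ∀ x y : D, qq hsq (Additive.ofMul (QuotientGroup.mk x : D ⧸ center D) +
      Additive.ofMul (QuotientGroup.mk y : D ⧸ center D)) +
      (qq hsq (Additive.ofMul (QuotientGroup.mk x : D ⧸ center D)) +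
      qq hsq (Additive.ofMul (QuotientGroup.mk y : D ⧸ center D))) =
      Additive.ofMul (cc hsq x y) := by
    intro x y
    have h1 : qq hsq (Additive.ofMul (QuotientGroup.mk x : D ⧸ center D) +
      Additive.ofMul (QuotientGroup.mk y : D ⧸ center D)) =
        Additive.ofMul (sq hsq (x * y)) := rfl
    rw [h1, qq_mk, qq_mk, sq_mul hsq x y, ← ofMul_mul, ← ofMul_mul]
    congr 1
    have e : sq hsq x * cc hsq x y * sq hsq y * (sq hsq x * sq hsq y) =
        cc hsq x y * (sq hsq x * sq hsq x) * (sq hsq y * sq hsq y) := by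
      rw [mul_comm (sq hsq x) (cc hsq x y)]
      simp only [mul_assoc, mul_left_comm]
    rw [e, WW_sq, WW_sq, mul_one, mul_one]
  intro u v w
  induction u using Additive.rec with
  | ofMul u =>
  induction v using Additive.rec with
  | ofMul v =>
  induction w using Additive.rec with
  | ofMul w =>
  induction u using QuotientGroup.induction_on with
  | H x =>
  induction v using QuotientGroup.induction_on with
  | H y =>
  induction w using QuotientGroup.induction_on with
  | H z =>
    rw [key, key2, key2, cc_mul, ofMul_mul]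

theorem VV_sq (hsq : ∀ x : D, x * x ∈ center D) (v : D ⧸ center D) : v * v = 1 := by
  induction v using QuotientGroup.induction_on with
  | H z => rw [← QuotientGroup.mk_mul, QuotientGroup.eq_one_iff]; exact hsq z

/-- `D/Z(D)` is abelian -/
@[reducible] def commV (hsq : ∀ x : D, x * x ∈ center D) : CommGroup (D ⧸ center D) :=
  { (inferInstance : Group (D ⧸ center D)) with
    mul_comm := fun a b => by
      have hinv : ∀ v : D ⧸ center D, v⁻¹ = v := fun v => inv_eq_of_mul_eq_one_left (VV_sq hsq v)
      have h := hinv (a * b)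
      rw [mul_inv_rev, hinv, hinv] at h
      exact h.symm }

theorem card_W [Finite D] (h1 : ∀ x : D, x * x = 1 → x ∈ center D)
    (h4 : Nat.card {x : D // x * x = 1} = 4) : Nat.card (WW D) = 4 := by
  have e1 := Subgroup.card_eq_card_quotient_mul_card_subgroup (powMonoidHom (α := center D) 2).range
  have e2 := Subgroup.card_eq_card_quotient_mul_card_subgroup (powMonoidHom (α := center D) 2).ker
  have e3 : Nat.card (center D ⧸ (powMonoidHom (α := center D) 2).ker) =
      Nat.card (powMonoidHom (α := center D) 2).range :=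
    Nat.card_congr (QuotientGroup.quotientKerEquivRange _).toEquiv
  have e4 : Nat.card (powMonoidHom (α := center D) 2).ker = 4 := by
    rw [← h4]
    refine Nat.card_congr ⟨fun z => ⟨z.1.1, ?_⟩, fun x => ⟨⟨x.1, h1 x.1 x.2⟩, ?_⟩, ?_, ?_⟩
    · have := congrArg Subtype.val (MonoidHom.mem_ker.mp z.2)
      rw [powMonoidHom_apply, pow_two] at this
      exact this
    · rw [MonoidHom.mem_ker, powMonoidHom_apply, pow_two]
      apply Subtype.ext
      exact x.2
    · intro z; rfl
    · intro x; rfl
  rw [e3, e4] at e2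
  have hpos : 0 < Nat.card (powMonoidHom (α := center D) 2).range := Nat.card_pos
  have : Nat.card (WW D) * Nat.card (powMonoidHom (α := center D) 2).range =
      4 * Nat.card (powMonoidHom (α := center D) 2).range := by
    rw [← e1, e2, mul_comm]
  exact Nat.eq_of_mul_eq_mul_right hpos this

theorem qq_an (hsq : ∀ x : D, x * x ∈ center D) (h1 : ∀ x : D, x * x = 1 → x ∈ center D)
    (v : Additive (D ⧸ center D)) (hv : qq hsq v = 0) : v = 0 := by
  induction v using Additive.rec with
  | ofMul v =>
  induction v using QuotientGroup.induction_on with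
  | H x =>
    have h : sq hsq x = 1 := hv
    unfold sq at h
    rw [QuotientGroup.eq_one_iff] at h
    obtain ⟨z, hz⟩ := h
    have hz' : (z : D) * z = x * x := by
      have := congrArg Subtype.val hz
      rw [powMonoidHom_apply, pow_two] at this
      exact this
    have hzc := mem_center_iff.mp z.2
    have hxz : x * (z : D)⁻¹ ∈ center D := by
      apply h1
      have e : x * (z : D)⁻¹ * (x * (z : D)⁻¹) = x * x * ((z : D) * z)⁻¹ := by
        rw [mul_inv_rev]
        have h3 : (z : D)⁻¹ * x = x * (z : D)⁻¹ := by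
          have := hzc x
          rw [inv_mul_eq_iff_eq_mul, ← mul_assoc, ← this, mul_inv_cancel_right]
        rw [mul_assoc, ← mul_assoc (z : D)⁻¹, h3]
        group
      rw [e, hz', mul_inv_cancel]
    have hx : x ∈ center D := by
      have := mul_mem hxz z.2
      rwa [inv_mul_cancel_right] at this
    have h5 : (QuotientGroup.mk x : D ⧸ center D) = 1 := (QuotientGroup.eq_one_iff x).mpr hx
    rw [h5]
    rfl

theorem qq_zero (hsq : ∀ x : D, x * x ∈ center D) : qq hsq 0 = 0 := by
  have h : qq hsq (Additive.ofMul (QuotientGroup.mk (1 : D) : D ⧸ center D)) = 0 := by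
    rw [qq_mk]
    unfold sq
    have : (⟨1 * 1, hsq 1⟩ : center D) = 1 := Subtype.ext (mul_one 1)
    rw [this]
    rfl
  exact h

/-- the induced map on `D/Z(D)` -/
def ind (g : D ≃* D) (v : Additive (D ⧸ center D)) : Additive (D ⧸ center D) :=
  Additive.ofMul (QuotientGroup.map (center D) (center D) (g : D →* D) (by
    intro x hx
    rw [mem_comap]
    have : (center D).map (g : D →* D) ≤ center D :=
      (Subgroup.characteristic_iff_map_le.mp inferInstance) g
    exact this (mem_map_of_mem _ hx)) v.toMul)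

theorem ind_mk (g : D ≃* D) (x : D) :
    ind g (Additive.ofMul (QuotientGroup.mk x : D ⧸ center D)) =
      Additive.ofMul (QuotientGroup.mk (g x) : D ⧸ center D) := rfl

theorem ind_add (g : D ≃* D) (a b : Additive (D ⧸ center D)) :
    ind g (a + b) = ind g a + ind g b := by
  unfold ind
  rw [toMul_add, map_mul, ofMul_mul]

theorem ind_iter (g : D ≃* D) (i : ℕ) (x : D) :
    (ind g)^[i] (Additive.ofMul (QuotientGroup.mk x : D ⧸ center D)) =
      Additive.ofMul (QuotientGroup.mk (g^[i] x) : D ⧸ center D) := by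
  induction i generalizing x with
  | zero => rfl
  | succ i ih => rw [Function.iterate_succ_apply, ind_mk, ih, ← Function.iterate_succ_apply]

theorem ind_qq (hsq : ∀ x : D, x * x ∈ center D) (g : D ≃* D) (hg : ∀ z ∈ center D, g z = z)
    (v : Additive (D ⧸ center D)) : qq hsq (ind g v) = qq hsq v := by
  induction v using Additive.rec with
  | ofMul v =>
  induction v using QuotientGroup.induction_on with
  | H x =>
    rw [ind_mk, qq_mk, qq_mk]
    unfold sq
    have : (⟨g x * g x, hsq (g x)⟩ : center D) = ⟨x * x, hsq x⟩ := by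
      apply Subtype.ext
      show g x * g x = x * x
      rw [← map_mul, hg _ (hsq x)]
    rw [this]

/-- a group of automorphisms of prime order `p ≥ 5` acting nontrivially on `D/Z(D)` has `p = 5` -/
theorem main_five [Finite D] (hsq : ∀ x : D, x * x ∈ center D)
    (h1 : ∀ x : D, x * x = 1 → x ∈ center D) (h4 : Nat.card {x : D // x * x = 1} = 4)
    {p : ℕ} [hp : Fact p.Prime] (hp5 : 5 ≤ p) (g : D ≃* D) (hgp : ∀ x, g^[p] x = x)
    (hg : ∀ z ∈ center D, g z = z) (hg1 : ∃ x, x⁻¹ * g x ∉ center D) :
    p = 5 ∧ Nat.card (Additive (D ⧸ center D)) = 16 ∧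
      ∀ w, w ≠ 0 → Nat.card {v : Additive (D ⧸ center D) // qq hsq v = w} = 5 := by
  letI := commV hsq
  refine prime_five (V := Additive (D ⧸ center D)) (W := Additive (WW D)) (q := qq hsq)
    (VV_sq hsq) WW_sq (card_W h1 h4) (qq_isQ hsq) (qq_an hsq h1) hp5 (ind g) (ind_add g) ?_
    (ind_qq hsq g hg) ?_
  · intro v
    induction v using Additive.rec with
    | ofMul v =>
    induction v using QuotientGroup.induction_on with
    | H x => rw [ind_iter, hgp]
  · obtain ⟨x, hx⟩ := hg1
    refine ⟨Additive.ofMul (QuotientGroup.mk x : D ⧸ center D), ?_⟩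
    rw [ind_mk]
    intro h
    apply hx
    exact QuotientGroup.eq.mp h.symm

theorem main_three [Finite D] (hsq : ∀ x : D, x * x ∈ center D)
    (h1 : ∀ x : D, x * x = 1 → x ∈ center D) (h4 : Nat.card {x : D // x * x = 1} = 4)
    (h16 : Nat.card (Additive (D ⧸ center D)) = 16)
    (h5 : ∀ w, w ≠ 0 → Nat.card {v : Additive (D ⧸ center D) // qq hsq v = w} = 5)
    (g : D ≃* D) (hgp : ∀ x, g^[3] x = x)
    (hg : ∀ z ∈ center D, g z = z) (x : D) : x⁻¹ * g x ∈ center D := by
  letI := commV hsq
  have h := no_three (V := Additive (D ⧸ center D)) (W := Additive (WW D)) (q := qq hsq)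
    (VV_sq hsq) (card_W h1 h4)
    (fun v => ⟨qq_an hsq h1 v, fun h => by rw [h]; exact qq_zero hsq⟩) h16 h5 (ind g) (ind_add g)
    (by
      intro v
      induction v using Additive.rec with
      | ofMul v =>
      induction v using QuotientGroup.induction_on with
      | H x => rw [ind_iter, hgp]) (ind_qq hsq g hg)
    (Additive.ofMul (QuotientGroup.mk x : D ⧸ center D))
  rw [ind_mk] at h
  exact QuotientGroup.eq.mp h.symm

end H86.ThreeInv
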