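import Mathlib
import Cfsg.Agent.Lib.H86.ThreeInv
import Cfsg.Agent.Lib.H3.Critical
import Cfsg.Agent.Lib.H4.Burnside

/-! Automorphisms of a 2-group with exactly three involutions. -/

set_option autoImplicit false

namespace H86.ThreeInvB

open Subgroup
open scoped commutatorElement

/-- restriction of an automorphism to a characteristic subgroup -/
def res {P : Type*} [Group P] (C : Subgroup P) (hC : C.Characteristic) (g : MulAut P) :
    MulAut C where
  toFun x := ⟨g x, (H3.Critical.char_apply_mem (hD := hC) g).mpr x.2⟩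
  invFun x := ⟨g.symm x, (H3.Critical.char_apply_mem (hD := hC) g.symm).mpr x.2⟩
  left_inv x := Subtype.ext (g.symm_apply_apply x)
  right_inv x := Subtype.ext (g.apply_symm_apply x)
  map_mul' x y := Subtype.ext (map_mul g (x : P) y)

theorem res_apply {P : Type*} [Group P] (C : Subgroup P) (hC : C.Characteristic) (g : MulAut P)
    (x : C) : ((res C hC g x : C) : P) = g x := rfl

/-- restriction as a homomorphism -/
def resHom {P : Type*} [Group P] (C : Subgroup P) (hC : C.Characteristic) :
    MulAut P →* MulAut C where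
  toFun := res C hC
  map_one' := rfl
  map_mul' g h := rfl

theorem iter_eq {P : Type*} [Group P] (g : MulAut P) (n : ℕ) (x : P) : g^[n] x = (g ^ n) x := by
  induction n generalizing x with
  | zero => rfl
  | succ n ih => rw [Function.iterate_succ_apply, ih, pow_succ]; rfl

section central

variable {Y : Type*} [Group Y] [Finite Y]

theorem fix_of_omega (hY : IsPGroup 2 Y) (a : MulAut Y) (ha : Nat.Coprime (orderOf a) 2)
    (Z : Subgroup Y) (hZ : Z.Characteristic) (hZc : ∀ x ∈ Z, ∀ y ∈ Z, x * y = y * x)
    (hfix : ∀ x : Y, x * x = 1 → a x = x) : ∀ z ∈ Z, a z = z := by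
  have : Fact (Nat.Prime 2) := ⟨Nat.prime_two⟩
  have key : ∀ n : ℕ, ∀ z ∈ Z, z ^ 2 ^ n = 1 → a z = z := by
    intro n
    induction n with
    | zero =>
      intro z _ hz
      rw [pow_zero, pow_one] at hz
      rw [hz, map_one]
    | succ n ih =>
      intro z hzZ hz
      have h2 : a (z * z) = z * z := by
        apply ih _ (mul_mem hzZ hzZ)
        rw [← pow_two, ← pow_mul, ← pow_succ']
        exact hz
      have haz : a z ∈ Z := (H3.Critical.char_apply_mem (hD := hZ) a).mpr hzZ
      have hc : (z⁻¹ * a z) * (z⁻¹ * a z) = 1 := by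
        have h3 := hZc _ (inv_mem hzZ) _ haz
        calc (z⁻¹ * a z) * (z⁻¹ * a z) = (z⁻¹ * a z) * (a z * z⁻¹) := by rw [h3]
          _ = z⁻¹ * (a z * a z) * z⁻¹ := by group
          _ = z⁻¹ * (z * z) * z⁻¹ := by rw [← map_mul, h2]
          _ = 1 := by group
      have h4 := H3.Critical.eq_one_of_fix_mul hY a ha (x := z) (c := z⁻¹ * a z) (by group)
        (hfix _ hc)
      rw [inv_mul_eq_one] at h4
      exact h4.symm
  intro z hz
  obtain ⟨k, hk⟩ := hY z
  exact key k z hz hk

theorem Y_main (hY : IsPGroup 2 Y) (h1 : ∀ y : Y, y * y = 1 → y ∈ center Y)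
    (h4 : Nat.card {y : Y // y * y = 1} = 4) {p : ℕ} [hp : Fact p.Prime] (hp5 : 5 ≤ p)
    (g : MulAut Y) (hg : orderOf g = p) (hgf : ∀ y, y * y = 1 → g y = y) :
    p = 5 ∧ ∀ h : MulAut Y, h ^ 3 = 1 → (∀ y, y * y = 1 → h y = y) → h = 1 := by
  have : Fact (Nat.Prime 2) := ⟨Nat.prime_two⟩
  obtain ⟨C, hC, hCsq, hCcom, hCC⟩ := H3.Critical.exists_critical hY
  have hctr : ∀ z : C, z ∈ center C ↔ (z : Y) ∈ centralizer (C : Set Y) := by
    intro z
    rw [mem_center_iff, mem_centralizer_iff]
    constructor
    · intro h x hx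
      exact congrArg Subtype.val (h ⟨x, hx⟩)
    · intro h x
      exact Subtype.ext (h x x.2)
  have hsq : ∀ x : C, x * x ∈ center C := by
    intro x
    rw [hctr]
    have := (hCsq x x.2).2
    rw [pow_two] at this
    exact this
  have hle : ∀ y : Y, y * y = 1 → y ∈ C := by
    intro y hy
    apply hCC
    rw [mem_centralizer_iff]
    intro x _
    exact mem_center_iff.mp (h1 y hy) x
  have h1C : ∀ x : C, x * x = 1 → x ∈ center C := by
    intro x hx
    rw [hctr, mem_centralizer_iff]
    intro y _
    exact mem_center_iff.mp (h1 x (congrArg Subtype.val hx)) y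
  have h4C : Nat.card {x : C // x * x = 1} = 4 := by
    rw [← h4]
    refine Nat.card_congr ⟨fun x => ⟨x.1.1, congrArg Subtype.val x.2⟩,
      fun y => ⟨⟨y.1, hle y.1 y.2⟩, Subtype.ext y.2⟩, fun x => rfl, fun y => rfl⟩
  have hZchar : (centralizer (C : Set Y)).Characteristic := inferInstance
  have hZcomm : ∀ x ∈ centralizer (C : Set Y), ∀ y ∈ centralizer (C : Set Y), x * y = y * x := by
    intro x hx y hy
    exact (mem_centralizer_iff.mp hx y (hCC hy)).symm
  -- automorphisms of odd order fixing the involutions fix the center of C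
  have hfixZ : ∀ a : MulAut Y, Nat.Coprime (orderOf a) 2 → (∀ y, y * y = 1 → a y = y) →
      ∀ z ∈ center C, (res C hC a) z = z := by
    intro a ha haf z hz
    apply Subtype.ext
    rw [res_apply]
    exact fix_of_omega hY a ha _ hZchar hZcomm haf z ((hctr z).mp hz)
  -- and act nontrivially on C/Z(C)
  have hnontriv : ∀ a : MulAut Y, Nat.Coprime (orderOf a) 2 → (∀ y, y * y = 1 → a y = y) →
      (∀ x : C, x⁻¹ * (res C hC a) x ∈ center C) → a = 1 := by
    intro a ha haf htr
    apply H3.Critical.eq_one_of_fix hY a ha C hCC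
    intro x hx
    have h2 := htr ⟨x, hx⟩
    have h3 := hfixZ a ha haf _ h2
    have h5 := H3.Critical.eq_one_of_fix_mul hY a ha (x := x) (c := x⁻¹ * a x) (by group)
      (congrArg Subtype.val h3)
    rw [inv_mul_eq_one] at h5
    exact h5.symm
  have hcop : Nat.Coprime (orderOf g) 2 := by
    rw [hg]
    exact (Nat.coprime_primes hp.out Nat.prime_two).mpr (by omega)
  have hg1 : g ≠ 1 := by
    intro h
    rw [h, orderOf_one] at hg
    exact hp.out.one_lt.ne hg
  have hgp : g ^ p = 1 := by rw [← hg]; exact pow_orderOf_eq_one g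
  obtain ⟨r1, r2, r3⟩ := H86.ThreeInv.main_five hsq h1C h4C hp5 (res C hC g)
    (by
      intro x
      apply Subtype.ext
      have h2 : ((resHom C hC g) ^ p) x = x := by rw [← map_pow, hgp]; rfl
      have h3 : (resHom C hC g)^[p] x = x := by rw [iter_eq, h2]
      exact congrArg Subtype.val h3)
    (hfixZ g hcop hgf)
    (by
      by_contra hcon
      push Not at hcon
      exact hg1 (hnontriv g hcop hgf hcon))
  refine ⟨r1, ?_⟩
  intro h hh3 hhf
  have hcoph : Nat.Coprime (orderOf h) 2 := by
    have := orderOf_dvd_of_pow_eq_one hh3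
    rcases (Nat.dvd_prime Nat.prime_three).mp this with h' | h' <;> rw [h'] <;> decide
  apply hnontriv h hcoph hhf
  exact H86.ThreeInv.main_three hsq h1C h4C r2 r3 (res C hC h)
    (by
      intro x
      apply Subtype.ext
      have h2 : ((resHom C hC h) ^ 3) x = x := by rw [← map_pow, hh3]; rfl
      have h3 : (resHom C hC h)^[3] x = x := by rw [iter_eq, h2]
      exact congrArg Subtype.val h3)
    (hfixZ h hcoph hhf)

end central

section top

variable {X : Type*} [Group X] [Finite X]

theorem inv_comm (h2 : IsPGroup 2 X) (h3 : Nat.card {x : X // orderOf x = 2} = 3) (s t : X)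
    (hs : s * s = 1) (ht : t * t = 1) : s * t = t * s := by
  classical
  have : Fact (Nat.Prime 2) := ⟨Nat.prime_two⟩
  have := Fintype.ofFinite X
  have horder : ∀ x : X, x * x = 1 → x ≠ 1 → orderOf x = 2 := by
    intro x hx hx1
    exact orderOf_eq_prime (by rw [pow_two]; exact hx) hx1
  haveI : Nontrivial X := by
    by_contra hn
    rw [not_nontrivial_iff_subsingleton] at hn
    have : Nat.card {x : X // orderOf x = 2} = 0 := by
      rw [Nat.card_eq_zero]
      left
      refine ⟨?_⟩
      rintro ⟨x, hx⟩
      rw [Subsingleton.elim x 1, orderOf_one] at hx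
      omega
    omega
  haveI : Nontrivial (center X) := h2.center_nontrivial
  have hcard : 2 ∣ Nat.card (center X) := by
    have h2c : IsPGroup 2 (center X) := h2.to_subgroup _
    obtain ⟨n, hn⟩ := IsPGroup.iff_card.mp h2c
    rcases Nat.eq_zero_or_pos n with h0 | h0
    · rw [h0, pow_zero] at hn
      have := Finite.one_lt_card (α := center X)
      omega
    · rw [hn]; exact dvd_pow_self 2 (by omega)
  obtain ⟨z, hz⟩ := exists_prime_orderOf_dvd_card' 2 hcard
  have hz2 : (z : X) * z = 1 := by
    have := pow_orderOf_eq_one z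
    rw [hz, pow_two] at this
    exact congrArg Subtype.val this
  have hz1 : (z : X) ≠ 1 := by
    intro h
    have : z = 1 := Subtype.ext h
    rw [this, orderOf_one] at hz
    omega
  have hzc := mem_center_iff.mp z.2
  by_cases ht1 : t = 1
  · rw [ht1, mul_one, one_mul]
  by_cases htz : t = z
  · rw [htz]; exact hzc s
  by_contra hst
  have hs1 : s ≠ 1 := by rintro rfl; exact hst (by rw [mul_one, one_mul])
  have hsz : s ≠ z := by rintro rfl; exact hst (hzc t).symm
  have hstne : s ≠ t := by rintro rfl; exact hst rfl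
  have hszt : s ≠ z * t := by
    rintro rfl
    apply hst
    rw [mul_assoc, ← mul_assoc t, hzc t, mul_assoc]
  have hzt : (z * t) * ((z : X) * t) = 1 := by
    calc (z * t) * ((z : X) * t) = z * (t * z) * t := by group
      _ = z * (z * t) * t := by rw [hzc t]
      _ = (z * z) * (t * t) := by group
      _ = 1 := by rw [hz2, ht, mul_one]
  have hzt1 : (z : X) * t ≠ 1 := by
    intro h
    apply htz
    rw [← mul_left_cancel_iff (a := (z : X)), h, hz2]
  have hsub : ({(z : X), t, z * t, s} : Finset X) ⊆ Finset.univ.filter (fun x => orderOf x = 2) := by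
    intro x hx
    simp only [Finset.mem_insert, Finset.mem_singleton] at hx
    rw [Finset.mem_filter]
    refine ⟨Finset.mem_univ _, ?_⟩
    rcases hx with rfl | rfl | rfl | rfl
    · exact horder _ hz2 hz1
    · exact horder _ ht ht1
    · exact horder _ hzt hzt1
    · exact horder _ hs hs1
  have hc4 : ({(z : X), t, z * t, s} : Finset X).card = 4 := by
    rw [Finset.card_insert_of_notMem, Finset.card_insert_of_notMem, Finset.card_insert_of_notMem,
      Finset.card_singleton]
    · rw [Finset.mem_singleton]; exact fun h => hszt h.symm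
    · simp only [Finset.mem_insert, Finset.mem_singleton, not_or]
      exact ⟨fun h => hz1 (right_eq_mul.mp h), fun h => hstne h.symm⟩
    · simp only [Finset.mem_insert, Finset.mem_singleton, not_or]
      exact ⟨fun h => htz h.symm, fun h => ht1 (left_eq_mul.mp h), fun h => hsz h.symm⟩
  have hle := Finset.card_le_card hsub
  rw [hc4] at hle
  have : (Finset.univ.filter (fun x : X => orderOf x = 2)).card = 3 := by
    rw [← h3, Nat.card_eq_fintype_card, Fintype.card_subtype]
  omega

theorem card_sq (h3 : Nat.card {x : X // orderOf x = 2} = 3) :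
    Nat.card {x : X // x * x = 1} = 4 := by
  classical
  have := Fintype.ofFinite X
  rw [Nat.card_eq_fintype_card, Fintype.card_subtype] at h3 ⊢
  have h : (Finset.univ.filter (fun x : X => x * x = 1)) =
      insert 1 (Finset.univ.filter (fun x : X => orderOf x = 2)) := by
    ext x
    simp only [Finset.mem_filter, Finset.mem_univ, true_and, Finset.mem_insert]
    constructor
    · intro hx
      by_cases hx1 : x = 1
      · exact Or.inl hx1
      · right
        have : Fact (Nat.Prime 2) := ⟨Nat.prime_two⟩
        exact orderOf_eq_prime (by rw [pow_two]; exact hx) hx1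
    · rintro (rfl | hx)
      · rw [mul_one]
      · rw [← pow_two, ← hx]
        exact pow_orderOf_eq_one x
  rw [h, Finset.card_insert_of_notMem, h3]
  rw [Finset.mem_filter]
  rintro ⟨_, h⟩
  rw [orderOf_one] at h
  omega

/-- the elements with `x² = 1` -/
def EE (hcomm : ∀ s t : X, s * s = 1 → t * t = 1 → s * t = t * s) : Subgroup X where
  carrier := {x | x * x = 1}
  one_mem' := mul_one 1
  mul_mem' := by
    intro a b ha hb
    simp only [Set.mem_ofPred_eq] at *
    calc a * b * (a * b) = a * (b * a) * b := by group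
      _ = a * (a * b) * b := by rw [hcomm a b ha hb]
      _ = (a * a) * (b * b) := by group
      _ = 1 := by rw [ha, hb, mul_one]
  inv_mem' := by
    intro a ha
    simp only [Set.mem_ofPred_eq] at *
    rw [← mul_inv_rev, ha, inv_one]

theorem EE_char (hcomm : ∀ s t : X, s * s = 1 → t * t = 1 → s * t = t * s) :
    (EE hcomm).Characteristic := by
  apply H3.Critical.char_of_apply_mem
  intro φ x hx
  show φ x * φ x = 1
  rw [← map_mul, (show x * x = 1 from hx), map_one]

/-- the automorphisms fixing the involutions -/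
def KK (X : Type*) [Group X] : MulAut X →* Equiv.Perm {x : X // x * x = 1} where
  toFun a := ⟨fun x => ⟨a x, by rw [← map_mul, x.2, map_one]⟩,
    fun x => ⟨a.symm x, by rw [← map_mul, x.2, map_one]⟩,
    fun x => Subtype.ext (a.symm_apply_apply x), fun x => Subtype.ext (a.apply_symm_apply x)⟩
  map_one' := rfl
  map_mul' a b := rfl

theorem mem_KK (a : MulAut X) : a ∈ (KK X).ker ↔ ∀ x : X, x * x = 1 → a x = x := by
  rw [MonoidHom.mem_ker]
  constructor
  · intro h x hx
    exact congrArg Subtype.val (congrArg (fun f => f ⟨x, hx⟩) h)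
  · intro h
    ext x
    exact h x x.2

theorem eq_two_pow_mul (n q : ℕ) (hn : n ≠ 0) (hq : ∀ d, d.Prime → d ∣ n → d = 2 ∨ d = q) :
    ∃ a b, n = 2 ^ a * q ^ b := by
  obtain ⟨k, m, hm, rfl⟩ := Nat.exists_eq_two_pow_mul_odd hn
  refine ⟨k, m.primeFactorsList.length, ?_⟩
  congr 1
  apply Nat.eq_prime_pow_of_unique_prime_dvd (by rintro rfl; simp at hn)
  intro d hd hdm
  rcases hq d hd (hdm.mul_left _) with h | h
  · exfalso
    rw [h] at hdm
    have := hm.not_two_dvd_nat
    exact this hdm
  · exact h

theorem K_solvable (h2 : IsPGroup 2 X) (h3 : Nat.card {x : X // orderOf x = 2} = 3) :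
    Group.IsSolvable (KK X).ker := by
  classical
  have : Fact (Nat.Prime 2) := ⟨Nat.prime_two⟩
  have hcomm : ∀ s t : X, s * s = 1 → t * t = 1 → s * t = t * s := inv_comm h2 h3
  have hEc := EE_char hcomm
  set Y : Subgroup X := centralizer (EE hcomm : Set X) with hYdef
  have hYchar : Y.Characteristic := inferInstance
  have hmemY : ∀ y : X, y ∈ Y ↔ ∀ x, x * x = 1 → x * y = y * x := by
    intro y
    rw [hYdef, mem_centralizer_iff]
    rfl
  have hY : IsPGroup 2 Y := h2.to_subgroup _
  have hin : ∀ y : X, y * y = 1 → y ∈ Y := by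
    intro y hy
    rw [hmemY]
    intro x hx
    exact hcomm x y hx hy
  have h1 : ∀ y : Y, y * y = 1 → y ∈ center Y := by
    intro y hy
    rw [mem_center_iff]
    intro g
    apply Subtype.ext
    exact ((hmemY g).mp g.2 y (congrArg Subtype.val hy)).symm
  have h4 : Nat.card {y : Y // y * y = 1} = 4 := by
    rw [← card_sq h3]
    refine Nat.card_congr ⟨fun x => ⟨x.1.1, congrArg Subtype.val x.2⟩,
      fun y => ⟨⟨y.1, hin y.1 y.2⟩, Subtype.ext y.2⟩, fun x => rfl, fun y => rfl⟩
  have hcY : centralizer (Y : Set X) ≤ Y := by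
    intro x hx
    rw [hmemY]
    intro e he
    exact (mem_centralizer_iff.mp hx e (hin e he))
  have hres : ∀ a : MulAut X, Nat.Coprime (orderOf a) 2 → res Y hYchar a = 1 → a = 1 := by
    intro a ha h
    apply H3.Critical.eq_one_of_fix h2 a ha Y hcY
    intro x hx
    exact congrArg Subtype.val (congrArg (fun f => f ⟨x, hx⟩) h)
  have hresf : ∀ a : MulAut X, (∀ x : X, x * x = 1 → a x = x) →
      ∀ y : Y, y * y = 1 → res Y hYchar a y = y := by
    intro a ha y hy
    exact Subtype.ext (ha y (congrArg Subtype.val hy))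
  have hfin : Finite (MulAut X) := inferInstance
  -- prime divisors of the order of the kernel
  have hprime : ∀ p : ℕ, p.Prime → 5 ≤ p → p ∣ Nat.card (KK X).ker →
      p = 5 ∧ ¬ 3 ∣ Nat.card (KK X).ker := by
    intro p hp hp5 hdvd
    have : Fact p.Prime := ⟨hp⟩
    have : Fact (Nat.Prime 3) := ⟨Nat.prime_three⟩
    obtain ⟨g, hg⟩ := exists_prime_orderOf_dvd_card' p hdvd
    have hgo : orderOf (g : MulAut X) = p := by rw [Subgroup.orderOf_coe, hg]
    have hgf := (mem_KK _).mp g.2
    have hgcop : Nat.Coprime (orderOf (g : MulAut X)) 2 := by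
      rw [hgo]
      exact (Nat.coprime_primes hp Nat.prime_two).mpr (by omega)
    have hro : orderOf (res Y hYchar g) = p := by
      apply orderOf_eq_prime
      · have : (resHom Y hYchar g) ^ p = 1 := by
          rw [← map_pow, ← hgo, pow_orderOf_eq_one, map_one]
        exact this
      · intro h
        have := hres g hgcop h
        rw [this, orderOf_one] at hgo
        exact hp.one_lt.ne hgo
    obtain ⟨r1, r2⟩ := Y_main hY h1 h4 hp5 (res Y hYchar g) hro (hresf g hgf)
    refine ⟨r1, ?_⟩
    intro h3d
    obtain ⟨h, hh⟩ := exists_prime_orderOf_dvd_card' 3 h3d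
    have hho : orderOf (h : MulAut X) = 3 := by rw [Subgroup.orderOf_coe, hh]
    have hhf := (mem_KK _).mp h.2
    have hh1 := r2 (res Y hYchar h) (by
      have : (resHom Y hYchar h) ^ 3 = 1 := by
        rw [← map_pow, ← hho, pow_orderOf_eq_one, map_one]
      exact this) (hresf h hhf)
    have := hres h (by rw [hho]; decide) hh1
    rw [this, orderOf_one] at hho
    omega
  have hpos : Nat.card (KK X).ker ≠ 0 := Nat.card_pos.ne'
  by_cases h3d : 3 ∣ Nat.card (KK X).ker
  · obtain ⟨a, b, hab⟩ := eq_two_pow_mul _ 3 hpos (by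
      intro d hd hdd
      by_contra hcon
      push Not at hcon
      have h4 : 5 ≤ d := by
        have := hd.two_le
        have h4' : d ≠ 4 := by rintro rfl; revert hd; decide
        omega
      exact (hprime d hd h4 hdd).2 h3d)
    exact H4.Burnside.isSolvable_of_card_eq 2 3 Nat.prime_two Nat.prime_three _ _ rfl ⟨a, b, hab⟩
  · obtain ⟨a, b, hab⟩ := eq_two_pow_mul _ 5 hpos (by
      intro d hd hdd
      by_cases hd2 : d = 2
      · exact Or.inl hd2
      · right
        have h4 : 5 ≤ d := by
          have := hd.two_le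
          have h3' : d ≠ 3 := by rintro rfl; exact h3d hdd
          have h4' : d ≠ 4 := by rintro rfl; revert hd; decide
          omega
        exact (hprime d hd h4 hdd).1)
    exact H4.Burnside.isSolvable_of_card_eq 2 5 Nat.prime_two Nat.prime_five _ _ rfl ⟨a, b, hab⟩

theorem main (h2 : IsPGroup 2 X) (h3 : Nat.card {x : X // orderOf x = 2} = 3) :
    Group.IsSolvable (MulAut X) := by
  have hK := K_solvable h2 h3
  have hP : Group.IsSolvable (Equiv.Perm {x : X // x * x = 1}) := by
    have hc : Nat.card (Equiv.Perm {x : X // x * x = 1}) = 2 ^ 3 * 3 ^ 1 := by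
      rw [Nat.card_perm, card_sq h3]
      decide
    exact H4.Burnside.isSolvable_of_card_eq 2 3 Nat.prime_two Nat.prime_three _ _ rfl ⟨3, 1, hc⟩
  exact solvable_of_ker_le_range (KK X).ker.subtype (KK X) (by rw [Subgroup.range_subtype])

end top

end H86.ThreeInvB
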