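import Cfsg.Agent.Lib.H86.UMatch
import Cfsg.Agent.Lib.H40.PermCode

set_option autoImplicit false

/-! Kernel computations with unitary geometries over `F_{p^2}`: elements are numbers `a + p b` standing for `a + b ι`. -/

namespace H86.UCode

set_option linter.unusedSectionVars false

open Cfsg H40.PermCode

/-- element with code `x` -/
def ev {F : Type*} [Field F] (ι : F) (p x : ℕ) : F := ((x % p : ℕ) : F) + ((x / p : ℕ) : F) * ι

/-- sum of codes -/
def addc (p x y : ℕ) : ℕ := (x % p + y % p) % p + p * ((x / p + y / p) % p)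

/-- product of codes -/
def mulc (p r s x y : ℕ) : ℕ :=
  ((x % p) * (y % p) + r * ((x / p) * (y / p))) % p +
    p * (((x % p) * (y / p) + (x / p) * (y % p) + s * ((x / p) * (y / p))) % p)

/-- conjugate -/
def conjc (p s x : ℕ) : ℕ := (x % p + s * (x / p)) % p + p * (((p - 1) * (x / p)) % p)

/-- a field with `p^2` elements with a generator -/
structure FD (F : Type*) [Field F] [Fintype F] (p r s : ℕ) where
  /-- generator -/
  ι : F
  prime : p.Prime
  char : CharP F p
  card : Fintype.card F = p ^ 2
  sq : ι ^ 2 = (r : F) + (s : F) * ι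
  cj : ι ^ p = (s : F) - ι
  irr : ∀ m < p, (m * m) % p ≠ (r + s * m) % p

section

variable {F : Type*} [Field F] [Fintype F] {p r s : ℕ} (D : FD F p r s)
include D

theorem castmod (x : ℕ) : ((x % p : ℕ) : F) = (x : F) := by
  have := D.char
  exact (CharP.cast_eq_mod F p x).symm

theorem ev_mk (a b : ℕ) : ev D.ι p (a % p + p * (b % p)) = (a : F) + (b : F) * D.ι := by
  have hp := D.prime.pos
  unfold ev
  have h1 : (a % p + p * (b % p)) % p = a % p := by
    rw [Nat.add_mul_mod_self_left, Nat.mod_mod]
  have h2 : (a % p + p * (b % p)) / p = b % p := by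
    rw [Nat.add_mul_div_left _ _ hp, Nat.div_eq_of_lt (Nat.mod_lt _ hp), zero_add]
  rw [h1, h2, castmod D, castmod D]

theorem ev_addc (x y : ℕ) : ev D.ι p (addc p x y) = ev D.ι p x + ev D.ι p y := by
  unfold addc
  rw [ev_mk D]
  unfold ev
  push_cast
  ring

theorem ev_mulc (x y : ℕ) : ev D.ι p (mulc p r s x y) = ev D.ι p x * ev D.ι p y := by
  unfold mulc
  rw [ev_mk D]
  unfold ev
  push_cast
  linear_combination (- ((x / p : ℕ) : F) * ((y / p : ℕ) : F)) * D.sq

theorem ev_conjc (x : ℕ) : ev D.ι p (conjc p s x) = (ev D.ι p x) ^ p := by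
  have := D.char
  have hp := D.prime
  haveI : Fact p.Prime := ⟨hp⟩
  have hn : ∀ a : ℕ, ((a : F)) ^ p = a := by
    intro a
    have := map_natCast (frobenius F p) a
    rwa [frobenius_def] at this
  unfold conjc
  rw [ev_mk D]
  unfold ev
  rw [add_pow_char, mul_pow, hn, hn, D.cj, Nat.cast_add, Nat.cast_mul, Nat.cast_mul, Nat.cast_sub hp.pos, CharP.cast_eq_zero F p]
  push_cast
  ring

theorem ev_zero : ev D.ι p 0 = 0 := by
  unfold ev
  simp

theorem ev_one : ev D.ι p 1 = 1 := by
  have h := D.prime.one_lt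
  unfold ev
  rw [Nat.mod_eq_of_lt h, Nat.div_eq_of_lt h]
  simp

theorem cast_inj_lt {a b : ℕ} (ha : a < p) (hb : b < p) (h : (a : F) = (b : F)) : a = b := by
  have := D.char
  have h1 := (CharP.natCast_eq_natCast F p).1 h
  unfold Nat.ModEq at h1
  rwa [Nat.mod_eq_of_lt ha, Nat.mod_eq_of_lt hb] at h1

theorem ι_ne (m : ℕ) : D.ι ≠ (m : F) := by
  intro h
  have hp := D.prime.pos
  have h1 : D.ι = ((m % p : ℕ) : F) := by rw [castmod D, h]
  have h2 := D.sq
  rw [h1] at h2
  apply D.irr (m % p) (Nat.mod_lt _ hp)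
  apply cast_inj_lt D (Nat.mod_lt _ hp) (Nat.mod_lt _ hp)
  rw [castmod D, castmod D]
  push_cast
  linear_combination h2

theorem ev_inj {x y : ℕ} (hx : x < p ^ 2) (hy : y < p ^ 2) (h : ev D.ι p x = ev D.ι p y) : x = y := by
  have := D.char
  have hp := D.prime
  haveI : Fact p.Prime := ⟨hp⟩
  have dx : x / p < p := by rw [Nat.div_lt_iff_lt_mul hp.pos]; rwa [pow_two] at hx
  have dy : y / p < p := by rw [Nat.div_lt_iff_lt_mul hp.pos]; rwa [pow_two] at hy
  have key : x / p = y / p := by
    by_contra hne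
    -- ι would be in the prime field
    have h1 : ((x / p : ℕ) : F) - ((y / p : ℕ) : F) ≠ 0 := by
      intro h0
      exact hne (cast_inj_lt D dx dy (sub_eq_zero.1 h0))
    have h2 : (((x / p : ℕ) : F) - ((y / p : ℕ) : F)) * D.ι = ((y % p : ℕ) : F) - ((x % p : ℕ) : F) := by
      unfold ev at h
      linear_combination h
    -- everything is in the range of ZMod p
    let f : ZMod p →+* F := ZMod.castHom (dvd_refl p) F
    have hf : ∀ a : ℕ, f (a : ZMod p) = (a : F) := fun a => map_natCast f a
    have h3 : D.ι = f (((y % p : ℕ) : ZMod p) - ((x % p : ℕ) : ZMod p)) / f (((x / p : ℕ) : ZMod p) - ((y / p : ℕ) : ZMod p)) := by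
      rw [map_sub, map_sub, hf, hf, hf, hf, eq_div_iff h1, ← h2]
      ring
    rw [← map_div₀] at h3
    obtain ⟨m, hm⟩ : ∃ m : ℕ, (m : ZMod p) = ((((y % p : ℕ) : ZMod p) - ((x % p : ℕ) : ZMod p)) / (((x / p : ℕ) : ZMod p) - ((y / p : ℕ) : ZMod p))) :=
      ZMod.natCast_zmod_surjective _
    rw [← hm, hf] at h3
    exact ι_ne D m h3
  have key2 : x % p = y % p := by
    unfold ev at h
    rw [key] at h
    exact cast_inj_lt D (Nat.mod_lt _ hp.pos) (Nat.mod_lt _ hp.pos) (add_right_cancel h)
  rw [← Nat.div_add_mod x p, ← Nat.div_add_mod y p, key, key2]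

theorem ev_surj (z : F) : ∃ x < p ^ 2, ev D.ι p x = z := by
  classical
  let f : Fin (p ^ 2) → F := fun x => ev D.ι p x
  have hi : Function.Injective f := fun x y h => Fin.ext (ev_inj D x.2 y.2 h)
  have hb : Function.Bijective f := by
    rw [Fintype.bijective_iff_injective_and_card]
    exact ⟨hi, by rw [Fintype.card_fin, D.card]⟩
  obtain ⟨x, hx⟩ := hb.2 z
  exact ⟨x, x.2, hx⟩

theorem addc_lt (x y : ℕ) : addc p x y < p ^ 2 := by
  have hp := D.prime.pos
  unfold addc
  have h1 := Nat.mod_lt (x % p + y % p) hp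
  have h2 := Nat.mod_lt (x / p + y / p) hp
  have h3 : p * ((x / p + y / p) % p) ≤ p * (p - 1) := Nat.mul_le_mul_left _ (by omega)
  have h4 : p * (p - 1) + p = p ^ 2 := by
    rw [pow_two, ← Nat.mul_succ]
    congr 1
    omega
  omega

end

/-- `P` holds for all lists of `n` numbers `< b` -/
noncomputable def allL (b : ℕ) : ℕ → (List ℕ → Bool) → Bool
  | 0, P => P []
  | n + 1, P => allN (fun a => allL b n (fun l => P (a :: l))) b

theorem allL_spec {b n : ℕ} {P : List ℕ → Bool} (h : allL b n P = true) :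
    ∀ l : List ℕ, l.length = n → (∀ x ∈ l, x < b) → P l = true := by
  induction n generalizing P with
  | zero =>
    intro l hl _
    rw [List.length_eq_zero_iff] at hl
    subst hl
    exact h
  | succ n ih =>
    intro l hl hb
    match l, hl, hb with
    | a :: l, hl, hb =>
      rw [allL, allN_iff] at h
      have h1 := h a (hb a (by simp))
      exact ih h1 l (by simpa using hl) (fun x hx => hb x (by simp [hx]))

/-- first nonzero entry is 1 -/
def isNorm : List ℕ → Prop
  | [] => False
  | a :: l => a = 1 ∨ (a = 0 ∧ isNorm l)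

/-- `P` holds for all normalized lists of `n` numbers `< b` -/
noncomputable def allNorm (b : ℕ) : ℕ → (List ℕ → Bool) → Bool
  | 0, _ => true
  | n + 1, P => allL b n (fun l => P (1 :: l)) && allNorm b n (fun l => P (0 :: l))

theorem allNorm_spec {b n : ℕ} {P : List ℕ → Bool} (h : allNorm b n P = true) :
    ∀ l : List ℕ, l.length = n → (∀ x ∈ l, x < b) → isNorm l → P l = true := by
  induction n generalizing P with
  | zero =>
    intro l hl _ hn
    rw [List.length_eq_zero_iff] at hl
    subst hl
    exact hn.elim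
  | succ n ih =>
    intro l hl hb hn
    match l, hl, hb, hn with
    | a :: l, hl, hb, hn =>
      rw [allNorm, Bool.and_eq_true] at h
      rcases hn with rfl | ⟨rfl, hn⟩
      · exact allL_spec h.1 l (by simpa using hl) (fun x hx => hb x (by simp [hx]))
      · exact ih h.2 l (by simpa using hl) (fun x hx => hb x (by simp [hx])) hn

/-- digits -/
def digs (b : ℕ) : ℕ → ℕ → List ℕ
  | 0, _ => []
  | n + 1, x => x % b :: digs b n (x / b)

/-- number with given digits -/
def enc (b : ℕ) : List ℕ → ℕ
  | [] => 0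
  | a :: l => a + b * enc b l

theorem digs_length (b n x : ℕ) : (digs b n x).length = n := by
  induction n generalizing x with
  | zero => rfl
  | succ n ih => rw [digs, List.length_cons, ih]

theorem digs_enc {b : ℕ} (l : List ℕ) (h : ∀ x ∈ l, x < b) : digs b l.length (enc b l) = l := by
  induction l with
  | nil => rfl
  | cons a l ih =>
    have ha : a < b := h a (by simp)
    have h1 : (a + b * enc b l) % b = a := by rw [Nat.add_mul_mod_self_left, Nat.mod_eq_of_lt ha]
    have h2 : (a + b * enc b l) / b = enc b l := by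
      rw [Nat.add_mul_div_left _ _ (by omega), Nat.div_eq_of_lt ha, zero_add]
    rw [List.length_cons, digs, enc, h1, h2, ih (fun x hx => h x (by simp [hx]))]

theorem digs_lt {b : ℕ} (hb : 0 < b) (n x : ℕ) : ∀ y ∈ digs b n x, y < b := by
  induction n generalizing x with
  | zero => intro y hy; simp [digs] at hy
  | succ n ih =>
    intro y hy
    rw [digs, List.mem_cons] at hy
    rcases hy with rfl | hy
    · exact Nat.mod_lt _ hb
    · exact ih _ y hy

/-- the vector with given codes -/
def vl {F : Type*} [Field F] (ι : F) (p n : ℕ) (l : List ℕ) : Fin n → F := fun i => ev ι p (l.getD i 0)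

theorem vl_cons_zero {F : Type*} [Field F] (ι : F) (p n a : ℕ) (l : List ℕ) : vl ι p (n + 1) (a :: l) 0 = ev ι p a := rfl

theorem vl_cons_succ {F : Type*} [Field F] (ι : F) (p n a : ℕ) (l : List ℕ) (i : Fin n) :
    vl ι p (n + 1) (a :: l) i.succ = vl ι p n l i := by
  unfold vl
  rw [Fin.val_succ, List.getD_cons_succ]

/-- hermitian form -/
def hrm (p r s : ℕ) : List ℕ → List ℕ → ℕ
  | a :: l, b :: m => addc p (mulc p r s a (conjc p s b)) (hrm p r s l m)
  | _, _ => 0

/-- first nonzero coordinate of `x + e y` -/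
noncomputable def ldc (p r s e : ℕ) : List ℕ → List ℕ → ℕ
  | x :: l, y :: m => Nat.rec (motive := fun _ => ℕ) (ldc p r s e l m) (fun k _ => k + 1) (addc p x (mulc p r s e y))
  | _, _ => 0

/-- `x + e y = lam z` -/
noncomputable def tvOK (p r s e lam : ℕ) : List ℕ → List ℕ → List ℕ → Bool
  | x :: l, y :: m, z :: k => Nat.beq (addc p x (mulc p r s e y)) (mulc p r s lam z) && tvOK p r s e lam l m k
  | _, _, _ => true

/-- contains 1 -/
noncomputable def hasOne : List ℕ → Bool
  | [] => false
  | a :: l => Nat.beq a 1 || hasOne l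

section

variable {F : Type*} [Field F] [Fintype F] {p r s : ℕ} (D : FD F p r s)
include D

theorem ev_hrm {n : ℕ} (l m : List ℕ) (hl : l.length = n) (hm : m.length = n) :
    ev D.ι p (hrm p r s l m) = hermForm n F p (vl D.ι p n l) (vl D.ι p n m) := by
  induction n generalizing l m with
  | zero =>
    rw [List.length_eq_zero_iff] at hl hm
    subst hl hm
    rw [hrm, ev_zero D]
    unfold hermForm
    simp
    intro a l b m h
    simp at h
  | succ n ih =>
    match l, m, hl, hm with
    | a :: l, b :: m, hl, hm =>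
      rw [hrm, ev_addc D, ev_mulc D, ev_conjc D, ih l m (by simpa using hl) (by simpa using hm)]
      unfold hermForm
      rw [Fin.sum_univ_succ]
      congr 1

theorem tvOK_spec {n e lam : ℕ} {x y z : List ℕ} (hx : x.length = n) (hy : y.length = n) (hz : z.length = n)
    (h : tvOK p r s e lam x y z = true) :
    vl D.ι p n x + ev D.ι p e • vl D.ι p n y = ev D.ι p lam • vl D.ι p n z := by
  induction n generalizing x y z with
  | zero => funext i; exact i.elim0
  | succ n ih =>
    match x, y, z, hx, hy, hz, h with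
    | a :: x, b :: y, c :: z, hx, hy, hz, h =>
      rw [tvOK, Bool.and_eq_true, Nat.beq_eq] at h
      have h2 := ih (by simpa using hx) (by simpa using hy) (by simpa using hz) h.2
      funext i
      refine Fin.cases ?_ (fun i => ?_) i
      · have h3 := congrArg (ev D.ι p) h.1
        rw [ev_addc D, ev_mulc D, ev_mulc D] at h3
        exact h3
      · have h3 := congrFun h2 i
        simp only [Pi.add_apply, Pi.smul_apply, smul_eq_mul, vl_cons_succ] at h3 ⊢
        exact h3

theorem hasOne_spec {n : ℕ} {l : List ℕ} (hl : l.length = n) (h : hasOne l = true) : vl D.ι p n l ≠ 0 := by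
  induction n generalizing l with
  | zero =>
    rw [List.length_eq_zero_iff] at hl
    subst hl
    simp [hasOne] at h
  | succ n ih =>
    match l, hl, h with
    | a :: l, hl, h =>
      rw [hasOne, Bool.or_eq_true, Nat.beq_eq] at h
      rcases h with rfl | h
      · intro h0
        have := congrFun h0 0
        rw [vl_cons_zero, ev_one D] at this
        exact one_ne_zero this
      · intro h0
        apply ih (by simpa using hl) h
        funext i
        have := congrFun h0 i.succ
        rw [vl_cons_succ] at this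
        exact this

theorem exists_list {n : ℕ} (v : Fin n → F) : ∃ l : List ℕ, l.length = n ∧ (∀ x ∈ l, x < p ^ 2) ∧ vl D.ι p n l = v := by
  induction n with
  | zero => exact ⟨[], rfl, by simp, by funext i; exact i.elim0⟩
  | succ n ih =>
    obtain ⟨l, hl, hb, hv⟩ := ih (fun i => v i.succ)
    obtain ⟨a, ha, hav⟩ := ev_surj D (v 0)
    refine ⟨a :: l, by simp [hl], ?_, ?_⟩
    · intro x hx
      rw [List.mem_cons] at hx
      rcases hx with rfl | hx
      · exact ha
      · exact hb x hx
    · funext i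
      refine Fin.cases ?_ (fun i => ?_) i
      · rw [vl_cons_zero, hav]
      · rw [vl_cons_succ, hv]

theorem exists_norm {n : ℕ} (v : Fin n → F) (hv : v ≠ 0) :
    ∃ l : List ℕ, l.length = n ∧ (∀ x ∈ l, x < p ^ 2) ∧ isNorm l ∧ ∃ c : F, c ≠ 0 ∧ v = c • vl D.ι p n l := by
  induction n with
  | zero => exact (hv (by funext i; exact i.elim0)).elim
  | succ n ih =>
    by_cases h0 : v 0 = 0
    · obtain ⟨l, hl, hb, hn, c, hc, hvc⟩ := ih (fun i => v i.succ) (by
        intro h
        apply hv
        funext i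
        refine Fin.cases h0 (fun i => ?_) i
        exact congrFun h i)
      refine ⟨0 :: l, by simp [hl], ?_, Or.inr ⟨rfl, hn⟩, c, hc, ?_⟩
      · intro x hx
        rw [List.mem_cons] at hx
        rcases hx with rfl | hx
        · exact pow_pos D.prime.pos 2
        · exact hb x hx
      · funext i
        refine Fin.cases ?_ (fun i => ?_) i
        · rw [Pi.smul_apply, vl_cons_zero, ev_zero D, smul_zero, h0]
        · rw [Pi.smul_apply, vl_cons_succ]
          exact congrFun hvc i
    · obtain ⟨l, hl, hb, hvl⟩ := exists_list D (fun i : Fin n => (v 0)⁻¹ * v i.succ)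
      refine ⟨1 :: l, by simp [hl], ?_, Or.inl rfl, v 0, h0, ?_⟩
      · intro x hx
        rw [List.mem_cons] at hx
        rcases hx with rfl | hx
        · exact Nat.one_lt_pow (by norm_num) D.prime.one_lt
        · exact hb x hx
      · funext i
        refine Fin.cases ?_ (fun i => ?_) i
        · rw [Pi.smul_apply, vl_cons_zero, ev_one D, smul_eq_mul, mul_one]
        · rw [Pi.smul_apply, vl_cons_succ, hvl, smul_eq_mul, mul_inv_cancel_left₀ h0]

end

/-! ### the tests -/

/-- codes of the `k`-th point -/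
def wl (p n wT k : ℕ) : List ℕ := digs (p ^ 2) n (tab 16 wT k)

/-- completeness -/
noncomputable def chkC (p r s n N wT iT : ℕ) : Bool :=
  allNorm (p ^ 2) n fun l => (!Nat.beq (hrm p r s l l) 0) ||
    (Nat.blt (tab 16 iT (enc (p ^ 2) l)) N && Nat.beq (tab 16 wT (tab 16 iT (enc (p ^ 2) l))) (enc (p ^ 2) l))

/-- isotropy -/
noncomputable def chkI (p r s n N wT : ℕ) : Bool :=
  allN (fun k => hasOne (wl p n wT k) && Nat.beq (hrm p r s (wl p n wT k) (wl p n wT k)) 0) N

/-- a generator -/
noncomputable def chkG (p r s n N wT ctr c piT : ℕ) : Bool :=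
  Nat.blt ctr N && (Nat.beq (addc p (conjc p s c) c) 0 && allN (fun k => Nat.blt (tab 16 piT k) N &&
    tvOK p r s (mulc p r s c (hrm p r s (wl p n wT k) (wl p n wT ctr)))
      (ldc p r s (mulc p r s c (hrm p r s (wl p n wT k) (wl p n wT ctr))) (wl p n wT k) (wl p n wT ctr))
      (wl p n wT k) (wl p n wT ctr) (wl p n wT (tab 16 piT k))) N)

/-- generators -/
noncomputable def chkGs (p r s n N wT : ℕ) (ctrL cL piL : List ℕ) (m : ℕ) : Bool :=
  allN (fun j => chkG p r s n N wT (ctrL.getD j 0) (cL.getD j 0) (piL.getD j 0)) m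

/-- transitivity -/
noncomputable def chkB (N m ctr0 parT labT depT : ℕ) (piL : List ℕ) : Bool :=
  allN (fun k => Nat.beq k ctr0 || (Nat.blt (tab 16 parT k) N && (Nat.blt (tab 16 labT k) m &&
    (Nat.blt (tab 16 depT (tab 16 parT k)) (tab 16 depT k) &&
      Nat.beq (tab 16 (piL.getD (tab 16 labT k) 0) (tab 16 parT k)) k)))) N

/-- constants -/
noncomputable def chkK (p r s c0 : ℕ) : Bool :=
  allN (fun x => (!Nat.beq (addc p (conjc p s x) x) 0) || !(allN (fun a => !Nat.beq (mulc p r s a c0) x) p)) (p ^ 2)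

theorem psu_codes {F : Type*} [Field F] [Fintype F] {p r s : ℕ} (D : FD F p r s) {n : ℕ} (hn : 3 ≤ n) (h32 : ¬ (n = 3 ∧ p = 2))
    {S : Type*} [Group S] [Finite S] {Ω : Type*} [MulAction S Ω] (N wT iT : ℕ) (X : ℕ → Ω)
    (hC : chkC p r s n N wT iT = true) (hI : chkI p r s n N wT = true)
    (hX : ∀ k < N, ∀ k' < N, X k = X k' → k = k')
    (m : ℕ) (hm : 0 < m) (g : ℕ → S) (ctrL cL piL : List ℕ)
    (hG : chkGs p r s n N wT ctrL cL piL m = true)
    (hπ : ∀ j < m, ∀ k < N, g j • X k = X (tab 16 (piL.getD j 0) k))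
    (parT labT depT : ℕ) (hB : chkB N m (ctrL.getD 0 0) parT labT depT piL = true)
    (hK : chkK p r s (cL.getD 0 0) = true)
    (hcard : Nat.card S ≤ Nat.card (PSU n F p)) : Nonempty (S ≃* PSU n F p) := by
  have hp := D.prime
  have hchar := D.char
  have hpp : 0 < p ^ 2 := pow_pos hp.pos 2
  rw [chkI, allN_iff] at hI
  rw [chkGs, allN_iff] at hG
  rw [chkB, allN_iff] at hB
  have hlen : ∀ k, (wl p n wT k).length = n := fun k => digs_length _ _ _
  refine H86.UMatch.psu_iso (F := F) (n := n) (q := p) D.card hn h32 N (fun k => vl D.ι p n (wl p n wT k)) X ?_ ?_ ?_ hX m hm g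
    (fun j => ev D.ι p (cL.getD j 0)) (fun j => ctrL.getD j 0) ?_ ?_ (fun j k => tab 16 (piL.getD j 0) k) ?_
    (fun k => tab 16 parT k) (fun k => tab 16 labT k) (fun k => tab 16 depT k) ?_ ?_ hcard
  · intro k hk
    have := hI k hk
    rw [Bool.and_eq_true] at this
    exact hasOne_spec D (hlen k) this.1
  · intro k hk
    have := hI k hk
    rw [Bool.and_eq_true, Nat.beq_eq] at this
    have h2 := congrArg (ev D.ι p) this.2
    rw [ev_hrm D _ _ (hlen k) (hlen k), ev_zero D] at h2
    exact h2
  · intro v hv0 hv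
    obtain ⟨l, hl, hb, hnorm, c, hc, hvc⟩ := exists_norm D v hv0
    have h1 := allNorm_spec hC l hl hb hnorm
    have hz : hrm p r s l l = 0 := by
      have h2 : ev D.ι p (hrm p r s l l) = 0 := by
        rw [ev_hrm D _ _ hl hl]
        rw [hvc, H16.Herm.hermForm_smul_left, H16.Herm.hermForm_smul_right] at hv
        have := (mul_eq_zero.1 hv).resolve_left hc
        exact (mul_eq_zero.1 this).resolve_left (pow_ne_zero _ hc)
      have h3 : hrm p r s l l < p ^ 2 := by
        match l with
        | [] => exact hpp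
        | a :: l => exact addc_lt D _ _
      exact ev_inj D h3 hpp (by rw [h2, ev_zero D])
    rw [Bool.or_eq_true, Bool.and_eq_true, Nat.blt_eq, Nat.beq_eq] at h1
    rcases h1 with h1 | ⟨h1, h2⟩
    · rw [hz] at h1
      simp at h1
    · refine ⟨_, h1, c, ?_⟩
      have h3 : wl p n wT (tab 16 iT (enc (p ^ 2) l)) = l := by
        unfold wl
        rw [h2, ← hl]
        exact digs_enc l hb
      show v = c • vl D.ι p n (wl p n wT _)
      rw [h3]
      exact hvc
  · intro j hj
    have := hG j hj
    rw [chkG, Bool.and_eq_true, Nat.blt_eq] at this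
    exact this.1
  · intro j hj
    have := hG j hj
    rw [chkG, Bool.and_eq_true, Bool.and_eq_true, Nat.beq_eq] at this
    have h2 := congrArg (ev D.ι p) this.2.1
    rw [ev_addc D, ev_conjc D, ev_zero D] at h2
    exact h2
  · intro j hj k hk
    have := hG j hj
    rw [chkG, Bool.and_eq_true, Bool.and_eq_true, allN_iff] at this
    have h2 := this.2.2 k hk
    rw [Bool.and_eq_true, Nat.blt_eq] at h2
    have h3 := tvOK_spec D (hlen _) (hlen _) (hlen _) h2.2
    rw [ev_mulc D, ev_hrm D _ _ (hlen _) (hlen _)] at h3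
    exact ⟨h2.1, hπ j hj k hk, _, h3⟩
  · intro k hk
    have := hB k hk
    simp only [Bool.or_eq_true, Bool.and_eq_true, Nat.blt_eq, Nat.beq_eq] at this
    exact this
  · intro c' hc'
    obtain ⟨x, hx, rfl⟩ := ev_surj D c'
    rw [chkK, allN_iff] at hK
    have h1 := hK x hx
    have h2 : addc p (conjc p s x) x = 0 := by
      apply ev_inj D (addc_lt D _ _) hpp
      rw [ev_addc D, ev_conjc D, ev_zero D]
      exact hc'
    rw [h2] at h1
    simp only [Bool.or_eq_true, Bool.not_eq_true', ← Bool.not_eq_true, Nat.beq_eq, not_true_eq_false, false_or] at h1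
    rw [allN_iff] at h1
    push Not at h1
    obtain ⟨a, ha, h3⟩ := h1
    simp only [Bool.not_eq_true', ne_eq, ← Bool.not_eq_true, Nat.beq_eq, not_not] at h3
    refine ⟨a, ?_⟩
    have h4 := congrArg (ev D.ι p) h3
    rw [ev_mulc D] at h4
    rw [← h4, nsmul_eq_mul]
    congr 1
    unfold ev
    rw [Nat.mod_eq_of_lt ha, Nat.div_eq_of_lt ha]
    simp

end H86.UCode
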