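import Cfsg.Agent.Lib.H86.UCode

set_option autoImplicit false

/-! Generators of the fields with 4, 9, 25 elements. -/

namespace H86.UField

open H86.UCode

theorem charP_of {F : Type*} [Field F] [Fintype F] {p : ℕ} (hp : p.Prime) (h : Fintype.card F = p ^ 2) : CharP F p := by
  haveI : Fact p.Prime := ⟨hp⟩
  exact charP_of_card_eq_prime_pow (R := F) h

theorem fd4 {F : Type*} [Field F] [Fintype F] (h : Fintype.card F = 2 ^ 2) : Nonempty (FD F 2 1 1) := by
  classical
  haveI := charP_of Nat.prime_two h
  obtain ⟨x, hx⟩ : ∃ x : F, x ∉ ({0, 1} : Finset F) := by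
    obtain ⟨a, _, ha⟩ := Finset.exists_mem_notMem_of_card_lt_card (s := ({0, 1} : Finset F)) (t := Finset.univ) (by
      rw [Finset.card_univ, h]
      exact lt_of_le_of_lt Finset.card_le_two (by norm_num))
    exact ⟨a, ha⟩
  simp only [Finset.mem_insert, Finset.mem_singleton, not_or] at hx
  have h3 : x ^ 3 = 1 := by
    have := FiniteField.pow_card_sub_one_eq_one x hx.1
    rwa [h] at this
  have h2 : (2 : F) = 0 := CharTwo.two_eq_zero
  have hq : x ^ 2 + x + 1 = 0 := by
    have : (x - 1) * (x ^ 2 + x + 1) = 0 := by linear_combination h3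
    exact (mul_eq_zero.1 this).resolve_left (sub_ne_zero.2 hx.2)
  refine ⟨⟨x, Nat.prime_two, inferInstance, h, ?_, ?_, by decide⟩⟩
  · push_cast; linear_combination hq - (x + 1) * h2
  · push_cast; linear_combination hq - h2

theorem fd9 {F : Type*} [Field F] [Fintype F] (h : Fintype.card F = 3 ^ 2) : Nonempty (FD F 3 2 0) := by
  classical
  haveI := charP_of Nat.prime_three h
  have h3 : (3 : F) = 0 := by
    have := CharP.cast_eq_zero F 3
    exact_mod_cast this
  obtain ⟨x, hx⟩ : IsSquare (-1 : F) := by
    rw [FiniteField.isSquare_neg_one_iff, h]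
    norm_num
  refine ⟨⟨x, Nat.prime_three, inferInstance, h, ?_, ?_, by decide⟩⟩
  · push_cast; linear_combination -hx - h3
  · push_cast; linear_combination -x * hx

theorem fd25 {F : Type*} [Field F] [Fintype F] (h : Fintype.card F = 5 ^ 2) : Nonempty (FD F 5 2 0) := by
  classical
  haveI := charP_of Nat.prime_five h
  have h5 : (5 : F) = 0 := by
    have := CharP.cast_eq_zero F 5
    exact_mod_cast this
  have h20 : (2 : F) ≠ 0 := by
    intro h2
    have h1 : (1 : F) = 0 := by linear_combination h5 - 2 * h2
    exact one_ne_zero h1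
  obtain ⟨x, hx⟩ : IsSquare (2 : F) := by
    rw [FiniteField.isSquare_iff (by
      have : ringChar F = 5 := ringChar.eq_iff.2 inferInstance
      rw [this]; norm_num) h20, h]
    norm_num
    linear_combination 819 * h5
  refine ⟨⟨x, Nat.prime_five, inferInstance, h, ?_, ?_, by decide⟩⟩
  · push_cast; linear_combination -hx
  · push_cast; linear_combination -x * (x ^ 2 + 2) * hx + x * h5

end H86.UField
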