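import Cfsg.Agent.Lib.H6.SUGenC

set_option autoImplicit false

/-! Identifying a finite group with `PSU_n(q)` by matching its action on a set of objects with the action of a set of
unitary transvections on the isotropic points. -/

namespace H86.UMatch

set_option linter.unusedSectionVars false

open Cfsg H16.Herm H6.SUGenC
open scoped Matrix

/-- two quotients of the same group -/
theorem iso_of_ker {R A B : Type*} [Group R] [Group A] [Group B] [Finite A] [Finite B] (f1 : R →* A) (f2 : R →* B)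
    (h2 : Function.Surjective f2) (hk : f1.ker ≤ f2.ker) (hc : Nat.card A ≤ Nat.card B) : Nonempty (A ≃* B) := by
  let θ : f1.range →* B := (f1.rangeRestrict.liftOfSurjective f1.rangeRestrict_surjective) ⟨f2, by
    rw [MonoidHom.ker_rangeRestrict]; exact hk⟩
  have hθ : ∀ r, θ (f1.rangeRestrict r) = f2 r := by
    intro r
    exact MonoidHom.liftOfRightInverse_comp_apply _ _ _ _ r
  have hs : Function.Surjective θ := by
    intro b
    obtain ⟨r, rfl⟩ := h2 b
    exact ⟨f1.rangeRestrict r, hθ r⟩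
  have c1 : Nat.card B ≤ Nat.card f1.range := Nat.card_le_card_of_surjective θ hs
  have c2 : Nat.card f1.range ≤ Nat.card A := Subgroup.card_le_card_group _
  have hbij : Function.Bijective θ := by
    rw [Nat.bijective_iff_surjective_and_card]
    exact ⟨hs, by omega⟩
  have htop : f1.range = ⊤ := Subgroup.eq_top_of_card_eq _ (by omega)
  exact ⟨(Subgroup.topEquiv.symm.trans (MulEquiv.subgroupCongr htop.symm)).trans (MulEquiv.ofBijective θ hbij)⟩

variable {F : Type*} [Field F] [Fintype F] {n q : ℕ}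

/-- action of a unitary matrix on vectors -/
def av (g : SU n F q) (x : Fin n → F) : Fin n → F :=
  ((g : Matrix.SpecialLinearGroup (Fin n) F) : Matrix (Fin n) (Fin n) F) *ᵥ x

theorem av_mul (g h : SU n F q) (x : Fin n → F) : av (g * h) x = av g (av h x) := by
  unfold av
  rw [Matrix.mulVec_mulVec]
  rfl

theorem av_one (x : Fin n → F) : av (1 : SU n F q) x = x := by
  show ((1 : Matrix (Fin n) (Fin n) F)) *ᵥ x = x
  rw [Matrix.one_mulVec]

theorem av_inv (g : SU n F q) (x : Fin n → F) : av g (av g⁻¹ x) = x := by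
  rw [← av_mul, mul_inv_cancel, av_one]

theorem av_inv' (g : SU n F q) (x : Fin n → F) : av g⁻¹ (av g x) = x := by
  rw [← av_mul, inv_mul_cancel, av_one]

theorem av_add (g : SU n F q) (x y : Fin n → F) : av g (x + y) = av g x + av g y := Matrix.mulVec_add _ _ _

theorem av_smul (g : SU n F q) (c : F) (x : Fin n → F) : av g (c • x) = c • av g x := Matrix.mulVec_smul _ _ _

theorem av_herm (g : SU n F q) (x y : Fin n → F) : hermForm n F q (av g x) (av g y) = hermForm n F q x y := g.2 x y

theorem av_ext {g h : SU n F q} (H : ∀ x, av g x = av h x) : g = h := by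
  apply Subtype.ext
  apply Subtype.ext
  apply Matrix.toLin'.injective
  apply LinearMap.ext
  intro x
  rw [Matrix.toLin'_apply, Matrix.toLin'_apply]
  exact H x

/-- `g` acts as a transvection with centre `v` -/
def IsT (g : SU n F q) (v : Fin n → F) (c : F) : Prop := ∀ x, av g x = x + (c * hermForm n F q x v) • v

theorem isT_of_coe {g : SU n F q} {v : Fin n → F} {c : F}
    (h : ((g : Matrix.SpecialLinearGroup (Fin n) F) : Matrix (Fin n) (Fin n) F) = unitaryTransvection n q v c) :
    IsT g v c := by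
  intro x
  unfold av
  rw [h, unitaryTransvection_mulVec]

theorem exists_T (hF : Fintype.card F = q ^ 2) {v : Fin n → F} {c : F} (hv : hermForm n F q v v = 0)
    (hc : c ^ q + c = 0) : ∃ g : SU n F q, IsT g v c := by
  obtain ⟨D⟩ := exists_data n hF
  have h1 : D.σ (c / D.ζ) = c / D.ζ := by
    rw [map_div₀, D.σζ, D.σ_eq, div_neg, ← neg_div]
    congr 1
    linear_combination -hc
  obtain ⟨g, hg⟩ := exists_emb D (H95.UBasic.tr_mem_SU D.skew ((iso_iff D v).2 hv) h1)
  refine ⟨g, isT_of_coe ?_⟩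
  rw [coe_of_emb_rf D ((iso_iff D v).2 hv) h1 hg, div_mul_cancel₀ _ D.ζ0]

theorem isT_conj {g b : SU n F q} {v : Fin n → F} {c : F} (h : IsT g v c) : IsT (b * g * b⁻¹) (av b v) c := by
  intro x
  rw [av_mul, av_mul, h, av_add, av_inv, av_smul]
  congr 2
  have := av_herm b (av b⁻¹ x) v
  rw [av_inv] at this
  rw [this]

theorem isT_smul {g : SU n F q} {v : Fin n → F} {c l : F} (h : IsT g (l • v) c) : IsT g v (c * l ^ q * l) := by
  intro x
  rw [h, hermForm_smul_right, smul_smul]
  congr 2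
  ring

theorem isT_smul' {g : SU n F q} {v : Fin n → F} {c l : F} (hl : l ≠ 0) (h : IsT g v c) :
    IsT g (l • v) (c * (l⁻¹) ^ q * l⁻¹) := by
  have : v = l⁻¹ • (l • v) := by rw [smul_smul, inv_mul_cancel₀ hl, one_smul]
  rw [this] at h
  exact isT_smul h

theorem isT_mul {g g' : SU n F q} {v : Fin n → F} {c c' : F} (hv : hermForm n F q v v = 0) (h : IsT g v c)
    (h' : IsT g' v c') : IsT (g * g') v (c + c') := by
  intro x
  rw [av_mul, h', av_add, av_smul, h, h v, hv, mul_zero, zero_smul, add_zero, add_assoc, ← add_smul]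
  congr 2
  ring

theorem isT_one {v : Fin n → F} : IsT (1 : SU n F q) v 0 := by
  intro x
  rw [av_one, zero_mul, zero_smul, add_zero]

theorem isT_pow {g : SU n F q} {v : Fin n → F} {c : F} (hv : hermForm n F q v v = 0) (h : IsT g v c) (a : ℕ) :
    IsT (g ^ a) v (a • c) := by
  induction a with
  | zero => rw [pow_zero, zero_smul]; exact isT_one
  | succ a ih =>
    rw [pow_succ, succ_nsmul]
    exact isT_mul hv ih h

theorem isT_unique {g g' : SU n F q} {v : Fin n → F} {c : F} (h : IsT g v c) (h' : IsT g' v c) : g = g' :=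
  av_ext fun x => by rw [h, h']

theorem const_of_isT (hF : Fintype.card F = q ^ 2) {g : SU n F q} {v : Fin n → F} {c : F} (hv0 : v ≠ 0)
    (hv : hermForm n F q v v = 0) (h : IsT g v c) : c ^ q + c = 0 := by
  have h2 : ∀ x y, (c ^ q + c) * (hermForm n F q x v * hermForm n F q v y) = 0 := by
    intro x y
    have h3 := hermForm_transvection hF v c hv x y
    rw [unitaryTransvection_mulVec, unitaryTransvection_mulVec, ← h, ← h, av_herm] at h3
    linear_combination -h3
  obtain ⟨x, hx⟩ : ∃ x, hermForm n F q x v ≠ 0 := by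
    by_contra hcon
    push Not at hcon
    exact hv0 (eq_zero_of_forall_left hF hcon)
  obtain ⟨y, hy⟩ : ∃ y, hermForm n F q v y ≠ 0 := by
    by_contra hcon
    push Not at hcon
    exact hv0 (eq_zero_of_forall_right hF hcon)
  exact (mul_eq_zero.1 (h2 x y)).resolve_right (mul_ne_zero hx hy)

theorem central_of_fix (hF : Fintype.card F = q ^ 2) (hn : 3 ≤ n) {g : SU n F q}
    (h : ∀ v, hermForm n F q v v = 0 → ∃ l : F, av g v = l • v) : g ∈ Subgroup.center (SU n F q) := by
  obtain ⟨D⟩ := exists_data n hF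
  obtain ⟨c, hc⟩ := H6.SUGenB.scalar_of_fix D.skew (by rw [Module.finrank_fin_fun]; omega) (g := emb n F q g) (by
    intro u hu
    obtain ⟨l, hl⟩ := h u ((iso_iff D u).1 hu)
    exact ⟨l, by rw [emb_apply]; exact hl⟩)
  have hc' : ∀ x, av g x = c • x := fun x => by rw [← hc, emb_apply]; rfl
  rw [Subgroup.mem_center_iff]
  intro k
  apply av_ext
  intro x
  rw [av_mul, av_mul, hc', hc', av_smul]

/-- the matching theorem -/
theorem psu_iso (hF : Fintype.card F = q ^ 2) (hn : 3 ≤ n) (h32 : ¬ (n = 3 ∧ q = 2))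
    {S : Type*} [Group S] [Finite S] {Ω : Type*} [MulAction S Ω] (N : ℕ) (w : ℕ → Fin n → F) (X : ℕ → Ω)
    (hw0 : ∀ k < N, w k ≠ 0) (hiso : ∀ k < N, hermForm n F q (w k) (w k) = 0)
    (hall : ∀ v, v ≠ 0 → hermForm n F q v v = 0 → ∃ k < N, ∃ l : F, v = l • w k)
    (hX : ∀ k < N, ∀ k' < N, X k = X k' → k = k')
    (m : ℕ) (hm : 0 < m) (s : ℕ → S) (c : ℕ → F) (ctr : ℕ → ℕ) (hctr : ∀ j < m, ctr j < N)
    (hc : ∀ j < m, (c j) ^ q + c j = 0)
    (π : ℕ → ℕ → ℕ) (hπ : ∀ j < m, ∀ k < N, π j k < N ∧ s j • X k = X (π j k) ∧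
      ∃ l : F, w k + (c j * hermForm n F q (w k) (w (ctr j))) • w (ctr j) = l • w (π j k))
    (par lab dep : ℕ → ℕ) (hpar : ∀ k < N, k = ctr 0 ∨ (par k < N ∧ lab k < m ∧ dep (par k) < dep k ∧ π (lab k) (par k) = k))
    (hc0 : ∀ c' : F, c' ^ q + c' = 0 → ∃ a : ℕ, c' = a • c 0)
    (hcard : Nat.card S ≤ Nat.card (PSU n F q)) : Nonempty (S ≃* PSU n F q) := by
  classical
  have hT : ∀ j : Fin m, ∃ g : SU n F q, IsT g (w (ctr j)) (c j) := fun j =>
    exists_T hF (hiso _ (hctr j j.2)) (hc j j.2)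
  choose t ht using hT
  have : Finite (S × SU n F q) := inferInstance
  let R : Subgroup (S × SU n F q) := Subgroup.closure (Set.range fun j : Fin m => (s j, t j))
  -- the invariant relation
  let Good : S × SU n F q → Prop := fun x => ∀ k < N, ∃ k' < N, x.1 • X k = X k' ∧ ∃ l : F, av x.2 (w k) = l • w k'
  have good_one : Good 1 := fun k hk => ⟨k, hk, one_smul _ _, 1, by
    show av (1 : SU n F q) (w k) = _
    rw [av_one, one_smul]⟩
  have good_mul : ∀ x y, Good x → Good y → Good (x * y) := by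
    intro x y hx hy k hk
    obtain ⟨k1, hk1, h1, l1, h1'⟩ := hy k hk
    obtain ⟨k2, hk2, h2, l2, h2'⟩ := hx k1 hk1
    refine ⟨k2, hk2, ?_, l1 * l2, ?_⟩
    · show (x.1 * y.1) • X k = X k2
      rw [mul_smul, h1, h2]
    · show av (x.2 * y.2) (w k) = _
      rw [av_mul, h1', av_smul, h2', smul_smul]
  have good_pow : ∀ x, Good x → ∀ a : ℕ, Good (x ^ a) := by
    intro x hx a
    induction a with
    | zero => rw [pow_zero]; exact good_one
    | succ a ih => rw [pow_succ]; exact good_mul _ _ ih hx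
  have good_inv : ∀ x, Good x → Good x⁻¹ := by
    intro x hx
    have h1 : x⁻¹ = x ^ (orderOf x - 1) := by
      rw [eq_comm, ← mul_eq_one_iff_eq_inv, ← pow_succ, Nat.sub_add_cancel (orderOf_pos x), pow_orderOf_eq_one]
    rw [h1]
    exact good_pow x hx _
  have good_gen : ∀ j : Fin m, Good (s j, t j) := by
    intro j k hk
    obtain ⟨h1, h2, l, h3⟩ := hπ j j.2 k hk
    refine ⟨π j k, h1, h2, l, ?_⟩
    show av (t j) (w k) = _
    rw [ht j, h3]
  have good_all : ∀ x ∈ R, Good x := by
    intro x hx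
    induction hx using Subgroup.closure_induction with
    | mem x hx => obtain ⟨j, rfl⟩ := hx; exact good_gen j
    | one => exact good_one
    | mul x y _ _ hx hy => exact good_mul x y hx hy
    | inv x _ hx => exact good_inv x hx
  -- the projection to the unitary group is surjective
  let B : Subgroup (SU n F q) := R.map (MonoidHom.snd S (SU n F q))
  have htB : ∀ j : Fin m, t j ∈ B := fun j => ⟨(s j, t j), Subgroup.subset_closure ⟨j, rfl⟩, rfl⟩
  -- transitivity
  have reach : ∀ d, ∀ k < N, dep k ≤ d → ∃ b ∈ B, ∃ l : F, av b (w (ctr 0)) = l • w k := by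
    intro d
    induction d with
    | zero =>
      intro k hk hd
      rcases hpar k hk with rfl | ⟨_, _, h3, _⟩
      · exact ⟨1, B.one_mem, 1, by rw [av_one, one_smul]⟩
      · omega
    | succ d ih =>
      intro k hk hd
      rcases hpar k hk with rfl | ⟨h1, h2, h3, h4⟩
      · exact ⟨1, B.one_mem, 1, by rw [av_one, one_smul]⟩
      · obtain ⟨b, hb, l, hl⟩ := ih (par k) h1 (by omega)
        obtain ⟨_, _, l', hl'⟩ := hπ (lab k) h2 (par k) h1
        refine ⟨t ⟨lab k, h2⟩ * b, B.mul_mem (htB _) hb, l * l', ?_⟩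
        rw [av_mul, hl, av_smul, ht ⟨lab k, h2⟩, hl', h4, smul_smul]
  have hBtop : B = ⊤ := by
    rw [eq_top_iff, ← closure_eq_top hF n hn h32, Subgroup.closure_le]
    rintro A ⟨v, cc, hv, hA⟩
    have hA' := isT_of_coe hA
    show A ∈ B
    by_cases hv0 : v = 0
    · have : A = 1 := av_ext fun x => by rw [hA' x, hv0, smul_zero, add_zero, av_one]
      rw [this]; exact B.one_mem
    obtain ⟨k, hk, l, rfl⟩ := hall v hv0 hv
    have hl : l ≠ 0 := by rintro rfl; rw [zero_smul] at hv0; exact hv0 rfl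
    have h1 := isT_smul hA'
    obtain ⟨b, hb, l', hl'⟩ := reach (dep k) k hk le_rfl
    have hl0 : l' ≠ 0 := by
      rintro rfl
      rw [zero_smul] at hl'
      have h2 : w (ctr 0) = av b⁻¹ (av b (w (ctr 0))) := (av_inv' b _).symm
      rw [hl'] at h2
      apply hw0 _ (hctr 0 hm)
      rw [h2]
      exact Matrix.mulVec_zero _
    have h2 := isT_smul' hl0 h1
    rw [← hl'] at h2
    have h3 := isT_conj (b := b⁻¹) h2
    rw [av_inv', inv_inv] at h3
    have h4 := const_of_isT hF (hw0 _ (hctr 0 hm)) (hiso _ (hctr 0 hm)) h3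
    obtain ⟨a, ha⟩ := hc0 _ h4
    rw [ha] at h3
    have h5 := isT_pow (hiso _ (hctr 0 hm)) (ht ⟨0, hm⟩) a
    have h6 := isT_unique h3 h5
    have h7 : A = b * (t ⟨0, hm⟩) ^ a * b⁻¹ := by
      rw [← h6]; group
    rw [h7]
    exact B.mul_mem (B.mul_mem hb (B.pow_mem (htB _) a)) (B.inv_mem hb)
  let f1 : R →* S := (MonoidHom.fst S (SU n F q)).comp R.subtype
  let f2 : R →* PSU n F q := (QuotientGroup.mk' (Subgroup.center (SU n F q))).comp ((MonoidHom.snd S (SU n F q)).comp R.subtype)
  refine iso_of_ker f1 f2 ?_ ?_ hcard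
  · intro y
    obtain ⟨g, rfl⟩ := QuotientGroup.mk'_surjective _ y
    have hg : g ∈ B := by rw [hBtop]; trivial
    obtain ⟨x, hx, rfl⟩ := hg
    exact ⟨⟨x, hx⟩, rfl⟩
  · rintro ⟨x, hx⟩ hk
    have h1 : x.1 = 1 := hk
    rw [MonoidHom.mem_ker]
    show (QuotientGroup.mk' (Subgroup.center (SU n F q))) x.2 = 1
    rw [← MonoidHom.mem_ker, QuotientGroup.ker_mk']
    refine central_of_fix hF hn ?_
    intro v hv
    by_cases hv0 : v = 0
    · refine ⟨1, ?_⟩
      rw [hv0, smul_zero]
      exact Matrix.mulVec_zero _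
    obtain ⟨k, hk, l, rfl⟩ := hall v hv0 hv
    obtain ⟨k', hk', h2, l', h3⟩ := good_all x hx k hk
    rw [h1, one_smul] at h2
    have := hX k hk k' hk' h2
    subst this
    refine ⟨l', ?_⟩
    rw [av_smul, h3, smul_smul, smul_smul, mul_comm]

end H86.UMatch
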